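import Cfsg.Statements.S0032
import Cfsg.Agent.L.Frob2

set_option autoImplicit false
open Cfsg

namespace Cfsg.Agent.S0032

open Cfsg.Agent
open scoped Pointwise commutatorElement

/-- If an automorphism of a finite group fixes only the identity and maps a normal subgroup N into itself, then the only cosets of N it fixes are those in N: a fixed coset xN forces x ∈ N. -/
theorem result {G : Type*} [Group G] [Finite G] (φ : G ≃* G)
    (hφ : MonoidHom.FixedPointFree (φ : G →* G)) (N : Subgroup G) [N.Normal] (hN : ∀ n ∈ N, φ n ∈ N)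
    (x : G) (hx : (φ x)⁻¹ * x ∈ N) : x ∈ N := by
    let ψ : N →* N := ((φ : G →* G).domRestrict N).codRestrict N fun n => hN n n.2
    have hψ : MonoidHom.FixedPointFree ψ := fun n hn => Subtype.ext (hφ n (congrArg Subtype.val hn))
    obtain ⟨n, hn⟩ := hψ.commutatorMap_surjective ⟨_, inv_mem hx⟩
    have h1 : (n : G) / φ n = ((φ x)⁻¹ * x)⁻¹ := congrArg Subtype.val hn
    have h2 : (n : G) = x⁻¹ := hφ.commutatorMap_injective (by
      simp only [MonoidHom.commutatorMap_apply]
      refine h1.trans ?_
      simp [div_eq_mul_inv])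
    simpa [h2] using inv_mem n.2

end Cfsg.Agent.S0032
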