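import Cfsg.Statements.S0033
import Cfsg.Agent.GS.Thomp

set_option autoImplicit false
open Cfsg

namespace Cfsg.Agent.S0033

open Cfsg.Agent.H1

/-- Thompson's Theorem on fixed-point-free automorphisms: a finite group with an automorphism of prime order fixing only the identity is nilpotent. -/
theorem result {G : Type*} [Group G] [Finite G] (φ : G ≃* G)
    (hφ : MonoidHom.FixedPointFree (φ : G →* G)) (p : ℕ) (hp : p.Prime) (hord : orderOf φ = p) :
    Group.IsNilpotent G := by
  open Subgroup Pointwise commutatorElement Cfsg.Agent.BG Cfsg.Agent.GS in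
  open Cfsg.Agent.H2 hiding card_lt_of_lt card_lt_of_ne_top isMulCommutative_of_le isPGroup_zpowers_iff mem_of_pow_mem_of_coprime inf_eq_bot_of_cop exists_maxElem_ge Sec in
  open Cfsg.Agent.H8 (Op Opp Fit SN) in
  open Cfsg.Agent.L (FPF) in focus
    have h1 : ♯(sr (MonoidHom.id (MulAut G)) (zpowers φ)) = p := by rw [card_sr, Nat.card_zpowers]; exact hord
    have h2 := thompson_nil (K := sl (MonoidHom.id (MulAut G)) ⊤) (h1 ▸ hp) (le_normalizer_sl_top _) (by
      rw [eq_bot_iff]
      rintro _ ⟨⟨n, -, rfl⟩, hn⟩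
      have := hφ n (inl_mem_centralizer_sr.1 hn φ (mem_zpowers φ))
      simp [this])
    exact isNilpotent_of_injective (slTopEquiv _).toMonoidHom (slTopEquiv (MonoidHom.id (MulAut G))).injective h2

end Cfsg.Agent.S0033
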