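import Cfsg.Statements.S3779
import Cfsg.Agent.C3.LI3
import Cfsg.Agent.S0032
import Cfsg.Agent.S0033

set_option autoImplicit false
open Cfsg

namespace Cfsg.Agent.S3779

/-- Let G be a finite group with an automorphism of prime order p fixing only the identity. Then G is nilpotent; if p = 2 then G is abelian, if p = 3 then G has class at most 2, and in general the class of G is at most ξ = 1 + (p−1) + (p−1)² + ⋯ + (p−1)^(n−1) with n = 2^(p−1) − 1 (the Higman–Kreknin–Kostrikin bound). -/
theorem result {G : Type*} [Group G] [Finite G] {p : ℕ} (hp : p.Prime) (α : MulAut G) (hα : orderOf α = p) (hfpf : ∀ g : G, α g = g → g = 1) : (p = 2 → (⊤ : Subgroup G).lowerCentralSeries 1 = ⊥) ∧ (p = 3 → (⊤ : Subgroup G).lowerCentralSeries 2 = ⊥) ∧ (⊤ : Subgroup G).lowerCentralSeries (Finset.sum (Finset.range (2 ^ (p - 1) - 1)) (fun i => (p - 1) ^ i)) = ⊥ := by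
  classical
  have := Fact.mk hp
  have := Fintype.ofFinite G
  have h1 : α ^ p = 1 := hα ▸ pow_orderOf_eq_one α
  have h2 : ¬ p ∣ Nat.card G := fun h => by
    obtain ⟨b, h3, h4⟩ := Equiv.Perm.exists_fixed_point_of_prime' (p := p) (n := 1)
      (σ := MulAut.toPerm G α) (by rwa [← Nat.card_eq_fintype_card])
      (by rw [pow_one, ← map_pow, h1, map_one]) (a := 1) (map_one α)
    exact h4 (hfpf b h3)
  obtain ⟨m, hm⟩ := Subgroup.nilpotent_iff_lowerCentralSeries.1 (S0033.result α hfpf p hp hα)
  have key : ∀ h, (∀ (K : Type _) [LieRing K] (U : ZMod p → AddSubgroup K), C3.LI.br U U ≤ U →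
      U 0 = ⊥ → C3.LI.C U h = ⊥) → (⊤ : Subgroup G).lowerCentralSeries h = ⊥ := by
    intro h hk
    have h3 : ∀ k, C3.LI.Γ G h ≤ C3.LI.Γ G (h + k) := by
      intro k
      induction k with
      | zero => exact le_rfl
      | succ k ih =>
        refine ih.trans fun x hx => ?_
        have h4 := C3.LI.pow_mem_Γ hp hk α h1 (N := 1) (fun n x _ h5 => by
          simpa using S0032.result α hfpf (C3.LI.Γ G (n + 1)) (fun _ => C3.LI.Γ_aut α) x⁻¹
            (by simpa using h5)) (Nat.le_add_right h k) x hx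
        have h5 : (1 * p ^ (h + k + 2)).Coprime (orderOf x) := by
          rw [one_mul]
          exact Nat.Coprime.pow_left _ ((hp.coprime_iff_not_dvd.2 h2).coprime_dvd_right
            (orderOf_dvd_natCard x))
        obtain ⟨c, hc⟩ := exists_pow_eq_self_of_coprime h5
        exact hc ▸ Subgroup.pow_mem _ h4 c
    exact eq_bot_iff.2 ((h3 m).trans ((Subgroup.lowerCentralSeries_antitone _
      (Nat.le_add_left m h)).trans hm.le))
  have h3 := key _ fun K _ U h h0 => C3.LI.hkk hp h h0
  refine ⟨?_, ?_, h3⟩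
  · rintro rfl; simpa using h3
  · rintro rfl; exact key _ fun K _ U h h0 => C3.LI.three h h0

end Cfsg.Agent.S3779
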