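import Cfsg.Statements.S4469
import Cfsg.Agent.C3.Blich

set_option autoImplicit false
open Cfsg

namespace Cfsg.Agent.S4469

open H3 C3 Subgroup Finset
open scoped commutatorElement

/-- The classical bound for finite linear groups, in explicit form. Let the finite group G have a faithful character of degree n. Then G has an abelian normal subgroup whose index is at most n! · 12^(n·(π(n+1)+1)), π(k) denoting the number of primes not exceeding k. -/
theorem result {G : Type*} [Group G] [Finite G] (χ : G → ℂ) (hχ : Cfsg.IsCharacter G χ) (hfaith : ∀ g : G, χ g = χ 1 → g = 1) (n : ℕ) (hn : Cfsg.charDegree χ = n) : ∃ A : Subgroup G, A.Normal ∧ (∀ x ∈ A, ∀ y ∈ A, x * y = y * x) ∧ A.index ≤ Nat.factorial n * 12 ^ (n * (Nat.primeCounting (n + 1) + 1)) := by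
  subst hn
  obtain ⟨H, a, b⟩ := blich_aux _ G rfl hχ hfaith
  obtain ⟨A, c, d, e⟩ := jordan_aux hχ hfaith
  refine ⟨A, c, d, ?_⟩
  set n := charDegree χ
  have f : ∀ m : ℕ, m ≠ 0 → (∀ q : ℕ, q.Prime → q ∣ m → q < n + 2) →
      ∏ p ∈ (n + 2).primesBelow, p ^ m.factorization p = m := fun m i j =>
    (Finsupp.prod_of_support_subset _ (fun p k => Nat.mem_primesBelow.2 ⟨j p (Nat.prime_of_mem_primeFactors k)
      (Nat.dvd_of_mem_primeFactors k), Nat.prime_of_mem_primeFactors k⟩) (· ^ ·) fun _ _ => pow_zero _).symm.trans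
      (Nat.factorization_prod_pow_eq_self i)
  rw [← relIndex_mul_index (le_sup_right : A ≤ H ⊔ A), relIndex_sup_right, mul_add_one, pow_add, ← mul_assoc,
    mul_comm]
  refine Nat.mul_le_mul ?_ (e H (comm_of_primes hχ hfaith fun q c d => Nat.lt_of_succ_lt (a q c d)))
  rw [← f _ (H ⊔ A).index_ne_zero_of_finite fun q i j => Nat.lt_succ_of_le (not_lt.1 fun k => b q i k
    (j.trans (index_dvd_of_le le_sup_left))), ← f _ n.factorial_ne_zero fun q i j => by
      have := i.dvd_factorial.1 j; omega, pow_mul, Nat.primeCounting, ← Nat.primesBelow_card_eq_primeCounting',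
    ← prod_const, ← prod_mul_distrib]
  refine prod_le_prod' fun p i => ?_
  have hp := Fact.mk (Nat.mem_primesBelow.1 i).2
  obtain ⟨P⟩ := (inferInstance : Nonempty (Sylow p G))
  have := P.2.isNilpotent
  obtain ⟨B, -, j, k⟩ := exists_abelian_dvd_factorial (hχ.res P)
  obtain ⟨t, l⟩ := P.2.index B
  have o := e (B.map (P : Subgroup G).subtype) (by
    rintro _ ⟨x, r, rfl⟩ _ ⟨y, s, rfl⟩
    exact commutatorElement_eq_one_iff_mul_comm.1 (hfaith _ (apply_of_mem_charKer (χ := fun x : P => χ x)
      (k (commutator_mem_commutator r s)))))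
  have r : p ^ (H ⊔ A).index.factorization p ∣ A.relIndex P := by
    refine ((hp.out.coprime_iff_not_dvd.2 fun r => P.not_dvd_index (r.trans (index_dvd_of_le
      (le_sup_left : _ ≤ (P : Subgroup G) ⊔ A)))).pow_left _).dvd_of_dvd_mul_right ?_
    rw [← relIndex_sup_right, relIndex_mul_index le_sup_right]
    exact (Nat.ordProj_dvd _ p).trans (index_dvd_of_le le_sup_right)
  refine (Nat.le_of_dvd (Nat.pos_of_ne_zero (A.subgroupOf P).index_ne_zero_of_finite) r).trans ?_
  refine (relIndex_le_of_le_left (inf_le_left : A ⊓ B.map (P : Subgroup G).subtype ≤ A)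
    (Subgroup.index_ne_zero_of_finite)).trans ?_
  rw [← relIndex_mul_relIndex _ _ _ inf_le_right (map_subtype_le B), inf_relIndex_right, mul_comm]
  refine Nat.mul_le_mul ?_ o
  rw [relIndex, ← comap_subtype, comap_map_eq_self_of_injective (subtype_injective _), l]
  exact Nat.pow_le_pow_right hp.out.pos ((hp.out.pow_dvd_iff_le_factorization n.factorial_ne_zero).1 (l ▸ j))

end Cfsg.Agent.S4469
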