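import Cfsg.Statements.S0379
import Cfsg.Agent.H6.SimM1
import Cfsg.Agent.H6.M24d

set_option autoImplicit false
open Cfsg

namespace Cfsg.Agent.S0379

open Cfsg.Agent
open scoped Pointwise commutatorElement

/-- A two-point stabiliser in the group of the length-24 code is simple. -/
theorem result (p q : Cfsg.GolayPt) (hpq : p ≠ q) : IsSimpleGroup ↥(MulAction.stabilizer Cfsg.M24 p ⊓ MulAction.stabilizer Cfsg.M24 q) := by
  rw [← H6.stab_prod]
  exact H6.simple_stab_of_mem_orbit (H6.orbit_pair hpq) (H6.stab_prod (G := M24) (H6.pt 23) (H6.pt 0) ▸ H6.simple_congr H6.eM22.symm H6.SMat.simple22)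

end Cfsg.Agent.S0379
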