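import Cfsg.Statements.S0414
import Cfsg.Agent.GS.St6
import Cfsg.Agent.S0379
import Cfsg.Agent.S0378

set_option autoImplicit false
open Cfsg

namespace Cfsg.Agent.S0414

/-- Aut of an S(3, 6, 22) has order 887040, is 3-transitive, and contains a simple subgroup of index 2. -/
theorem result {α : Type*} [Fintype α] [DecidableEq α] (hα : Fintype.card α = 22) {B : Set (Finset α)} (hB : Cfsg.IsSteinerSystem 3 6 B) : Nat.card (Cfsg.setSystemAut B) = 887040 ∧ MulAction.IsMultiplyPretransitive (Cfsg.setSystemAut B) α 3 ∧ ∃ H : Subgroup (Cfsg.setSystemAut B), H.index = 2 ∧ Cfsg.IsM22 H := by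
  open Finset Pointwise Cfsg.Agent.St Cfsg.Agent.H6 in focus
    have hR : ({pt 0, pt 23} : Finset GolayPt).card = 2 := by decide
    have hS := steiner_c (t := 3) (R := {pt 0, pt 23}) (by omega)
    obtain ⟨φ1⟩ := aut_pair hR
    obtain ⟨φ2⟩ := aut_equiv_of_iso (iso_of_models (model22 (by rw [card_sub, card_compl, card_golayPt, hR]) hS) (model22 hα hB))
    let φ := φ1.trans φ2
    have hc : Nat.card (setSystemAut B) = 887040 := by
      rw [← Nat.card_congr φ.toEquiv, card_stab_of_mem_orbit (orbit_prX hR), card_Pr]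
    have hle : MulAction.stabilizer M24 (pt 0) ⊓ MulAction.stabilizer M24 (pt 23) ≤ MulAction.stabilizer M24 ({pt 0, pt 23} : Finset GolayPt) := by
      rintro g ⟨h1, h2⟩
      rw [MulAction.mem_stabilizer_iff, smul_finset_insert, smul_finset_singleton, h1, h2]
    let ψ := ((Subgroup.subgroupOfEquivOfLe hle).symm.trans (φ.subgroupMap _)).symm
    have := S0379.result (pt 0) (pt 23) (by decide)
    have hc2 := (Nat.card_congr ψ.toEquiv).trans (S0378.result (pt 0) (pt 23) (by decide))
    refine ⟨hc, mpt_of_model fun x hx => model22' hα hB hx, _, ?_, ψ.isSimpleGroup, hc2⟩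
    have h3 := Subgroup.card_mul_index (((MulAction.stabilizer M24 (pt 0) ⊓ MulAction.stabilizer M24 (pt 23)).subgroupOf _).map φ.toMonoidHom)
    rw [hc] at h3
    erw [hc2] at h3
    exact Nat.eq_of_mul_eq_mul_left (by norm_num : 0 < 443520) h3

end Cfsg.Agent.S0414
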