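import Cfsg.Statements.S0428
import Cfsg.Agent.GS.St1

set_option autoImplicit false
open Cfsg

namespace Cfsg.Agent.S0428

section
open Finset Pointwise Cfsg.Agent.St Cfsg.Agent.H6

theorem ncard_sub {α : Type*} {B : Set (Finset α)} (P : Finset α → Prop) :
    {d : B | P d}.ncard = {d | d ∈ B ∧ P d}.ncard := by
  rw [← Set.ncard_image_of_injective _ Subtype.val_injective]
  congr 1; ext d; simp only [Set.mem_image, Set.mem_ofPred_eq]
  exact ⟨fun ⟨a, h, e⟩ => e ▸ ⟨a.2, h⟩, fun h => ⟨⟨d, h.1⟩, h.2, rfl⟩⟩

open Classical in
theorem card_split {α β : Type*} [Fintype α] [Fintype β] (S : Set (Option (α ⊕ β))) [Fintype S] {p : Prop} {P : Finset α} {Q : β → Prop}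
    (h0 : none ∈ S ↔ p) (h1 : ∀ a, some (Sum.inl a) ∈ S ↔ a ∈ P) (h2 : ∀ a, some (Sum.inr a) ∈ S ↔ Q a) :
    Fintype.card S = (if p then 1 else 0) + P.card + {a | Q a}.ncard := by
  rw [← Nat.card_eq_fintype_card, Nat.card_coe_set_eq, show S = {v | v ∈ S} from rfl, ncard_filter, ncard_filter, card_filter, card_filter,
    Fintype.sum_option, Fintype.sum_sum_type, add_assoc]
  simp only [h0, h1, h2]
  congr 2
  rw [← card_filter]; congr 1; ext; simp

end

/-- The point-block graph of an S(3, 6, 22) is strongly regular with parameters (100, 22, 0, 6). -/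
theorem result {α : Type*} [Fintype α] (hα : Fintype.card α = 22) {B : Set (Finset α)} (hB : Cfsg.IsSteinerSystem 3 6 B) [Fintype B] [DecidableRel (Cfsg.pointBlockGraph B).Adj] : (Cfsg.pointBlockGraph B).IsSRGWith 100 22 0 6 := by
  open Finset Pointwise Cfsg.Agent.St Cfsg.Agent.H6 in focus
    classical
    have ne0 : ∀ b : B, ¬ Disjoint (b : Finset α) b := by
      intro b h
      have := hB.1 b b.2
      rw [disjoint_self, bot_eq_empty] at h
      rw [h] at this; simp at this
    have a1 : ¬ (pointBlockGraph B).Adj none none := by simp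
    have a2 : ∀ a, (pointBlockGraph B).Adj none (some (Sum.inl a)) := by simp [pointBlockGraph, pointBlockRel]
    have a2' : ∀ a, (pointBlockGraph B).Adj (some (Sum.inl a)) none := fun a => (a2 a).symm
    have a3 : ∀ a, ¬ (pointBlockGraph B).Adj none (some (Sum.inr a)) := by simp [pointBlockGraph, pointBlockRel]
    have a3' : ∀ a, ¬ (pointBlockGraph B).Adj (some (Sum.inr a)) none := fun a h => a3 a h.symm
    have a4 : ∀ a b, ¬ (pointBlockGraph B).Adj (some (Sum.inl a)) (some (Sum.inl b)) := by simp [pointBlockGraph, pointBlockRel]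
    have a5 : ∀ a b, (pointBlockGraph B).Adj (some (Sum.inl a)) (some (Sum.inr b)) ↔ a ∈ (b : Finset α) := by simp [pointBlockGraph, pointBlockRel]
    have a5' : ∀ a b, (pointBlockGraph B).Adj (some (Sum.inr b)) (some (Sum.inl a)) ↔ a ∈ (b : Finset α) := fun a b => by
      rw [SimpleGraph.adj_comm, a5]
    have a6 : ∀ a b, (pointBlockGraph B).Adj (some (Sum.inr a)) (some (Sum.inr b)) ↔ Disjoint (a : Finset α) b := by
      intro a b
      simp only [pointBlockGraph, pointBlockRel, SimpleGraph.fromRel_adj, disjoint_comm (a := (b : Finset α)), or_self, and_iff_right_iff_imp]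
      intro h e
      obtain rfl : a = b := by simpa using e
      exact ne0 a h
    have nb : Fintype.card B = 77 := by
      rw [← Nat.card_eq_fintype_card, Nat.card_coe_set_eq, ncard_blk hB hα lam22]; rfl
    have n1 : ∀ a : α, {b : B | a ∈ (b : Finset α)}.ncard = 21 := by
      intro a
      have := NB_lam hB hα lam22 (I := {a}) (by simp)
      rw [ncard_sub (fun b => a ∈ b)]
      simpa [NB, l22] using this
    have n2 : ∀ a a' : α, a ≠ a' → {b : B | a ∈ (b : Finset α) ∧ a' ∈ (b : Finset α)}.ncard = 5 := by
      intro a a' h
      have := NB_lam hB hα lam22 (I := {a, a'}) (by rw [card_pair h]; omega)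
      rw [card_pair h] at this
      rw [ncard_sub (fun b => a ∈ b ∧ a' ∈ b)]
      simpa [NB, insert_subset_iff, l22] using this
    have cpb : ∀ (a : α) (b : B), Fintype.card ((pointBlockGraph B).commonNeighbors (some (Sum.inl a)) (some (Sum.inr b))) = if a ∈ (b : Finset α) then 0 else 6 := by
      intro a b
      rw [card_split _ (p := False) (P := ∅) (Q := fun c : B => a ∈ (c : Finset α) ∧ Disjoint (b : Finset α) c)
        (by simp [SimpleGraph.mem_commonNeighbors, a3']) (by simp [SimpleGraph.mem_commonNeighbors, a4]) (by simp [SimpleGraph.mem_commonNeighbors, a5, a6])]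
      rw [ncard_sub (fun c => a ∈ c ∧ Disjoint (b : Finset α) c)]
      rw [if_neg id]
      split_ifs with h
      · simp only [card_empty, zero_add, Set.ncard_eq_zero (Set.toFinite _)]
        ext c; simp only [Set.mem_ofPred_eq, Set.mem_empty_iff_false, iff_false, not_and]
        intro _ h1 h2; exact disjoint_left.1 h2 h h1
      · rw [pdisj22 hα hB b.2 h]; rfl
    have cbb : ∀ b c : B, b ≠ c → Fintype.card ((pointBlockGraph B).commonNeighbors (some (Sum.inr b)) (some (Sum.inr c))) = 3 * ((b : Finset α) ∩ c).card := by
      intro b c h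
      rw [card_split _ (p := False) (P := (b : Finset α) ∩ c) (Q := fun d : B => Disjoint (b : Finset α) d ∧ Disjoint (c : Finset α) d)
        (by simp [SimpleGraph.mem_commonNeighbors, a3']) (by simp [SimpleGraph.mem_commonNeighbors, a5']) (by simp [SimpleGraph.mem_commonNeighbors, a6])]
      rw [ncard_sub (fun d => Disjoint (b : Finset α) d ∧ Disjoint (c : Finset α) d), common22 hα hB b.2 c.2 (fun e => h (Subtype.ext e))]
      simp; omega
    have c0p : ∀ a : α, Fintype.card ((pointBlockGraph B).commonNeighbors none (some (Sum.inl a))) = 0 := by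
      intro a
      rw [card_split _ (p := False) (P := ∅) (Q := fun _ : B => False)
        (by simp [SimpleGraph.mem_commonNeighbors]) (by simp [SimpleGraph.mem_commonNeighbors, a4]) (by simp [SimpleGraph.mem_commonNeighbors, a3])]
      simp
    have c0b : ∀ b : B, Fintype.card ((pointBlockGraph B).commonNeighbors none (some (Sum.inr b))) = 6 := by
      intro b
      rw [card_split _ (p := False) (P := b) (Q := fun _ : B => False)
        (by simp [SimpleGraph.mem_commonNeighbors]) (by simp [SimpleGraph.mem_commonNeighbors, a2, a5']) (by simp [SimpleGraph.mem_commonNeighbors, a3])]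
      simp [hB.1 b b.2]
    have cpp : ∀ a a' : α, a ≠ a' → Fintype.card ((pointBlockGraph B).commonNeighbors (some (Sum.inl a)) (some (Sum.inl a'))) = 6 := by
      intro a a' h
      rw [card_split _ (p := True) (P := ∅) (Q := fun b : B => a ∈ (b : Finset α) ∧ a' ∈ (b : Finset α))
        (by simp [SimpleGraph.mem_commonNeighbors, a2']) (by simp [SimpleGraph.mem_commonNeighbors, a4]) (by simp [SimpleGraph.mem_commonNeighbors, a5]), n2 a a' h]
      simp
    have sw : ∀ v w, Fintype.card ((pointBlockGraph B).commonNeighbors v w) = Fintype.card ((pointBlockGraph B).commonNeighbors w v) := by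
      intro v w
      simp only [← Nat.card_eq_fintype_card]
      rw [SimpleGraph.commonNeighbors_symm]
    refine ⟨?_, fun v => ?_, fun v w h => ?_, fun v w h h' => ?_⟩
    · rw [Fintype.card_option, Fintype.card_sum, hα]
      convert congrArg (fun x => 22 + x + 1) nb
    · rw [← SimpleGraph.card_neighborSet_eq_degree]
      rcases v with _ | a | b
      · rw [card_split _ (p := False) (P := univ) (Q := fun _ : B => False) (by simp) (by simp [a2]) (by simp [a3])]
        simp [hα]
      · rw [card_split _ (p := True) (P := ∅) (Q := fun b : B => a ∈ (b : Finset α)) (by simp [a2']) (by simp [a4]) (by simp [a5]), n1]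
        simp
      · rw [card_split _ (p := False) (P := b) (Q := fun c : B => Disjoint (b : Finset α) c) (by simp [a3']) (by simp [a5']) (by simp [a6]),
          ncard_sub (fun c => Disjoint (b : Finset α) c), disj22 hα hB b.2]
        simp [hB.1 b b.2]
    · rcases v with _ | a | b <;> rcases w with _ | a' | b'
      · exact absurd h a1
      · convert c0p a'
      · exact absurd h (a3 _)
      · rw [sw]; convert c0p a
      · exact absurd h (a4 _ _)
      · have := cpb a b'; rw [if_pos ((a5 _ _).1 h)] at this; convert this
      · exact absurd h (a3' _)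
      · have := cpb a' b; rw [if_pos ((a5' _ _).1 h), sw] at this; convert this
      · have := cbb b b' (fun e => h.ne (by rw [e]))
        rw [disjoint_iff_inter_eq_empty.1 ((a6 _ _).1 h), card_empty, mul_zero] at this; convert this
    · rcases v with _ | a | b <;> rcases w with _ | a' | b'
      · exact absurd rfl h
      · exact absurd (a2 _) h'
      · convert c0b b'
      · exact absurd (a2' _) h'
      · convert cpp a a' (fun e => h (by rw [e]))
      · have := cpb a b'; rw [if_neg (fun e => h' ((a5 _ _).2 e))] at this; convert this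
      · rw [sw]; convert c0b b
      · have := cpb a' b; rw [if_neg (fun e => h' ((a5' _ _).2 e)), sw] at this; convert this
      · have hne : b ≠ b' := fun e => h (by rw [e])
        have := cbb b b' hne
        rcases inter22 hα hB b.2 b'.2 (fun e => hne (Subtype.ext e)) with h1 | h1
        · exact absurd ((a6 _ _).2 (disjoint_iff_inter_eq_empty.2 (card_eq_zero.1 h1))) h'
        · rw [h1] at this; convert this

end Cfsg.Agent.S0428
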