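import Cfsg.Statements.S3377
import Cfsg.Agent.GS.Pres5

set_option autoImplicit false
open Cfsg

namespace Cfsg.Agent.S3377

open Cfsg.Agent.H1

/-- The alternating group of degree 5 has the presentation ⟨x, y | x³ = 1, y⁵ = 1, (xy)² = 1⟩: the group so presented is isomorphic to Alt(5). -/
theorem result :
    Nonempty (PresentedGroup ({FreeGroup.of (0 : Fin 2) ^ 3, FreeGroup.of (1 : Fin 2) ^ 5,
        (FreeGroup.of (0 : Fin 2) * FreeGroup.of 1) ^ 2} : Set (FreeGroup (Fin 2))) ≃* alternatingGroup (Fin 5)) := by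
  open Subgroup Pointwise commutatorElement Cfsg.Agent.BG Cfsg.Agent.GS in
  open Cfsg.Agent.H2 hiding card_lt_of_lt card_lt_of_ne_top isMulCommutative_of_le isPGroup_zpowers_iff mem_of_pow_mem_of_coprime inf_eq_bot_of_cop exists_maxElem_ge Sec in
  open Cfsg.Agent.H8 (Op Opp Fit SN) in
  open Cfsg.Agent.L (FPF) in focus
    set rels : Set (FreeGroup (Fin 2)) := {FreeGroup.of (0 : Fin 2) ^ 3, FreeGroup.of (1 : Fin 2) ^ 5,
            (FreeGroup.of (0 : Fin 2) * FreeGroup.of 1) ^ 2} with hrels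
    have hr : ∀ r ∈ rels, PresentedGroup.mk rels r = 1 := fun r hr => PresentedGroup.one_of_mem hr
    obtain ⟨hf, hc⟩ := card_le_60 (G := PresentedGroup rels) (x := PresentedGroup.of 0) (y := PresentedGroup.of 1)
      (by simpa [PresentedGroup.of] using hr _ (Or.inl rfl)) (by simpa [PresentedGroup.of] using hr _ (Or.inr (Or.inl rfl))) (by simpa [PresentedGroup.of] using hr _ (Or.inr (Or.inr rfl)))
      (by rw [← PresentedGroup.closure_range_of]; congr 1; ext x; simp [eq_comm])
    obtain ⟨a, b, a1, a3, b1, b5, c1, c2⟩ : ∃ a b : alternatingGroup (Fin 5), a ≠ 1 ∧ a ^ 3 = 1 ∧ b ≠ 1 ∧ b ^ 5 = 1 ∧ a * b ≠ 1 ∧ (a * b) ^ 2 = 1 :=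
      ⟨⟨c[0, 3, 1], Equiv.Perm.mem_alternatingGroup.2 (by decide)⟩, ⟨c[0, 1, 2, 3, 4], Equiv.Perm.mem_alternatingGroup.2 (by decide)⟩, by decide, by decide, by decide, by decide +kernel, by decide, by decide⟩
    let f : PresentedGroup rels →* alternatingGroup (Fin 5) := PresentedGroup.toGroup (f := ![a, b]) (by
      rintro r (rfl | rfl | rfl) <;> simp [*])
    have fa : f (PresentedGroup.of 0) = a := PresentedGroup.toGroup.of _
    have fb : f (PresentedGroup.of 1) = b := PresentedGroup.toGroup.of _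
    have ha : a ∈ f.range := ⟨_, fa⟩
    have hb : b ∈ f.range := ⟨_, fb⟩
    have h3 := orderOf_eq_prime a3 a1 ▸ f.range.orderOf_dvd_natCard ha
    have h5 := orderOf_eq_prime b5 b1 ▸ f.range.orderOf_dvd_natCard hb
    have h2 := orderOf_eq_prime c2 c1 ▸ f.range.orderOf_dvd_natCard (mul_mem ha hb)
    have e := f.range.card_mul_index
    rw [card_A5] at e
    have hs : f.range = ⊤ := by
      obtain ⟨k, hk⟩ : 30 ∣ Nat.card f.range := by omega
      by_contra hne
      have h1 := one_lt_index_of_ne_top hne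
      have hk0 : k ≠ 0 := by rintro rfl; exact Nat.card_pos.ne' hk
      have h4 : f.range.index = 2 := by rw [hk] at e; rcases k with _ | k; exact absurd rfl hk0; nlinarith
      rcases (normal_of_index_eq_two h4).eq_bot_or_eq_top with h | h
      · exact a1 (h.le ha)
      · exact hne h
    exact ⟨MulEquiv.ofBijective f ((MonoidHom.range_eq_top.1 hs).bijective_of_nat_card_le (by rw [card_A5]; exact hc))⟩

end Cfsg.Agent.S3377
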