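import Cfsg.Statements.S0539
import Cfsg.Agent.H1.Misc
import Cfsg.Agent.H8.Subnormal

set_option autoImplicit false
open Pointwise
open Cfsg

namespace Cfsg.Agent.S0539

open Cfsg.Agent.H1

open Pointwise in
theorem aux {G : Type*} [Group G] [Finite G] (L : Subgroup G) (S S₀ : Set (Subgroup G)) (hS : ∀ U ∈ S, H8.SN L U)
    (hconj : ∀ U ∈ S, ∀ g ∈ L, MulAut.conj g • U ∈ S) (h₀ : S₀ ⊂ S) :
    ∃ X ∈ S, X ∉ S₀ ∧ X ≤ Subgroup.normalizer ((sSup S₀ : Subgroup G) : Set G) := by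
  induction L using WellFoundedLT.induction generalizing S with
  | ind L ih =>
  have hJ : H8.SN L (sSup S₀) := H8.SN.sSup fun U hU => hS U (h₀.1 hU)
  obtain ⟨X, hX, hX'⟩ := Set.exists_of_ssubset h₀
  by_cases e : sSup S₀ = L
  · exact ⟨X, hX, hX', (hS X hX).le.trans (e ▸ Subgroup.le_normalizer)⟩
  obtain ⟨N, h1, h2, h3⟩ := hJ.exists_normal e
  have h4 : S₀ ⊆ {U ∈ S | U ≤ N} := fun U hU => ⟨h₀.1 hU, (le_sSup hU).trans h1⟩
  have h5 : ∀ U ∈ {U ∈ S | U ≤ N}, ∀ g ∈ L, MulAut.conj g • U ∈ {U ∈ S | U ≤ N} := fun U hU g hg =>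
    ⟨hconj U hU.1 g hg, (conj_smul_mono g hU.2).trans (conj_smul_eq_self_iff.2 (h3 hg)).le⟩
  rcases h4.eq_or_ssubset with e' | e'
  · refine ⟨X, hX, hX', (hS X hX).le.trans fun g hg => mem_normalizer_of_conj_mem (conj_smul_le_iff.1 ?_)⟩
    rw [conj_smul_le_iff_le, sSup_le_iff]
    intro U hU
    rw [← conj_smul_le_iff_le]
    exact le_sSup (e' ▸ h5 U (e' ▸ hU) g hg)
  · obtain ⟨Y, hY, h⟩ := ih N h2 {U ∈ S | U ≤ N} (fun U hU => (hS U hU.1).of_le hU.2 h2.le)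
      (fun U hU g hg => h5 U hU g (h2.le hg)) e'
    exact ⟨Y, hY.1, h⟩

/-- Let S be a family of subnormal subgroups of a finite group that is closed under conjugation, and S₀ a proper subfamily. Then some member of S not in S₀ normalizes the join of S₀. -/
theorem result {G : Type*} [Group G] [Finite G] (S S₀ : Set (Subgroup G)) (hS : ∀ U ∈ S, U.IsSubnormal) (hconj : ∀ U ∈ S, ∀ g : G, MulAut.conj g • U ∈ S) (h₀ : S₀ ⊂ S) : ∃ X ∈ S, X ∉ S₀ ∧ X ≤ Subgroup.normalizer ((sSup S₀ : Subgroup G) : Set G) := by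
  exact aux ⊤ S S₀ (fun U hU => H8.SN.of_isSubnormal (hS U hU)) (fun U hU g _ => hconj U hU g) h₀

end Cfsg.Agent.S0539
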