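import Cfsg.Statements.S0540
import Cfsg.Agent.H1.Misc
import Cfsg.Agent.H8.Subnormal
import Cfsg.Agent.S0539

set_option autoImplicit false
open Pointwise
open Cfsg

namespace Cfsg.Agent.S0540

open Cfsg.Agent.H1

/-- A uniqueness lemma of zipper type. Let A be a subgroup of a finite group G and U a nonempty family of subgroups. For V in U write S(V) for the set of conjugates of A that lie in V and are subnormal in V. Assume: A belongs to S(V) for every V in U; a member of some S(W) that lies in V belongs to S(V); and for all V, W in U the normalizer of the join of S(V) ∩ S(W) lies in some member of U. Then U has a greatest element. -/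
theorem result {G : Type*} [Group G] [Finite G] (A : Subgroup G) (U : Set (Subgroup G)) (hU : U.Nonempty) (S : Subgroup G → Set (Subgroup G)) (hS : ∀ V B : Subgroup G, B ∈ S V ↔ (∃ g : G, B = MulAut.conj g • A) ∧ B ≤ V ∧ (B.subgroupOf V).IsSubnormal) (h1 : ∀ V ∈ U, A ∈ S V) (h2 : ∀ V ∈ U, ∀ W ∈ U, ∀ B ∈ S W, B ≤ V → B ∈ S V) (h3 : ∀ V ∈ U, ∀ W ∈ U, ∃ X ∈ U, Subgroup.normalizer ((sSup (S V ∩ S W) : Subgroup G) : Set G) ≤ X) : ∃ M ∈ U, ∀ V ∈ U, V ≤ M := by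
  have hSN : ∀ V, ∀ B ∈ S V, H8.SN V B := fun V B hB => H8.sn_iff.2 ((hS V B).1 hB).2
  have hcj : ∀ V, ∀ B ∈ S V, ∀ g ∈ V, MulAut.conj g • B ∈ S V := fun V B hB g hg => by
    obtain ⟨⟨x, hx⟩, -⟩ := (hS V B).1 hB
    refine (hS V _).2 ⟨⟨g * x, by rw [hx, conj_smul_conj_smul]⟩, H8.sn_iff.1 ?_⟩
    exact (hSN V B hB).cj_of_mem (Subgroup.le_normalizer hg)
  have hN : ∀ V, V ≤ Subgroup.normalizer ((sSup (S V) : Subgroup G) : Set G) := fun V g hg =>
    mem_normalizer_of_conj_mem (conj_smul_le_iff.1 (by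
      rw [conj_smul_le_iff_le, sSup_le_iff]
      intro U hU
      rw [← conj_smul_le_iff_le]
      exact le_sSup (hcj V U hU g hg)))
  have hmax : ∀ V ∈ U, ∃ M, V ≤ M ∧ M ∈ U ∧ ∀ K ∈ U, M ≤ K → K = M := fun V hV => exists_maximal_ge (· ∈ U) hV
  have key : ∀ T : Set (Subgroup G), ∀ M₁ M₂, M₁ ∈ U → (∀ K ∈ U, M₁ ≤ K → K = M₁) → M₂ ∈ U → (∀ K ∈ U, M₂ ≤ K → K = M₂) →
      T = S M₁ ∩ S M₂ → M₁ = M₂ := by
    intro T
    induction T using WellFoundedGT.induction with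
    | ind T ih =>
    intro M₁ M₂ h11 h12 h21 h22 hT
    obtain ⟨X, hX, hle⟩ := h3 M₁ h11 M₂ h21
    obtain ⟨M₃, hXM, h31, h32⟩ := hmax X hX
    rw [← hT] at hle
    have k : ∀ M, M ∈ U → (∀ K ∈ U, M ≤ K → K = M) → T ⊆ S M → M = M₃ := fun M hM1 hM2 hTM => by
      rcases hTM.eq_or_ssubset with e | e
      · exact (hM2 M₃ h31 ((hN M).trans (e ▸ hle.trans hXM))).symm
      · obtain ⟨Y, hY, hY', hYN⟩ := S0539.aux M (S M) T (hSN M) (hcj M) e
        refine ih (S M ∩ S M₃) ⟨fun B hB => ⟨hTM hB, h2 M₃ h31 M hM1 B (hTM hB)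
          ((le_sSup hB).trans (Subgroup.le_normalizer.trans (hle.trans hXM)))⟩, fun h => hY' (h ⟨hY, ?_⟩)⟩ M M₃ hM1 hM2 h31 h32 rfl
        exact h2 M₃ h31 M hM1 Y hY (hYN.trans (hle.trans hXM))
    exact (k M₁ h11 h12 (hT ▸ Set.inter_subset_left)).trans (k M₂ h21 h22 (hT ▸ Set.inter_subset_right)).symm
  obtain ⟨V₀, hV₀⟩ := hU
  obtain ⟨M, -, hM1, hM2⟩ := hmax V₀ hV₀
  refine ⟨M, hM1, fun V hV => ?_⟩
  obtain ⟨M', h, hM1', hM2'⟩ := hmax V hV
  exact h.trans (key _ M' M hM1' hM2' hM1 hM2 rfl).le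

end Cfsg.Agent.S0540
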