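import Cfsg.Statements.S4300
import Cfsg.Agent.GS.Lem1

set_option autoImplicit false
open Cfsg

namespace Cfsg.Agent.S4300

open Cfsg.Agent.H1

/-- Let G act faithfully and primitively on a set X, and suppose the stabilizer of some point is a simple group. Then either G is simple, or G has a normal subgroup, neither trivial nor the whole group, that acts regularly on X (transitively with trivial point stabilizers). -/
theorem result {G : Type*} [Group G] {X : Type*} [MulAction G X] [FaithfulSMul G X]
    (hprim : MulAction.IsPreprimitive G X) (x : X) (hsimple : IsSimpleGroup (MulAction.stabilizer G x)) :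
    IsSimpleGroup G ∨ ∃ N : Subgroup G, N.Normal ∧ N ≠ ⊥ ∧ N ≠ ⊤ ∧
      MulAction.IsPretransitive N X ∧ ∀ y : X, MulAction.stabilizer N y = ⊥ := by
  open Subgroup Pointwise commutatorElement Cfsg.Agent.BG Cfsg.Agent.GS in
  open Cfsg.Agent.H2 hiding card_lt_of_lt card_lt_of_ne_top isMulCommutative_of_le isPGroup_zpowers_iff mem_of_pow_mem_of_coprime inf_eq_bot_of_cop exists_maxElem_ge Sec in
  open Cfsg.Agent.H8 (Op Opp Fit SN) in
  open Cfsg.Agent.L (FPF) in focus
    refine or_iff_not_imp_left.2 fun h => ?_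
    have : Nontrivial G := (MulAction.stabilizer G x).subtype_injective.nontrivial
    obtain ⟨N, h1, h2, h3⟩ : ∃ N : Subgroup G, N.Normal ∧ N ≠ ⊥ ∧ N ≠ ⊤ := by
      by_contra! e
      exact h ⟨fun N hN => or_iff_not_imp_left.2 (e N hN)⟩
    have h4 : MulAction.IsPretransitive N X := MulAction.IsQuasiPreprimitive.isPretransitive_of_normal fun e => h2
      (eq_bot_iff.2 fun g hg => mem_bot.2 (eq_of_smul_eq_smul (α := X) fun y => by
        rw [one_smul]; exact (e ▸ Set.mem_univ y : y ∈ MulAction.fixedPoints N X) ⟨g, hg⟩))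
    refine ⟨N, h1, h2, h3, h4, fun y => eq_bot_iff.2 fun n hn => mem_bot.2 (Subtype.ext ?_)⟩
    rcases hsimple.eq_bot_or_eq_top_of_normal (N.subgroupOf (MulAction.stabilizer G x)) inferInstance with e | e
    · obtain ⟨m, rfl⟩ := h4.exists_smul_eq x y
      have h5 : ((m⁻¹ * n * m : N) : G) ∈ MulAction.stabilizer G x := by
        show (m⁻¹ * n * m) • x = x
        rw [mul_smul, mul_smul, hn, inv_smul_smul]
      have h6 : (⟨_, h5⟩ : MulAction.stabilizer G x) ∈ N.subgroupOf _ := (m⁻¹ * n * m).2
      rw [e, mem_bot, Subtype.ext_iff] at h6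
      calc (n : G) = m * ((m⁻¹ * n * m : N) : G) * (m : G)⁻¹ := by simp [mul_assoc]
        _ = 1 := by rw [show ((m⁻¹ * n * m : N) : G) = 1 from h6]; simp
    · refine absurd (eq_top_iff.2 fun g _ => ?_) h3
      obtain ⟨m, hm⟩ := h4.exists_smul_eq x (g • x)
      have : (m : G)⁻¹ * g ∈ N := subgroupOf_eq_top.1 e (by
        rw [MulAction.mem_stabilizer_iff, mul_smul, inv_smul_eq_iff]; exact hm.symm)
      exact (N.mul_mem_cancel_left (inv_mem m.2)).1 this

end Cfsg.Agent.S4300
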