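import Cfsg.Statements.S0672
import Mathlib
import Cfsg.Agent.H7.PermMod
import Cfsg.Agent.H7.MultiTrans
import Cfsg.Agent.H7.Basic
import Cfsg.Agent.H1.Basic

set_option autoImplicit false
open Cfsg

namespace Cfsg.Agent.S0672

open MulAction Finset Pointwise

/-- Let a finite group act faithfully and doubly transitively with point stabilisers of even order, and let `K` have characteristic `p` dividing the degree. If the heart of the permutation module admits no non-zero equivariant map to the permutation module on unordered pairs (phrased: every intertwining map from the sum-zero functions vanishing on the constants is zero), the action is triply transitive. -/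
theorem result {G : Type*} [Group G] [Finite G] {K : Type*} [Field K] {p : ℕ} [Fact p.Prime] [CharP K p] {Ω : Type*} [Fintype Ω] [DecidableEq Ω] [MulAction G Ω] [FaithfulSMul G Ω] (h2 : MulAction.IsMultiplyPretransitive G Ω 2) (hp : p ∣ Fintype.card Ω) (heven : ∀ a : Ω, Even (Nat.card (MulAction.stabilizer G a))) (h : ∀ f : Representation.IntertwiningMap (Cfsg.permSumZero K G Ω).toRepresentation (Cfsg.permRep K G (Set.powersetCard Ω 2)), (∀ v : (Cfsg.permSumZero K G Ω).toSubmodule, (v : Ω → K) ∈ (Cfsg.permConstants K G Ω).toSubmodule → f v = 0) → f = 0) : MulAction.IsMultiplyPretransitive G Ω 3 := by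
  classical
  have key : ∀ w : Set.powersetCard Ω 2 → Ω → K, (∀ (g : G) s y, w (g • s) (g • y) = w s y) →
      (∀ s, ∑ y, w s y = 0) → ∀ s c d, w s c = w s d := fun w hw h0 s c d => by
    let φ : (Cfsg.permSumZero K G Ω).toSubmodule →ₗ[K] (Set.powersetCard Ω 2 → K) :=
      { toFun := fun v s => ∑ y, w s y * v.1 y
        map_add' := fun u v => funext fun s => by simp [mul_add, sum_add_distrib]
        map_smul' := fun t v => funext fun s => by simp [mul_sum, mul_left_comm] }
    have := h (φ.intertwiningMap_of_isIntertwiningMap _ _ fun g v => funext fun s => by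
      change ∑ y, w s y * v.1 (g⁻¹ • y) = ∑ y, w (g⁻¹ • s) y * v.1 y
      exact Fintype.sum_equiv (MulAction.toPerm g⁻¹) _ _ fun y => by simp [hw]) fun v hv => by
        obtain ⟨t, ht⟩ := H7.mem_permConstants.1 hv
        funext s
        change ∑ y, w s y * v.1 y = 0
        simp [ht, ← sum_mul, h0]
    have := congrFun (DFunLike.congr_fun this ⟨Pi.single c 1 - Pi.single d 1,
      H7.mem_permSumZero.2 (by simp [sum_sub_distrib])⟩) s
    change ∑ y, w s y * (Pi.single c 1 - Pi.single d 1 : Ω → K) y = 0 at this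
    simpa [Pi.single_apply, mul_sub, sum_sub_distrib, sub_eq_zero] using this
  have mem : ∀ (g : G) (s : Set.powersetCard Ω 2) y, g • y ∈ (g • s).1 ↔ y ∈ s.1 := fun g s y => by
    rw [Set.powersetCard.coe_smul, smul_mem_smul_finset_iff]
  have sm : ∀ s : Set.powersetCard Ω 2, ∑ y, (if y ∈ s.1 then (1 : K) else 0) = 2 := fun s => by
    simp [show s.1.card = 2 from s.2]
  rw [H7.mt_three_iff]
  intro a' b' c' a₁ b₁ c₁ n1 n2 n3 n4 n5 n6
  by_cases p2 : (2 : K) = 0
  · have := key (fun s y => if y ∈ s.1 then 1 else 0) (fun g s y => by simp only [mem])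
      (fun s => by rw [sm, p2]) ⟨{a', b'}, card_pair n1⟩ a' c'
    simp [n2.symm, n3.symm] at this
  obtain ⟨u, hu, ou⟩ := H1.exists_mem_orderOf_eq_prime Nat.prime_two (heven c').two_dvd
  have uu : ∀ y : Ω, u • u • y = y := fun y => by
    rw [smul_smul, ← pow_two, ← ou, pow_orderOf_eq_one, one_smul]
  obtain ⟨a, ha⟩ : ∃ a : Ω, u • a ≠ a := by
    by_contra! e
    have : u = 1 := FaithfulSMul.eq_of_smul_eq_smul (α := Ω) (by simpa using e)
    simp [this] at ou
  have ac : a ≠ c' := by rintro rfl; exact ha hu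
  have bc : u • a ≠ c' := fun e => ac (by rw [← uu a, e]; exact hu)
  let s0 : Set.powersetCard Ω 2 := ⟨{a, u • a}, card_pair ha.symm⟩
  let R : Set.powersetCard Ω 2 → Ω → Prop := fun s y => ∃ g : G, g • s0 = s ∧ g • c' = y
  have hR : ∀ (g : G) s y, R (g • s) (g • y) ↔ R s y := fun g x y =>
    ⟨fun ⟨t, h1, h2⟩ => ⟨g⁻¹ * t, by rw [mul_smul, h1, inv_smul_smul],
      by rw [mul_smul, h2, inv_smul_smul]⟩,
      fun ⟨t, h1, h2⟩ => ⟨g * t, by rw [mul_smul, h1], by rw [mul_smul, h2]⟩⟩
  have row : ∀ s, ∑ y, (if R s y then (1 : K) else 0) = ∑ y, (if R s0 y then (1 : K) else 0) := fun s => by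
    obtain ⟨x, y, hxy, e⟩ := card_eq_two.1 (show s.1.card = 2 from s.2)
    obtain ⟨g, g1, g2⟩ := H7.mt_two h2 ha.symm hxy
    rw [show s = g • s0 from Subtype.ext (by
      rw [Set.powersetCard.coe_smul, e, smul_finset_insert, smul_finset_singleton, g1, g2])]
    exact (Fintype.sum_equiv (MulAction.toPerm g) _ _ fun y => by simp only [toPerm_apply, hR]).symm
  have k2 := key (fun s y => (if R s y then 1 else 0) -
    (∑ y, (if R s0 y then (1 : K) else 0)) / 2 * if y ∈ s.1 then 1 else 0)
    (fun g s y => by simp only [mem, hR])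
    (fun s => by rw [sum_sub_distrib, ← mul_sum, sm, row, div_mul_cancel₀ _ p2, sub_self]) s0 c'
  have all : ∀ d, d ≠ a → d ≠ u • a → ∃ g : G, g • a = a ∧ g • u • a = u • a ∧ g • c' = d := by
    intro d d1 d2
    have := k2 d
    have r0 : R s0 c' := ⟨1, one_smul _ _, one_smul _ _⟩
    have m1 : c' ∉ s0.1 := by simp [s0, ac.symm, bc.symm]
    have m2 : d ∉ s0.1 := by simp [s0, d1, d2]
    simp only [r0, m1, m2, if_true, if_false, mul_zero, sub_zero] at this
    obtain ⟨g, g1, g2⟩ : R s0 d := by by_contra e; simp [e] at this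
    have e1 := (mem g s0 a).2 (by simp [s0])
    have e2 := (mem g s0 (u • a)).2 (by simp [s0])
    rw [g1] at e1 e2
    simp only [s0, mem_insert, mem_singleton] at e1 e2
    rcases e1 with e1 | e1 <;> rcases e2 with e2 | e2
    · exact absurd (smul_left_cancel g (e2.trans e1.symm)) ha
    · exact ⟨g, e1, e2, g2⟩
    · exact ⟨g * u, by rw [mul_smul, e2], by rw [mul_smul, uu, e1],
        by rw [mul_smul, show u • c' = c' from hu, g2]⟩
    · exact absurd (smul_left_cancel g (e2.trans e1.symm)) ha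
  have std : ∀ x y z : Ω, x ≠ y → x ≠ z → y ≠ z → ∃ g : G, g • a = x ∧ g • u • a = y ∧ g • c' = z := by
    intro x y z h1 h3 h4
    obtain ⟨g, g1, g2⟩ := H7.mt_two h2 ha.symm h1
    obtain ⟨k, k1, k2, k3⟩ := all (g⁻¹ • z) (fun e => h3 (by rw [← g1, ← e, smul_inv_smul]))
      (fun e => h4 (by rw [← g2, ← e, smul_inv_smul]))
    exact ⟨g * k, by rw [mul_smul, k1, g1], by rw [mul_smul, k2, g2], by rw [mul_smul, k3, smul_inv_smul]⟩
  obtain ⟨g, g1, g2, g3⟩ := std _ _ _ n1 n2 n3
  obtain ⟨k, k1, k2, k3⟩ := std _ _ _ n4 n5 n6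
  exact ⟨k * g⁻¹, by rw [← g1, mul_smul, inv_smul_smul, k1], by rw [← g2, mul_smul, inv_smul_smul, k2],
    by rw [mul_smul, inv_smul_eq_iff.2 g3.symm, k3]⟩

end Cfsg.Agent.S0672
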