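import Cfsg.Statements.S0713
import Mathlib
import Cfsg.Agent.H7.SylowPrime

set_option autoImplicit false
open Cfsg

namespace Cfsg.Agent.S0713

open Equiv Equiv.Perm Finset

theorem ai {α : Type*} (σ : Perm α) (x : α) : σ (σ⁻¹ x) = x := σ.apply_symm_apply x

/-- Jordan's Theorem: a primitive permutation group of degree `n ≥ 5` containing a `p`-cycle for a prime `p ≤ n - 3` contains the alternating group. -/
theorem result {α : Type*} [Fintype α] [DecidableEq α] (G : Subgroup (Equiv.Perm α)) (hG : MulAction.IsPreprimitive G α) {p : ℕ} (hp : p.Prime) (hn : 5 ≤ Fintype.card α) (hpn : p + 3 ≤ Fintype.card α) {g : Equiv.Perm α} (hgc : g.IsCycle) (hgp : g.support.card = p) (hg : g ∈ G) : alternatingGroup α ≤ G := by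
  classical
  haveI := Fact.mk hp
  obtain ⟨n, hn'⟩ : ∃ n, Fintype.card α = p + (n + 1) := ⟨Fintype.card α - p - 1, by omega⟩
  have hsc : Set.ncard ((g.support)ᶜ : Set α) = n + 1 := by
    apply Nat.add_left_cancel (n := p)
    rw [← hgp, ← Set.ncard_coe_finset, Set.ncard_add_ncard_compl, Set.ncard_coe_finset, hgp,
      Nat.card_eq_fintype_card, hn']
  have hmt : MulAction.IsMultiplyPretransitive G α (n + 2) := by
    suffices MulAction.IsMultiplyPreprimitive G α (n + 2) from this.isMultiplyPretransitive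
    apply hG.isMultiplyPreprimitive hsc
    · rw [Nat.card_eq_fintype_card, hn']; have := hp.two_le; omega
    have := isPretransitive_of_isCycle_mem hgc hg
    apply MulAction.IsPreprimitive.of_prime_card
    convert! hp
    rw [Nat.card_eq_fintype_card, Fintype.card_subtype, ← hgp]
    apply congr_arg
    ext x
    simp [SubMulAction.mem_ofFixingSubgroup_iff]
  have hgo : orderOf g = p := by rw [hgc.orderOf, hgp]
  let H : Subgroup (Perm α) := G ⊓ fixingSubgroup (Perm α) (g.supportᶜ : Set α)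
  have hH : ∀ u, u ∈ H ↔ u ∈ G ∧ ∀ x, x ∉ g.support → u x = x := fun u => by
    simp only [H, Subgroup.mem_inf, mem_fixingSubgroup_iff]; rfl
  have hHc : Nat.card H ∣ p.factorial := by
    have e : Nat.card (Perm {x // x ∈ g.support}) = p.factorial := by
      rw [Nat.card_perm, Nat.card_eq_fintype_card, Fintype.card_coe, hgp]
    rw [← e, ← Subgroup.card_top (G := Perm {x // x ∈ g.support}), ← Subgroup.card_map_of_injective (K := ⊤)
      (f := (ofSubtype : Perm {x // x ∈ g.support} →* Perm α)) (ofSubtype_injective)]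
    apply Subgroup.card_dvd_of_le
    intro u hu
    have h1 := ((hH u).1 hu).2
    have h2 : ∀ x, u x ∈ g.support ↔ x ∈ g.support := fun x => by
      constructor
      · intro h; by_contra h'; rw [h1 x h'] at h; exact h' h
      · intro h; by_contra h'; have := u.injective (h1 _ h'); rw [this] at h'; exact h' h
    exact ⟨u.subtypePerm h2, trivial, ofSubtype_subtypePerm h2 fun x hx => by
      by_contra h; exact hx (h1 x h)⟩
  have hsyl : ∀ u (hu : u ∈ H), orderOf u = p → ∃ P : Sylow p H,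
      (P : Subgroup H) = Subgroup.zpowers ⟨u, hu⟩ := fun u hu ho => by
    have hc : Nat.card (Subgroup.zpowers (⟨u, hu⟩ : H)) = p ^ 1 := by
      rw [Nat.card_zpowers, ← Subgroup.orderOf_coe, ho, pow_one]
    refine ⟨(IsPGroup.of_card hc).toSylow ?_, rfl⟩
    intro hd
    have h1 : p * p ∣ Nat.card H := by
      rw [← (Subgroup.zpowers (⟨u, hu⟩ : H)).index_mul_card, hc, pow_one]
      exact Nat.mul_dvd_mul_right hd _
    have h2 := h1.trans hHc
    obtain ⟨q, rfl⟩ : ∃ q, p = q + 1 := ⟨p - 1, by have := hp.pos; omega⟩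
    rw [Nat.factorial_succ] at h2
    have := (hp.dvd_factorial).1 (Nat.dvd_of_mul_dvd_mul_left hp.pos h2)
    omega
  have hgH : g ∈ H := (hH g).2 ⟨hg, fun x hx => notMem_support.1 hx⟩
  have key : ∀ σ : Perm α, (∀ x ∈ g.support, σ x = x) → ∃ t ∈ G, (∀ x, x ∉ g.support → t x = σ x) ∧
      ∃ i : ℤ, t * g * t⁻¹ = g ^ i := by
    intro σ hσ
    obtain ⟨t, ht⟩ := H7.mt_extend hmt (by rw [Nat.card_eq_fintype_card]; have := hp.two_le; omega)
      g.supportᶜ (by rw [card_compl, hgp]; omega) σ σ.injective.injOn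
    have ht' : ∀ x, x ∉ g.support → t.1 x = σ x := fun x hx => ht x (mem_compl.2 hx)
    have hσ' : ∀ x, x ∉ g.support → σ x ∉ g.support := fun x hx h => by
      have := σ.injective (hσ _ h); rw [this] at h; exact hx h
    have hσ'' : ∀ x, x ∉ g.support → σ⁻¹ x ∉ g.support := fun x hx h => by
      have := hσ _ h; rw [ai] at this; rw [← this] at h; exact hx h
    have hconj : t.1 * g * t.1⁻¹ ∈ H := (hH _).2 ⟨G.mul_mem (G.mul_mem t.2 hg) (G.inv_mem t.2),
      fun x hx => by
        have e : t.1⁻¹ x = σ⁻¹ x := by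
          rw [Perm.inv_eq_iff_eq, ht' _ (hσ'' x hx), ai]
        rw [Perm.mul_apply, Perm.mul_apply, e, notMem_support.1 (hσ'' x hx), ← e,
          ai]⟩
    obtain ⟨P, hP⟩ := hsyl g hgH hgo
    obtain ⟨Q, hQ⟩ := hsyl _ hconj (by
      rw [← hgo]; exact (MulAut.conj t.1).orderOf_eq g)
    obtain ⟨u, hu⟩ := MulAction.exists_smul_eq H Q P
    have : u * ⟨_, hconj⟩ * u⁻¹ ∈ (P : Subgroup H) := by
      rw [← hu, Sylow.coe_subgroup_smul, hQ]
      exact Subgroup.smul_mem_pointwise_smul _ (MulAut.conj u) _ (Subgroup.mem_zpowers _)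
    rw [hP] at this
    obtain ⟨i, hi⟩ := this
    refine ⟨u * t, G.mul_mem ((hH u).1 u.2).1 t.2, fun x hx => ?_, i, ?_⟩
    · rw [Perm.mul_apply, ht' x hx, ((hH u).1 u.2).2 _ (hσ' x hx)]
    · have := congrArg Subtype.val hi
      simp only [SubgroupClass.coe_zpow, Subgroup.coe_mul, InvMemClass.coe_inv] at this
      rw [this]; group
  obtain ⟨a, b, c, ha, hb, hc, hab, hac, hbc⟩ := two_lt_card_iff.1
    (show 2 < (g.supportᶜ).card by rw [card_compl, hgp]; omega)
  rw [mem_compl] at ha hb hc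
  have sw : ∀ x y, x ∉ g.support → y ∉ g.support → ∀ z ∈ g.support, swap x y z = z :=
    fun x y hx hy z hz => swap_apply_of_ne_of_ne (by rintro rfl; exact hx hz)
      (by rintro rfl; exact hy hz)
  have sw' : ∀ x y, x ∉ g.support → y ∉ g.support → ∀ z, z ∉ g.support → swap x y z ∉ g.support :=
    fun x y hx hy z hz => by rw [swap_apply_def]; split_ifs <;> assumption
  obtain ⟨s, hs, hs1, i, hi⟩ := key (swap a b) (sw a b ha hb)
  obtain ⟨t, ht, ht1, j, hj⟩ := key (swap a c) (sw a c ha hc)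
  have hcomm : (s * t) * g * (s * t)⁻¹ = (t * s) * g * (t * s)⁻¹ := by
    calc (s * t) * g * (s * t)⁻¹ = s * (t * g * t⁻¹) * s⁻¹ := by group
      _ = (s * g * s⁻¹) ^ j := by rw [hj, conj_zpow]
      _ = (t * g * t⁻¹) ^ i := by rw [hi, hj, ← zpow_mul, ← zpow_mul, mul_comm]
      _ = t * (s * g * s⁻¹) * t⁻¹ := by rw [hi, conj_zpow]
      _ = _ := by group
  obtain ⟨w, hw⟩ : ∃ w, w = (t * s)⁻¹ * (s * t) := ⟨_, rfl⟩
  have hwg : w * g = g * w := by
    have : w * g = (t * s)⁻¹ * ((s * t) * g * (s * t)⁻¹) * (s * t) := by rw [hw]; group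
    rw [this, hcomm, hw]; group
  have hwG : w ∈ G := hw ▸ G.mul_mem (G.inv_mem (G.mul_mem ht hs)) (G.mul_mem hs ht)
  obtain ⟨x₀, hx₀, hx₀'⟩ := id hgc
  have hwx : g (w x₀) ≠ w x₀ := fun h => hx₀ (w.injective (by
    rw [← h, ← Perm.mul_apply, hwg, Perm.mul_apply]))
  obtain ⟨l, hl⟩ := hx₀' hwx
  have h3 : (g ^ l)⁻¹ * w = swap a c * swap a b := by
    ext x
    by_cases hx : x ∈ g.support
    · obtain ⟨r, rfl⟩ := hx₀' (mem_support.1 hx)
      rw [Perm.mul_apply, Perm.mul_apply (swap a c), sw a b ha hb _ hx, sw a c ha hc _ hx, Perm.inv_eq_iff_eq,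
        ← Perm.mul_apply, (show Commute w g from hwg).zpow_right, Perm.mul_apply, ← hl,
        ← Perm.mul_apply, ← Perm.mul_apply, (Commute.refl g).zpow_zpow]
    · have h1 := sw' a b ha hb x hx
      have h2 := sw' a c ha hc _ h1
      have : w x = swap a c (swap a b x) := by
        rw [hw, Perm.mul_apply, Perm.inv_eq_iff_eq, Perm.mul_apply, Perm.mul_apply, ht1 x hx,
          hs1 _ (sw' a c ha hc x hx), hs1 _ h2, ht1 _ (sw' a b ha hb _ h2)]
        simp only [swap_apply_def]
        grind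
      rw [Perm.mul_apply, this, Perm.inv_eq_iff_eq, Perm.mul_apply,
        zpow_apply_eq_self_of_apply_eq_self (notMem_support.1 h2)]
  exact alternatingGroup_le_of_isPreprimitive_of_isThreeCycle_mem hG
    (isThreeCycle_swap_mul_swap_same hac hab hbc.symm)
    (h3 ▸ G.mul_mem (G.inv_mem (G.zpow_mem hg l)) hwG)

end Cfsg.Agent.S0713
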