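import Cfsg.Statements.S2579
import Cfsg.Agent.GS.Cj3

set_option autoImplicit false
open Cfsg

namespace Cfsg.Agent.S2579

open Cfsg.Agent.H1

/-- In SL_n(F) with n ≥ 3, over a finite field F, any two transvections (matrices t with t − 1 of rank one and square zero) are conjugate by an element of SL_n(F). -/
theorem result {F : Type*} [Field F] [Finite F] {n : ℕ} (hn : 3 ≤ n) (s t : Matrix.SpecialLinearGroup (Fin n) F) (hs : Cfsg.IsTransvection (s : Matrix (Fin n) (Fin n) F)) (ht : Cfsg.IsTransvection (t : Matrix (Fin n) (Fin n) F)) : IsConj s t := by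
  open Subgroup Pointwise commutatorElement Cfsg.Agent.BG Cfsg.Agent.GS in
  open Cfsg.Agent.H2 hiding card_lt_of_lt card_lt_of_ne_top isMulCommutative_of_le isPGroup_zpowers_iff mem_of_pow_mem_of_coprime inf_eq_bot_of_cop exists_maxElem_ge Sec in
  open Cfsg.Agent.H8 (Op Opp Fit SN) in
  open Cfsg.Agent.L (FPF) in focus
    obtain ⟨n, rfl⟩ := Nat.exists_eq_add_of_le' hn
    have a : (0 : Fin (n + 3)) ≠ 1 := Fin.zero_ne_one
    have k : ∀ s : Matrix.SpecialLinearGroup (Fin (n + 3)) F, IsTransvection s.1 → IsConj (Matrix.SpecialLinearGroup.transvection a 1) s := fun s hs =>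
      isConj_of_split Matrix.SpecialLinearGroup.toGL_injective H4.range_toGL (isConj_units.2 (IsTransvection.isConj hs a).symm) fun g =>
        ⟨Matrix.GeneralLinearGroup.mkOfDetNeZero (Matrix.diagonal (Pi.mulSingle 2 g.1.det)) (by simp [g.det_ne_zero]), Units.ext (by
          have : (0 : Fin (n + 3)) ≠ 2 ∧ (1 : Fin (n + 3)) ≠ 2 := by simp [Fin.ext_iff, Nat.mod_eq_of_lt (show 2 < n + 3 by omega)]
          simp only [Units.val_mul, Matrix.GeneralLinearGroup.val_mkOfDetNeZero, Matrix.SpecialLinearGroup.coe_GL_coe_matrix,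
            Matrix.SpecialLinearGroup.transvection_coe, mul_add, add_mul, mul_one, one_mul, add_right_inj]
          ext i j
          simp only [Matrix.diagonal_mul, Matrix.mul_diagonal, Matrix.single_apply]
          split_ifs with h
          · simp [← h.1, ← h.2, this]
          · simp), Units.ext (by simp)⟩
    exact (k s hs).symm.trans (k t ht)

end Cfsg.Agent.S2579
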