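import Cfsg.Statements.S0014
import Cfsg.Agent.L.Frattini

set_option autoImplicit false
open Cfsg

namespace Cfsg.Agent.S0014

open Cfsg.Agent

/-- Burnside's basis Theorem: in a finite p-group whose Frattini quotient has order p ^ n, every generating set contains n elements that already generate, and no set with fewer than n elements generates. -/
theorem result {G : Type*} [Group G] [Finite G] (p n : ℕ) [Fact p.Prime]
    (hG : IsPGroup p G) (hn : (frattini G).index = p ^ n) :
    (∀ S : Finset G, Subgroup.closure (S : Set G) = ⊤ → ∃ T : Finset G, T ⊆ S ∧ T.card = n ∧ Subgroup.closure (T : Set G) = ⊤) ∧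
    (∀ T : Finset G, Subgroup.closure (T : Set G) = ⊤ → n ≤ T.card) := by
  classical
  refine ⟨fun S hS => ?_, fun T hT => ?_⟩
  · obtain ⟨T, h1, h2, h3⟩ := L.exists_basis_subset (L.commutator_le_frattini hG) (L.pow_mem_frattini hG) hn
      (S : Set G) (by rw [hS, top_sup_eq])
    exact ⟨T, Finset.coe_subset.mp h1, h2, frattini_nongenerating h3⟩
  · have := L.relIndex_closure_dvd (L.commutator_le_frattini hG) (L.pow_mem_frattini hG) T
    rw [hT, top_sup_eq, Subgroup.relIndex_top_right, hn] at this
    exact (Nat.pow_dvd_pow_iff_le_right (Fact.out : p.Prime).one_lt).mp this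

end Cfsg.Agent.S0014
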