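import Cfsg.Statements.S0018
import Cfsg.Agent.H1.Misc

set_option autoImplicit false
open Cfsg

namespace Cfsg.Agent.S0018

open Cfsg.Agent.H1

/-- A finite solvable group whose Sylow p-subgroups are abelian has p-length one: a Sylow p-subgroup together with the largest normal subgroup of order prime to p generates a normal subgroup. -/
theorem result {G : Type*} [Group G] [Finite G] [Group.IsSolvable G]
    (p : ℕ) [Fact p.Prime] (P : Sylow p G) (hP : IsMulCommutative P) :
    ((P : Subgroup G) ⊔ Cfsg.pPrimeCore p G).Normal := by
  haveI : Group.IsSolvable (G ⧸ pPrimeCore p G) := inferInstance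
  have h1 := centralizer_pCore_le this (p := p) (pPrimeCore_quotient_eq_bot _ rfl)
  have h2 := (isSylowIn_top P).map (QuotientGroup.mk' (pPrimeCore p G))
  rw [Subgroup.map_top_of_surjective _ (QuotientGroup.mk'_surjective _)] at h2
  have h3 := h2.le_of_normal le_top (isPGroup_pCore p _) Subgroup.le_normalizer_of_normal
  have h4 : (P : Subgroup G).map (QuotientGroup.mk' (pPrimeCore p G)) = pCore p _ :=
    le_antisymm ((Subgroup.le_centralizer _).trans ((centralizer_anti h3).trans h1)) h3
  rw [← comap_map_mk', h4]
  infer_instance

end Cfsg.Agent.S0018
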