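import Cfsg.Statements.S0020
import Cfsg.Agent.H1.Carter

set_option autoImplicit false
open Pointwise
open Cfsg

namespace Cfsg.Agent.S0020

open Cfsg.Agent.H1

/-- A finite solvable group admits a Sylow system: Sylow subgroups, one for each prime, that pairwise permute as sets. -/
theorem result {G : Type*} [Group G] [Finite G] [Group.IsSolvable G] :
    ∃ S : (p : Nat.Primes) → Sylow (p : ℕ) G,
      ∀ p q : Nat.Primes, (S p : Set G) * (S q : Set G) = (S q : Set G) * (S p : Set G) := by
  obtain ⟨K, hK⟩ := exists_isComplementSystem ‹Group.IsSolvable G›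
  have : ∀ p : Nat.Primes, ∃ S : Sylow (p : ℕ) G, (S : Subgroup G) = sysHall K {(p : ℕ)} := fun p => by
    haveI := Fact.mk p.2
    exact (IsComplementSystem.isSylowIn_sysHall hK p).exists_sylow_top
  choose S hS using this
  refine ⟨S, fun p q => ?_⟩
  by_cases e : p = q
  · subst e; rfl
  have key : ∀ p q : Nat.Primes, p ≠ q → (sysHall K {(p : ℕ), (q : ℕ)} : Set G) = (S p : Set G) * (S q : Set G) := by
    intro p q hpq
    have h1 : (S p : Subgroup G) ≤ sysHall K {(p : ℕ), (q : ℕ)} := hS p ▸ sysHall_mono K (by simp)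
    have h2 : (S q : Subgroup G) ≤ sysHall K {(p : ℕ), (q : ℕ)} := hS q ▸ sysHall_mono K (by simp)
    refine coe_eq_mul_iff.2 ⟨h1, h2, forall_mul_of_coprime_relIndex h1 h2 ?_⟩
    haveI := Fact.mk p.2
    haveI := Fact.mk q.2
    refine coprime_of_pi (π := {(q : ℕ)}) (fun r hr hd => ?_) fun r hr hq => ?_
    · rcases (IsComplementSystem.isPiHall_sysHall hK _).1 r hr (hd.trans (Subgroup.relIndex_dvd_card _ _)) with h | h
      · exact absurd (h ▸ hd) (isSylowIn_of_sylow_le (S p) h1).2.2
      · exact h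
    · rw [hq]; exact (isSylowIn_of_sylow_le (S q) h2).2.2
  rw [← key p q e, ← key q p (Ne.symm e), Set.pair_comm]

end Cfsg.Agent.S0020
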