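import Cfsg.Statements.S0021
import Cfsg.Agent.H1.Burnside

set_option autoImplicit false
open Pointwise
open Cfsg

namespace Cfsg.Agent.S0021

open Cfsg.Agent.H1

/-- A finite group with a family of pairwise permuting Sylow subgroups, one for each prime, is solvable (this direction rests on Burnside's two-prime Theorem). -/
theorem result {G : Type*} [Group G] [Finite G]
    (S : (p : Nat.Primes) → Sylow (p : ℕ) G)
    (hS : ∀ p q : Nat.Primes, (S p : Set G) * (S q : Set G) = (S q : Set G) * (S p : Set G)) :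
    Group.IsSolvable G := by
  classical
  have hS' : ∀ p q : Nat.Primes, ∀ g ∈ (S p : Subgroup G) ⊔ (S q : Subgroup G), ∃ x ∈ (S p : Subgroup G), ∃ y ∈ (S q : Subgroup G), g = x * y :=
    fun p q => mul_comm_iff_forall_sup.1 (hS p q)
  have key : ∀ s : Finset Nat.Primes, (∀ q, ∀ g ∈ (⨆ p ∈ s, (S p : Subgroup G)) ⊔ (S q : Subgroup G), ∃ x ∈ (⨆ p ∈ s, (S p : Subgroup G)), ∃ y ∈ (S q : Subgroup G), g = x * y) ∧
      ∀ r : ℕ, ∀ hr : r.Prime, r ∣ Nat.card ↥(⨆ p ∈ s, (S p : Subgroup G)) → (⟨r, hr⟩ : Nat.Primes) ∈ s := by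
    intro s
    induction s using Finset.induction_on with
    | empty =>
      refine ⟨fun q g hg => ⟨1, one_mem _, g, by simpa using hg, by simp⟩, fun r hr hd => ?_⟩
      simp at hd; exact absurd hd hr.ne_one
    | insert p s hp ih =>
      rw [Finset.iSup_insert]
      refine ⟨fun q => perm_sup (hS' p q) (ih.1 q), fun r hr hd => ?_⟩
      have := (forall_mul_iff_card le_sup_left le_sup_right).1 (ih.1 p)
      rw [sup_comm] at this
      have hd' := (hd.trans (Dvd.intro _ this))
      rcases (Nat.Prime.dvd_mul hr).1 hd' with h | h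
      · exact Finset.mem_insert_of_mem (ih.2 r hr h)
      · haveI := Fact.mk p.2
        have : (⟨r, hr⟩ : Nat.Primes) = p := Subtype.ext (isPGroup_iff_forall_prime.1 (S p).isPGroup' r hr h)
        rw [this]; exact Finset.mem_insert_self _ _
  refine isSolvable_of_forall_exists_hall fun p hp => ?_
  let s : Finset Nat.Primes := ((Nat.card G).primeFactors.subtype Nat.Prime).filter fun q => (q : ℕ) ≠ p
  refine ⟨⨆ q ∈ s, (S q : Subgroup G), fun r hr hd => (Finset.mem_filter.1 ((key s).2 r hr hd)).2, fun r hr hπ hd => ?_⟩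
  haveI := Fact.mk hr
  refine (S ⟨r, hr⟩).not_dvd_index (hd.trans (Subgroup.index_dvd_of_le (le_biSup (fun q : Nat.Primes => (S q : Subgroup G)) ?_)))
  exact Finset.mem_filter.2 ⟨Finset.mem_subtype.2 (Nat.mem_primeFactors.2 ⟨hr, hd.trans (Subgroup.index_dvd_card _), Nat.card_pos.ne'⟩), hπ⟩

end Cfsg.Agent.S0021
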