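import Cfsg.Statements.S0031
import Cfsg.Agent.L.Frob2

set_option autoImplicit false
open Cfsg

namespace Cfsg.Agent.S0031

open Cfsg.Agent
open scoped Pointwise commutatorElement

/-- A fixed-point-free automorphism of a finite group maps some Sylow p-subgroup to itself. -/
theorem result {G : Type*} [Group G] [Finite G] (φ : G ≃* G)
    (hφ : MonoidHom.FixedPointFree (φ : G →* G)) (p : ℕ) [Fact p.Prime] :
    ∃ P : Sylow p G, (P : Subgroup G).map (φ : G →* G) = P := by
    obtain P : Sylow p G := default
    let Q : Sylow p G := P.mapSurjective (f := (φ : G →* G)) φ.surjective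
    obtain ⟨g, hg⟩ := MulAction.exists_smul_eq G P Q
    have hg' : MulAut.conj g • (P : Subgroup G) = (P : Subgroup G).map (φ : G →* G) :=
      congrArg (fun R : Sylow p G => (R : Subgroup G)) hg
    obtain ⟨y, hy⟩ := hφ.commutatorMap_surjective g⁻¹
    simp only [MonoidHom.commutatorMap_apply, div_eq_mul_inv] at hy
    refine ⟨y⁻¹ • P, ?_⟩
    change (MulAut.conj y⁻¹ • (P : Subgroup G)).map _ = MulAut.conj y⁻¹ • (P : Subgroup G)
    rw [H1.map_conj_smul, ← hg', H1.conj_smul_conj_smul]
    congr 2
    rw [map_inv, ← inv_inv g, ← hy]; group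

end Cfsg.Agent.S0031
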