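import Cfsg.Statements.S0041
import Cfsg.Agent.L.Frob2

set_option autoImplicit false
open Cfsg

namespace Cfsg.Agent.S0041

open Cfsg.Agent
open scoped Pointwise commutatorElement

/-- A group acting on a nontrivial abelian group so that no nonidentity element has a nonidentity fixed point is cyclic, provided it is abelian or its order is a product of two (possibly equal) primes. -/
theorem result {G : Type*} [Group G] [Finite G] (A V : Subgroup G) [IsMulCommutative V]
    (hV : V ≠ ⊥) (hAV : A ≤ Subgroup.normalizer (V : Set G)) (hfpf : ∀ a ∈ A, a ≠ 1 → V ⊓ Subgroup.centralizer {a} = ⊥)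
    (hA : IsMulCommutative A ∨ ∃ p q : ℕ, p.Prime ∧ q.Prime ∧ Nat.card A = p * q) : IsCyclic A := by
    rcases hA with hA | ⟨p, q, hp, hq, hA⟩
    · exact L.FPF.isCyclic_of_isMulCommutative hfpf hAV hV
    suffices h : IsMulCommutative A from L.FPF.isCyclic_of_isMulCommutative hfpf hAV hV
    wlog hpq : p ≤ q generalizing p q
    · exact this q p hq hp (by rw [hA, mul_comm]) (le_of_not_ge hpq)
    have := Fact.mk hp
    have := Fact.mk hq
    rcases hpq.eq_or_lt with rfl | hlt
    · exact IsPGroup.isMulCommutative_of_card_eq_prime_sq (p := p) (by rw [hA, sq])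
    obtain ⟨x, hx⟩ := exists_prime_orderOf_dvd_card' (G := A) p (hA ▸ dvd_mul_right p q)
    obtain ⟨y, hy⟩ := exists_prime_orderOf_dvd_card' (G := A) q (hA ▸ dvd_mul_left q p)
    have hcy : Nat.card (Subgroup.zpowers y) = q := by rw [Nat.card_zpowers, hy]
    have hi : (Subgroup.zpowers y).index = p := by
      have := (Subgroup.zpowers y).card_mul_index
      rw [hcy, hA, mul_comm p] at this
      exact Nat.eq_of_mul_eq_mul_left hq.pos this
    have hn : (Subgroup.zpowers y).Normal := by
      refine Subgroup.normal_of_index_eq_minFac_card ?_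
      rw [hi, hA]
      refine le_antisymm ?_ (Nat.minFac_le_of_dvd hp.two_le (dvd_mul_right p q))
      have h1 := Nat.minFac_prime (n := p * q) (by nlinarith [hp.two_le, hq.two_le])
      rcases (Nat.Prime.dvd_mul h1).1 (Nat.minFac_dvd _) with h | h
      · exact ((Nat.prime_dvd_prime_iff_eq h1 hp).1 h).ge
      · exact ((Nat.prime_dvd_prime_iff_eq h1 hq).1 h).ge.trans' hpq
    have hc := L.FPF.le_centralizer_of_prime hfpf hAV hV (Q := (Subgroup.zpowers y).map A.subtype)
      (R := Subgroup.zpowers (x : G)) (Subgroup.map_subtype_le _) (Subgroup.zpowers_le.2 x.2)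
      (by rwa [L.card_map_subtype, hcy]) (by rwa [Nat.card_zpowers, Subgroup.orderOf_coe, hx])
      ((Subgroup.zpowers_le.2 x.2).trans (H1.le_normalizer_map_subtype_of_normal A _))
    have hxy : Commute x y := Subtype.ext
      (hc (Subgroup.mem_map_of_mem _ (Subgroup.mem_zpowers y)) x (Subgroup.mem_zpowers _))
    have ho : orderOf (x * y) = Nat.card A := by
      rw [hxy.orderOf_mul_eq_mul_orderOf_of_coprime
        (by rw [hx, hy]; exact (Nat.coprime_primes hp hq).2 hlt.ne), hx, hy, hA]
    have := isCyclic_of_orderOf_eq_card _ ho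
    infer_instance

end Cfsg.Agent.S0041
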