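import Cfsg.Statements.S0047
import Cfsg.Agent.H1.Misc

set_option autoImplicit false
open Cfsg

namespace Cfsg.Agent.S0047

open Cfsg.Agent.H1

/-- A finite group which is the product AB of two abelian subgroups A and B is solvable. -/
theorem result {G : Type*} [Group G] [Finite G] (A B : Subgroup G)
    [IsMulCommutative A] [IsMulCommutative B] (hAB : ∀ g : G, ∃ a ∈ A, ∃ b ∈ B, g = a * b) :
    Group.IsSolvable G := by
  haveI := isMulCommutative_commutator_of_forall_mul hAB
  rw [← isSolvable_top_iff]
  exact isSolvable_of_commutator (isSolvable_of_isMulCommutative this)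

end Cfsg.Agent.S0047
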