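import Cfsg.Statements.S0053
import Cfsg.Agent.L.Frattini

set_option autoImplicit false
open Cfsg

namespace Cfsg.Agent.S0053

open Cfsg.Agent

/-- An abelian minimal normal subgroup N of a finite group is complemented exactly when N is not inside the Frattini subgroup. -/
theorem result {G : Type*} [Group G] [Finite G]
    (N : Subgroup G) [N.Normal] [IsMulCommutative N] (hN : N ≠ ⊥)
    (hmin : ∀ M : Subgroup G, M.Normal → M ≤ N → M = ⊥ ∨ M = N) :
    (∃ H : Subgroup G, Subgroup.IsComplement' N H) ↔ ¬ N ≤ frattini G := by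
  constructor
  · rintro ⟨H, hH⟩ hle
    have h3 : H = ⊤ := frattini_nongenerating (top_le_iff.mp (hH.symm.sup_eq_top.ge.trans (sup_le_sup_left hle _)))
    have h4 := hH.disjoint.eq_bot
    rw [h3, inf_top_eq] at h4
    exact hN h4
  · intro h
    by_contra h'
    refine h (L.le_frattini fun M hM => ?_)
    by_contra h2
    exact h' ⟨M, L.isComplement'_of_coatom_of_minimal hmin hM h2⟩

end Cfsg.Agent.S0053
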