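import Cfsg.Statements.S0054
import Cfsg.Agent.H1.Misc
import Cfsg.Agent.H7.MultiTrans

set_option autoImplicit false
open Cfsg

namespace Cfsg.Agent.S0054

open Cfsg.Agent.H1

/-- A regular normal subgroup of a finite 2-transitive group is elementary abelian: it is commutative and all its elements have order dividing one prime. -/
theorem result {G : Type*} [Group G] [Finite G]
    {X : Type*} [Nonempty X] [MulAction G X] (h2 : MulAction.IsMultiplyPretransitive G X 2)
    (N : Subgroup G) [N.Normal] (htrans : MulAction.IsPretransitive N X) (hreg : ∀ x : X, MulAction.stabilizer N x = ⊥) :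
    IsMulCommutative N ∧ ∃ p : ℕ, p.Prime ∧ ∀ n ∈ N, n ^ p = 1 := by
  rcases subsingleton_or_nontrivial N with hN | hN
  · exact ⟨⟨⟨fun a b => Subsingleton.elim _ _⟩⟩, 2, Nat.prime_two, fun n hn => by
      have : n = 1 := congrArg Subtype.val (Subsingleton.elim (⟨n, hn⟩ : N) 1)
      simp [this]⟩
  obtain ⟨x⟩ := ‹Nonempty X›
  have hinj : ∀ a b : N, (a : G) • x = (b : G) • x → a = b := fun a b h => by
    have : b⁻¹ * a ∈ MulAction.stabilizer N x := by
      show ((b : G)⁻¹ * a) • x = x
      rw [mul_smul, h, inv_smul_smul]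
    rw [hreg x, Subgroup.mem_bot, inv_mul_eq_one] at this
    exact this.symm
  obtain ⟨p, j, hp, -, -, h1, h3⟩ := H7.elemAb_of_aut_transitive (N := N) fun a b ha hb => by
    obtain ⟨g, hg1, hg2⟩ := H7.mt_two h2 (a := x) (b := (a : G) • x) (c := x) (d := (b : G) • x)
      (fun e => ha (hinj a 1 (by simpa using e.symm))) (fun e => hb (hinj b 1 (by simpa using e.symm)))
    refine ⟨MulAut.conjNormal g, hinj _ _ ?_⟩
    rw [MulAut.conjNormal_apply, mul_smul, mul_smul, inv_smul_eq_iff.2 hg1.symm, hg2]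
  exact ⟨⟨⟨h1⟩⟩, p, hp, fun n hn => congrArg Subtype.val (h3 ⟨n, hn⟩)⟩

end Cfsg.Agent.S0054
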