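import Cfsg.Statements.S0060
import Cfsg.Agent.H1.Misc

set_option autoImplicit false
open Pointwise
open Cfsg

namespace Cfsg.Agent.S0060

open Cfsg.Agent.H1

/-- Brodkey's Theorem: in a finite group with abelian Sylow p-subgroups and no nontrivial normal p-subgroup, some conjugate of a Sylow p-subgroup meets it trivially. -/
theorem result {G : Type*} [Group G] [Finite G] (p : ℕ) [Fact p.Prime]
    (S : Sylow p G) (hS : IsMulCommutative S) (hOp : Cfsg.pCore p G = ⊥) :
    ∃ g : G, (S : Subgroup G) ⊓ MulAut.conj g • (S : Subgroup G) = ⊥ := by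
  obtain ⟨D, -, ⟨T, hT, rfl⟩, hmin⟩ := exists_minimal_le (fun D : Subgroup G => ∃ T, IsSylowIn p T ⊤ ∧ D = (S : Subgroup G) ⊓ T)
    (N := (S : Subgroup G) ⊓ S) ⟨S, isSylowIn_top S, rfl⟩
  obtain ⟨g, -, rfl⟩ := (isSylowIn_top S).conj hT
  refine ⟨g, ?_⟩
  haveI : IsMulCommutative ↥(MulAut.conj g • (S : Subgroup G)) := by
    rw [conj_smul_eq_map]; infer_instance
  generalize MulAut.conj g • (S : Subgroup G) = T at *
  rw [eq_bot_iff, ← hOp, pCore_eq_iInf_sylow, le_iInf_iff]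
  intro P
  have hS' : (S : Subgroup G) ≤ Subgroup.normalizer (((S : Subgroup G) ⊓ T : Subgroup G) : Set G) :=
    le_normalizer_of_isMulCommutative inf_le_left
  have hT' : T ≤ Subgroup.normalizer (((S : Subgroup G) ⊓ T : Subgroup G) : Set G) :=
    le_normalizer_of_isMulCommutative inf_le_right
  obtain ⟨x, hx, hle⟩ := (hT.of_le hT' le_top).exists_conj_le
    (inf_le_right : (P : Subgroup G) ⊓ _ ≤ _) (P.isPGroup'.to_le inf_le_left)
  have h1 : (S : Subgroup G) ⊓ MulAut.conj x • (P : Subgroup G) ≤ (S : Subgroup G) ⊓ T := by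
    refine le_inf inf_le_left fun y hy => hle (mem_conj_smul.2 (Subgroup.mem_inf.2 ⟨mem_conj_smul.1 hy.2, ?_⟩))
    exact mul_mem (mul_mem (inv_mem hx) (hS' hy.1)) hx
  have h2 := hmin _ ⟨_, (isSylowIn_top P).conj_smul_of_mem_normalizer (Subgroup.le_normalizer trivial), rfl⟩ h1
  intro y hy
  have : x * y * x⁻¹ ∈ (S : Subgroup G) ⊓ MulAut.conj x • (P : Subgroup G) := h2 ▸ conj_mem_of_mem_normalizer hx hy
  exact conj_mem_conj_smul.1 this.2

end Cfsg.Agent.S0060
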