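import Cfsg.Statements.S0064
import Cfsg.Agent.L.Fitting

set_option autoImplicit false
open Cfsg

namespace Cfsg.Agent.S0064

open Cfsg.Agent

/-- A finite group is nilpotent exactly when each of its subgroups is subnormal. -/
theorem result {G : Type*} [Group G] [Finite G] :
    Group.IsNilpotent G ↔ ∀ H : Subgroup G, H.IsSubnormal := by
  refine ⟨fun _ H => L.isSubnormal_of_isNilpotent H, fun h => L.isNilpotent_of_coatom_normal fun M hM => ?_⟩
  obtain ⟨K, h1, h2, h3⟩ := (h M).exists_normal_and_le_and_lt_top_of_ne hM.1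
  rcases eq_or_lt_of_le h2 with rfl | h4
  · exact h1
  · exact absurd (hM.2 K h4) h3.ne

end Cfsg.Agent.S0064
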