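import Cfsg.Statements.S0067
import Cfsg.Agent.H8.Radical

set_option autoImplicit false
open Pointwise
open Cfsg

namespace Cfsg.Agent.S0067

open Cfsg.Agent.H8


/-- If the join of a subgroup A with each of its conjugates is nilpotent, then A is subnormal in the finite group and contained in the Fitting subgroup. -/
theorem result {G : Type*} [Group G] [Finite G] (A : Subgroup G)
    (h : ∀ g : G, Group.IsNilpotent (A ⊔ MulAut.conj g • A : Subgroup G)) : A.IsSubnormal ∧ A ≤ Cfsg.fittingSubgroup G := by
  have h1 : SN ⊤ A := sn_of_sn_sup_cj le_top fun x _ => sn_of_nilpotent (h x) le_sup_left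
  refine ⟨h1.isSubnormal, ?_⟩
  rw [← Fit_top]
  exact le_Fit_of_sn h1 (nilpotent_of_le le_sup_left (h 1))

end Cfsg.Agent.S0067
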