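import Cfsg.Statements.S0068
import Cfsg.Agent.L.Frob2

set_option autoImplicit false
open Cfsg

namespace Cfsg.Agent.S0068

open Cfsg.Agent
open scoped Pointwise commutatorElement

/-- Frobenius complements of even order: if H complements a nontrivial normal subgroup K, each nonidentity element of H has trivial centraliser in K, and H has even order, then H contains a unique involution s, K is abelian, and s inverts every element of K. -/
theorem result {G : Type*} [Group G] [Finite G] (K H : Subgroup G) [K.Normal]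
    (hc : Subgroup.IsComplement' K H) (hK : K ≠ ⊥) (hfpf : ∀ h ∈ H, h ≠ 1 → K ⊓ Subgroup.centralizer {h} = ⊥)
    (heven : 2 ∣ Nat.card H) :
    (∃ s ∈ H, orderOf s = 2 ∧ (∀ t ∈ H, orderOf t = 2 → t = s) ∧ ∀ k ∈ K, s * k * s⁻¹ = k⁻¹) ∧ IsMulCommutative K := by
    have : Fact (Nat.Prime 2) := ⟨Nat.prime_two⟩
    obtain ⟨s, hs⟩ := exists_prime_orderOf_dvd_card' 2 heven
    have hs2 : orderOf (s : G) = 2 := by rwa [Subgroup.orderOf_coe]
    have hs' : (s : G) * s = 1 := by rw [← sq, ← hs2, pow_orderOf_eq_one]
    have h := L.inverts_of_involution (K := K) hs' (Subgroup.le_normalizer_of_normal (H := K) (K := ⊤) trivial)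
      (hfpf s s.2 (by intro e; simp [e] at hs2))
    exact ⟨⟨s, s.2, hs2, fun t ht ht2 =>
      L.FPF.unique_involution hfpf Subgroup.le_normalizer_of_normal hK s.2 ht hs2 ht2, h.1⟩, h.2⟩

end Cfsg.Agent.S0068
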