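import Cfsg.Statements.S0073
import Cfsg.Agent.GS.Misc1

set_option autoImplicit false
open Cfsg

namespace Cfsg.Agent.S0073

open Cfsg.Agent.H1

/-- For a finite non-abelian simple group, either the cube of the least prime divisor of the order divides the order, or 12 does. -/
theorem result {G : Type*} [Group G] [Finite G] [IsSimpleGroup G] (hG : ∃ x y : G, x * y ≠ y * x) : (Nat.card G).minFac ^ 3 ∣ Nat.card G ∨ 12 ∣ Nat.card G := by
  open Subgroup Pointwise commutatorElement Cfsg.Agent.BG Cfsg.Agent.GS in
  open Cfsg.Agent.H2 hiding card_lt_of_lt card_lt_of_ne_top isMulCommutative_of_le isPGroup_zpowers_iff mem_of_pow_mem_of_coprime inf_eq_bot_of_cop exists_maxElem_ge Sec in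
  open Cfsg.Agent.H8 (Op Opp Fit SN) in
  open Cfsg.Agent.L (FPF) in focus
    have hp : (♯G).minFac.Prime := Nat.minFac_prime Finite.one_lt_card.ne'
    haveI := Fact.mk hp
    obtain ⟨q, a, b, hq, c1, c, d, e, f⟩ := exists_of_not_npc (not_npc_of_simple (fun h => by
      obtain ⟨x, y, e⟩ := hG; exact e (h.is_comm.comm x y)) (Nat.minFac_dvd _))
    have l := Nat.minFac_le_of_dvd hq.two_le c
    have := hp.two_le
    refine (le_or_gt 3 a).imp (fun h => (pow_dvd_pow _ h).trans e) fun h => ?_
    generalize (♯G).minFac = p at *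
    have n : ¬ q ∣ p - 1 := fun h => by have := Nat.le_of_dvd (by omega) h; omega
    obtain g | g : a - b = 1 ∨ a - b = 2 := by omega
    · exact absurd (by simpa [g] using f) n
    rw [g, ← one_pow 2, Nat.sq_sub_sq, hq.dvd_mul, or_iff_left n] at f
    have : q = p + 1 := by have := Nat.le_of_dvd (by omega) f; omega
    obtain rfl : p = 2 := by
      rcases hp.eq_two_or_odd' with h | h
      exacts [h, absurd (hq.even_iff.1 (this ▸ h.add_one)) (by omega)]
    subst this
    exact (by decide : Nat.Coprime 3 (2 ^ 2)).mul_dvd_of_dvd_of_dvd c ((pow_dvd_pow 2 (by omega)).trans e)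

end Cfsg.Agent.S0073
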