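import Cfsg.Statements.S0076
import Mathlib
import Cfsg.Agent.H2.Transfer

set_option autoImplicit false
open Cfsg

namespace Cfsg.Agent.S0076

open Cfsg.Agent.H2 Subgroup

theorem aux {G : Type*} [Group G] (X : Set G) (g : G) :
    g ∈ normalizer X ↔ (fun y => g * y * g⁻¹) '' X = X := by
  rw [mem_set_normalizer_iff]
  constructor
  · intro h
    ext y
    constructor
    · rintro ⟨x, hx, rfl⟩
      exact (h x).1 hx
    · intro hy
      exact ⟨g⁻¹ * y * g, (h _).2 (by simpa [mul_assoc] using hy), by simp [mul_assoc]⟩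
  · intro h x
    constructor
    · intro hx
      rw [← h]
      exact ⟨x, hx, rfl⟩
    · intro hx
      rw [← h] at hx
      obtain ⟨y, hy, e⟩ := hx
      have : y = x := by simpa using e
      rwa [← this]

/-- Two P-invariant subsets of a Sylow p-subgroup P that are conjugate in G are conjugate under the normalizer of P. -/
theorem result {G : Type*} [Group G] [Finite G] {p : ℕ} [Fact p.Prime] (P : Sylow p G) (X Y : Set G) (hXP : X ⊆ P) (hYP : Y ⊆ P) (hX : ∀ x ∈ P, (fun y => x * y * x⁻¹) '' X = X) (hY : ∀ x ∈ P, (fun y => x * y * x⁻¹) '' Y = Y) (g : G) (hg : (fun y => g * y * g⁻¹) '' X = Y) : ∃ n ∈ Subgroup.normalizer (P : Set G), (fun y => n * y * n⁻¹) '' X = Y := by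
  have h1 : (P : Subgroup G) ≤ normalizer X := fun x hx => (aux X x).2 (hX x hx)
  have h2 : cj g⁻¹ (P : Subgroup G) ≤ normalizer X := by
    rw [cj_le_iff_forall]
    intro y hy
    rw [aux]
    have h3 := hY y hy
    have e1 : (fun y => g⁻¹ * y * g) '' Y = X := by
      rw [← hg, Set.image_image]
      simp [mul_assoc]
    rw [← e1]
    conv_rhs => rw [← h3]
    rw [Set.image_image, Set.image_image]
    simp [mul_assoc]
  obtain ⟨n, -, hn, c, -, hc, rfl⟩ := (sylIn_top P).exists_normalizer_mul (mem_top g) h1 h2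
  refine ⟨n, hn, ?_⟩
  rw [← hg]
  conv_lhs => rw [← (aux X c).1 hc]
  rw [Set.image_image]
  simp [mul_assoc]

end Cfsg.Agent.S0076
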