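import Cfsg.Statements.S0077
import Mathlib
import Cfsg.Agent.H2.Transfer

set_option autoImplicit false
open Cfsg

namespace Cfsg.Agent.S0077

open Cfsg.Agent.H2 Subgroup

/-- If a subgroup Z of the centre of a Sylow p-subgroup P is weakly closed in P, then P meets the derived subgroup of G exactly where it meets the derived subgroup of the normalizer of Z. -/
theorem result {G : Type*} [Group G] [Finite G] {p : ℕ} [Fact p.Prime] (P : Sylow p G) (Z : Subgroup G) (hZ : Z ≤ Subgroup.centralizer (P : Set G)) (hW : Cfsg.IsWeaklyClosed Z P) : commutator G ⊓ (P : Subgroup G) = ⁅Subgroup.normalizer (Z : Set G), Subgroup.normalizer (Z : Set G)⁆ ⊓ (P : Subgroup G) := by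
  have hZ' : (P : Subgroup G) ≤ centralizer (Z : Set G) := le_centralizer_iff.1 hZ
  have h := (sylIn_top P).inf_commutator_eq_of_control (H := normalizer (Z : Set G))
    (hZ'.trans (centralizer_le_normalizer _)) le_top (fun x hx u hu hux => by
      obtain ⟨v, -, hv, e⟩ := (sylIn_top P).conj_of_weaklyClosed hW.1 (fun g _ => hW.2 g) hu
        (hZ' hx) (hZ' hux)
      exact ⟨v, hv, e⟩)
  rw [inf_comm, inf_comm _ (P : Subgroup G)]
  exact h

end Cfsg.Agent.S0077
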