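import Cfsg.Statements.S0078
import Mathlib
import Cfsg.Agent.H2.Transfer

set_option autoImplicit false
open Cfsg

namespace Cfsg.Agent.S0078

open Cfsg.Agent.H2 Subgroup

/-- In a p-normal group, a Sylow p-subgroup P meets O^p(G) exactly where it meets O^p(V), for any subgroup V containing the normalizer of the centre of P. -/
theorem result {G : Type*} [Group G] [Finite G] {p : ℕ} [Fact p.Prime] (P : Sylow p G) (hn : ∀ Q : Sylow p G, (P : Subgroup G) ⊓ Subgroup.centralizer (P : Set G) ≤ (Q : Subgroup G) → (Q : Subgroup G) ⊓ Subgroup.centralizer (Q : Set G) = (P : Subgroup G) ⊓ Subgroup.centralizer (P : Set G)) (V : Subgroup G) (hV : Subgroup.normalizer (((P : Subgroup G) ⊓ Subgroup.centralizer (P : Set G) : Subgroup G) : Set G) ≤ V) : (P : Subgroup G) ⊓ Cfsg.pResidual p G = (P : Subgroup G) ⊓ (Cfsg.pResidual p V).map V.subtype := by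
  set Z : Subgroup G := (P : Subgroup G) ⊓ Subgroup.centralizer (P : Set G) with hZ
  have hZ' : (P : Subgroup G) ≤ centralizer (Z : Set G) := le_centralizer_iff.1 inf_le_right
  have hW : ∀ g ∈ (⊤ : Subgroup G), cj g Z ≤ P → cj g Z = Z := by
    intro g _ hg
    rw [cj_le_iff, ← coe_smul_sylow] at hg
    have h1 := hn _ hg
    have h2 : cj g⁻¹ Z = Z := by
      refine Eq.trans ?_ h1
      rw [hZ, cj_inf]
      change _ = ((g⁻¹ • P : Sylow p G) : Subgroup G) ⊓ centralizer (((g⁻¹ • P : Sylow p G) : Subgroup G) : Set G)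
      rw [coe_smul_sylow, ← cj_centralizer]
      rfl
    rw [cj_eq_iff, h2]
  rw [pResidual_map_subtype, ← resOf_top]
  refine (sylIn_top P).inf_resOf_eq_of_control
    ((hZ'.trans (centralizer_le_normalizer _)).trans hV) le_top (fun x hx u hu hux => ?_)
  obtain ⟨v, -, hv, e⟩ := (sylIn_top P).conj_of_weaklyClosed inf_le_left hW (mem_top u)
    (hZ' hx.1) (hZ' hux)
  exact ⟨v, hV hv, e⟩

end Cfsg.Agent.S0078
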