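import Cfsg.Statements.S0079
import Mathlib
import Cfsg.Agent.H2.SL23

set_option autoImplicit false
open Cfsg

namespace Cfsg.Agent.S0079

open Cfsg.Agent.H2 Subgroup

/-- A nilpotent Hall subgroup has a normal complement exactly when elements of it that are conjugate in the whole group are already conjugate inside it. -/
theorem result {G : Type*} [Group G] [Finite G] (H : Subgroup G) (hH : Group.IsNilpotent H) (hHall : Nat.Coprime (Nat.card H) H.index) : (∃ N : Subgroup G, N.Normal ∧ N.IsComplement' H) ↔ ∀ x ∈ H, ∀ y ∈ H, (∃ g : G, g * x * g⁻¹ = y) → ∃ h ∈ H, h * x * h⁻¹ = y := by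
  constructor
  · rintro ⟨N, hN, hc⟩ x hx y hy ⟨g, rfl⟩
    obtain ⟨⟨n, h⟩, rfl⟩ := hc.2 g
    refine ⟨h, h.2, ?_⟩
    have h1 : (h : G) * x * (h : G)⁻¹ ∈ H := mul_mem (mul_mem h.2 hx) (inv_mem h.2)
    have h2 := mul_mem (inv_mem h1) hy
    have h3 := mul_mem (hN.conj_mem' _ n.2 ((h : G) * x * (h : G)⁻¹)) (inv_mem n.2)
    rw [← inv_mul_eq_one, ← mem_bot, ← hc.disjoint.eq_bot]
    refine mem_inf.2 ⟨?_, h2⟩
    convert h3 using 1
    group
  · intro h
    refine exists_complement_of_forall_pNil hHall fun q hq hd => ?_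
    haveI := Fact.mk hq
    obtain ⟨P, hP⟩ := exists_sylIn q H
    have hP' : SylIn q P ⊤ := hP.trans_of_not_dvd le_top (by
      rw [relIndex_top_right]
      exact fun e => hq.one_lt.ne' (Nat.eq_one_of_dvd_coprimes hHall hd e))
    exact hP'.pNil_of_control' hP.le le_top (pNil_of_isNilpotent hH)
      fun x hx u _ hu => h x (hP.le hx.1) _ (hP.le hu) ⟨u, rfl⟩

end Cfsg.Agent.S0079
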