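import Cfsg.Statements.S0080
import Mathlib
import Cfsg.Agent.H2.Transfer

set_option autoImplicit false
open Cfsg

namespace Cfsg.Agent.S0080

open Cfsg.Agent.H2 Subgroup

/-- When the index of H is prime to the order of H/H', the focal subgroup of H is G' ∩ H, and H/(G' ∩ H) has a normal complement. -/
theorem result {G : Type*} [Group G] [Finite G] (H : Subgroup G) (h : Nat.Coprime H.index (⁅H, H⁆.relIndex H)) : Subgroup.focalSubgroup H = commutator G ⊓ H ∧ ∃ N : Subgroup G, N.Normal ∧ N ⊓ H = commutator G ⊓ H ∧ N ⊔ H = ⊤ := by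
  have hf : ∀ x ∈ H, ∀ u : G, u * x * u⁻¹ ∈ H → u * x * u⁻¹ * x⁻¹ ∈ focalSubgroup H := by
    intro x hx u hux
    refine subset_closure ⟨H.mul_mem hux (H.inv_mem hx), u * x * u⁻¹, hux, u⁻¹, ?_⟩
    rw [commutatorElement_def]; group
  obtain ⟨M, h1, h2, h3, h4⟩ := exists_transfer_ker (H := H) (D := focalSubgroup H)
    (commutator_le_focalSubgroup H)
  have hc : (focalSubgroup H).relIndex H ∣ ⁅H, H⁆.relIndex H :=
    relIndex_dvd_of_le_left H (commutator_le_focalSubgroup H)
  have hc2 : H.index.Coprime ((focalSubgroup H).relIndex H) := Nat.Coprime.coprime_dvd_right hc h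
  have key : ∀ g ∈ H, g ∈ M ↔ g ∈ focalSubgroup H := by
    intro g hg
    rw [h4 g hg (fun k a ha => hf _ (H.pow_mem hg k) a ha)]
    refine ⟨fun h5 => ?_, fun h5 => pow_mem h5 _⟩
    haveI := normal_subgroupOf_of_commutator_le (commutator_le_focalSubgroup H)
    have h6 : g ^ (focalSubgroup H).relIndex H ∈ focalSubgroup H :=
      ((focalSubgroup H).subgroupOf H).pow_index_mem ⟨g, hg⟩
    have := Nat.gcd_eq_gcd_ab H.index ((focalSubgroup H).relIndex H)
    rw [hc2] at this
    have e : g = (g ^ H.index) ^ H.index.gcdA ((focalSubgroup H).relIndex H) *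
        (g ^ (focalSubgroup H).relIndex H) ^ H.index.gcdB ((focalSubgroup H).relIndex H) := by
      rw [← zpow_natCast, ← zpow_natCast, ← zpow_mul, ← zpow_mul, ← zpow_add, ← this]
      simp
    rw [e]
    exact mul_mem (zpow_mem h5 _) (zpow_mem h6 _)
  have e1 : focalSubgroup H = commutator G ⊓ H :=
    le_antisymm (le_inf (focalSubgroup_le_commutator H) (focalSubgroup_le H))
      (fun x hx => (key x hx.2).1 (h2 hx.1))
  refine ⟨e1, M, h1, ?_, ?_⟩
  · rw [← e1]
    ext x
    exact ⟨fun hx => (key x hx.2).1 hx.1, fun hx => ⟨(key x (focalSubgroup_le H hx)).2 hx,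
      focalSubgroup_le H hx⟩⟩
  · rw [← index_eq_one]
    exact Nat.eq_one_of_dvd_coprimes hc2 (index_dvd_of_le le_sup_right)
      ((index_dvd_of_le le_sup_left).trans h3)

end Cfsg.Agent.S0080
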