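import Cfsg.Statements.S0081
import Mathlib
import Cfsg.Agent.H2.Transfer
import Cfsg.Agent.H1.Frattini

set_option autoImplicit false
open Cfsg

namespace Cfsg.Agent.S0081

open Cfsg.Agent.H2 Subgroup

/-- If a normal subgroup meets a Sylow p-subgroup P inside the Frattini subgroup of P, then it has a normal p-complement. -/
theorem result {G : Type*} [Group G] [Finite G] {p : ℕ} [Fact p.Prime] (P : Sylow p G) (N : Subgroup G) [N.Normal] (h : N ⊓ (P : Subgroup G) ≤ (frattini P).map (P : Subgroup G).subtype) : Cfsg.HasNormalPComplement p N := by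
  rw [hasNPC_iff]
  set K : Subgroup G := N ⊔ P with hK
  have hPK : (P : Subgroup G) ≤ K := le_sup_right
  have h1 : SylIn p ((P : Subgroup G).subgroupOf K) ⊤ := by
    rw [← subgroupOf_self K, sylIn_subgroupOf_iff le_rfl hPK]
    exact sylIn_of_le P hPK
  have h2 : resOf p K ≤ N :=
    resOf_le_of_sup (by rw [normalizer_eq_top]; exact le_top) P.2 hPK le_rfl
  have h3 := pNil_of_inf_le_frattini h1 (by
    rw [pResidual_eq_subgroupOf, ← map_subtype_le_map_subtype]
    refine le_trans ?_ (h.trans (le_of_eq ?_))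
    · rintro _ ⟨x, hx, rfl⟩
      exact ⟨h2 hx.2, hx.1⟩
    · rw [H1.map_map_frattini h1.pgrp, map_subgroupOf_eq_of_le hPK])
  rw [pNil_top_subtype_iff] at h3
  exact h3.mono le_sup_left

end Cfsg.Agent.S0081
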