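import Cfsg.Statements.S0082
import Mathlib
import Cfsg.Agent.H2.Transfer

set_option autoImplicit false
open Cfsg

namespace Cfsg.Agent.S0082

open Cfsg.Agent.H2 Subgroup

/-- With a cyclic Sylow p-subgroup, either there is a normal p-complement or the elements of order prime to p generate the whole group. -/
theorem result {G : Type*} [Group G] [Finite G] {p : ℕ} [Fact p.Prime] (P : Sylow p G) (hP : IsCyclic P) : Cfsg.HasNormalPComplement p G ∨ Cfsg.pResidual p G = ⊤ := by
  rcases Sylow.normalizer_le_centralizer_or_le_commutator P with h | h
  · left
    rw [hasNPC_iff_top]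
    exact (sylIn_top P).pNil_of_normalizer_le (inf_le_right.trans h)
  · right
    by_contra hne
    obtain ⟨H, hH, hi⟩ : ∃ H : Subgroup G, H.Normal ∧ H.index = p := by
      by_contra hcon
      push Not at hcon
      exact hne (pResidual_eq_top_iff_no_index.2 hcon)
    have h1 : commutator G ≤ H := L.commutator_le_of_index_prime (by rw [hi]; exact Fact.out)
    have h2 := P.not_dvd_index
    have h3 := index_dvd_of_le (h.trans h1)
    rw [hi] at h3
    exact h2 h3

end Cfsg.Agent.S0082
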