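import Cfsg.Statements.S0083
import Mathlib
import Cfsg.Agent.H2.Transfer

set_option autoImplicit false
open Cfsg

namespace Cfsg.Agent.S0083

open Cfsg.Agent.H2 Subgroup

/-- For an abelian Sylow p-subgroup P, a normal p-complement exists exactly when the normalizer of P is an internal direct product of P with some subgroup. -/
theorem result {G : Type*} [Group G] [Finite G] {p : ℕ} [Fact p.Prime] (P : Sylow p G) (hP : IsMulCommutative P) : Cfsg.HasNormalPComplement p G ↔ ∃ Q : Subgroup G, Q ≤ Subgroup.centralizer (P : Set G) ∧ Q ⊓ (P : Subgroup G) = ⊥ ∧ Q ⊔ (P : Subgroup G) = Subgroup.normalizer (P : Set G) := by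
  rw [hasNPC_iff_top]
  constructor
  · intro h
    refine ⟨resOf p (normalizer ((P : Subgroup G) : Set G)), ?_, ?_, ?_⟩
    · exact (h.mono le_top).resOf_le_centralizer P.2 le_normalizer le_rfl
    · rw [inf_comm]
      exact (h.mono le_top).inf_eq_bot P.2
    · exact (sylIn_of_le P le_normalizer).resOf_sup
  · rintro ⟨Q, h1, -, h3⟩
    refine (sylIn_top P).pNil_of_normalizer_le (inf_le_right.trans ?_)
    exact h3.ge.trans (sup_le h1 le_centralizer_self_of_comm)

end Cfsg.Agent.S0083
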