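import Cfsg.Statements.S0085
import Cfsg.Agent.GS.Misc1

set_option autoImplicit false
open Cfsg

namespace Cfsg.Agent.S0085

open Cfsg.Agent.H1

/-- A group whose Sylow 2-subgroups are elementary abelian of order 8 and whose order is prime to 3 and to 7 has a normal 2-complement. -/
theorem result {G : Type*} [Group G] [Finite G] (T : Sylow 2 G) (h8 : Nat.card T = 8) (he : ∀ x : T, x * x = 1) (h3 : ¬ 3 ∣ Nat.card G) (h7 : ¬ 7 ∣ Nat.card G) : Cfsg.HasNormalPComplement 2 G := by
  open Subgroup Pointwise commutatorElement Cfsg.Agent.BG Cfsg.Agent.GS in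
  open Cfsg.Agent.H2 hiding card_lt_of_lt card_lt_of_ne_top isMulCommutative_of_le isPGroup_zpowers_iff mem_of_pow_mem_of_coprime inf_eq_bot_of_cop exists_maxElem_ge Sec in
  open Cfsg.Agent.H8 (Op Opp Fit SN) in
  open Cfsg.Agent.L (FPF) in focus
    by_contra h
    obtain ⟨q, a, b, hq, -, c, d, e, f⟩ := exists_of_not_npc h
    have : a ≤ 3 := (Nat.pow_dvd_pow_iff_le_right' (b := 0)).1 ((T.pow_dvd_card_of_pow_dvd_card e).trans h8.dvd)
    obtain g | g | g : a - b = 1 ∨ a - b = 2 ∨ a - b = 3 := by omega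
    · exact hq.ne_one (by simpa [g] using f)
    · exact h3 ((Nat.prime_dvd_prime_iff_eq hq Nat.prime_three).1 (by simpa [g] using f) ▸ c)
    · exact h7 ((Nat.prime_dvd_prime_iff_eq hq (by decide : Nat.Prime 7)).1 (by simpa [g] using f) ▸ c)

end Cfsg.Agent.S0085
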