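import Cfsg.Statements.S0086
import Mathlib
import Cfsg.Agent.H2.Transfer

set_option autoImplicit false
open Cfsg

namespace Cfsg.Agent.S0086

open Cfsg.Agent.H2 Subgroup

/-- A normal complement to a Sylow p-subgroup is exactly the set of elements of order prime to p. -/
theorem result {G : Type*} [Group G] [Finite G] {p : ℕ} [Fact p.Prime] (P : Sylow p G) (N : Subgroup G) [N.Normal] (hN : N.IsComplement' (P : Subgroup G)) (x : G) : x ∈ N ↔ Nat.Coprime (orderOf x) p := by
  have hc : (Nat.card N).Coprime p := by
    rw [← hN.index_eq_card]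
    exact H8.coprime_iff_not_dvd.2 P.not_dvd_index
  refine ⟨fun hx => H8.orderOf_coprime_of_mem hc hx, fun hx => ?_⟩
  obtain ⟨k, hk⟩ := P.2.exists_card_eq
  exact pResidual_le_of_index (k := k) (by rw [hN.symm.index_eq_card, hk]) (mem_pResidual hx)

end Cfsg.Agent.S0086
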