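import Cfsg.Statements.S0087
import Mathlib
import Cfsg.Agent.H2.SL23
import Cfsg.Agent.S0079
import Cfsg.Agent.S0581

set_option autoImplicit false
open Cfsg

namespace Cfsg.Agent.S0087

open Cfsg.Agent.H2 Subgroup

/-- A Hall subgroup that is central in its normalizer has a normal complement. -/
theorem result {G : Type*} [Group G] [Finite G] (H : Subgroup G) (hHall : Nat.Coprime (Nat.card H) H.index) (h : Subgroup.normalizer (H : Set G) ≤ Subgroup.centralizer (H : Set G)) : ∃ N : Subgroup G, N.Normal ∧ N.IsComplement' H := by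
  have hc : H ≤ centralizer (H : Set G) := le_normalizer.trans h
  haveI : IsMulCommutative H := isMulCommutative_iff_le.2 hc
  have hH : Group.IsNilpotent H := by
    letI := IsMulCommutative.instCommGroup (G := H); infer_instance
  refine (S0079.result H hH hHall).2 ?_
  rintro x hx _ hy ⟨g, rfl⟩
  refine ⟨1, one_mem _, ?_⟩
  set C := centralizer ({g * x * g⁻¹} : Set G)
  have h1 : H ≤ C := fun a ha => mem_cent1.2 (hc hy a ha)
  have h2 : cj g H ≤ C := by
    rw [show C = cj g (centralizer {x}) from (cj_centralizer_singleton g x).symm]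
    exact cj_mono g fun a ha => mem_cent1.2 (hc hx a ha)
  obtain ⟨c, hc'⟩ := S0581.result (H.subgroupOf C) ((cj g H).subgroupOf C)
    (nilpotent_of_mulEquiv (subgroupOfEquivOfLe h1).symm) (by
      rw [H8.card_subgroupOf_of_le h1]
      exact hHall.coprime_dvd_right (relIndex_dvd_index_of_le h1))
    (fun p _ e => by rwa [H8.card_subgroupOf_of_le h2, card_cj, ← H8.card_subgroupOf_of_le h1] at e)
  have h3 : (c : G)⁻¹ * g ∈ normalizer (H : Set G) := by
    refine mem_normalizer_of_cj_le (cj_le_iff_forall.2 fun a ha => ?_)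
    have := hc' (x := ⟨_, h2 (conj_mem_cj g ha)⟩) (conj_mem_cj g ha)
    rw [← H8.cj_eq_smul, H8.mem_cj, mem_subgroupOf] at this
    simpa [mul_assoc] using this
  have h4 := h h3 x hx
  have h5 := mem_cent1.1 c.2
  rw [one_mul, inv_one, mul_one]
  calc x = (c : G)⁻¹ * (g * x * g⁻¹) * c := by
        rw [← mul_assoc, ← mul_assoc, ← h4]; group
    _ = _ := by rw [mul_assoc, ← h5.eq]; group

end Cfsg.Agent.S0087
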