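import Cfsg.Statements.S0088
import Mathlib
import Cfsg.Agent.H2.Transfer

set_option autoImplicit false
open Cfsg

namespace Cfsg.Agent.S0088

open Cfsg.Agent.H2 Subgroup

/-- An abelian Hall subgroup meets G' ∩ Z(G) trivially. -/
theorem result {G : Type*} [Group G] [Finite G] (H : Subgroup G) (hc : IsMulCommutative H) (hHall : Nat.Coprime (Nat.card H) H.index) : H ⊓ commutator G ⊓ Subgroup.center G = ⊥ := by
  rw [eq_bot_iff]
  rintro x ⟨⟨h1, h2⟩, h3⟩
  refine eq_one_of_mem_commutator_center (K := ⊤) le_top h1 ?_ h2 ?_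
  · rw [relIndex_top_right]
    exact H8.orderOf_coprime_of_mem hHall h1
  · rw [coe_top, centralizer_univ]
    exact h3

end Cfsg.Agent.S0088
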