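import Cfsg.Statements.S0089
import Mathlib
import Cfsg.Agent.H2.Transfer

set_option autoImplicit false
open Cfsg

namespace Cfsg.Agent.S0089

open Cfsg.Agent.H2 Subgroup

/-- When all Sylow subgroups are abelian, the derived subgroup meets the centre trivially. -/
theorem result {G : Type*} [Group G] [Finite G] (h : ∀ p : ℕ, p.Prime → ∀ P : Sylow p G, IsMulCommutative P) : commutator G ⊓ Subgroup.center G = ⊥ := by
  by_contra hne
  obtain ⟨p, hp, hd⟩ := Nat.exists_prime_and_dvd (n := Nat.card ↥(commutator G ⊓ center G))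
    (by rwa [Ne, Subgroup.card_eq_one])
  haveI := Fact.mk hp
  obtain ⟨x, hx, ho⟩ := H8.exists_orderOf_eq_prime hd
  obtain ⟨P, hP⟩ := (isPGroup_zpowers_of_orderOf (k := 1) (by rw [ho, pow_one])).exists_le_sylow
  haveI := h p hp P
  have := eq_one_of_mem_commutator_center (K := ⊤) (H := (P : Subgroup G)) le_top
    (hP (mem_zpowers x)) (by
      rw [relIndex_top_right, ho]
      exact hp.coprime_iff_not_dvd.2 P.not_dvd_index) hx.1 (by
      rw [coe_top, centralizer_univ]; exact hx.2)
  rw [this, orderOf_one] at ho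
  exact hp.one_lt.ne ho

end Cfsg.Agent.S0089
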