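import Cfsg.Statements.S0090
import Mathlib
import Cfsg.Agent.H2.Transfer

set_option autoImplicit false
open Cfsg

namespace Cfsg.Agent.S0090

open Cfsg.Agent.H2 Subgroup

/-- An abelian normal Hall subgroup A splits as the internal direct product of G' ∩ A and Z(G) ∩ A, and [A, G] = G' ∩ A. -/
theorem result {G : Type*} [Group G] [Finite G] (A : Subgroup G) [A.Normal] (hc : IsMulCommutative A) (hHall : Nat.Coprime (Nat.card A) A.index) : ⁅A, (⊤ : Subgroup G)⁆ = commutator G ⊓ A ∧ (commutator G ⊓ A) ⊓ (Subgroup.center G ⊓ A) = ⊥ ∧ (commutator G ⊓ A) ⊔ (Subgroup.center G ⊓ A) = A := by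
  have h1 : ⁅A, (⊤ : Subgroup G)⁆ = commutator G ⊓ A := by
    refine le_antisymm (le_inf (commutator_mono le_top le_rfl) (commutator_le_left _ _)) ?_
    rintro x ⟨hx1, hx2⟩
    have := pow_relIndex_mem_of_fusion (K := ⊤) (H := A) (D := ⁅A, (⊤ : Subgroup G)⁆) le_top
      (fun x hx u hu _ => by
        rw [commutator_comm]
        exact commutator_mem_commutator hu hx) hx2 hx1
    rw [relIndex_top_right] at this
    exact mem_of_pow_mem_of_coprime this (H8.orderOf_coprime_of_mem hHall hx2)
  refine ⟨h1, ?_, ?_⟩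
  · rw [eq_bot_iff]
    rintro x ⟨⟨h2, h3⟩, h4, -⟩
    refine eq_one_of_mem_commutator_center (K := ⊤) le_top h3 ?_ h2 ?_
    · rw [relIndex_top_right]
      exact H8.orderOf_coprime_of_mem hHall h3
    · rw [coe_top, centralizer_univ]
      exact h4
  · refine le_antisymm (sup_le inf_le_right inf_le_right) ?_
    have := le_centralizer_sup_commutator (A := A) (H := ⊤) (H8.normal_iff_top_le.1 inferInstance)
      (by
        rw [relIndex_top_right]
        exact Nat.Coprime.coprime_dvd_right (index_dvd_of_le le_centralizer_self_of_comm) hHall)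
    rw [h1, coe_top, centralizer_univ, sup_comm, inf_comm A] at this
    exact this

end Cfsg.Agent.S0090
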