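import Cfsg.Statements.S0091
import Mathlib
import Cfsg.Agent.H2.Transfer

set_option autoImplicit false
open Cfsg

namespace Cfsg.Agent.S0091

open Cfsg.Agent.H2 Subgroup

/-- If a nontrivial Sylow p-subgroup controls its own fusion then it is not contained in the derived subgroup. -/
theorem result {G : Type*} [Group G] [Finite G] {p : ℕ} [Fact p.Prime] (P : Sylow p G) (hp : p ∣ Nat.card G) (h : ∀ x ∈ P, ∀ y ∈ P, (∃ g : G, g * x * g⁻¹ = y) → ∃ z ∈ P, z * x * z⁻¹ = y) : ¬ (P : Subgroup G) ≤ commutator G := by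
  intro hle
  have h1 := (sylIn_top P).inf_commutator_eq_of_control le_rfl le_top
    (fun x hx u _ hux => h x hx _ hux ⟨u, rfl⟩)
  haveI := P.2.isNilpotent
  refine L.not_le_commutator_of_isNilpotent (le_refl (P : Subgroup G))
    ((sylIn_top P).ne_bot (by simpa using hp)) ?_
  exact (le_inf le_rfl hle).trans (h1.le.trans inf_le_right)

end Cfsg.Agent.S0091
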