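import Cfsg.Statements.S0092
import Mathlib
import Cfsg.Agent.H2.SL23

set_option autoImplicit false
open Cfsg

namespace Cfsg.Agent.S0092

open Cfsg.Agent.H2 Subgroup
open scoped commutatorElement Pointwise

/-- If the Sylow p-subgroups of O^p(G) are abelian then G splits over O^p(G). -/
theorem result {G : Type*} [Group G] [Finite G] {p : ℕ} [Fact p.Prime] (h : ∀ Q : Sylow p (Cfsg.pResidual p G), IsMulCommutative Q) : ∃ K : Subgroup G, K.IsComplement' (Cfsg.pResidual p G) := by
  set K := pResidual p G
  obtain ⟨Q, hQ⟩ := exists_sylIn p K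
  haveI : IsMulCommutative Q := by
    obtain ⟨S, rfl⟩ := hQ.exists_sylow'
    haveI := h S; infer_instance
  have hK : resOf p K = K := by rw [show K = resOf p ⊤ from (resOf_top p).symm, resOf_resOf]
  have h1 := hQ.inf_resOf_of_comm
  rw [hK, inf_eq_left.2 hQ.le] at h1
  set N := K ⊓ normalizer (Q : Set G)
  have hQN : Q ≤ N := le_inf hQ.le le_normalizer
  have hcop := (hQ.mono hQN inf_le_left).coprime
  obtain ⟨H, hH, h2', h3', hc'⟩ := H1.exists_complement_of_coprime hQN inf_le_right hcop
  have h2 := (inf_comm Q H).trans h2'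
  have h3 := (sup_comm Q H).trans h3'
  have hHQ : H ≤ normalizer (Q : Set G) := hH.trans inf_le_right
  have hc : (Nat.card H).Coprime (Nat.card Q) := hc' ▸ hcop.symm
  have h4 : Q ⊓ centralizer (H : Set G) = ⊥ := by
    have h5 : ⁅Q, H⁆ = Q := by
      refine le_antisymm (H8.commutator_le_left_of_norm hHQ) ?_
      conv_lhs => rw [h1, ← h3, Subgroup.commutator_comm]
      rw [Subgroup.commutator_comm Q H]
      refine H8.commutator_sup_le_of_norm ?_ le_rfl (sup_le (H8.le_normalizer_of_le_centralizer
        (le_centralizer_self_of_comm.trans (centralizer_le (H8.commutator_le_right_of_norm hHQ))))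
        (H8.le_normalizer_commutator le_normalizer hHQ))
      rw [isMulCommutative_iff_comm.1 inferInstance]; exact bot_le
    have := H1.centralizer_inf_commutator_eq_bot hHQ hc
    rwa [h5, inf_right_comm, inf_idem] at this
  obtain ⟨P, hP⟩ := exists_sylIn p (normalizer (Q : Set G) ⊓ normalizer (H : Set G))
  have h5 : P ⊓ K = ⊥ := by
    rw [eq_bot_iff, ← h4]
    have h6 : P ⊓ K ≤ Q := hQ.le_of_le_normalizer (hP.pgrp.to_le inf_le_left) inf_le_right
      (inf_le_left.trans (hP.le.trans inf_le_left))
    refine le_inf h6 ?_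
    rw [← commutator_eq_bot_iff_le_centralizer, eq_bot_iff, ← h2]
    exact le_inf ((commutator_mono h6 le_rfl).trans (H8.commutator_le_left_of_norm hHQ))
      (H8.commutator_le_right_of_norm (inf_le_left.trans (hP.le.trans inf_le_right)))
  refine ⟨P, (L.isComplement'_of_inf_sup (N := K) (by rw [inf_comm, h5]) ?_).symm⟩
  have h6 : normalizer (Q : Set G) ≤ K ⊔ (normalizer (Q : Set G) ⊓ normalizer (H : Set G)) := by
    intro g hg
    have hgN : g ∈ normalizer (N : Set G) := H8.le_normalizer_inf (A := normalizer (Q : Set G))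
      (le_top.trans (H8.normal_iff_top_le.1 inferInstance)) le_normalizer hg
    obtain ⟨u, hu, e⟩ := H1.exists_conj_le_of_coprime (A := H) (B := cj g H) hHQ h2'
      (by rw [h3']; exact H8.cj_le_of_mem hH hgN) (by rwa [card_cj])
      (.inr (solvable_of_pgroup hQ.pgrp))
    rw [← H8.cj_eq_smul] at e
    rw [show g = u⁻¹ * (u * g) by group]
    exact mul_mem (mem_sup_left (inv_mem (hQ.le hu))) (mem_sup_right ⟨mul_mem (le_normalizer hu) hg,
      mem_normalizer_of_cj_le (by rw [cj_mul]; exact e)⟩)
  rw [eq_top_iff, ← hQ.frattini_sup le_top (H8.normal_iff_top_le.1 inferInstance)]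
  refine sup_le le_sup_left (inf_le_right.trans (h6.trans (sup_le le_sup_left ?_)))
  rw [← hP.resOf_sup]
  exact sup_le_sup_right ((resOf_mono le_top).trans (resOf_top p).le) _

end Cfsg.Agent.S0092
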