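import Cfsg.Statements.S0093
import Mathlib
import Cfsg.Agent.H2.Crit

set_option autoImplicit false
open Cfsg

namespace Cfsg.Agent.S0093

open Cfsg.Agent.H2 Subgroup

/-- Every finite p-group has a critical subgroup: a characteristic subgroup H whose Frattini subgroup and whose commutator with the whole group lie in the centre of H, and whose centralizer is contained in H. -/
theorem result {P : Type*} [Group P] [Finite P] {p : ℕ} [Fact p.Prime] (hP : IsPGroup p P) : ∃ H : Subgroup P, H.Characteristic ∧ (frattini H).map H.subtype ≤ Subgroup.centralizer (H : Set P) ∧ ⁅H, (⊤ : Subgroup P)⁆ ≤ H ⊓ Subgroup.centralizer (H : Set P) ∧ Subgroup.centralizer (H : Set P) ≤ H := by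
  obtain ⟨C, hC, hn⟩ := exists_crit (isPGroup_sl_top (φ := MonoidHom.id (MulAut P)) hP)
  obtain ⟨H, rfl⟩ := exists_sl hC.le
  refine ⟨H, characteristic_iff_sl_normal.2 (H8.normal_of_top_le (le_normalizer_of_normal.trans hn)), ?_, ?_, ?_⟩
  · refine (H1.map_frattini_le_of_elementary (N := Zc H) (Fact.out : p.Prime) ?_ ?_).trans inf_le_right
    · rw [← sl_le_sl (φ := MonoidHom.id (MulAut P)), sl_commutator, sl_inf_centralizer]
      exact (commutator_mono le_rfl hC.le).trans hC.comm
    · intro x hx
      rw [← inl_mem_sl (φ := MonoidHom.id (MulAut P)), sl_inf_centralizer, map_pow]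
      exact hC.pow _ (inl_mem_sl.2 hx)
  · rw [← sl_le_sl (φ := MonoidHom.id (MulAut P)), sl_commutator, sl_inf_centralizer]
    exact hC.comm
  · rw [← sl_le_sl (φ := MonoidHom.id (MulAut P)), sl_centralizer]
    exact hC.cent

end Cfsg.Agent.S0093
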