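import Cfsg.Statements.S0094
import Mathlib
import Cfsg.Agent.H2.Crit

set_option autoImplicit false
open Cfsg

namespace Cfsg.Agent.S0094

open Cfsg.Agent.H2 Subgroup commutatorElement

/-- In a special p-group every central element has order dividing p. -/
theorem result {P : Type*} [Group P] [Finite P] {p : ℕ} [Fact p.Prime] (h : Cfsg.IsSpecial p P) (z : P) (hz : z ∈ Subgroup.center P) : z ^ p = 1 := by
  rw [← h.2.2] at hz
  have : _root_.commutator P ≤ omegaOne p (Subgroup.center P) := by
    rw [_root_.commutator, commutator_le]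
    intro x _ y _
    have hc : ⁅x, y⁆ ∈ Subgroup.center P := h.2.2 ▸ commutator_mem_commutator (mem_top x) (mem_top y)
    refine mem_omegaOne hc ?_
    rw [← commElt_pow_left (mem_center_iff.1 hc x), commutatorElement_eq_one_iff_mul_comm]
    exact (mem_center_iff.1 (h.2.1 ▸ H1.pow_mem_frattini h.1 x) y).symm
  exact pow_eq_one_of_mem_omegaOne_comm inferInstance (this hz)

end Cfsg.Agent.S0094
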