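import Cfsg.Statements.S0099
import Mathlib
import Cfsg.Agent.H2.ES2

set_option autoImplicit false
open Cfsg

namespace Cfsg.Agent.S0099

open Cfsg.Agent.H2 Subgroup

/-- Among three extraspecial 2-groups of equal order, some two are isomorphic. -/
theorem result {E₁ : Type*} {E₂ : Type*} {E₃ : Type*} [Group E₁] [Group E₂] [Group E₃] [Finite E₁] [Finite E₂] [Finite E₃] (h₁ : Cfsg.IsExtraspecial 2 E₁) (h₂ : Cfsg.IsExtraspecial 2 E₂) (h₃ : Cfsg.IsExtraspecial 2 E₃) (h12 : Nat.card E₁ = Nat.card E₂) (h23 : Nat.card E₂ = Nat.card E₃) : Nonempty (E₁ ≃* E₂) ∨ Nonempty (E₂ ≃* E₃) ∨ Nonempty (E₁ ≃* E₃) := by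
  obtain ⟨n, -, hn⟩ := H1.IsExtraspecial.exists_card h₁
  obtain ⟨V₁, _, _, _, c₁, a₁, b₁⟩ := es_exists h₁ hn
  obtain ⟨V₂, _, _, _, c₂, a₂, b₂⟩ := es_exists h₂ (h12 ▸ hn)
  obtain ⟨V₃, _, _, _, c₃, a₃, b₃⟩ := es_exists h₃ (h23 ▸ h12 ▸ hn)
  have d₁ := c₁.wi_cases a₁ b₁
  have d₂ := c₂.wi_cases a₂ b₂
  have d₃ := c₃.wi_cases a₃ b₃
  have : c₁.qf.wi = c₂.qf.wi ∨ c₂.qf.wi = c₃.qf.wi ∨ c₁.qf.wi = c₃.qf.wi := by omega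
  rcases this with h | h | h
  · exact .inl (c₁.exists_equiv_of_wi c₂ a₁ a₂ h12 h)
  · exact .inr (.inl (c₂.exists_equiv_of_wi c₃ a₂ a₃ h23 h))
  · exact .inr (.inr (c₁.exists_equiv_of_wi c₃ a₁ a₃ (h12.trans h23) h))

end Cfsg.Agent.S0099
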