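import Cfsg.Statements.S0101
import Mathlib
import Cfsg.Agent.H2.Transfer
import Cfsg.Agent.H1.Frattini

set_option autoImplicit false
open Cfsg

namespace Cfsg.Agent.S0101

open Cfsg.Agent.H2 Subgroup

/-- In a perfect central extension, the kernel meets each Sylow p-subgroup P inside the Frattini subgroup of P. -/
theorem result {H : Type*} {G : Type*} [Group H] [Group G] [Finite H] (σ : H →* G) (hσ : Function.Surjective σ) (hc : σ.ker ≤ Subgroup.center H) (hH : commutator H = ⊤) {p : ℕ} [Fact p.Prime] (P : Sylow p H) : σ.ker ⊓ (P : Subgroup H) ≤ (frattini P).map (P : Subgroup H).subtype := by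
  rintro x ⟨h1, h2⟩
  obtain ⟨M, -, a1, -, a2⟩ := exists_transfer_ker (H := (P : Subgroup H)) le_rfl
  have := (a2 x h2 (fun k a _ => by
    rw [mem_center_iff.1 ((center H).pow_mem (hc h1) k) a]
    simp)).1 (a1 (hH ▸ mem_top x))
  rw [← relIndex_top_right] at this
  exact H1.commutator_le_map_frattini P.2 ((sylIn_top P).mem_of_pow_relIndex_mem h2 this)

end Cfsg.Agent.S0101
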