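import Cfsg.Statements.S0102
import Mathlib
import Cfsg.Agent.H2.Transfer

set_option autoImplicit false
open Cfsg

namespace Cfsg.Agent.S0102

open Cfsg.Agent.H2 Subgroup

/-- A finite perfect group with cyclic Sylow p-subgroups has no perfect central extension whose kernel has order divisible by p. -/
theorem result {G : Type*} {H : Type*} [Group G] [Group H] [Finite G] [Finite H] (hG : commutator G = ⊤) {p : ℕ} [Fact p.Prime] (hcyc : ∀ P : Sylow p G, IsCyclic P) (σ : H →* G) (hσ : Function.Surjective σ) (hz : σ.ker ≤ Subgroup.center H) (hH : commutator H = ⊤) : ¬ p ∣ Nat.card σ.ker := by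
  intro hd
  obtain ⟨x, hx, ho⟩ := H8.exists_orderOf_eq_prime hd
  obtain ⟨P, hP⟩ := (isPGroup_zpowers_of_orderOf (k := 1) (by rw [ho, pow_one])).exists_le_sylow
  obtain ⟨Q, hQ⟩ := (P.2.map σ).exists_le_sylow
  haveI := hcyc Q
  let f : P →* Q := (σ.comp (P : Subgroup H).subtype).codRestrict Q fun y => hQ ⟨y, y.2, rfl⟩
  have hf : f.ker ≤ center P := by
    intro y hy
    rw [mem_center_iff]
    intro z
    have : (y : H) ∈ σ.ker := congrArg Subtype.val hy
    exact Subtype.ext (mem_center_iff.1 (hz this) z)
  haveI : IsMulCommutative (P : Subgroup H) := ⟨⟨commutative_of_cyclic_center_quotient f hf⟩⟩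
  have := eq_one_of_mem_commutator_center (K := ⊤) (H := (P : Subgroup H)) le_top
    (hP (mem_zpowers x)) (by
      rw [relIndex_top_right, ho]
      exact (Fact.out : p.Prime).coprime_iff_not_dvd.2 P.not_dvd_index)
    (by change x ∈ commutator H; rw [hH]; exact mem_top x) (by
      rw [coe_top, centralizer_univ]; exact hz hx)
  rw [this, orderOf_one] at ho
  exact (Fact.out : p.Prime).one_lt.ne ho

end Cfsg.Agent.S0102
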