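import Cfsg.Statements.S0104
import Mathlib
import Cfsg.Agent.H2.Transfer

set_option autoImplicit false
open Cfsg

namespace Cfsg.Agent.S0104

open Cfsg.Agent.H2 Subgroup

/-- A subgroup Z of a Sylow p-subgroup P that is normalized by N_G(P) is weakly closed in P exactly when it is normal in every Sylow p-subgroup containing it. -/
theorem result {G : Type*} [Group G] [Finite G] {p : ℕ} [Fact p.Prime] (P : Sylow p G) (Z : Subgroup G) (hZP : Z ≤ (P : Subgroup G)) (hZN : Subgroup.normalizer (P : Set G) ≤ Subgroup.normalizer (Z : Set G)) : Cfsg.IsWeaklyClosed Z P ↔ ∀ R : Sylow p G, Z ≤ (R : Subgroup G) → (R : Subgroup G) ≤ Subgroup.normalizer (Z : Set G) := by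
  constructor
  · intro h R hR
    obtain ⟨g, hg⟩ := sylow_exists_cj_eq R P
    have h1 : cj g Z = Z := h.2 g (hg ▸ cj_mono g hR)
    have h2 : (P : Subgroup G) ≤ normalizer (Z : Set G) := le_normalizer.trans hZN
    rw [← hg, ← h1, ← cj_normalizer, cj_le_cj_iff] at h2
    exact h2
  · intro h
    refine ⟨hZP, fun g hg => ?_⟩
    have h1 : Z ≤ ((g⁻¹ • P : Sylow p G) : Subgroup G) := by
      rw [coe_smul_sylow, ← cj_le_iff]
      exact hg
    have h2 := h _ h1
    rw [coe_smul_sylow] at h2
    obtain ⟨n, -, hn, c, -, hc, rfl⟩ := (sylIn_top P).exists_normalizer_mul (mem_top g)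
      (h P hZP) h2
    exact mem_normalizer_iff_cj.1 (mul_mem (hZN hn) hc)

end Cfsg.Agent.S0104
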