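import Cfsg.Statements.S0105
import Mathlib
import Cfsg.Agent.H2.Transfer

set_option autoImplicit false
open Cfsg

namespace Cfsg.Agent.S0105

open Cfsg.Agent.H2 Subgroup

/-- With an abelian Sylow p-subgroup P, some quotient of G is isomorphic to the part of P central in N_G(P). -/
theorem result {G : Type*} [Group G] [Finite G] {p : ℕ} [Fact p.Prime] (P : Sylow p G) (hP : IsMulCommutative P) : ∃ (N : Subgroup G) (hN : N.Normal), Nonempty (G ⧸ N ≃* ((P : Subgroup G) ⊓ Subgroup.centralizer (Subgroup.normalizer (P : Set G) : Set G) : Subgroup G)) := by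
  set N := normalizer ((P : Subgroup G) : Set G) with hN
  have h1 := (sylIn_top P).inf_resOf_of_comm
  rw [resOf_top, top_inf_eq] at h1
  have h2 := le_centralizer_sup_commutator (A := (P : Subgroup G)) (H := N) le_rfl
    ((sylIn_top P).coprime_centralizer le_top le_normalizer)
  have h3 : (pResidual p G).IsComplement' ((P : Subgroup G) ⊓ centralizer (N : Set G)) := by
    refine L.isComplement'_of_inf_sup ?_ ?_
    · rw [eq_bot_iff]
      rintro x ⟨a1, a2, a3⟩
      have a4 : x ∈ (⁅(P : Subgroup G), N⁆ : Subgroup G) := h1.le ⟨a2, a1⟩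
      refine eq_one_of_mem_commutator_center (K := N) (H := (P : Subgroup G)) le_normalizer a2 ?_
        (commutator_mono le_normalizer le_rfl a4) a3
      exact H8.orderOf_coprime_of_mem (sylIn_of_le P le_normalizer).coprime a2
    · rw [eq_top_iff, ← pResidual_sup_sylow P]
      refine sup_le le_sup_left (h2.trans (sup_le le_sup_right ?_))
      exact (h1.ge.trans inf_le_right).trans le_sup_left
  exact ⟨pResidual p G, inferInstance, ⟨h3.symm.QuotientMulEquiv⟩⟩

end Cfsg.Agent.S0105
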