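import Cfsg.Statements.S0106
import Mathlib
import Cfsg.Agent.H2.SL23
import Cfsg.Agent.H2.MC

set_option autoImplicit false
open Cfsg

namespace Cfsg.Agent.S0106

open Cfsg.Agent.H2 Subgroup

/-- A finite group with generalized quaternion Sylow 2-subgroups either has a normal 2-complement or has a section isomorphic to SL(2,3). -/
theorem result {G : Type*} [Group G] [Finite G] (T : Sylow 2 G) (n : ℕ) (hn : 1 ≤ n) (hT : Nonempty ((T : Subgroup G) ≃* QuaternionGroup (2 ^ n))) : Cfsg.HasNormalPComplement 2 G ∨ ∃ (H K : Subgroup G) (hK : (K.subgroupOf H).Normal), Nonempty ((H ⧸ K.subgroupOf H) ≃* Matrix.SpecialLinearGroup (Fin 2) (ZMod 3)) := by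
  rw [hasNPC_iff_top, or_iff_not_imp_left]
  intro h
  obtain ⟨U, R, q, hq, hne, -, h2, -, h4, -, h5, h6⟩ := exists_of_not_pNil h
  haveI := Fact.mk hq
  obtain ⟨r, hr, hrc⟩ := SetLike.not_le_iff_exists.1 h6
  obtain ⟨k, hk⟩ := orderOf_eq_pow_of_mem h4 hr
  have ho : (orderOf r).Coprime 2 := hk ▸ ((Nat.coprime_primes hq Nat.prime_two).2 hne).pow_left k
  obtain ⟨g, -, hg⟩ := (sylIn_top T).exists_le_cj h2 le_top
  obtain ⟨m, rfl⟩ := Nat.exists_eq_add_of_le' hn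
  obtain ⟨a, b, hq⟩ := L.exists_qP (by positivity) ((H8.cjEquiv _ g).symm.trans hT.some)
  obtain ⟨c, hc, -, -, e | e⟩ := hq.mc'.1.exists_of_oddAut hg (oddAut_conj (h5 hr) ho)
    (exists_conj_ne hrc)
  · exact absurd ((hq.eq_t (hg e.a_mem) (ord2_iff.2 ⟨e.a2, e.a1⟩)).trans
      (hq.eq_t (hg e.b_mem) (ord2_iff.2 ⟨e.b2, e.b1⟩)).symm) e.ne
  · exact ⟨_, _, exists_sec_SL23 e (h5 hr) ho hrc⟩

end Cfsg.Agent.S0106
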