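import Cfsg.Statements.S0107
import Mathlib
import Cfsg.Agent.H2.MCF

set_option autoImplicit false
open Cfsg

namespace Cfsg.Agent.S0107

open Cfsg.Agent.H2 Cfsg.Agent.L Subgroup

/-- A finite group with no nontrivial 2-group quotient and dihedral Sylow 2-subgroups of order at least 8 has a single class of involutions. -/
theorem result {G : Type*} [Group G] [Finite G] (T : Sylow 2 G) (n : ℕ) (hn : 2 ≤ n) (hT : Nonempty ((T : Subgroup G) ≃* DihedralGroup (2 ^ n))) (hO : Cfsg.pResidual 2 G = ⊤) (x y : G) (hx : orderOf x = 2) (hy : orderOf y = 2) : ∃ g : G, g * x * g⁻¹ = y := by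
  obtain ⟨k, a, b, h, -⟩ := exists_mc_of_dihedral T.2 hT.some
    (lt_of_lt_of_le (by norm_num) (Nat.pow_le_pow_right (by norm_num) hn))
  obtain ⟨h1, h2⟩ := h.act_of_res (sylIn_top T) hO
  exact isConj_iff.1 ((h.isConj_of_act (sylIn_top T) h1 h2 hx).symm.trans
    (h.isConj_of_act (sylIn_top T) h1 h2 hy))

end Cfsg.Agent.S0107
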