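import Cfsg.Statements.S0114
import Cfsg.Agent.L.MaxClass

set_option autoImplicit false
open Cfsg

namespace Cfsg.Agent.S0114

open Cfsg.Agent

/-- The central quotient of a 2-group of maximal class is dihedral. -/
theorem result {X : Type*} [Group X] [Finite X] (n : ℕ) (hn : 3 ≤ n) (hX : Nat.card X = 2 ^ n) (hc : Group.nilpotencyClass X = n - 1) : Nonempty (X ⧸ Subgroup.center X ≃* DihedralGroup (2 ^ (n - 2))) := by
  open Subgroup in
  obtain ⟨a, ha, hb⟩ := L.exists_index_two_act_of_index_commutator hn hX (L.index_commutator_of_maxClass hn hX hc)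
  obtain ⟨b, hb1⟩ := L.exists_not_mem_of_index_ne_one (H := Subgroup.zpowers a) (by omega)
  obtain ⟨r, hr, h4⟩ := hb b hb1
  have hP : IsPGroup 2 X := .of_card hX
  have hord := L.orderOf_eq_of_index Nat.prime_two hX ha
  obtain ⟨m, rfl⟩ : ∃ m, n = m + 3 := ⟨n - 3, by omega⟩
  have hnc : ∀ c ∉ Subgroup.zpowers a, ¬ Commute c a := by
    intro c hc1 hc2
    obtain ⟨s, hs, ⟨u, hu⟩⟩ := hb c hc1
    have := L.dvd_of_conj_of_commute hs hc2
    rw [hord] at this
    obtain ⟨v, hv⟩ := this
    push_cast at hv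
    simp only [pow_succ] at hv
    have : s - 1 = 4 * (2 ^ m * v) := by linear_combination hv
    omega
  have hZa : Subgroup.center X ≤ Subgroup.zpowers a := fun z hz => by
    by_contra h
    exact hnc z h (Subgroup.mem_center_iff.mp hz a).symm
  have htop := L.zpowers_sup_eq_top_of_index_prime (ha ▸ Nat.prime_two) hb1
  have hcen : ∀ x, Commute b x → Commute a x → x ∈ Subgroup.center X := fun x h1 h2 =>
    L.mem_center_of_commute_generators htop
      (Subgroup.zpowers_le_of_mem (Subgroup.mem_centralizer_singleton_iff.mpr h1))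
      (Subgroup.zpowers_le_of_mem (Subgroup.mem_centralizer_singleton_iff.mpr h2))
  have : Nontrivial X := hP.nontrivial_iff_card.mpr ⟨_, by omega, hX⟩
  have hZ : Nat.card (Subgroup.center X) = 2 := by
    have h1 : Subgroup.center X < Subgroup.centralizer {b} := lt_of_le_of_ne (Subgroup.center_le_centralizer _)
      fun h => hb1 (hZa (h ▸ Subgroup.mem_centralizer_singleton_iff.mpr rfl))
    have h2 := (L.mul_card_le_of_lt (hP.to_subgroup _) h1).trans (L.card_centralizer_le_four hX ha hr h4)
    have h3 := (Subgroup.one_lt_card_iff_ne_bot _).mpr hP.bot_lt_center.ne'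
    omega
  have hb2 := Subgroup.sq_mem_of_index_two ha b
  set f := QuotientGroup.mk' (Subgroup.center X)
  refine L.nonempty_equiv_dihedral (a := f a) (b := f b) ?_ ?_ ?_ ?_ ?_
  · have h1 := L.card_mul_relIndex hZa
    rw [L.relIndex_zpowers, hZ, Nat.card_zpowers, hord] at h1
    simp only [show m + 3 - 1 = m + 1 + 1 from rfl, pow_succ' 2 (m + 1)] at h1
    exact Nat.eq_of_mul_eq_mul_left two_pos h1
  · rintro ⟨k, hk⟩
    simp only at hk
    rw [← map_zpow] at hk
    have := hZa (QuotientGroup.eq.mp hk)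
    exact hb1 (by simpa using mul_mem (Subgroup.zpow_mem_zpowers a k) this)
  · rw [← map_pow]
    exact (QuotientGroup.eq_one_iff _).mpr (hcen _ (Commute.self_pow b 2) (L.commute_of_mem_zpowers hb2).symm)
  · rw [← mul_eq_one_iff_eq_inv, ← map_inv, ← map_mul, ← map_mul, ← map_mul, hr, ← zpow_add_one]
    refine (QuotientGroup.eq_one_iff _).mpr (hcen _ ?_ (Commute.self_zpow a _))
    have h1 := L.dvd_of_conj_of_commute (L.pow_conj_of_conj hr 2) (L.commute_of_mem_zpowers hb2)
    have h2 : b * a ^ (r + 1) * b⁻¹ = a ^ (r + 1) := by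
      rw [L.conj_zpow_of_conj hr]
      exact L.zpow_eq_zpow_of_dvd rfl (h1.trans (dvd_of_eq (by ring)))
    exact mul_inv_eq_iff_eq_mul.mp h2
  · have := Subgroup.card_eq_card_quotient_mul_card_subgroup (Subgroup.center X)
    rw [hX, hZ] at this
    simp only [show m + 3 - 2 = m + 1 from rfl, pow_succ] at this ⊢
    omega

end Cfsg.Agent.S0114
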