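import Cfsg.Statements.S0115
import Cfsg.Agent.L.MaxClass

set_option autoImplicit false
open Cfsg

namespace Cfsg.Agent.S0115

open Cfsg.Agent

/-- A 2-group of order 2^n, n ≥ 3, is of maximal class exactly when its commutator quotient is a Klein four-group. -/
theorem result {X : Type*} [Group X] [Finite X] (n : ℕ) (hn : 3 ≤ n) (hX : Nat.card X = 2 ^ n) : Group.nilpotencyClass X = n - 1 ↔ IsKleinFour (X ⧸ commutator X) := by
  constructor
  · intro hc
    have h4 := L.index_commutator_of_maxClass hn hX hc
    have hP : IsPGroup 2 X := .of_card hX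
    have := hP.isNilpotent
    refine ⟨h4, (not_isCyclic_iff_exponent_eq_prime Nat.prime_two h4).mp fun h => ?_⟩
    have : IsCyclic X := L.isCyclic_of_isCyclic_abelianization
    have := Group.IsNilpotent.nilpotencyClass_le_one_iff.mpr (inferInstance : IsMulCommutative X)
    omega
  · intro h
    obtain ⟨a, ha, hb⟩ := L.exists_index_two_act_of_index_commutator hn hX h.card_four
    obtain ⟨b, hb1⟩ := L.exists_not_mem_of_index_ne_one (H := Subgroup.zpowers a) (by omega)
    obtain ⟨r, hr, h4⟩ := hb b hb1
    exact L.nilpotencyClass_eq_of_index_two (by omega) hX ha hr h4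

end Cfsg.Agent.S0115
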