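import Cfsg.Statements.S0119
import Mathlib
import Cfsg.Agent.H2.Crit

set_option autoImplicit false
open Cfsg

namespace Cfsg.Agent.S0119

open Cfsg.Agent.H2 Subgroup

/-- If a p'-group A of automorphisms of a p-group G satisfies G = [G, A] and acts trivially on every characteristic abelian subgroup, then G is special with centre equal to the fixed points of A. -/
theorem result {G : Type*} [Group G] [Finite G] {p : ℕ} [Fact p.Prime] (hG : IsPGroup p G) (A : Subgroup (MulAut G)) (hA : Nat.Coprime (Nat.card A) p) (hGA : Subgroup.closure {x : G | ∃ g : G, ∃ a ∈ A, x = g⁻¹ * a g} = ⊤) (hchar : ∀ H : Subgroup G, H.Characteristic → IsMulCommutative H → ∀ a ∈ A, ∀ h ∈ H, a h = h) : Cfsg.IsSpecial p G ∧ (∀ g : G, (g ∈ Subgroup.center G ↔ ∀ a ∈ A, a g = g)) := by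
  obtain ⟨h1, h2, h3⟩ := special_of_cent_abelian (A := sr (MonoidHom.id (MulAut G)) A) (isPGroup_sl_top hG)
    (le_normalizer_sl_top _) (by rwa [card_sr]) (by
      rw [commutator_sl_sr, sl_inj]
      simpa using hGA) (by
      intro B hB hc hn
      obtain ⟨H, rfl⟩ := exists_sl hB
      exact sr_le_centralizer_sl.2 (hchar H (characteristic_iff_sl_normal.2
        (H8.normal_of_top_le (le_normalizer_of_normal.trans hn))) (isMulCommutative_sl.1 hc)))
  rw [← map_Zc_inj _ SemidirectProduct.inl_injective, Zc_top] at h1 h2 h3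
  rw [← sl_commutator, sl_inj] at h1
  rw [← map_Phi_inj _ SemidirectProduct.inl_injective, Phi_top, sl_inj] at h2
  refine ⟨⟨hG, h2, h1⟩, fun g => ?_⟩
  rw [← inl_mem_sl (φ := MonoidHom.id (MulAut G)), sl, ← h3, mem_inf, inl_mem_centralizer_sr]
  simp

end Cfsg.Agent.S0119
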