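import Cfsg.Statements.S0120
import Mathlib
import Cfsg.Agent.H2.Crit

set_option autoImplicit false
open Cfsg

namespace Cfsg.Agent.S0120

open Cfsg.Agent.H2 Subgroup

/-- For odd p, a p'-automorphism of a p-group acting trivially on the elements of order dividing p is trivial. -/
theorem result {G : Type*} [Group G] [Finite G] {p : ℕ} [Fact p.Prime] (hp : p ≠ 2) (hG : IsPGroup p G) (a : MulAut G) (ha : Nat.Coprime (orderOf a) p) (h : ∀ x : G, x ^ p = 1 → a x = x) : a = 1 := by
  have := coprime_faithful_small (A := sr (MonoidHom.id (MulAut G)) (zpowers a)) (isPGroup_sl_top hG)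
    (le_normalizer_sl_top _) (by rwa [card_sr, Nat.card_zpowers]) (by
      rintro _ ⟨x, -, rfl⟩ h1 -
      rw [inl_mem_centralizer_sr]
      rintro _ ⟨k, rfl⟩
      have hx := h x (SemidirectProduct.inl_injective (by rw [map_pow, h1 hp, map_one]))
      exact zpow_mem (show a ∈ MulAction.stabilizer (MulAut G) x from hx) k)
  ext x
  exact sr_le_centralizer_sl.1 this a (mem_zpowers a) x (mem_top x)

end Cfsg.Agent.S0120
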