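import Cfsg.Statements.S0121
import Mathlib
import Cfsg.Agent.H2.Crit

set_option autoImplicit false
open Cfsg

namespace Cfsg.Agent.S0121

open Cfsg.Agent.H2 Subgroup

/-- A p'-automorphism of a p-group acting trivially on a critical subgroup is trivial. -/
theorem result {G : Type*} [Group G] [Finite G] {p : ℕ} [Fact p.Prime] (hG : IsPGroup p G) (H : Subgroup G) (hH : H.Characteristic) (h1 : (frattini H).map H.subtype ≤ Subgroup.centralizer (H : Set G)) (h2 : ⁅H, (⊤ : Subgroup G)⁆ ≤ H ⊓ Subgroup.centralizer (H : Set G)) (h3 : Subgroup.centralizer (H : Set G) ≤ H) (a : MulAut G) (ha : Nat.Coprime (orderOf a) p) (h : ∀ x ∈ H, a x = x) : a = 1 := by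
  have := H1.le_centralizer_of_self_centralizing (P := sl (MonoidHom.id (MulAut G)) H)
    (Q := sr (MonoidHom.id (MulAut G)) (zpowers a)) (isPGroup_sl_top hG).isNilpotent
    (sl_le_sl.2 le_top) (coprime_card_of_pgroup (by rwa [card_sr, Nat.card_zpowers]) (isPGroup_sl_top hG))
    (le_centralizer_iff.1 (sr_le_centralizer_sl.2 (by
      rintro _ ⟨k, rfl⟩ x hx
      exact zpow_mem (show a ∈ MulAction.stabilizer (MulAut G) x from h x hx) k))) (le_normalizer_sl_top _) (by
      rw [← sl_centralizer]
      refine (sl_le_sl.2 h3).trans (le_centralizer_iff.1 (sr_le_centralizer_sl.2 ?_))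
      rintro _ ⟨k, rfl⟩ x hx
      exact zpow_mem (show a ∈ MulAction.stabilizer (MulAut G) x from h x hx) k)
  ext x
  exact sr_le_centralizer_sl.1 this a (mem_zpowers a) x (mem_top x)

end Cfsg.Agent.S0121
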