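import Cfsg.Statements.S0125
import Mathlib
import Cfsg.Agent.H2.Transfer

set_option autoImplicit false
open Cfsg

namespace Cfsg.Agent.S0125

open Cfsg.Agent.H2 Subgroup

/-- The centralizer of a self-centralizing normal subgroup A of a Sylow p-subgroup is the direct product of A with a normal p'-subgroup. -/
theorem result {G : Type*} [Group G] [Finite G] {p : ℕ} [Fact p.Prime] (R : Sylow p G) (A : Subgroup G) (hAR : A ≤ (R : Subgroup G)) (hAn : (R : Subgroup G) ≤ Subgroup.normalizer (A : Set G)) (hC : (R : Subgroup G) ⊓ Subgroup.centralizer (A : Set G) = A) : ∃ H : Subgroup G, H ≤ Subgroup.centralizer (A : Set G) ∧ Nat.Coprime (Nat.card H) p ∧ Subgroup.centralizer (A : Set G) ≤ Subgroup.normalizer (H : Set G) ∧ H ⊓ A = ⊥ ∧ H ⊔ A = Subgroup.centralizer (A : Set G) := by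
  have h1 : SylIn p A (centralizer (A : Set G)) := by
    have := (sylIn_of_le R hAn).inf_normal' (N := centralizer (A : Set G))
      (H8.normalizer_le_normalizer_centralizer A) (centralizer_le_normalizer _)
    change SylIn p ((R : Subgroup G) ⊓ centralizer (A : Set G)) _ at this
    rwa [hC] at this
  have h2 : PNil p (centralizer (A : Set G)) := h1.pNil_of_normalizer_le inf_le_left
  refine ⟨resOf p (centralizer (A : Set G)), resOf_le _ _, pNil_iff_card.1 h2,
    le_normalizer_resOf _ _, ?_, h1.resOf_sup⟩
  rw [inf_comm]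
  exact h2.inf_eq_bot h1.pgrp

end Cfsg.Agent.S0125
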