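import Cfsg.Statements.S0127
import Cfsg.Agent.L.PCyc2

set_option autoImplicit false
open Cfsg

namespace Cfsg.Agent.S0127

open Cfsg.Agent
open scoped Pointwise

/-- For odd p, in a non-cyclic p-group with a cyclic subgroup of index p, the elements of order dividing p generate an elementary abelian subgroup of order p^2. -/
theorem result {R : Type*} [Group R] [Finite R] {p : ℕ} [Fact p.Prime] (hp : p ≠ 2) (hR : IsPGroup p R) (hnc : ¬ IsCyclic R) (C : Subgroup R) (hC : IsCyclic C) (hCi : C.index = p) : Cfsg.IsElementaryAbelian p (Subgroup.closure {x : R | x ^ p = 1}) ∧ Nat.card (Subgroup.closure {x : R | x ^ p = 1}) = p ^ 2 := by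
  have hp' : p.Prime := Fact.out
  obtain ⟨E, hEn, hE, hEc⟩ := L.exists_normal_elementary_sq_of_odd hp hR hnc
  suffices h : Subgroup.closure {x : R | x ^ p = 1} = E by rw [h]; exact ⟨hE, hEc⟩
  refine le_antisymm ((Subgroup.closure_le _).mpr fun x hx => ?_) fun x hx => Subgroup.subset_closure (hE.2 x hx)
  obtain ⟨a, rfl⟩ := (Subgroup.isCyclic_iff_exists_zpowers_eq_top C).mp hC
  have := L.normal_of_index_eq_prime hR hCi
  have hEa : ¬ E ≤ Subgroup.zpowers a := fun h =>
    L.not_isCyclic_of_elementary hp' hE.2 (by rw [hEc]; nlinarith [hp'.one_lt]) (Subgroup.isCyclic_of_le h)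
  obtain ⟨b, hbE, hb⟩ := SetLike.not_le_iff_exists.mp hEa
  have hK : L.powKer (Subgroup.zpowers a) p ≤ E := by
    have h1 : E ⊓ Subgroup.zpowers a ≤ L.powKer (Subgroup.zpowers a) p := fun y hy => ⟨hy.2, hE.2 y hy.1⟩
    have : IsCyclic (L.powKer (Subgroup.zpowers a) p) := Subgroup.isCyclic_of_le (L.powKer_le _ _)
    have h2 := L.card_le_of_isCyclic_of_pow_eq_one (A := L.powKer (Subgroup.zpowers a) p) hp'.pos fun _ h => h.2
    have h3 := L.card_sup_mul_card_inf (H := E) (N := Subgroup.zpowers a) Subgroup.le_normalizer_of_normal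
    have h4 := Subgroup.card_mul_index (Subgroup.zpowers a)
    have h5 : Nat.card ↥(E ⊔ Subgroup.zpowers a) ≤ Nat.card R := by
      rw [← Subgroup.card_top (G := R)]; exact Subgroup.card_le_of_le le_top
    have h6 : 0 < Nat.card (Subgroup.zpowers a) := Nat.card_pos
    rw [hEc] at h3
    rw [← h4, hCi] at h5
    have h7 : p ≤ Nat.card ↥(E ⊓ Subgroup.zpowers a) := by
      by_contra h
      push Not at h
      have := Nat.mul_lt_mul_of_le_of_lt h5 h (Nat.mul_pos h6 hp'.pos)
      nlinarith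
    exact (Subgroup.eq_of_le_of_card_ge h1 (h2.trans h7)).ge.trans inf_le_left
  have htop : Subgroup.zpowers a ⊔ Subgroup.zpowers b = ⊤ := (L.isCoatom_of_index_prime (hCi ▸ hp')).2 _
      (lt_of_le_of_ne le_sup_left fun h => hb (h ▸ (le_sup_right : Subgroup.zpowers b ≤ _) (Subgroup.mem_zpowers b)))
  obtain ⟨_, ⟨i, rfl⟩, c, hc, rfl⟩ : x ∈ (Subgroup.zpowers a : Set R) * (Subgroup.zpowers b : Set R) := by
    rw [← Subgroup.normal_mul, htop]; trivial
  have hcE : c ∈ E := Subgroup.zpowers_le_of_mem hbE hc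
  refine mul_mem (hK ⟨⟨i, rfl⟩, ?_⟩) hcE
  obtain ⟨m, ha⟩ := IsPGroup.iff_orderOf.mp hR a
  by_cases ha1 : a = 1
  · simp [ha1]
  obtain ⟨r, hr⟩ := L.exists_conj_eq_zpow (a := a) (g := c) (Subgroup.le_normalizer_of_normal (Subgroup.mem_top c))
  refine L.zpow_pow_eq_one_of_mul_pow hp' ha hr (hE.2 c hcE) (Or.inl ⟨hp, L.prime_dvd_sub_one_of_dvd_pow hp' ?_⟩) hx
  exact (Int.natCast_dvd_natCast.mpr (hR.dvd_orderOf ha1)).trans
    (L.dvd_of_conj_of_commute (L.pow_conj_of_conj hr p) (by rw [hE.2 c hcE]; exact Commute.one_left a))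

end Cfsg.Agent.S0127
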