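import Cfsg.Statements.S0129
import Mathlib
import Cfsg.Agent.H2.SL23

set_option autoImplicit false
open Cfsg

namespace Cfsg.Agent.S0129

open Cfsg.Agent.H2 Subgroup

/-- The order of a p-group is bounded by p^(a(a+1)/2) when it has a maximal normal abelian subgroup of order p^a. -/
theorem result {G : Type*} [Group G] [Finite G] {p : ℕ} [Fact p.Prime] (hG : IsPGroup p G) (A : Subgroup G) [A.Normal] (hA : IsMulCommutative A) (hmax : ∀ B : Subgroup G, B.Normal → IsMulCommutative B → A ≤ B → B = A) (a : ℕ) (ha : Nat.card A = p ^ a) : Nat.card G ≤ p ^ (a * (a + 1) / 2) := by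
  haveI := hG.isNilpotent
  have h := index_centralizer_le hG a A ha
  rw [L.centralizer_eq_of_maximal_abelian_normal A hmax] at h
  rw [← A.card_mul_index, ha, show a * (a + 1) / 2 = a + a.choose 2 by
    have := Nat.choose_succ_succ a 1
    rw [Nat.choose_one_right, Nat.choose_two_right] at this
    rw [mul_comm]; exact this,
    pow_add]
  exact Nat.mul_le_mul_left _ h

end Cfsg.Agent.S0129
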