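import Cfsg.Statements.S0130
import Mathlib
import Cfsg.Agent.H2.BG4a

set_option autoImplicit false
open Cfsg

namespace Cfsg.Agent.S0130

open Cfsg.Agent.H2 Subgroup

/-- If A is maximal among the normal abelian subgroups of exponent dividing p^n of a p-group (p^n ≠ 2), then A contains every element of order dividing p^n in its centralizer. -/
theorem result {G : Type*} [Group G] [Finite G] {p : ℕ} [Fact p.Prime] (hG : IsPGroup p G) (n : ℕ) (hn : p ^ n ≠ 2) (A : Subgroup G) [A.Normal] (hA : IsMulCommutative A) (hAe : ∀ a ∈ A, a ^ p ^ n = 1) (hmax : ∀ B : Subgroup G, B.Normal → IsMulCommutative B → (∀ b ∈ B, b ^ p ^ n = 1) → A ≤ B → B = A) (x : G) (hx : x ∈ Subgroup.centralizer (A : Set G)) (hxn : x ^ p ^ n = 1) : x ∈ A := by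
  exact mem_of_max_normal_abelian_exp (hG.to_subgroup ⊤) hn le_top le_normalizer_of_normal hA hAe
    (fun B _ h2 h3 h4 h5 => hmax B (H8.normal_of_top_le h2) h3 h4 h5) (mem_top x) hx hxn

end Cfsg.Agent.S0130
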