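import Cfsg.Statements.S0131
import Mathlib
import Cfsg.Agent.H2.Transfer
import Cfsg.Agent.S0080
import Cfsg.Agent.H1.Basic

set_option autoImplicit false
open Cfsg

namespace Cfsg.Agent.S0131

open Cfsg.Agent.H2 Subgroup

/-- P/P' has a normal complement in G exactly when the focal subgroup G' ∩ P is as small as possible, namely P'. -/
theorem result {G : Type*} [Group G] [Finite G] {p : ℕ} [Fact p.Prime] (P : Sylow p G) : (∃ N : Subgroup G, N.Normal ∧ N ⊓ (P : Subgroup G) = ⁅(P : Subgroup G), (P : Subgroup G)⁆ ∧ N ⊔ (P : Subgroup G) = ⊤) ↔ commutator G ⊓ (P : Subgroup G) = ⁅(P : Subgroup G), (P : Subgroup G)⁆ := by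
  constructor
  · rintro ⟨N, hN, h1, h2⟩
    refine le_antisymm ?_ (le_inf (commutator_mono le_top le_top) (commutator_le_self _))
    rw [← h1]
    refine inf_le_inf_right _ ?_
    have h3 : (P : Subgroup G).map (QuotientGroup.mk' N) = ⊤ := by
      rw [H1.map_mk'_eq_top_iff, sup_comm, h2]
    rw [← H1.map_mk'_eq_bot_iff, _root_.commutator_def, map_commutator,
      map_top_of_surjective _ (QuotientGroup.mk'_surjective N), ← h3, ← map_commutator,
      H1.map_mk'_eq_bot_iff, ← h1]
    exact inf_le_left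
  · intro h
    obtain ⟨-, N, h1, h2, h3⟩ := Cfsg.Agent.S0080.result (P : Subgroup G) (by
      refine Nat.Coprime.coprime_dvd_right ?_ P.card_coprime_index.symm
      exact relIndex_dvd_card _ _)
    exact ⟨N, h1, h2.trans h, h3⟩

end Cfsg.Agent.S0131
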