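import Cfsg.Statements.S0132
import Mathlib
import Cfsg.Agent.H2.SL23

set_option autoImplicit false
open Cfsg

namespace Cfsg.Agent.S0132

open Cfsg.Agent.H2 Subgroup

/-- A minimal non-p-nilpotent finite group is a minimal non-nilpotent group with a normal Sylow p-subgroup. -/
theorem result {G : Type*} [Group G] [Finite G] {p : ℕ} [Fact p.Prime] (h1 : ¬ Cfsg.HasNormalPComplement p G) (h2 : ∀ H : Subgroup G, H ≠ ⊤ → Cfsg.HasNormalPComplement p H) : (∀ H : Subgroup G, H ≠ ⊤ → Group.IsNilpotent H) ∧ ¬ Group.IsNilpotent G ∧ ∀ P : Sylow p G, (P : Subgroup G).Normal := by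
  rw [hasNPC_iff_top] at h1
  simp only [hasNPC_iff] at h2
  obtain ⟨U, R, q, hq, hne, -, a, -, b, -, c, d⟩ := exists_of_not_pNil h1
  haveI := Fact.mk hq
  have hb : (Nat.card R).Coprime p := by
    obtain ⟨k, hk⟩ := b.exists_card_eq
    exact hk ▸ ((Nat.coprime_primes hq Fact.out).2 hne).pow_left k
  have h3 : R ⊔ U = ⊤ := by
    by_contra e
    exact d fun r hr => (h2 _ e).mem_centralizer a le_sup_right (mem_sup_left hr) (c hr)
      (H8.orderOf_coprime_of_mem hb hr)
  have hn : ⊤ ≤ normalizer (U : Set G) := h3 ▸ sup_le c le_normalizer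
  have hi : U.relIndex ⊤ ∣ Nat.card R := h3 ▸ H8.relIndex_sup_dvd_card c
  have hU : SylIn p U ⊤ :=
    sylIn_of_not_dvd le_top a fun e => H8.coprime_iff_not_dvd.1 hb (e.trans hi)
  refine ⟨fun H hH => ?_, fun h => h1 (pNil_of_isNilpotent inferInstance), fun P => ?_⟩
  · have h4 := hU.inf_normal (N := U) hn
    have h5 : SylIn p (U ⊓ H) H := sylIn_of_not_dvd inf_le_right (a.to_le inf_le_left) fun e =>
      hU.not_dvd_relIndex (e.trans (by
        haveI := H8.normal_of_top_le hn
        rw [inf_relIndex_right, relIndex_top_right]; exact relIndex_dvd_index_of_normal U H))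
    have h6 : IsPGroup q (resOf p H) := by
      haveI := H8.normal_of_top_le hn
      obtain ⟨k, hk⟩ := b.exists_card_eq
      have h7 := relIndex_dvd_index_of_normal U (resOf p H)
      rw [← inf_relIndex_right, (h2 H hH).inf_eq_bot a, relIndex_bot_left,
        ← relIndex_top_right] at h7
      obtain ⟨j, -, hj⟩ := (Nat.dvd_prime_pow hq).1 (hk ▸ h7.trans hi)
      exact IsPGroup.of_card hj
    refine H8.nilpotent_of_le (K := H8.Fit H) ?_ (H8.Fit_nilpotent H)
    conv_lhs => rw [← h5.resOf_sup]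
    exact sup_le (H8.le_Fit (resOf_le _ _) (le_normalizer_resOf _ _) h6.isNilpotent)
      (H8.le_Fit inf_le_right (H8.le_normalizer_inf (le_top.trans hn) le_normalizer)
        h5.pgrp.isNilpotent)
  · rw [← (sylIn_top P).max _ le_top a (hU.le_of_le_normalizer P.2 le_top (le_top.trans hn))]
    exact H8.normal_of_top_le hn

end Cfsg.Agent.S0132
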