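import Cfsg.Statements.S0135
import Cfsg.Agent.H3.Kernel

set_option autoImplicit false
open Cfsg

namespace Cfsg.Agent.S0135

open Cfsg.Agent.H3

/-- The degree of an irreducible complex representation of a finite group divides the group order. -/
theorem result {G : Type*} [Group G] [Finite G] {V : Type*} [AddCommGroup V] [Module ℂ V] [FiniteDimensional ℂ V] (ρ : Representation ℂ G V) [ρ.IsIrreducible] : Module.finrank ℂ V ∣ Nat.card G := by
  have := (isIrrCharacter_character ρ).degree_dvd_card
  rwa [charDegree_eq (Representation.char_one ρ)] at this

end Cfsg.Agent.S0135
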