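import Cfsg.Statements.S0138
import Cfsg.Agent.H3.Kernel

set_option autoImplicit false
open Cfsg

namespace Cfsg.Agent.S0138

open Cfsg.Agent.H3

/-- A character value has absolute value equal to the degree exactly when the group element acts by a scalar. -/
theorem result {G : Type*} [Group G] [Finite G] {V : Type*} [AddCommGroup V] [Module ℂ V] [FiniteDimensional ℂ V] (ρ : Representation ℂ G V) (g : G) : ‖ρ.character g‖ = (Module.finrank ℂ V : ℝ) ↔ ∃ ω : ℂ, ρ g = ω • (LinearMap.id : V →ₗ[ℂ] V) := by
  constructor
  · intro h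
    obtain ⟨ω, -, h⟩ := rep_eq_smul_of_norm ρ g h
    exact ⟨ω, h⟩
  · rintro ⟨ω, hω⟩
    rcases Nat.eq_zero_or_pos (Module.finrank ℂ V) with h0 | hpos
    · have : Subsingleton V := Module.finrank_zero_iff.1 h0
      simp [Representation.character, Subsingleton.elim (ρ g) 0, h0]
    have h1 : ρ (g ^ orderOf g) = ω ^ orderOf g • LinearMap.id := by
      rw [map_pow, hω, smul_pow, ← Module.End.one_eq_id, one_pow]
    have h2 := congrArg (LinearMap.trace ℂ V) h1
    simp only [pow_orderOf_eq_one, map_one, LinearMap.trace_one, map_smul, LinearMap.trace_id,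
      smul_eq_mul] at h2
    rw [eq_comm, mul_left_eq_self₀] at h2
    have h3 := norm_eq_one_of_pow_eq_one' (orderOf_pos g).ne'
      (h2.resolve_right (by exact_mod_cast hpos.ne'))
    simp [Representation.character, hω, h3]

end Cfsg.Agent.S0138
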