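import Cfsg.Statements.S0144
import Cfsg.Agent.H3.Mackey

set_option autoImplicit false
open Cfsg

namespace Cfsg.Agent.S0144

open Cfsg.Agent.H3
open scoped commutatorElement

/-- The Burnside two-prime Theorem: a finite group of order p ^ a * q ^ b, for primes p and q, is solvable. -/
theorem result {G : Type*} [Group G] [Finite G] (p q a b : ℕ) (hp : p.Prime) (hq : q.Prime) (hcard : Nat.card G = p ^ a * q ^ b) : Group.IsSolvable G := by
  refine burnside_pq hp hq fun r hr hd => ?_
  rw [hcard] at hd
  rcases (Nat.Prime.dvd_mul hr).1 hd with h | h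
  · exact Or.inl ((Nat.prime_dvd_prime_iff_eq hr hp).1 (hr.dvd_of_dvd_pow h))
  · exact Or.inr ((Nat.prime_dvd_prime_iff_eq hr hq).1 (hr.dvd_of_dvd_pow h))

end Cfsg.Agent.S0144
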