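import Cfsg.Statements.S0157
import Cfsg.Agent.H3.Misc

set_option autoImplicit false
open Cfsg

namespace Cfsg.Agent.S0157

open Cfsg.Agent.H3
open scoped commutatorElement

/-- For a transitive action of a finite group on a finite set with at least two points: the action is 2-transitive if and only if the function sending g to (number of fixed points of g) − 1 is an irreducible character. -/
theorem result {G : Type*} [Group G] [Finite G] (X : Type*) [MulAction G X] [Finite X] [MulAction.IsPretransitive G X] (hX : 2 ≤ Nat.card X) : Cfsg.IsIrrCharacter G (fun g => (Nat.card (MulAction.fixedBy X g) : ℂ) - 1) ↔ MulAction.IsMultiplyPretransitive G X 2 := by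
  classical
  have := Fintype.ofFinite G
  have := Finite.one_lt_card_iff_nontrivial.1 hX
  obtain ⟨x, y, hxy⟩ := exists_pair_ne X
  set π : G → ℂ := fun g => (Nat.card (MulAction.fixedBy X g) : ℂ) with hπ
  have h1 : classInner π (fun _ => 1) = 1 := by
    have := (MulAction.pretransitive_iff_subsingleton_quotient G X).1 inferInstance
    have : Nonempty (MulAction.orbitRel.Quotient G X) := ⟨Quotient.mk'' x⟩
    rw [classInner_fixedBy_one, Nat.card_unique, Nat.cast_one]
  have h2 : (fun g => π g - 1) = π - fun _ => 1 := rfl
  have h3 : IsGeneralizedCharacter G (π - fun _ => 1) := (isCharacter_fixedBy X).isGen.sub isGen_one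
  have h4 : classInner (π - fun _ => 1) (π - fun _ => 1) =
      Nat.card (MulAction.orbitRel.Quotient G (X × X)) - 1 := by
    rw [classInner_sub_left, classInner_sub_right, classInner_sub_right, h1,
      classInner_fixedBy_fixedBy, ← conj_classInner π, h1, isIrrCharacter_one.inner_self]
    simp
  have h5 : IsIrrCharacter G (π - fun _ => 1) ↔
      Nat.card (MulAction.orbitRel.Quotient G (X × X)) = 2 := by
    constructor
    · intro h
      have := h.inner_self
      rw [h4, sub_eq_iff_eq_add] at this
      exact_mod_cast this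
    · intro h
      refine h3.irr_of_re_pos (by rw [h4, h]; norm_num) ?_
      simp only [π, Pi.sub_apply, MulAction.fixedBy_one_eq_univ, Nat.card_univ, Complex.sub_re,
        Complex.natCast_re, Complex.one_re, sub_nonneg]
      exact_mod_cast one_le_two.trans hX
  have h6 : ∀ a b : X, (Quotient.mk'' (a, b) : MulAction.orbitRel.Quotient G (X × X)) =
      Quotient.mk'' (x, x) ↔ a = b := fun a b => by
    rw [Quotient.eq'', MulAction.orbitRel_apply]
    constructor
    · rintro ⟨g, hg⟩
      exact (congrArg Prod.fst hg).symm.trans (congrArg Prod.snd hg)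
    · rintro rfl
      obtain ⟨g, hg⟩ := MulAction.exists_smul_eq G x a
      exact ⟨g, Prod.ext hg hg⟩
  rw [h2, h5, Nat.card_eq_two_iff' (Quotient.mk'' (x, x)), MulAction.is_two_pretransitive_iff]
  constructor
  · intro h a b c d hab hcd
    obtain ⟨g, hg⟩ := MulAction.orbitRel_apply.1 (Quotient.eq''.1
      (h.unique (mt (h6 c d).1 hcd) (mt (h6 a b).1 hab)))
    exact ⟨g, congrArg Prod.fst hg, congrArg Prod.snd hg⟩
  · intro h
    refine ⟨Quotient.mk'' (x, y), mt (h6 x y).1 hxy, fun q hq => ?_⟩
    obtain ⟨⟨a, b⟩, rfl⟩ := Quotient.exists_rep q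
    obtain ⟨g, h7, h8⟩ := h hxy (mt (h6 a b).2 hq)
    exact Quotient.eq''.2 (MulAction.orbitRel_apply.2 ⟨g, Prod.ext h7 h8⟩)

end Cfsg.Agent.S0157
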