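import Cfsg.Statements.S0158
import Cfsg.Agent.H3.FS

set_option autoImplicit false
open Cfsg

namespace Cfsg.Agent.S0158

open Cfsg.Agent.H3

/-- The Frobenius–Schur indicator of an irreducible complex representation of a finite group — the average over s of the character at s * s — is 0, 1 or −1, and it vanishes exactly when some character value is not real. -/
theorem result {G : Type*} [Group G] [Fintype G] {V : Type*} [AddCommGroup V] [Module ℂ V] [FiniteDimensional ℂ V] (ρ : Representation ℂ G V) [ρ.IsIrreducible] : ((Nat.card G : ℂ)⁻¹ * ∑ s : G, ρ.character (s * s) = 0 ∨ (Nat.card G : ℂ)⁻¹ * ∑ s : G, ρ.character (s * s) = 1 ∨ (Nat.card G : ℂ)⁻¹ * ∑ s : G, ρ.character (s * s) = -1) ∧ ((Nat.card G : ℂ)⁻¹ * ∑ s : G, ρ.character (s * s) = 0 ↔ ∃ s : G, (ρ.character s).im ≠ 0) := by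
  have h := isIrrCharacter_character ρ
  refine ⟨h.fsInd_cases, fun h0 => ?_, fun ⟨s, hs⟩ => h.fsInd_of_not_real fun hr => hs ?_⟩
  · by_contra h1
    push Not at h1
    have := h.fsInd_of_real (funext fun g => Complex.conj_eq_iff_im.2 (h1 g))
    rw [show fsInd ρ.character = 0 from h0] at this
    norm_num at this
  · exact Complex.conj_eq_iff_im.1 (congrFun hr s)

end Cfsg.Agent.S0158
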