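import Cfsg.Statements.S0160
import Cfsg.Agent.H3.Irr

set_option autoImplicit false
open Cfsg

namespace Cfsg.Agent.S0160

open Cfsg.Agent.H3

/-- A finite group has as many real-valued irreducible complex characters as conjugacy classes closed under taking inverses. -/
theorem result {G : Type*} [Group G] [Finite G] : Nat.card {χ : Cfsg.IrrCharacter G // ∀ g : G, ((χ : G → ℂ) g).im = 0} = Nat.card {C : ConjClasses G // ∀ g : G, ConjClasses.mk g = C → IsConj g g⁻¹} := by
  have h := card_fixed_irr_eq (G := G) (fun g => g⁻¹) (fun χ hχ => by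
    have : χ ∘ (fun g => g⁻¹) = fun g => (starRingEnd ℂ) (χ g) := by
      ext g; exact hχ.apply_inv g
    rw [this]; exact hχ.conj)
  refine Eq.trans (Nat.card_congr (Equiv.subtypeEquivRight fun χ => ?_)) (h.trans
    (Nat.card_congr (Equiv.subtypeEquivRight fun C => ?_)))
  · simp only [funext_iff, Function.comp_apply, χ.2.apply_inv, Complex.conj_eq_iff_im]
  · simp only [isConj_comm]

end Cfsg.Agent.S0160
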