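import Cfsg.Statements.S0162
import Cfsg.Agent.H3.FS

set_option autoImplicit false
open Cfsg

namespace Cfsg.Agent.S0162

open Cfsg.Agent.H3

/-- If a finite group has odd order, its order is congruent to its number of conjugacy classes modulo 16. -/
theorem result {G : Type*} [Group G] [Finite G] (hodd : Odd (Nat.card G)) : Nat.card G ≡ Nat.card (ConjClasses G) [MOD 16] := by
  classical
  let c : Cfsg.IrrCharacter G → Cfsg.IrrCharacter G := fun χ => ⟨_, χ.2.conj⟩
  let f : Cfsg.IrrCharacter G → ZMod 16 := fun χ => (charDegree (χ : G → ℂ) : ZMod 16) ^ 2 - 1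
  have h1 : ∀ χ, f χ + f (c χ) = 0 := by
    intro χ
    have e : charDegree (c χ : G → ℂ) = charDegree (χ : G → ℂ) := by
      apply charDegree_eq
      simp only [c]
      rw [χ.2.isCharacter.conj_apply_one, χ.2.cast_charDegree]
    obtain ⟨k, hk⟩ := hodd.of_dvd_nat χ.2.degree_dvd_card
    simp only [f, e, hk]
    push_cast
    generalize (k : ZMod 16) = x
    revert x; decide
  have h2 : ∑ χ, f χ = 0 := by
    refine Finset.sum_involution (fun χ _ => c χ) (fun χ _ => h1 χ) (fun χ _ hf hc => hf ?_)
      (fun _ _ => Finset.mem_univ _) (fun χ _ => Subtype.ext (by ext; simp [c]))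
    have := χ.2.eq_one_of_real_of_odd hodd (congrArg Subtype.val hc)
    simp [f, this, charDegree]
  rw [← ZMod.natCast_eq_natCast_iff, ← card_irr_eq_card_conjClasses, ← sum_irr_charDegree_sq]
  simp only [f, Finset.sum_sub_distrib, Finset.sum_const, Finset.card_univ, nsmul_eq_mul,
    mul_one, sub_eq_zero] at h2
  rw [Nat.card_eq_fintype_card, ← h2]
  push_cast; rfl

end Cfsg.Agent.S0162
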