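import Cfsg.Statements.S0167
import Cfsg.Agent.H3.FS

set_option autoImplicit false
open Cfsg

namespace Cfsg.Agent.S0167

open Cfsg.Agent.H3

/-- An element g of a finite group is a commutator if and only if the sum over the irreducible characters χ of χ g / χ 1 is nonzero. -/
theorem result {G : Type*} [Group G] [Finite G] (g : G) : (∃ a b : G, g = a * b * a⁻¹ * b⁻¹) ↔ ∑ᶠ χ : Cfsg.IrrCharacter G, (χ : G → ℂ) g / (χ : G → ℂ) 1 ≠ 0 := by
  rw [finsum_eq_sum_of_fintype]
  have h := card_commutator_eq_sum g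
  constructor
  · rintro ⟨a, b, hab⟩ h0
    rw [h0, mul_zero] at h
    have : Nonempty {p : G × G // p.1 * p.2 * p.1⁻¹ * p.2⁻¹ = g} := ⟨⟨(a, b), hab.symm⟩⟩
    exact Nat.card_pos.ne' (by exact_mod_cast h)
  · intro h0
    by_contra h1
    have : IsEmpty {p : G × G // p.1 * p.2 * p.1⁻¹ * p.2⁻¹ = g} :=
      ⟨fun p => h1 ⟨p.1.1, p.1.2, p.2.symm⟩⟩
    rw [Nat.card_of_isEmpty] at h
    exact mul_ne_zero card_ne_zero h0 (by exact_mod_cast h.symm)

end Cfsg.Agent.S0167
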