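import Cfsg.Statements.S0168
import Cfsg.Agent.H3.FS

set_option autoImplicit false
open Cfsg

namespace Cfsg.Agent.S0168

open Cfsg.Agent.H3

/-- The Burnside–Brauer Theorem. Let χ be the character of a faithful complex representation of a finite group, taking m distinct values. Then every irreducible character has nonzero inner product with χ ^ i for some i < m. -/
theorem result {G : Type*} [Group G] [Fintype G] {V : Type*} [AddCommGroup V] [Module ℂ V] [FiniteDimensional ℂ V] (ρ : Representation ℂ G V) (hfaithful : Function.Injective ρ) (ψ : G → ℂ) (hψ : Cfsg.IsIrrCharacter G ψ) : ∃ i : ℕ, i < Nat.card (Set.range ρ.character) ∧ Cfsg.classInner (fun g => ρ.character g ^ i) ψ ≠ 0 := by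
  classical
  by_contra h0
  push Not at h0
  have hχ := isCharacter_character ρ
  set χ := ρ.character with hχd
  let S : Finset ℂ := Finset.univ.image χ
  have hS : Nat.card (Set.range χ) = S.card := by
    rw [← Nat.card_eq_finsetCard]; exact Nat.card_congr (Equiv.subtypeEquivRight (by simp [S]))
  let P : Polynomial ℂ := ∏ a ∈ S.erase (χ 1), (Polynomial.X - Polynomial.C a)
  have hP : P.natDegree < S.card := by
    rw [Polynomial.natDegree_prod_of_monic _ _ (fun a _ => Polynomial.monic_X_sub_C a)]
    simp only [Polynomial.natDegree_X_sub_C, Finset.sum_const, smul_eq_mul, mul_one]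
    exact Finset.card_erase_lt_of_mem (by simp [S])
  have h1 : classInner (fun g => P.eval (χ g)) ψ = 0 := by
    have : (fun g => P.eval (χ g)) =
        ∑ i ∈ Finset.range S.card, P.coeff i • (fun g => χ g ^ i) := by
      ext g
      rw [Polynomial.eval_eq_sum_range' hP]; simp
    rw [this, classInner_sum_left]
    refine Finset.sum_eq_zero fun i hi => ?_
    rw [classInner_smul_left, h0 i (by rw [hS]; simpa using hi), mul_zero]
  rw [classInner_def, Finset.sum_eq_single 1] at h1
  · rw [hψ.isCharacter.conj_apply_one] at h1
    refine mul_ne_zero (inv_ne_zero card_ne_zero) (mul_ne_zero ?_ hψ.apply_one_ne_zero) h1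
    simp only [P, Polynomial.eval_prod]
    rw [Finset.prod_ne_zero_iff]
    intro a ha
    simpa [sub_eq_zero] using (Finset.mem_erase.1 ha).1.symm
  · intro g _ hg
    rw [mul_eq_zero]; left
    simp only [P, Polynomial.eval_prod]
    refine Finset.prod_eq_zero (i := χ g) ?_ (by simp)
    simp only [Finset.mem_erase, S, Finset.mem_image, Finset.mem_univ, true_and,
      exists_apply_eq_apply, and_true]
    intro h2
    have := hχ.mem_charKer_iff.2 h2
    rw [hχd, charKer_character, (MonoidHom.ker_eq_bot_iff _).2 hfaithful] at this
    exact hg this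
  · simp

end Cfsg.Agent.S0168
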