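import Cfsg.Statements.S0173
import Cfsg.Agent.H3.Irr

set_option autoImplicit false
open Cfsg

namespace Cfsg.Agent.S0173

open Cfsg.Agent.H3

/-- Brauer's permutation lemma for a single automorphism: the number of conjugacy classes mapped to themselves equals the number of irreducible complex characters χ with χ ∘ α = χ. -/
theorem result {G : Type*} [Group G] [Finite G] (α : G ≃* G) : Nat.card {C : ConjClasses G // ConjClasses.map α.toMonoidHom C = C} = Nat.card {χ : Cfsg.IrrCharacter G // (χ : G → ℂ) ∘ α = (χ : G → ℂ)} := by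
  have h := card_fixed_irr_eq (G := G) α (fun χ hχ => hχ.comp_equiv α)
  refine Eq.trans (Nat.card_congr (Equiv.subtypeEquivRight fun C => ?_)) h.symm
  obtain ⟨c, rfl⟩ := ConjClasses.exists_rep C
  change ConjClasses.mk (α c) = _ ↔ _
  simp only [ConjClasses.mk_eq_mk_iff_isConj]
  refine ⟨fun h g hg => ?_, fun h => h c (IsConj.refl c)⟩
  exact ((α.toMonoidHom.map_isConj hg).trans h).trans hg.symm

end Cfsg.Agent.S0173
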