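import Cfsg.Statements.S0175
import Cfsg.Agent.H3.Mackey

set_option autoImplicit false
open Cfsg

namespace Cfsg.Agent.S0175

open Cfsg.Agent.H3
open scoped commutatorElement

/-- Taketa's Theorem on M-groups: if every irreducible complex character of a finite group is induced from a linear character (a homomorphism to ℂˣ) of some subgroup, the group is solvable. -/
theorem result {G : Type*} [Group G] [Fintype G] (hM : ∀ χ : G → ℂ, Cfsg.IsIrrCharacter G χ → ∃ (H : Subgroup G) (lam : H →* ℂˣ), χ = Cfsg.indFun H (fun h => (lam h : ℂ))) : Group.IsSolvable G := by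
  have key : ∀ d : ℕ, ∀ χ, IsIrrCharacter G χ → charDegree χ ≤ d →
      derivedSeries G d ≤ charKer χ := by
    intro d
    induction d with
    | zero => intro χ hχ h; exact absurd hχ.charDegree_pos (by omega)
    | succ d ih =>
      intro χ hχ h
      obtain ⟨H, lam, rfl⟩ := hM χ hχ
      have := Fintype.ofFinite H
      rw [charDegree_eq (n := H.index) (by simp [indFun_one])] at h
      have h1 : derivedSeries G d ≤ H := by
        by_cases hH : H = ⊤
        · simp [hH]
        have h2 : IsCharacter G (indFun H fun _ => 1) := isCharacter_one.ind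
        refine le_trans (fun g hg => h2.isClassFunction.mem_charKer_of_forall fun ψ hψ h3 =>
          ih ψ hψ ?_ hg) (charKer_indFun_le isCharacter_one one_ne_zero)
        have h4 := h2.degree_le_of_inner_ne_zero hψ h3
        rw [charDegree_eq (χ := indFun H fun _ => 1) (n := H.index) (by simp [indFun_one])] at h4
        by_contra h5
        have h6 := h2.eq_of_inner_ne_zero_of_degree hψ h3 (by
          rw [← hψ.cast_charDegree, indFun_one, mul_one]; congr 1; omega)
        have h7 := (h6 ▸ hψ).eq_of_inner_ne_zero isIrrCharacter_one (by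
          rw [classInner_indFun_left _ isIrrCharacter_one.isClassFunction,
            isIrrCharacter_one.inner_self]; simp)
        have h8 := congrFun h7 1
        rw [indFun_one, mul_one, Nat.cast_eq_one, Subgroup.index_eq_one] at h8
        exact hH h8
      have h2 : derivedSeries G (d + 1) ≤ derivedSeries G d := Subgroup.commutator_le_right _ _
      rw [le_charKer_ind_iff (h2.trans h1) (isCharacter_linear lam), charKer_linear]
      have h3 : derivedSeries G (d + 1) ≤ lam.ker.map H.subtype := by
        refine Subgroup.commutator_le.2 fun a ha b hb => ⟨⁅(⟨a, h1 ha⟩ : H), ⟨b, h1 hb⟩⁆, ?_, rfl⟩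
        change lam _ = 1
        rw [map_commutatorElement, commutatorElement_eq_one_iff_mul_comm, mul_comm]
      intro x hx
      obtain ⟨y, hy, h4⟩ := h3 hx
      rwa [← Subtype.ext h4]
  refine ⟨⟨Nat.card G, eq_bot_iff.2 fun g hg => eq_one_of_forall_irr fun χ hχ => ?_⟩⟩
  exact apply_of_mem_charKer (key _ χ hχ (Nat.le_of_dvd Nat.card_pos hχ.degree_dvd_card) hg)

end Cfsg.Agent.S0175
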