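import Cfsg.Statements.S0177
import Cfsg.Agent.H3.Brauer

set_option autoImplicit false
open Cfsg

namespace Cfsg.Agent.S0177

open Cfsg.Agent.H3
open scoped commutatorElement

/-- The Artin induction Theorem: for a character χ of a finite group, |G| • χ is a ℤ-linear combination of functions induced from homomorphisms of cyclic subgroups into ℂˣ. -/
theorem result {G : Type*} [Group G] [Fintype G] (χ : G → ℂ) (hχ : Cfsg.IsCharacter G χ) : ∃ l : List ((A : Subgroup G) × ((A →* ℂˣ) × ℤ)), (∀ t ∈ l, IsCyclic t.1) ∧ (Nat.card G : ℂ) • χ = (l.map fun t => (t.2.2 : ℂ) • Cfsg.indFun t.1 (fun a => (t.2.1 a : ℂ))).sum := by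
  classical
  have := Fintype.ofFinite (Subgroup G)
  let F : Subgroup G → G → ℂ := fun B g =>
    ∑ x : G, if Subgroup.zpowers (x * g * x⁻¹) = B then 1 else 0
  have h1 : ∀ A : Subgroup G, ∑ B ∈ Finset.univ.filter (· ≤ A), F B =
      (Nat.card A : ℂ) • indFun A fun _ => 1 := fun A => by
    ext g
    rw [Finset.sum_apply, Finset.sum_comm, Pi.smul_apply, indFun_apply', smul_eq_mul, ← mul_assoc,
      mul_inv_cancel₀ card_ne_zero, one_mul]
    refine Finset.sum_congr rfl fun x _ => ?_
    rw [Finset.sum_ite_eq, extendByZero_apply]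
    simp
  have h2 : ∀ A : Subgroup G, F A ∈ indSpan {A : Subgroup G | IsCyclic A} := fun A => by
    induction A using WellFoundedLT.induction with
    | ind A ih =>
    by_cases hA : IsCyclic A
    · have h3 := h1 A
      rw [← Finset.add_sum_erase _ _ (a := A) (by simp), Nat.cast_smul_eq_nsmul] at h3
      rw [eq_sub_of_add_eq h3]
      refine AddSubgroup.sub_mem _ (AddSubgroup.nsmul_mem _ (ind_mem_indSpan hA isCharacter_one) _)
        (AddSubgroup.sum_mem _ fun B hB => ih B ?_)
      simp only [Finset.mem_erase, Finset.mem_filter, Finset.mem_univ, true_and] at hB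
      exact lt_of_le_of_ne hB.2 hB.1
    · have : F A = 0 := funext fun g => Finset.sum_eq_zero fun x _ => if_neg (by
        rintro rfl; exact hA inferInstance)
      rw [this]; exact AddSubgroup.zero_mem _
  have h3 := mul_mem_indSpan (AddSubgroup.sum_mem _ fun B (_ : B ∈ Finset.univ.filter (· ≤ ⊤)) =>
    h2 B) hχ
  rw [h1, Subgroup.card_top, funext (indFun_top _ isIrrCharacter_one.isClassFunction),
    smul_mul_assoc, show (fun _ => 1) * χ = χ from one_mul χ] at h3
  exact exists_list_linear_of_mem_indSpan (S := {A : Subgroup G | IsCyclic A})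
    (fun E hE => ⟨by have : IsCyclic E := hE; exact Agent.L.isNilpotent_of_isMulCommutative E,
      fun U hU => by have : IsCyclic E := hE; exact Subgroup.isCyclic_of_le hU⟩) h3

end Cfsg.Agent.S0177
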