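import Cfsg.Statements.S0178
import Cfsg.Agent.H3.Kernel

set_option autoImplicit false
open Cfsg

namespace Cfsg.Agent.S0178

open Cfsg.Agent.H3

/-- The degree of an irreducible complex representation of a finite group is at most the index of any abelian subgroup. -/
theorem result {G : Type*} [Group G] [Finite G] {V : Type*} [AddCommGroup V] [Module ℂ V] [FiniteDimensional ℂ V] (ρ : Representation ℂ G V) [ρ.IsIrreducible] (A : Subgroup G) (hA : ∀ a ∈ A, ∀ b ∈ A, a * b = b * a) : Module.finrank ℂ V ≤ A.index := by
  classical
  have := Fintype.ofFinite G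
  have h := isIrrCharacter_character ρ
  have : IsMulCommutative A := ⟨⟨fun a b => Subtype.ext (hA a a.2 b b.2)⟩⟩
  obtain ⟨θ, hθ, h1⟩ := h.exists_under A
  rw [← classInner_indFun_right _ h.isClassFunction] at h1
  have h2 := hθ.isCharacter.ind.degree_le_of_inner_ne_zero h
    (fun h => h1 (classInner_eq_zero_comm.1 h))
  rwa [charDegree_eq (Representation.char_one ρ), charDegree_eq (n := A.index)
    (by rw [indFun_one, hθ.degree_eq_one_of_comm, mul_one])] at h2

end Cfsg.Agent.S0178
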