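import Cfsg.Statements.S0186
import Cfsg.Agent.H3.Misc

set_option autoImplicit false
open Cfsg

namespace Cfsg.Agent.S0186

open Cfsg.Agent.H3
open scoped commutatorElement

/-- Let G be a finite simple group of order n and p a prime dividing n. If G has more than n / p^2 conjugacy classes, then every Sylow p-subgroup of G is abelian. -/
theorem result {G : Type*} [Group G] [Finite G] [IsSimpleGroup G] (p : ℕ) [Fact p.Prime] (hp : p ∣ Nat.card G) (hmany : Nat.card G < p ^ 2 * Nat.card (ConjClasses G)) (P : Sylow p G) (a b : G) (ha : a ∈ P) (hb : b ∈ P) : a * b = b * a := by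
  classical
  have hp' : p.Prime := Fact.out
  by_cases h2 : p ^ 2 ∣ Nat.card G
  swap
  · obtain ⟨k, hk⟩ := P.2.exists_card_eq
    have h3 : k ≤ 1 := by
      by_contra h
      exact h2 ((pow_dvd_pow p (by omega)).trans (hk ▸ Subgroup.card_subgroup_dvd_card _))
    have : IsCyclic P := isCyclic_of_card_dvd_prime (p := p) (by
      rw [hk]; exact (pow_dvd_pow p h3).trans (pow_one p).dvd)
    exact congrArg Subtype.val (mul_comm' (⟨a, ha⟩ : P) ⟨b, hb⟩)
  obtain ⟨χ, h3, h4⟩ : ∃ χ : IrrCharacter G, (χ : G → ℂ) ≠ (fun _ => 1) ∧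
      charDegree (χ : G → ℂ) < p := by
    by_contra! h
    obtain ⟨c, hc⟩ := h2
    let o : IrrCharacter G := ⟨_, isIrrCharacter_one⟩
    have h5 := sum_irr_charDegree_sq (G := G)
    rw [← Finset.add_sum_erase _ _ (Finset.mem_univ o)] at h5
    have h6 : (Finset.univ.erase o).card • p ^ 2 ≤
        ∑ χ ∈ Finset.univ.erase o, charDegree (χ : G → ℂ) ^ 2 :=
      Finset.card_nsmul_le_sum _ _ _ fun χ hχ => Nat.pow_le_pow_left
        (h χ fun h => Finset.ne_of_mem_erase hχ (Subtype.ext h)) 2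
    have h7 := Finset.card_erase_add_one (Finset.mem_univ o)
    rw [Finset.card_univ, ← Nat.card_eq_fintype_card, card_irr_eq_card_conjClasses] at h7
    have h8 := pow_pos o.2.charDegree_pos 2
    rw [← h7, hc] at hmany
    rw [hc] at h5
    have h9 := Nat.lt_succ_iff.1 (Nat.lt_of_mul_lt_mul_left hmany)
    have := Nat.mul_le_mul_left (p ^ 2) h9
    rw [smul_eq_mul, mul_comm] at h6
    omega
  have h5 := (χ.2.isCharacter.res P).commutator_le_charKer fun q hq h => by
    obtain ⟨k, hk⟩ := P.2.exists_card_eq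
    rw [(Nat.prime_dvd_prime_iff_eq hq hp').1 (hq.dvd_of_dvd_pow (hk ▸ h))]
    exact h4
  have h6 := h5 (Subgroup.commutator_mem_commutator (Subgroup.mem_top ⟨a, ha⟩)
    (Subgroup.mem_top ⟨b, hb⟩))
  have h7 : ⁅a, b⁆ ∈ charKer (χ : G → ℂ) := χ.2.mem_charKer_iff.2 (apply_of_mem_charKer h6 :)
  rw [χ.2.charKer_eq_bot_of_simple h3] at h7
  exact commutatorElement_eq_one_iff_mul_comm.1 h7

end Cfsg.Agent.S0186
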