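import Cfsg.Statements.S0187
import Cfsg.Agent.H3.Irr

set_option autoImplicit false
open Cfsg

namespace Cfsg.Agent.S0187

open Cfsg.Agent.H3

/-- A finite group is commutative if and only if every irreducible complex character has degree 1. -/
theorem result {G : Type*} [Group G] [Finite G] : (∀ a b : G, a * b = b * a) ↔ ∀ χ : Cfsg.IrrCharacter G, (χ : G → ℂ) 1 = 1 := by
  constructor
  · intro h χ
    have : IsMulCommutative G := ⟨⟨h⟩⟩
    exact χ.2.degree_eq_one_of_comm
  · intro h a b
    have : IsConj (a * b * a⁻¹ * b⁻¹) 1 := by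
      rw [isConj_iff_forall_irr]
      intro χ hχ
      obtain ⟨lam, rfl⟩ := hχ.isCharacter.exists_linear (h ⟨χ, hχ⟩)
      simp [mul_comm]
    rw [isConj_one_left] at this
    calc a * b = (a * b * a⁻¹ * b⁻¹) * (b * a) := by group
      _ = b * a := by rw [this, one_mul]

end Cfsg.Agent.S0187
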