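import Cfsg.Statements.S0189
import Cfsg.Agent.H3.Kernel

set_option autoImplicit false
open Cfsg

namespace Cfsg.Agent.S0189

open Cfsg.Agent.H3

/-- If a complex character of a finite group vanishes at every non-identity element of a Sylow p-subgroup P, then |P| divides its degree. -/
theorem result {G : Type*} [Group G] [Finite G] (p : ℕ) [Fact p.Prime] (P : Sylow p G) (χ : G → ℂ) (hχ : Cfsg.IsCharacter G χ) (hvan : ∀ g : G, g ∈ P → g ≠ 1 → χ g = 0) : ∃ k : ℕ, χ 1 = (Nat.card P : ℂ) * k := by
  classical
  have := Fintype.ofFinite G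
  obtain ⟨k, hk⟩ := (hχ.res P).exists_nat_inner isCharacter_one
  refine ⟨k, ?_⟩
  have h1 := card_mul_classInner (fun x : (P : Subgroup G) => χ x) (fun _ => 1)
  rw [hk, Finset.sum_eq_single 1 (fun x _ hx => by
    rw [hvan x x.2 (fun h => hx (Subtype.ext h)), zero_mul]) (by simp)] at h1
  simpa using h1.symm

end Cfsg.Agent.S0189
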