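import Cfsg.Statements.S0190
import Cfsg.Agent.H3.Ind

set_option autoImplicit false
open Cfsg

namespace Cfsg.Agent.S0190

open Cfsg.Agent.H3

/-- For a transitive action of a finite group on X, the permutation character g ↦ (number of fixed points of g) is the function induced from the principal character of the stabilizer of any point. -/
theorem result {G : Type*} [Group G] [Fintype G] (X : Type*) [MulAction G X] [Finite X] [MulAction.IsPretransitive G X] (x : X) : (fun g : G => (Nat.card (MulAction.fixedBy X g) : ℂ)) = Cfsg.indFun (MulAction.stabilizer G x) (fun _ => 1) := by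
  classical
  have := Fintype.ofFinite X
  ext g
  rw [indFun_apply]
  have h1 : ∀ y : G, extendByZero (MulAction.stabilizer G x) (fun _ => (1 : ℂ)) (y⁻¹ * g * y) =
      if g • (y • x) = y • x then 1 else 0 := by
    intro y
    rw [extendByZero_apply]
    simp [MulAction.mem_stabilizer_iff, mul_smul, inv_smul_eq_iff]
  simp only [h1]
  rw [← Finset.sum_fiberwise (s := Finset.univ) (g := fun y : G => y • x)]
  have h2 : ∀ z : X, ∑ y ∈ Finset.univ.filter (fun y : G => y • x = z),
      (if g • (y • x) = y • x then (1 : ℂ) else 0) =
      Nat.card (MulAction.stabilizer G x) * (if g • z = z then 1 else 0) := by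
    intro z
    rw [Finset.sum_congr rfl (g := fun _ => if g • z = z then (1 : ℂ) else 0) (fun y hy => by
      rw [(Finset.mem_filter.1 hy).2]), Finset.sum_const, nsmul_eq_mul]
    congr 2
    obtain ⟨y, rfl⟩ := MulAction.exists_smul_eq G x z
    rw [← Fintype.card_subtype, ← Nat.card_eq_fintype_card]
    refine Nat.card_congr ⟨fun w => ⟨y⁻¹ * w.1, by
      simp [MulAction.mem_stabilizer_iff, mul_smul, w.2]⟩,
      fun w => ⟨y * w.1, by rw [mul_smul, w.2]⟩, fun w => by simp, fun w => by simp⟩
  simp only [h2, ← Finset.mul_sum]
  rw [← mul_assoc, inv_mul_cancel₀ card_ne_zero, one_mul, Nat.card_eq_fintype_card,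
    Fintype.card_subtype, Finset.card_filter]
  simp

end Cfsg.Agent.S0190
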