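import Cfsg.Statements.S0192
import Cfsg.Agent.H3.Misc

set_option autoImplicit false
open Cfsg

namespace Cfsg.Agent.S0192

open Cfsg.Agent.H3
open scoped commutatorElement

/-- Brauer's generation criterion. Let G be a finite simple group, H₁ and H₂ subgroups, and χ a non-principal irreducible character. If the multiplicity of the principal character in χ restricted to H₁ ⊓ H₂ is less than the sum of the corresponding multiplicities for H₁ and H₂, then H₁ and H₂ do not generate G. -/
theorem result {G : Type*} [Group G] [Fintype G] [IsSimpleGroup G] (H₁ H₂ : Subgroup G) [Fintype H₁] [Fintype H₂] [Fintype ↥(H₁ ⊓ H₂)] (χ : G → ℂ) (hχ : Cfsg.IsIrrCharacter G χ) (hχ1 : χ ≠ fun _ => 1) (hlt : (Cfsg.classInner (fun x : ↥(H₁ ⊓ H₂) => χ x) (fun _ => 1)).re < (Cfsg.classInner (fun x : H₁ => χ x) (fun _ => 1)).re + (Cfsg.classInner (fun x : H₂ => χ x) (fun _ => 1)).re) : H₁ ⊔ H₂ ≠ ⊤ := by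
  intro h
  have h0 := hχ.inner_of_ne isIrrCharacter_one hχ1
  obtain ⟨n, ρ, -, rfl⟩ := hχ
  have := Fintype.ofFinite (⊤ : Subgroup G)
  have h1 := classInner_res_one_eq_finrank ρ ⊤
  replace h1 := (h0.symm.trans (classInner_comp_equiv Subgroup.topEquiv ρ.character
    fun _ => 1).symm).trans h1
  simp only [classInner_res_one_eq_finrank, Complex.natCast_re] at hlt
  have h2 := Submodule.finrank_sup_add_finrank_inf_eq
    (Representation.invariants (ρ.comp H₁.subtype)) (Representation.invariants (ρ.comp H₂.subtype))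
  have h3 := Submodule.finrank_mono (show Representation.invariants (ρ.comp H₁.subtype) ⊔
      Representation.invariants (ρ.comp H₂.subtype) ≤
      Representation.invariants (ρ.comp (H₁ ⊓ H₂).subtype) from
    sup_le (fun v hv g => hv ⟨g, g.2.1⟩) fun v hv g => hv ⟨g, g.2.2⟩)
  have h4 := Submodule.finrank_mono (show Representation.invariants (ρ.comp H₁.subtype) ⊓
      Representation.invariants (ρ.comp H₂.subtype) ≤
      Representation.invariants (ρ.comp (⊤ : Subgroup G).subtype) from fun v hv g => by
    let S : Subgroup G :=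
      { carrier := {g | ρ g v = v}
        one_mem' := by simp
        mul_mem' := fun {a b} ha hb => by
          simp only [Set.mem_setOf_eq, map_mul, Module.End.mul_apply] at *; rw [hb, ha]
        inv_mem' := fun {a} ha => by
          simp only [Set.mem_setOf_eq] at *
          conv_lhs => rw [← ha]
          simp }
    exact (h ▸ sup_le (fun g hg => hv.1 ⟨g, hg⟩) (fun g hg => hv.2 ⟨g, hg⟩) : ⊤ ≤ S) g.2)
  have h5 : _ = 0 := Nat.cast_eq_zero.1 h1.symm
  have h6 := (Nat.cast_lt (α := ℝ)).1 (hlt.trans_eq (Nat.cast_add _ _).symm)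
  omega

end Cfsg.Agent.S0192
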