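import Cfsg.Statements.S0194
import Cfsg.Agent.H3.Normal

set_option autoImplicit false
open scoped ComplexConjugate
open Cfsg

namespace Cfsg.Agent.S0194

open Cfsg.Agent.H3

/-- Let G have odd order, H be a normal subgroup and θ a non-principal irreducible character of H. Then the function induced from θ is orthogonal to its complex conjugate. -/
theorem result {G : Type*} [Group G] [Fintype G] (hodd : Odd (Nat.card G)) (H : Subgroup G) [H.Normal] (θ : H → ℂ) (hθ : Cfsg.IsIrrCharacter H θ) (hθ1 : θ ≠ fun _ => 1) : Cfsg.classInner (fun g => conj (Cfsg.indFun H θ g)) (Cfsg.indFun H θ) = 0 := by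
  rw [← indFun_conj, classInner_indFun_indFun hθ.conj hθ, if_neg]
  intro h
  obtain ⟨g, hg⟩ := mem_cjOrbit.1 h
  have h1 : ∀ k : ℕ, cjf (g ^ k) θ = if Even k then θ else fun n => conj (θ n) := by
    intro k
    induction k with
    | zero => simp [cjf_one]
    | succ k ih =>
      rw [pow_succ, cjf_mul, ih]
      by_cases hk : Even k
      · rw [if_pos hk, if_neg (by simpa [Nat.even_add_one] using hk)]
        ext n
        conv_rhs => rw [hg]
        simp
      · rw [if_neg hk, if_pos (by simpa [Nat.even_add_one] using hk)]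
        exact hg.symm
  have h2 := h1 (Nat.card G)
  rw [pow_card_eq_one', cjf_one, if_neg (Nat.not_even_iff_odd.2 hodd)] at h2
  exact hθ1 (hθ.eq_one_of_real_of_odd (Odd.of_dvd_nat hodd H.card_subgroup_dvd_card)
    h2.symm)

end Cfsg.Agent.S0194
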