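import Cfsg.Statements.S0195
import Cfsg.Agent.H3.Misc

set_option autoImplicit false
open Cfsg

namespace Cfsg.Agent.S0195

open Cfsg.Agent.H3
open scoped commutatorElement

/-- Let A be a subgroup of G that equals the centralizer of each of its non-identity elements. If g lies outside the normalizer of A, then the only element of A conjugated by g into A is the identity (A is a trivial-intersection set). -/
theorem result {G : Type*} [Group G] [Finite G] (A : Subgroup G) (hA : ∀ x ∈ A, x ≠ 1 → Subgroup.centralizer ({x} : Set G) = A) (g : G) (hg : g ∉ Subgroup.normalizer (A : Set G)) (x : G) (hx : x ∈ A) (hgx : g * x * g⁻¹ ∈ A) : x = 1 := by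
  by_contra h
  have h1 := hA x hx h
  have h2 := hA _ hgx (by simpa using h)
  refine hg (Subgroup.mem_normalizer_iff.2 fun y => ?_)
  conv_lhs => rw [← h1]
  conv_rhs => rw [← h2]
  simp only [Subgroup.mem_centralizer_singleton_iff]
  rw [← (MulAut.conj g).injective.eq_iff, map_mul, map_mul]; rfl

end Cfsg.Agent.S0195
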