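import Cfsg.Statements.S0201
import Cfsg.Agent.B.ZStar

set_option autoImplicit false
open Cfsg

namespace Cfsg.Agent.S0201

open Cfsg.Agent Cfsg.Agent.B Cfsg.Agent.H2 Cfsg.Agent.H3 Cfsg.Agent.L Subgroup MonoidAlgebra
open scoped Pointwise commutatorElement

/-- Brauer–Suzuki Theorem: if a Sylow 2-subgroup of a finite group is generalized quaternion (of order at least 8) and the group has no nontrivial normal subgroup of odd order, then its centre has order 2. -/
theorem result {G : Type*} [Group G] [Finite G] (S : Sylow 2 G) (n : ℕ) (e : (S : Subgroup G) ≃* QuaternionGroup (2 ^ (n + 1))) (hO : ∀ N : Subgroup G, N.Normal → Odd (Nat.card N) → N = ⊥) : Nat.card (Subgroup.center G) = 2 := by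
  obtain ⟨a, b, h⟩ := exists_qP (Nat.two_pow_pos _) e
  have hO' : pPrimeCore 2 G = ⊥ :=
    hO _ inferInstance (Nat.coprime_two_right.1 (pPrimeCore_coprime 2))
  have hP := sylIn_top S
  have h1 := zstar_center (h.isolated hP h.ord_t) hO'
  rw [← h.ord_t, ← Nat.card_zpowers]
  congr 2
  refine le_antisymm (fun g hg => ?_) (zpowers_le.2 h1)
  obtain ⟨x, y, rfl, hc, hx, hy⟩ := exists_pdecomp (p := 2) g
  have hxc := (isPPart_mul hx hy hc).mem hg
  have hyc : zpowers y ≤ center G := zpowers_le.2 ((mul_mem_cancel_left hxc).1 hg)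
  obtain rfl : y = 1 := (hO (zpowers y) ⟨fun n hn g => by
    rwa [mem_center_iff.1 (hyc hn) g, mul_inv_cancel_right]⟩ (by
      rw [Nat.card_zpowers]; exact Nat.not_even_iff_odd.1 (mt even_iff_two_dvd.1 hy))).le
    (mem_zpowers y)
  rw [mul_one]
  obtain ⟨k, hk⟩ := hx
  obtain ⟨c, hc⟩ := exists_conj_mem_sylow S hk
  rw [mem_center_iff.1 hxc c, mul_inv_cancel_right] at hc
  have h2 : x ∈ zpowers a := h.mem_of_commute hc (mem_zpowers a) (fun e => by
    have h3 := Nat.le_of_dvd two_pos (orderOf_dvd_of_pow_eq_one ((pow_two a).trans e))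
    rw [h.ord, pow_succ] at h3
    have := Nat.two_pow_pos n
    omega) (mem_center_iff.1 hxc a).symm
  have h3 := h.inv_of_not_mem h.b_mem h.nmem h2
  rw [mem_center_iff.1 hxc b, mul_inv_cancel_right, ← mul_eq_one_iff_eq_inv] at h3
  by_cases h4 : x = 1
  · rw [h4]; exact one_mem _
  · rw [h.eq_t hc (ord2_of h3 h4)]; exact mem_zpowers _

end Cfsg.Agent.S0201
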