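import Cfsg.Statements.S0204
import Cfsg.Agent.H4.Dick5
import Cfsg.Agent.B.ZStar
import Cfsg.Agent.PF.FT

set_option autoImplicit false
open Cfsg

namespace Cfsg.Agent.S0204

open Subgroup

/-- A non-cyclic finite simple group contains a subgroup which is a Klein four-group; this combines the Odd Order Theorem, Burnside's transfer argument for cyclic Sylow 2-subgroups and the Brauer–Suzuki Theorem. -/
theorem result {G : Type*} [Group G] [Finite G] [IsSimpleGroup G] (hG : ¬ IsCyclic G) : ∃ E : Subgroup G, IsKleinFour E := by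
  have hna : ¬ ∀ a b : G, a * b = b * a := fun h =>
    letI : CommGroup G := { (inferInstance : Group G) with mul_comm := h }
    hG inferInstance
  have hev : 2 ∣ Nat.card G := by
    by_contra h
    exact hna (IsSimpleGroup.comm_iff_isSolvable.2
      (odd_order (Nat.odd_iff.2 (Nat.two_dvd_ne_zero.1 h))))
  obtain ⟨t, ht⟩ := exists_prime_orderOf_dvd_card' 2 hev
  have t1 : t ≠ 1 := by rintro rfl; simp at ht
  have t2 : t * t = 1 := by rw [← sq, ← ht, pow_orderOf_eq_one]
  by_contra hn
  have hi : IsIsolatedInvolution t := ⟨ht, fun g hc => by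
    by_contra e
    refine hn ⟨_, H4.KP.isKleinFour (a := t) (b := g * t * g⁻¹) ⟨t1, by simpa using t1, Ne.symm e, t2,
      by rw [conj_mul, t2]; simp, hc.eq.symm⟩⟩⟩
  have hO : pPrimeCore 2 G = ⊥ := by
    refine (IsSimpleGroup.eq_bot_or_eq_top_of_normal (pPrimeCore 2 G) inferInstance).resolve_right
      fun e => ?_
    have := L.pPrimeCore_coprime (G := G) 2
    rw [e, card_top] at this
    exact absurd (Nat.Coprime.eq_one_of_dvd this.symm hev) (by norm_num)
  have hz := B.zstar_center hi hO
  rcases IsSimpleGroup.eq_bot_or_eq_top_of_normal (center G) inferInstance with e | e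
  · rw [e] at hz; exact t1 hz
  · exact hna fun a b => mem_center_iff.1 (e ▸ mem_top b) a

end Cfsg.Agent.S0204
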