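import Cfsg.Statements.S0205
import Cfsg.Agent.PF.FT

set_option autoImplicit false
open Cfsg

namespace Cfsg.Agent.S0205

/-- The Odd Order Theorem: a finite group of odd order is solvable. -/
theorem result {G : Type*} [Group G] [Finite G] (hG : Odd (Nat.card G)) : Group.IsSolvable G := by
  exact odd_order hG

end Cfsg.Agent.S0205
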