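import Cfsg.Statements.S0210
import Mathlib
import Cfsg.Agent.H2.Invol

set_option autoImplicit false
open Cfsg

namespace Cfsg.Agent.S0210

open Cfsg.Agent.H2

/-- If x, y are involutions whose product has even order, no element of the subgroup generated by x and y conjugates x to y. -/
theorem result {G : Type*} [Group G] [Finite G] (x y : G) (hx : orderOf x = 2) (hy : orderOf y = 2) (heven : Even (orderOf (x * y))) (d : G) (hd : d ∈ Subgroup.closure ({x, y} : Set G)) : d * x * d⁻¹ ≠ y := by
  have hx2 := ord2_mul_self hx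
  have hy2 := ord2_mul_self hy
  have hinv := inverts_left hx2 hy2
  have hx' := ord2_inv hx
  have key : ∀ k : ℤ, x * (x * y) ^ (2 * k) ≠ y := by
    intro k hk
    have h1 : (x * y) ^ (2 * k) = (x * y) ^ (1 : ℤ) := by
      rw [zpow_one]
      conv_rhs => rw [← hk]
      rw [← mul_assoc, hx2, one_mul]
    rw [zpow_eq_zpow_iff_modEq] at h1
    obtain ⟨m, hm⟩ := heven
    have h2 := Int.ModEq.of_dvd (m := 2) (by rw [hm]; exact ⟨m, by push_cast; ring⟩) h1
    unfold Int.ModEq at h2
    omega
  obtain ⟨k, rfl | rfl⟩ := (mem_closure_invol hx2 hy2).1 hd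
  · intro h
    apply key (-k)
    refine Eq.trans ?_ h
    rw [zpow_mul_inv' hinv, ← zpow_neg, mul_assoc, ← zpow_add]
    congr 2; ring
  · intro h
    apply key k
    refine Eq.trans ?_ h
    rw [mul_inv_rev, hx', ← zpow_neg, zpow_mul_inv' hinv, neg_neg, mul_assoc, ← mul_assoc x x,
      hx2, one_mul, mul_assoc, ← zpow_add]
    congr 2; ring

end Cfsg.Agent.S0210
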