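import Cfsg.Statements.S0211
import Mathlib
import Cfsg.Agent.H2.Invol

set_option autoImplicit false
open Cfsg

namespace Cfsg.Agent.S0211

open Cfsg.Agent.H2

/-- Let x, y be involutions with xy of even order n and z = (xy)^(n/2). Then xz is conjugate to x by an element of the subgroup generated by x, y if and only if 4 divides n. -/
theorem result {G : Type*} [Group G] [Finite G] (x y : G) (hx : orderOf x = 2) (hy : orderOf y = 2) (heven : Even (orderOf (x * y))) : (∃ d ∈ Subgroup.closure ({x, y} : Set G), d * x * d⁻¹ = x * (x * y) ^ (orderOf (x * y) / 2)) ↔ 4 ∣ orderOf (x * y) := by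
  have hx2 := ord2_mul_self hx
  have hy2 := ord2_mul_self hy
  have hinv := inverts_left hx2 hy2
  have hx' := ord2_inv hx
  have e1 : ∀ k : ℤ, (x * y) ^ k * x * ((x * y) ^ k)⁻¹ = x * (x * y) ^ (2 * (-k)) := by
    intro k
    rw [zpow_mul_inv' hinv, ← zpow_neg, mul_assoc, ← zpow_add]
    congr 2; ring
  have e2 : ∀ k : ℤ, (x * (x * y) ^ k) * x * (x * (x * y) ^ k)⁻¹ = x * (x * y) ^ (2 * k) := by
    intro k
    rw [mul_inv_rev, hx', ← zpow_neg, zpow_mul_inv' hinv, neg_neg, mul_assoc, ← mul_assoc x x,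
      hx2, one_mul, mul_assoc, ← zpow_add]
    congr 2; ring
  obtain ⟨m, hm⟩ := heven
  have hhalf : orderOf (x * y) / 2 = m := by omega
  rw [hhalf]
  have key : ∀ k : ℤ, x * (x * y) ^ (2 * k) = x * (x * y) ^ m → 4 ∣ orderOf (x * y) := by
    intro k hk
    have h1 := mul_left_cancel hk
    rw [← zpow_natCast, zpow_eq_zpow_iff_modEq] at h1
    have h2 := Int.ModEq.of_dvd (m := 2) (by rw [hm]; exact ⟨m, by push_cast; ring⟩) h1
    unfold Int.ModEq at h2
    omega
  constructor
  · rintro ⟨d, hd, h⟩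
    obtain ⟨k, rfl | rfl⟩ := (mem_closure_invol hx2 hy2).1 hd
    · rw [e1] at h; exact key _ h
    · rw [e2] at h; exact key _ h
  · rintro ⟨j, hj⟩
    refine ⟨x * (x * y) ^ (j : ℤ), (mem_closure_invol hx2 hy2).2 ⟨j, Or.inr rfl⟩, ?_⟩
    rw [e2, ← zpow_natCast]
    congr 2
    omega

end Cfsg.Agent.S0211
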