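import Cfsg.Statements.S0212
import Mathlib
import Cfsg.Agent.H2.Invol2

set_option autoImplicit false
open Cfsg

namespace Cfsg.Agent.S0212

open Cfsg.Agent.H2 Cfsg.Agent.L Subgroup

/-- The Brauer–Fowler bound: if G is a finite simple group and t an involution of G whose centralizer has order n, then |G| ≤ (2n^2)!. -/
theorem result {G : Type*} [Group G] [Finite G] [IsSimpleGroup G] (t : G) (ht : orderOf t = 2) : Nat.card G ≤ Nat.factorial (2 * (Nat.card (Subgroup.centralizer ({t} : Set G))) ^ 2) := by
  set c := Nat.card (centralizer ({t} : Set G)) with hc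
  have hc0 : 0 < c := Nat.card_pos
  rcases (inferInstance : (center G).Normal).eq_bot_or_eq_top with hZ | hZ
  · obtain ⟨H, hH, h⟩ := brauer_fowler (G := G)
      (by rw [even_iff_two_dvd, ← ht]; exact orderOf_dvd_natCard t) (by rw [hZ]; simp)
    have h1 := Nat.le_of_dvd (Nat.factorial_pos _)
      (card_dvd_factorial_index (normalCore_eq_bot_of_simple hH))
    refine h1.trans (Nat.factorial_le ?_)
    rcases h with h | h
    · rw [h]; nlinarith
    · set n := Nat.card {t : G // orderOf t = 2} with hn
      have h2 : Nat.card {y : G // IsConj t y} ≤ n := Nat.card_le_card_of_injective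
        (fun y => ⟨y.1, by rw [← orderOf_of_isConj y.2, ht]⟩)
        (fun a b h => Subtype.ext (by simpa using h))
      have h3 : Nat.card G ≤ n * c := by
        rw [← card_isConj_mul t]; exact Nat.mul_le_mul_right _ h2
      have h4 : Nat.card G * (Nat.card G + n) ≤ n * c * (n * c + n) := by gcongr
      have h5 : 2 * H.index * n ^ 2 < (c * (c + 1)) * n ^ 2 := by
        calc _ < _ := h
          _ ≤ _ := h4
          _ = _ := by ring
      have h6 := lt_of_mul_lt_mul_right h5 (Nat.zero_le _)
      nlinarith
  · have h1 : centralizer ({t} : Set G) = ⊤ := by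
      rw [eq_top_iff]; intro g _
      exact mem_centralizer_singleton_iff.2 (mem_center_iff.1 (hZ ▸ mem_top t) g)
    have h2 : c = Nat.card G := by rw [hc, h1, card_top]
    rw [← h2]
    refine (Nat.self_le_factorial c).trans (Nat.factorial_le ?_)
    nlinarith

end Cfsg.Agent.S0212
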