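import Cfsg.Statements.S0213
import Mathlib
import Cfsg.Agent.H2.Invol2

set_option autoImplicit false
open Cfsg

namespace Cfsg.Agent.S0213

open Cfsg.Agent.H2 Cfsg.Agent.L Subgroup

theorem fiber_conj {G : Type*} [Group G] (x₁ x₂ z g : G) :
    Nat.card {p : G × G // IsConj x₁ p.1 ∧ IsConj x₂ p.2 ∧ g * z * g⁻¹ ∈ zpowers (p.1 * p.2)} =
    Nat.card {p : G × G // IsConj x₁ p.1 ∧ IsConj x₂ p.2 ∧ z ∈ zpowers (p.1 * p.2)} := by
  have key : ∀ (a w : G) (p : G × G), IsConj x₁ p.1 ∧ IsConj x₂ p.2 ∧ w ∈ zpowers (p.1 * p.2) →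
      IsConj x₁ (a * p.1 * a⁻¹) ∧ IsConj x₂ (a * p.2 * a⁻¹) ∧
        a * w * a⁻¹ ∈ zpowers (a * p.1 * a⁻¹ * (a * p.2 * a⁻¹)) := by
    rintro a w p ⟨h1, h2, h3⟩
    refine ⟨h1.trans (isConj_iff.2 ⟨a, rfl⟩), h2.trans (isConj_iff.2 ⟨a, rfl⟩), ?_⟩
    have := conj_mem_cj a h3
    rw [cj_zpowers] at this
    convert this using 2; group
  refine Nat.card_congr ⟨fun p => ⟨(g⁻¹ * p.1.1 * g⁻¹⁻¹, g⁻¹ * p.1.2 * g⁻¹⁻¹), ?_⟩,
    fun p => ⟨(g * p.1.1 * g⁻¹, g * p.1.2 * g⁻¹), key g z p.1 p.2⟩, ?_, ?_⟩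
  · have := key g⁻¹ _ p.1 p.2
    convert this using 3; group
  · intro p; apply Subtype.ext; ext <;> simp [mul_assoc]
  · intro p; apply Subtype.ext; ext <;> simp [mul_assoc]

/-- Thompson Order Formula, two-class case: if every involution of the finite group G is conjugate to exactly one of the non-conjugate involutions x₁, x₂, and nᵢ is the number of pairs (u, v) with u conjugate to x₁, v conjugate to x₂ and xᵢ in the cyclic group generated by uv, then |G| = |C(x₂)| n₁ + |C(x₁)| n₂. -/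
theorem result {G : Type*} [Group G] [Finite G] (x₁ x₂ : G) (h₁ : orderOf x₁ = 2) (h₂ : orderOf x₂ = 2) (hnc : ¬ IsConj x₁ x₂) (hall : ∀ t : G, orderOf t = 2 → IsConj x₁ t ∨ IsConj x₂ t) : Nat.card G = Nat.card (Subgroup.centralizer ({x₂} : Set G)) * Nat.card {p : G × G // IsConj x₁ p.1 ∧ IsConj x₂ p.2 ∧ x₁ ∈ Subgroup.zpowers (p.1 * p.2)} + Nat.card (Subgroup.centralizer ({x₁} : Set G)) * Nat.card {p : G × G // IsConj x₁ p.1 ∧ IsConj x₂ p.2 ∧ x₂ ∈ Subgroup.zpowers (p.1 * p.2)} := by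
  classical
  haveI := Fintype.ofFinite G
  set A := Finset.univ.filter (fun y => IsConj x₁ y) with hA
  set B := Finset.univ.filter (fun y => IsConj x₂ y) with hB
  set n₁ := Nat.card {p : G × G // IsConj x₁ p.1 ∧ IsConj x₂ p.2 ∧ x₁ ∈ zpowers (p.1 * p.2)}
  set n₂ := Nat.card {p : G × G // IsConj x₁ p.1 ∧ IsConj x₂ p.2 ∧ x₂ ∈ zpowers (p.1 * p.2)}
  have hhalf : ∀ u v, IsConj x₁ u → IsConj x₂ v → orderOf ((u * v) ^ (orderOf (u * v) / 2)) = 2 := by
    intro u v hu hv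
    have hu2 : orderOf u = 2 := by rw [← orderOf_of_isConj hu, h₁]
    have hv2 : orderOf v = 2 := by rw [← orderOf_of_isConj hv, h₂]
    refine (half_spec (ord2_mul_self hu2) (ord2_mul_self hv2) ?_).1
    by_contra ho
    rw [Nat.not_even_iff_odd] at ho
    exact hnc (hu.trans ((isConj_of_odd (ord2_mul_self hu2) (ord2_mul_self hv2) ho).trans hv.symm))
  have hdisj : Disjoint A B := by
    rw [Finset.disjoint_left]
    intro a ha hb
    exact hnc ((Finset.mem_filter.1 ha).2.trans (Finset.mem_filter.1 hb).2.symm)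
  have h1 := Finset.card_eq_sum_card_fiberwise (s := A ×ˢ B) (t := A ∪ B)
    (f := fun p : G × G => (p.1 * p.2) ^ (orderOf (p.1 * p.2) / 2)) (by
      intro p hp
      simp only [hA, hB, Finset.coe_product, Finset.coe_filter, Finset.mem_univ, true_and,
        Set.mem_prod, Set.mem_setOf_eq, Finset.coe_union, Set.mem_union] at hp ⊢
      exact hall _ (hhalf _ _ hp.1 hp.2))
  have hfib : ∀ z, orderOf z = 2 → ((A ×ˢ B).filter
      (fun p : G × G => (p.1 * p.2) ^ (orderOf (p.1 * p.2) / 2) = z)).card =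
      Nat.card {p : G × G // IsConj x₁ p.1 ∧ IsConj x₂ p.2 ∧ z ∈ zpowers (p.1 * p.2)} := by
    intro z hz
    rw [card_subtype_eq_filter]
    congr 1
    ext p
    simp only [hA, hB, Finset.mem_filter, Finset.mem_product, Finset.mem_univ, true_and]
    constructor
    · rintro ⟨⟨e1, e2⟩, rfl⟩
      exact ⟨e1, e2, pow_mem (mem_zpowers _) _⟩
    · rintro ⟨e1, e2, e3⟩
      exact ⟨⟨e1, e2⟩, eq_of_ord2_of_isCyclic inferInstance (pow_mem (mem_zpowers _) _) e3
        (hhalf _ _ e1 e2) hz⟩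
  rw [Finset.sum_union hdisj, Finset.card_product, Finset.sum_congr rfl (g := fun _ => n₁),
    Finset.sum_congr (s₁ := B) rfl (g := fun _ => n₂), Finset.sum_const, Finset.sum_const,
    smul_eq_mul, smul_eq_mul] at h1
  · have e1 := card_isConj_mul x₁
    have e2 := card_isConj_mul x₂
    rw [card_subtype_eq_filter, ← hA] at e1
    rw [card_subtype_eq_filter, ← hB] at e2
    have hg : 0 < Nat.card G := Nat.card_pos
    apply Nat.eq_of_mul_eq_mul_left hg
    set c₁ := Nat.card (centralizer ({x₁} : Set G))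
    set c₂ := Nat.card (centralizer ({x₂} : Set G))
    calc Nat.card G * Nat.card G = (A.card * c₁) * (B.card * c₂) := by rw [e1, e2]
      _ = (A.card * B.card) * (c₁ * c₂) := by ring
      _ = (A.card * c₁) * (c₂ * n₁) + (B.card * c₂) * (c₁ * n₂) := by rw [h1]; ring
      _ = _ := by rw [e1, e2]; ring
  · intro z hz
    obtain ⟨g, rfl⟩ := isConj_iff.1 (Finset.mem_filter.1 hz).2
    rw [hfib _ (ord2_conj h₂ g), fiber_conj]
  · intro z hz
    obtain ⟨g, rfl⟩ := isConj_iff.1 (Finset.mem_filter.1 hz).2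
    rw [hfib _ (ord2_conj h₁ g), fiber_conj]

end Cfsg.Agent.S0213
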