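import Cfsg.Statements.S0215
import Cfsg.Agent.B.ZStar

set_option autoImplicit false
open Cfsg

namespace Cfsg.Agent.S0215

open Cfsg.Agent Cfsg.Agent.B Cfsg.Agent.H2 Cfsg.Agent.H3 Cfsg.Agent.L Subgroup MonoidAlgebra
open scoped Pointwise commutatorElement

/-- Glauberman's Z*-Theorem: let u be an involution in a Sylow 2-subgroup P of a finite group G such that the only G-conjugate of u lying in P is u itself. Then there is a normal subgroup N of odd order such that every commutator of u with an element of G lies in N (that is, uN is central in G/N). -/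
theorem result {G : Type*} [Group G] [Finite G] (P : Sylow 2 G) (u : G) (hu : orderOf u = 2) (huP : u ∈ P) (hiso : ∀ g : G, g * u * g⁻¹ ∈ P → g * u * g⁻¹ = u) : ∃ N : Subgroup G, N.Normal ∧ Odd (Nat.card N) ∧ ∀ g : G, (u * g * u⁻¹ * g⁻¹) ∈ N := by
  exact ⟨pPrimeCore 2 G, inferInstance, Nat.coprime_two_right.1 (pPrimeCore_coprime 2),
    zstar' (isolated_of_sylow P hu hiso)⟩

end Cfsg.Agent.S0215
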