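import Cfsg.Statements.S0216
import Mathlib
import Cfsg.Agent.H2.Invol2

set_option autoImplicit false
open Cfsg

namespace Cfsg.Agent.S0216

open Cfsg.Agent.H2 Cfsg.Agent.L

/-- For an involution u in a Sylow 2-subgroup P of a finite group G, the following are equivalent: no G-conjugate of u other than u lies in P; every commutator of u with an element of G has odd order. -/
theorem result {G : Type*} [Group G] [Finite G] (P : Sylow 2 G) (u : G) (hu : orderOf u = 2) (huP : u ∈ P) : (∀ g : G, g * u * g⁻¹ ∈ P → g * u * g⁻¹ = u) ↔ (∀ g : G, Odd (orderOf (u * g * u⁻¹ * g⁻¹))) := by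
  constructor
  · intro h g
    have := isolated_odd (isolated_of_sylow P hu h) g
    rw [ord2_inv hu]
    convert this using 2
    group
  · intro h g hg
    have h1 := h g
    rw [ord2_inv hu] at h1
    have := eq_one_of_mem_pgroup_of_coprime P.isPGroup' (mul_mem huP hg)
      (Nat.coprime_two_right.2 (by convert h1 using 2; group))
    rw [eq_inv_of_mul_eq_one_right this, ord2_inv hu]

end Cfsg.Agent.S0216
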