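import Cfsg.Statements.S0218
import Mathlib
import Cfsg.Agent.H2.Invol

set_option autoImplicit false
open Cfsg

namespace Cfsg.Agent.S0218

open Cfsg.Agent.H2

/-- The generalized quaternion group of order 2^(n+3) contains exactly one element of order 2. -/
theorem result (n : ℕ) : Nat.card {x : QuaternionGroup (2 ^ (n + 1)) // orderOf x = 2} = 1 := by
  haveI : NeZero (2 ^ (n + 1)) := ⟨by positivity⟩
  rw [Nat.card_eq_one_iff_exists]
  have hne : ((2 ^ (n + 1) : ℕ) : ZMod (2 * 2 ^ (n + 1))) ≠ 0 := by
    rw [Ne, ZMod.natCast_eq_zero_iff]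
    intro h
    have := Nat.le_of_dvd (by positivity) h
    have h2 : 0 < 2 ^ (n + 1) := by positivity
    omega
  refine ⟨⟨QuaternionGroup.a ((2 ^ (n + 1) : ℕ) : ZMod (2 * 2 ^ (n + 1))), ?_⟩, ?_⟩
  · apply ord2_of
    · rw [QuaternionGroup.a_mul_a, ← Nat.cast_add, ← two_mul, ZMod.natCast_self]; rfl
    · intro h
      rw [QuaternionGroup.one_def] at h
      exact hne (QuaternionGroup.a.inj h)
  · rintro ⟨(i | i), hi⟩
    · apply Subtype.ext
      show QuaternionGroup.a i = _
      congr 1
      have h1 := ord2_mul_self hi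
      have h2 := ord2_ne_one hi
      rw [QuaternionGroup.a_mul_a, QuaternionGroup.one_def] at h1
      have h3 := QuaternionGroup.a.inj h1
      have h4 : i ≠ 0 := by rintro rfl; exact h2 rfl
      have h5 : (2 * 2 ^ (n + 1)) ∣ i.val + i.val := by
        rw [← ZMod.natCast_eq_zero_iff]; push_cast; simpa using h3
      have h6 := ZMod.val_lt i
      have h7 : i.val ≠ 0 := by rwa [Ne, ZMod.val_eq_zero]
      obtain ⟨c, hc⟩ := h5
      have h8 : i.val = 2 ^ (n + 1) * c := by rw [mul_assoc] at hc; omega
      have h9 : c = 1 := by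
        rcases c with _ | _ | c
        · simp [h8] at h7
        · rfl
        · exfalso; rw [h8] at h6; nlinarith [Nat.zero_le (2 ^ (n + 1) * c)]
      rw [← ZMod.natCast_zmod_val i, h8, h9, mul_one]
    · rw [QuaternionGroup.orderOf_xa] at hi; omega

end Cfsg.Agent.S0218
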