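import Cfsg.Statements.S0220
import Mathlib
import Cfsg.Agent.H2.Invol2

set_option autoImplicit false
open Cfsg

namespace Cfsg.Agent.S0220

open Cfsg.Agent.H2 Cfsg.Agent.L Subgroup

/-- If x is an involution of a finite group G and a Sylow 2-subgroup of the centralizer of x is cyclic, then G has a subgroup of index 2; in particular G is not simple unless it has order 2. -/
theorem result {G : Type*} [Group G] [Finite G] (x : G) (hx : orderOf x = 2) (S : Sylow 2 ↥(Subgroup.centralizer ({x} : Set G))) (hS : IsCyclic (S : Subgroup ↥(Subgroup.centralizer ({x} : Set G)))) : ∃ H : Subgroup G, H.index = 2 := by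
  have h1 := sylIn_map_subtype S
  set T := (S : Subgroup (centralizer ({x} : Set G))).map (centralizer ({x} : Set G)).subtype with hT
  have hc : IsCyclic T := by
    rw [← (equivMapOfInjective _ _ (centralizer ({x} : Set G)).subtype_injective).isCyclic]
    exact hS
  have hxC : x ∈ centralizer ({x} : Set G) := mem_centralizer_singleton_iff.2 rfl
  have hxT : x ∈ T := by
    obtain ⟨h, hh, h2⟩ := h1.exists_conj_mem hxC (k := 1) (by simpa using hx)
    rwa [mem_centralizer_singleton_conj.1 hh] at h2
  have h2 : normalizer (T : Set G) ≤ centralizer ({x} : Set G) := by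
    intro g hg
    rw [mem_centralizer_singleton_conj]
    exact eq_of_ord2_of_isCyclic hc (conj_mem_of_mem_normalizer hg hxT) hxT (ord2_conj hx g) hx
  have h3 : SylIn 2 T ⊤ := sylIn_of_sylIn_normalizer
    (h1.mono (le_inf le_top le_normalizer) (inf_le_right.trans h2))
  obtain ⟨P, hP⟩ := h3.exists_sylow_top
  refine index_two_of_cyclic ?_ P (hP ▸ hc)
  rw [even_iff_two_dvd, ← hx]; exact orderOf_dvd_natCard x

end Cfsg.Agent.S0220
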