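import Cfsg.Statements.S0221
import Cfsg.Agent.H9.TJ
import Cfsg.Agent.L.PCyc2
import Cfsg.Agent.L.PGroup
import Cfsg.Agent.H2.Count
import Cfsg.Agent.S0111

set_option autoImplicit false
open Cfsg

namespace Cfsg.Agent.S0221

open Cfsg.Agent Cfsg.Agent.H9
open Subgroup
open scoped commutatorElement

theorem two_mul_le {G : Type*} [Group G] [Finite G] {H K : Subgroup G} (h : H < K) : 2 * Nat.card H ≤ Nat.card K := by
  obtain ⟨k, hk⟩ := card_dvd_of_le h.le
  have h1 : Nat.card H < Nat.card K := by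
    by_contra hle
    exact h.ne (eq_of_le_of_card_ge h.le (not_lt.mp hle))
  have h0 : 0 < Nat.card H := Nat.card_pos
  rw [hk] at h1 ⊢
  have : 1 < k := by nlinarith
  nlinarith

theorem comm_of_sq {G : Type*} [Group G] {E : Subgroup G} (h : ∀ e ∈ E, e ^ 2 = 1) {a b : G} (ha : a ∈ E) (hb : b ∈ E) :
    a * b = b * a := by
  have h1 := h _ (E.mul_mem ha hb)
  have h2 := h a ha
  have h3 := h b hb
  rw [pow_two] at h1 h2 h3
  calc a * b = a * (a * b * (a * b)) * b := by rw [h1, mul_one]
    _ = (a * a) * b * a * (b * b) := by group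
    _ = b * a := by rw [h2, h3]; group

theorem sq_closure {G : Type*} [Group G] {s : Set G} (h1 : ∀ x ∈ s, x ^ 2 = 1) (h2 : ∀ x ∈ s, ∀ y ∈ s, x * y = y * x) :
    ∀ e ∈ closure s, e ^ 2 = 1 := by
  have hc : ∀ a ∈ closure s, ∀ b ∈ closure s, a * b = b * a := by
    intro a ha b hb
    have h3 : closure s ≤ centralizer s := (closure_le _).mpr fun x hx y hy => h2 y hy x hx
    have h4 : closure s ≤ centralizer ({a} : Set G) := (closure_le _).mpr fun x hx y hy => by
      rw [Set.mem_singleton_iff.mp hy]; exact (h3 ha x hx).symm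
    exact h4 hb a rfl
  intro e he
  induction he using closure_induction with
  | mem x hx => exact h1 x hx
  | one => simp
  | mul x y hx hy a b => rw [(show Commute x y from hc x hx y hy).mul_pow, a, b, one_mul]
  | inv x _ a => rw [inv_pow, a, inv_one]

theorem exists_zu {P : Type*} [Group P] [Finite P] (hP : IsPGroup 2 P) {E : Subgroup P} (hE : Nat.card E = 8)
    (hE2 : ∀ e ∈ E, e ^ 2 = 1) : ∃ z u : P, z ≠ 1 ∧ z ^ 2 = 1 ∧ u ^ 2 = 1 ∧ (∀ g, g * z = z * g) ∧ u ∉ zpowers z ∧
      (centralizer ({u} : Set P)).index ≤ 2 := by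
  have hcyc : ∀ H : Subgroup P, IsCyclic H → (∀ e ∈ H, e ^ 2 = 1) → Nat.card H ≤ 2 := by
    intro H hH h2
    obtain ⟨g, hg⟩ := IsCyclic.exists_ofOrder_eq_natCard (α := H)
    rw [← hg]
    exact Nat.le_of_dvd two_pos (orderOf_dvd_of_pow_eq_one (Subtype.ext (h2 g g.2)))
  obtain ⟨A, hAn, hA, hAc⟩ : ∃ A : Subgroup P, A.Normal ∧ IsElementaryAbelian 2 A ∧ ¬ IsCyclic A := by
    by_contra hcon
    push Not at hcon
    rcases L.structure_of_normal_elementary_cyclic hP hcon with h | ⟨-, n, a, b, -, -, -, ha, -⟩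
    · have := hcyc E inferInstance hE2
      omega
    · have h1 := hcyc (zpowers a ⊓ E) (isCyclic_of_le (H' := zpowers a) inf_le_left) fun e he => hE2 e he.2
      have h2 : (zpowers a).relIndex E ≤ 2 := by
        rw [← ha, ← relIndex_top_right]
        exact relIndex_le_of_le_right le_top (by rw [relIndex_top_right, ha]; omega)
      have h3 := card_mul_index ((zpowers a).subgroupOf E)
      rw [← inf_subgroupOf_right, Nat.card_congr (subgroupOfEquivOfLe inf_le_right).toEquiv, inf_subgroupOf_right] at h3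
      change _ * (zpowers a).relIndex E = _ at h3
      nlinarith
  haveI := hP.isNilpotent
  obtain ⟨z, hzA, hz1, hz⟩ := L.exists_central_mod (K := ⊥) (N := A) (fun h => hAc (by
    rw [le_bot_iff.mp h]; infer_instance))
  have hzc : ∀ g, g * z = z * g := fun g => (commutatorElement_eq_one_iff_mul_comm.mp (hz g)).symm
  haveI : (zpowers z).Normal := ⟨fun n hn g => by
    obtain ⟨k, rfl⟩ := hn
    have : g * z ^ k * g⁻¹ = z ^ k := by rw [((show Commute g z from hzc g).zpow_right k).eq]; group
    show g * z ^ k * g⁻¹ ∈ _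
    rw [this]; exact ⟨k, rfl⟩⟩
  obtain ⟨u, huA, hu1, hu⟩ := L.exists_central_mod (K := zpowers z) (N := A) (fun h => hAc (isCyclic_of_le h))
  refine ⟨z, u, hz1, hA.2 z hzA, hA.2 u huA, hzc, hu1, ?_⟩
  rw [← H2.card_isConj_eq_index]
  refine le_trans ?_ (hcyc (zpowers z) inferInstance fun e he => hA.2 e (zpowers_le.mpr hzA he))
  refine Nat.card_le_card_of_injective (fun y => ⟨u * y.1⁻¹, ?_⟩) ?_
  · obtain ⟨g, hg⟩ := isConj_iff.mp y.2
    rw [← hg]
    have := hu g
    rw [commutatorElement_def] at this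
    convert this using 1
    group
  · intro y y' h
    have := congrArg Subtype.val h
    simp only [mul_right_inj, inv_inj] at this
    exact Subtype.ext this

/-- Let G be a finite group with no subgroup of index 2 whose 2-rank is at least 3 (it contains an elementary abelian subgroup of order 8). Then the centralizer of every involution of G also contains an elementary abelian subgroup of order 8. -/
theorem result {G : Type*} [Group G] [Finite G] (hno : ∀ H : Subgroup G, H.index ≠ 2) (hrank : ∃ E : Subgroup G, Nat.card E = 8 ∧ ∀ e ∈ E, e ^ 2 = 1) (x : G) (hx : orderOf x = 2) : ∃ E : Subgroup G, E ≤ Subgroup.centralizer ({x} : Set G) ∧ Nat.card E = 8 ∧ ∀ e ∈ E, e ^ 2 = 1 := by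
  haveI : Fact (Nat.Prime 2) := ⟨Nat.prime_two⟩
  obtain ⟨E, hE, hE2⟩ := hrank
  obtain ⟨P, hP⟩ := (IsPGroup.of_card (p := 2) (n := 3) (G := E) (by rw [hE]; norm_num)).exists_le_sylow
  obtain ⟨z', u', hz1, hz2, hu2, hzc, hu1, hidx⟩ := exists_zu P.isPGroup' (E := E.subgroupOf P)
    (by rw [Nat.card_congr (subgroupOfEquivOfLe hP).toEquiv, hE]) (fun e he => Subtype.ext (hE2 e he))
  let T : Subgroup G := P ⊓ centralizer ({(u' : G)} : Set G)
  have hT : T.relIndex P ≤ 2 := by
    have : T.subgroupOf P = centralizer ({u'} : Set P) := by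
      ext g
      simp only [T, mem_subgroupOf, mem_inf, mem_centralizer_singleton_iff, Subtype.ext_iff]
      simp
    rw [relIndex, this]; exact hidx
  have hT0 : T.relIndex P ≠ 0 := index_ne_zero_of_finite
  have hz : (z' : G) ^ 2 = 1 := congrArg Subtype.val hz2
  have hu : (u' : G) ^ 2 = 1 := congrArg Subtype.val hu2
  have hTz : ∀ t ∈ T, t * z' = z' * t := fun t ht => congrArg Subtype.val (hzc ⟨t, ht.1⟩)
  have hTu : ∀ t ∈ T, t * u' = u' * t := fun t ht => mem_centralizer_singleton_iff.mp ht.2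
  have huT : (u' : G) ∈ T := ⟨u'.2, mem_centralizer_singleton_iff.mpr rfl⟩
  have hzT : (z' : G) ∈ T := ⟨z'.2, mem_centralizer_singleton_iff.mpr (hTz _ huT).symm⟩
  have hB : ∃ B : Subgroup G, B ≤ T ∧ 8 ≤ Nat.card B ∧ ∀ e ∈ B, e ^ 2 = 1 := by
    by_cases huE : (u' : G) ∈ E
    · exact ⟨E, fun e he => ⟨hP he, mem_centralizer_singleton_iff.mpr (comm_of_sq hE2 he huE)⟩, hE.ge, hE2⟩
    · refine ⟨closure (insert (u' : G) ((T ⊓ E : Subgroup G) : Set G)), ?_, ?_, ?_⟩
      · rw [closure_le]
        rintro y (rfl | hy)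
        · exact huT
        · exact hy.1
      · have h1 : T ⊓ E < closure (insert (u' : G) ((T ⊓ E : Subgroup G) : Set G)) :=
          lt_of_le_of_ne (fun y hy => subset_closure (Or.inr hy)) fun h =>
            huE ((h ▸ subset_closure (Or.inl rfl) : (u' : G) ∈ T ⊓ E).2)
        have h2 := two_mul_le h1
        have h4 : T.relIndex E ≤ 2 := le_trans (relIndex_le_of_le_right hP hT0) hT
        have h3 := card_mul_index (T.subgroupOf E)
        rw [← inf_subgroupOf_right, Nat.card_congr (subgroupOfEquivOfLe inf_le_right).toEquiv, inf_subgroupOf_right] at h3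
        change _ * T.relIndex E = _ at h3
        nlinarith
      · apply sq_closure
        · rintro y (rfl | hy)
          · exact hu
          · exact hE2 y hy.2
        · rintro y (rfl | hy) w (rfl | hw)
          · rfl
          · exact (hTu w hw.1).symm
          · exact hTu y hy.1
          · exact comm_of_sq hE2 hy.2 hw.2
  have key : ∀ y ∈ T, y ^ 2 = 1 → ∃ B : Subgroup G, B ≤ centralizer ({y} : Set G) ∧ 8 ≤ Nat.card B ∧ ∀ e ∈ B, e ^ 2 = 1 := by
    intro y hy hy2
    by_cases hyU : y ∈ closure ({(z' : G), (u' : G)} : Set G)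
    · obtain ⟨B, h1, h2, h3⟩ := hB
      refine ⟨B, fun b hb => ?_, h2, h3⟩
      have : closure ({(z' : G), (u' : G)} : Set G) ≤ centralizer ({b} : Set G) := by
        rw [closure_le]
        rintro w (rfl | rfl)
        · exact mem_centralizer_singleton_iff.mpr (hTz b (h1 hb)).symm
        · exact mem_centralizer_singleton_iff.mpr (hTu b (h1 hb)).symm
      exact mem_centralizer_singleton_iff.mpr (mem_centralizer_singleton_iff.mp (this hyU)).symm
    · refine ⟨closure {y, (z' : G), (u' : G)}, ?_, ?_, ?_⟩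
      · rw [closure_le]
        rintro w (rfl | rfl | rfl)
        · exact mem_centralizer_singleton_iff.mpr rfl
        · exact mem_centralizer_singleton_iff.mpr (hTz y hy).symm
        · exact mem_centralizer_singleton_iff.mpr (hTu y hy).symm
      · have a1 : (⊥ : Subgroup G) < zpowers (z' : G) := by
          rw [bot_lt_iff_ne_bot, Ne, zpowers_eq_bot]; exact fun h => hz1 (Subtype.ext h)
        have a2 : zpowers (z' : G) < closure ({(z' : G), (u' : G)} : Set G) := by
          refine lt_of_le_of_ne (zpowers_le.mpr (subset_closure (Or.inl rfl))) fun h => hu1 ?_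
          have : (u' : G) ∈ zpowers (z' : G) := h ▸ subset_closure (Or.inr rfl)
          obtain ⟨k, hk⟩ := this
          exact ⟨k, Subtype.ext hk⟩
        have a3 : closure ({(z' : G), (u' : G)} : Set G) < closure {y, (z' : G), (u' : G)} :=
          lt_of_le_of_ne (closure_mono (Set.subset_insert _ _)) fun h => hyU (h ▸ subset_closure (Or.inl rfl))
        have b1 := two_mul_le a1
        have b2 := two_mul_le a2
        have b3 := two_mul_le a3
        rw [card_bot] at b1
        omega
      · apply sq_closure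
        · rintro w (rfl | rfl | rfl)
          · exact hy2
          · exact hz
          · exact hu
        · rintro w (rfl | rfl | rfl) v (rfl | rfl | rfl) <;>
            first | rfl | exact hTz _ hy | exact hTu _ hy | exact (hTz _ hy).symm | exact (hTu _ hy).symm | exact hTz _ huT | exact (hTz _ huT).symm
  obtain ⟨g, hg⟩ : ∃ g : G, g * x * g⁻¹ ∈ T := by
    obtain ⟨Q, hQ⟩ := (IsPGroup.of_card (p := 2) (n := 1) (G := zpowers x) (by rw [Nat.card_zpowers, hx]; norm_num)).exists_le_sylow
    obtain ⟨g, rfl⟩ := MulAction.exists_smul_eq G P Q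
    have h1 : g⁻¹ * x * g⁻¹⁻¹ ∈ (P : Subgroup G) := by
      have := hQ (mem_zpowers x)
      rw [Sylow.smul_def, Sylow.pointwise_smul_def, mem_pointwise_smul_iff_inv_smul_mem] at this
      simpa using this
    by_cases h2 : g⁻¹ * x * g⁻¹⁻¹ ∈ T
    · exact ⟨_, h2⟩
    · have h3 : T.relIndex P = 2 := by
        have : T.relIndex P ≠ 1 := fun h => h2 (relIndex_eq_one.mp h h1)
        omega
      have h4 : orderOf (g⁻¹ * x * g⁻¹⁻¹) = 2 := by
        rw [← hx]; exact (MulAut.conj g⁻¹).orderOf_eq x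
      rcases Cfsg.Agent.S0111.result P T inf_le_left h3 _ h4 h1 h2 with ⟨M, -, hM, -⟩ | ⟨k, hk⟩
      · exact absurd hM (hno M)
      · refine ⟨k * g⁻¹, ?_⟩
        convert hk using 1
        group
  obtain ⟨B, h1, h2, h3⟩ := key _ hg (by rw [conj_pow, ← hx, pow_orderOf_eq_one]; simp)
  have hBp : IsPGroup 2 B := fun b => ⟨1, Subtype.ext (by simpa using h3 b b.2)⟩
  obtain ⟨C, hCB, hC⟩ := Sylow.exists_subgroup_le_card_pow_prime_of_le_card (n := 3) Nat.prime_two hBp (H := ⊤)
    (by rw [card_top]; exact h2)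
  refine ⟨(C.map B.subtype).map (MulAut.conj g⁻¹).toMonoidHom, ?_, ?_, ?_⟩
  · rintro _ ⟨_, ⟨c, -, rfl⟩, rfl⟩
    have := mem_centralizer_singleton_iff.mp (h1 c.2)
    rw [mem_centralizer_singleton_iff]
    show g⁻¹ * c * g⁻¹⁻¹ * x = x * (g⁻¹ * c * g⁻¹⁻¹)
    calc g⁻¹ * c * g⁻¹⁻¹ * x = g⁻¹ * (c * (g * x * g⁻¹)) * g := by group
      _ = _ := by rw [this]; group
  · rw [card_map_of_injective (MulAut.conj g⁻¹).injective, card_map_of_injective B.subtype_injective, hC]; norm_num
  · rintro _ ⟨_, ⟨c, -, rfl⟩, rfl⟩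
    rw [← map_pow]
    show MulAut.conj g⁻¹ ((c : G) ^ 2) = 1
    rw [h3 c c.2, map_one]

end Cfsg.Agent.S0221
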