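import Cfsg.Statements.S0225
import Cfsg.Agent.B.ZStar

set_option autoImplicit false
open Cfsg

namespace Cfsg.Agent.S0225

open Cfsg.Agent Cfsg.Agent.B Cfsg.Agent.H2 Cfsg.Agent.H3 Cfsg.Agent.L Subgroup MonoidAlgebra
open scoped Pointwise commutatorElement

/-- If a finite group G has even order but contains no Klein four-subgroup (2-rank 1), then some involution z of G is central modulo a normal subgroup of odd order: there is a normal subgroup N of odd order containing every commutator z g z⁻¹ g⁻¹. -/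
theorem result {G : Type*} [Group G] [Finite G] (heven : Even (Nat.card G)) (hrank : ∀ E : Subgroup G, ¬ IsKleinFour E) : ∃ z : G, orderOf z = 2 ∧ ∃ N : Subgroup G, N.Normal ∧ Odd (Nat.card N) ∧ ∀ g : G, z * g * z⁻¹ * g⁻¹ ∈ N := by
  obtain ⟨z, hz⟩ := exists_ord2_of_even heven
  refine ⟨z, hz, pPrimeCore 2 G, inferInstance, Nat.coprime_two_right.1 (pPrimeCore_coprime 2),
    zstar' ⟨hz, fun g hc => ?_⟩⟩
  by_contra hne
  have h1 := ord2_conj hz g
  generalize g * z * g⁻¹ = w at hc hne h1
  have h2 : orderOf (z * w) = 2 := ord2_of (by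
    rw [← pow_two, hc.mul_pow, pow_two, pow_two, ord2_mul_self hz, ord2_mul_self h1, one_mul])
    fun e => hne (by rw [mul_eq_one_iff_inv_eq, ord2_inv hz] at e; exact e.symm)
  obtain ⟨e⟩ := closure_equiv_dihedral h2 (ord2_mul_self hz) (inverts_left (ord2_mul_self hz)
    (ord2_mul_self h1)) (not_mem_zpowers_invol hz h1 (Ne.symm hne))
  refine hrank _ ⟨by rw [Nat.card_congr e.toEquiv, DihedralGroup.nat_card], ?_⟩
  rw [Monoid.exponent_eq_of_mulEquiv e, DihedralGroup.exponent]; rfl

end Cfsg.Agent.S0225
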