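import Cfsg.Statements.S0226
import Mathlib
import Cfsg.Agent.H2.Count

set_option autoImplicit false
open Cfsg

namespace Cfsg.Agent.S0226

open Cfsg.Agent.H2 Cfsg.Agent.L

/-- A finite group of even order has an odd number of involutions. -/
theorem result {G : Type*} [Group G] [Finite G] (heven : Even (Nat.card G)) : Odd (Nat.card {t : G // orderOf t = 2}) := by
  classical
  haveI := Fintype.ofFinite G
  haveI : Fact (Nat.Prime 2) := ⟨Nat.prime_two⟩
  have h1 := Equiv.Perm.card_fixedPoints_modEq (α := G) (f := fun x => x⁻¹) (p := 2) (n := 1)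
    (by funext x; exact inv_inv x)
  have h2 : Nat.card (Option {t : G // orderOf t = 2}) =
      Fintype.card (Function.fixedPoints (fun x : G => x⁻¹)) := by
    rw [← Nat.card_eq_fintype_card]
    refine Nat.card_congr (Equiv.ofBijective (fun o => o.elim ⟨1, inv_one⟩ fun t =>
      ⟨t.1, ord2_inv t.2⟩) ⟨?_, ?_⟩)
    · rintro (_ | a) (_ | b) h
      · rfl
      · exact absurd (congrArg Subtype.val h).symm (ord2_ne_one b.2)
      · exact absurd (congrArg Subtype.val h) (ord2_ne_one a.2)
      · have h'' := congrArg Subtype.val h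
        have h' : a.1 = b.1 := h''
        rw [Subtype.ext h']
    · rintro ⟨x, hx⟩
      by_cases h : x = 1
      · exact ⟨none, Subtype.ext h.symm⟩
      · have hx' : x⁻¹ = x := hx
        exact ⟨some ⟨x, ord2_of (by nth_rewrite 1 [← hx']; simp) h⟩, rfl⟩
  rw [Finite.card_option] at h2
  rw [← Nat.card_eq_fintype_card (α := G)] at h1
  have h3 : Nat.card G ≡ Nat.card {t : G // orderOf t = 2} + 1 [MOD 2] := by
    rw [h2]; convert h1
  unfold Nat.ModEq at h3
  rw [Nat.even_iff] at heven
  rw [Nat.odd_iff]
  omega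

end Cfsg.Agent.S0226
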