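import Cfsg.Statements.S0227
import Mathlib
import Cfsg.Agent.H2.LBal

set_option autoImplicit false
open Cfsg

namespace Cfsg.Agent.S0227

open Cfsg.Agent.H2 Subgroup
open scoped commutatorElement

/-- Let G be a finite group with no nontrivial normal subgroup of odd order, S a Sylow 2-subgroup, and C the group of automorphisms of G that fix every element of S. Then every Sylow 2-subgroup of C is abelian and has a normal complement in C; in particular C is solvable. -/
theorem result {G : Type*} [Group G] [Finite G] (hO : ∀ N : Subgroup G, N.Normal → Odd (Nat.card N) → N = ⊥) (S : Sylow 2 G) (C : Subgroup (MulAut G)) (hC : ∀ φ : MulAut G, φ ∈ C ↔ ∀ s : G, s ∈ S → φ s = s) : (∀ T : Sylow 2 ↥C, (∀ a b : ↥T, a * b = b * a) ∧ ∃ N : Subgroup ↥C, N.Normal ∧ Subgroup.IsComplement' N (T : Subgroup ↥C)) ∧ Group.IsSolvable ↥C := by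
  have hO' : pPrimeCore 2 G = ⊥ := hO _ inferInstance (Nat.coprime_two_right.1 (L.pPrimeCore_coprime 2))
  have h1 := odd_commutator_aut hO' (sylIn_top S) (C := C) (fun φ hφ s hs => (hC φ).1 hφ s hs)
  have h2 := Nat.coprime_two_right.2 h1
  refine ⟨fun T => ⟨fun a b => ?_, (exists_complement_iff T).2
    (pNil_top_subtype_iff.2 (pNil_of_coprime_commutator h2))⟩,
    H8.solvable_of_commutator_le (Cfsg.Agent.odd_order h1) le_rfl⟩
  rw [← commutatorElement_eq_one_iff_mul_comm]
  have h3 : (((⁅a, b⁆ : T) : C) : MulAut G) ∈ (T : Subgroup C).map C.subtype :=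
    mem_map_of_mem _ (⁅a, b⁆ : T).2
  have h4 : (((⁅a, b⁆ : T) : C) : MulAut G) ∈ ⁅C, C⁆ :=
    commutator_mem_commutator (a : C).2 (b : C).2
  exact Subtype.ext (Subtype.ext (eq_one_of_mem_pgroup_of_coprime (T.2.map _) h3
    (H8.orderOf_coprime_of_mem h2 h4)))

end Cfsg.Agent.S0227
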