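import Cfsg.Statements.S0229
import Mathlib
import Cfsg.Agent.H2.Invol2

set_option autoImplicit false
open Cfsg

namespace Cfsg.Agent.S0229

open Cfsg.Agent.H2 Cfsg.Agent.L Subgroup

/-- Let t be an involution of a Sylow 2-subgroup S of a finite group G, conjugate in G to no other element of S, and let s be an involution of G not conjugate to t. Then the order of st is twice an odd number. -/
theorem result {G : Type*} [Group G] [Finite G] (S : Sylow 2 G) (t : G) (ht : orderOf t = 2) (htS : t ∈ S) (hiso : ∀ g : G, g * t * g⁻¹ ∈ S → g * t * g⁻¹ = t) (s : G) (hs : orderOf s = 2) (hns : ¬ IsConj s t) : orderOf (s * t) % 4 = 2 := by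
  have hz := isolated_of_sylow S ht hiso
  have ht2 := ord2_mul_self ht
  have hs2 := ord2_mul_self hs
  have e : orderOf (s * t) = orderOf (t * s) := by
    rw [← orderOf_conj' t (s * t)]; congr 1; group
  rw [e]
  have hev : Even (orderOf (t * s)) := by
    by_contra ho
    rw [Nat.not_even_iff_odd] at ho
    exact hns (isConj_of_odd ht2 hs2 ho).symm
  obtain ⟨e1, e2, -⟩ := half_spec ht2 hs2 hev
  by_contra hcon
  obtain ⟨m, hm⟩ := hev
  have h4 : orderOf (t * s) / 2 = 2 * (m / 2) := by omega
  have h5 := refl_conj_even ht2 hs2 (m / 2)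
  rw [← h4] at h5
  generalize (t * s) ^ (orderOf (t * s) / 2) = w at *
  generalize (t * s) ^ (m / 2) = a at *
  have := hz.2 a⁻¹ (by rw [inv_inv, h5]; exact (Commute.refl t).mul_right e2.symm)
  rw [inv_inv, h5] at this
  exact ord2_ne_one e1 (by simpa using this)

end Cfsg.Agent.S0229
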