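import Cfsg.Statements.S0230
import Mathlib
import Cfsg.Agent.H2.Count

set_option autoImplicit false
open Cfsg

namespace Cfsg.Agent.S0230

open Cfsg.Agent.H2 Cfsg.Agent.L

/-- Let G be a finite group with two non-conjugate involutions, and let t be an involution whose centralizer has maximal order among centralizers of involutions. Then |G| < |C_G(t)|^3. -/
theorem result {G : Type*} [Group G] [Finite G] (s t : G) (hs : orderOf s = 2) (ht : orderOf t = 2) (hnc : ¬ IsConj s t) (hmax : ∀ u : G, orderOf u = 2 → Nat.card (Subgroup.centralizer ({u} : Set G)) ≤ Nat.card (Subgroup.centralizer ({t} : Set G))) : Nat.card G < Nat.card (Subgroup.centralizer ({t} : Set G)) ^ 3 := by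
  classical
  haveI := Fintype.ofFinite G
  set c := Nat.card (Subgroup.centralizer ({t} : Set G)) with hc
  have h1 : Finset.univ.filter (fun x => IsConj t x) ⊆
      (Finset.univ.filter (fun z : G => orderOf z = 2 ∧ Commute z s)).biUnion
        (fun z => Finset.univ.filter (fun x : G => x ∈ Subgroup.centralizer ({z} : Set G))) := by
    intro x hx
    simp only [Finset.mem_filter, Finset.mem_univ, true_and, Finset.mem_biUnion] at hx ⊢
    have hx2 : orderOf x = 2 := by rw [← orderOf_of_isConj hx, ht]
    have hev : Even (orderOf (s * x)) := by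
      by_contra ho
      rw [Nat.not_even_iff_odd] at ho
      exact hnc ((isConj_of_odd (ord2_mul_self hs) (ord2_mul_self hx2) ho).trans hx.symm)
    obtain ⟨e1, e2, e3⟩ := half_spec (ord2_mul_self hs) (ord2_mul_self hx2) hev
    exact ⟨_, ⟨e1, e2⟩, Subgroup.mem_centralizer_singleton_iff.2 e3.symm⟩
  have h2 := (Finset.card_le_card h1).trans (Finset.card_biUnion_le_card_mul _ _ c (by
    intro z hz
    rw [← card_subtype_eq_filter]
    exact hmax z (Finset.mem_filter.1 hz).2.1))
  rw [← card_subtype_eq_filter, ← card_subtype_eq_filter] at h2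
  have h3 := card_invol_commute_lt s
  have h4 := hmax s hs
  rw [← card_isConj_mul t, ← hc]
  have hc0 : 0 < c := Nat.card_pos
  have h5 : Nat.card {y // IsConj t y} < c * c := by nlinarith
  calc _ < c * c * c := Nat.mul_lt_mul_of_pos_right h5 hc0
    _ = c ^ 3 := by ring

end Cfsg.Agent.S0230
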