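import Cfsg.Statements.S0231
import Mathlib
import Cfsg.Agent.H2.Invol2

set_option autoImplicit false
open scoped Pointwise
open Cfsg

namespace Cfsg.Agent.S0231

open Cfsg.Agent.H2 Cfsg.Agent.L Subgroup

/-- Let T be a Sylow 2-subgroup of the finite group G which is not normal and which intersects every other Sylow 2-subgroup trivially. Then G has a single conjugacy class of involutions. -/
theorem result {G : Type*} [Group G] [Finite G] (T : Sylow 2 G) (hnn : ¬ (T : Subgroup G).Normal) (hTI : ∀ g : G, MulAut.conj g • (T : Subgroup G) ≠ T → MulAut.conj g • (T : Subgroup G) ⊓ T = ⊥) (s t : G) (hs : orderOf s = 2) (ht : orderOf t = 2) : IsConj s t := by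
  have hTI' : ∀ g x : G, x ≠ 1 → x ∈ (T : Subgroup G) → x ∈ cj g T → cj g (T : Subgroup G) = T := by
    intro g x hx1 h1 h2
    by_contra hne
    have := hTI g hne
    exact hx1 (mem_bot.1 (this ▸ (⟨h2, h1⟩ : x ∈ cj g (T : Subgroup G) ⊓ T)))
  have hTI2 : ∀ a b x : G, x ≠ 1 → x ∈ cj a T → x ∈ cj b T → cj a (T : Subgroup G) = cj b T := by
    intro a b x hx1 h1 h2
    have := hTI' (a⁻¹ * b) (a⁻¹ * x * a) (by
      intro h; apply hx1
      calc x = a * (a⁻¹ * x * a) * a⁻¹ := by group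
        _ = 1 := by rw [h]; group) (mem_cj.1 h1) (by
      rw [mem_cj] at h2 ⊢; convert h2 using 1; group)
    conv_lhs => rw [← this]
    rw [← cj_mul, mul_inv_cancel_left]
  have key : ∀ u v a b : G, orderOf u = 2 → orderOf v = 2 → u ∈ cj a T → v ∈ cj b T →
      cj a (T : Subgroup G) ≠ cj b T → IsConj u v := by
    intro u v a b hu hv h1 h2 hne
    by_contra hc
    have hev : Even (orderOf (u * v)) := by
      by_contra ho
      rw [Nat.not_even_iff_odd] at ho
      exact hc (isConj_of_odd (ord2_mul_self hu) (ord2_mul_self hv) ho)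
    obtain ⟨e1, e2, e3⟩ := half_spec (ord2_mul_self hu) (ord2_mul_self hv) hev
    obtain ⟨c, c1, c2⟩ := exists_sylow_mem_of_commute T (ord2_mul_self e1) (ord2_mul_self hu) e2
    obtain ⟨d, d1, d2⟩ := exists_sylow_mem_of_commute T (ord2_mul_self e1) (ord2_mul_self hv) e3
    have f1 := hTI2 a c⁻¹ u (ord2_ne_one hu) h1 (mem_cj.2 (by rw [inv_inv]; exact c2))
    have f2 := hTI2 b d⁻¹ v (ord2_ne_one hv) h2 (mem_cj.2 (by rw [inv_inv]; exact d2))
    have f3 := hTI2 c⁻¹ d⁻¹ _ (ord2_ne_one e1) (mem_cj.2 (by rw [inv_inv]; exact c1))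
      (mem_cj.2 (by rw [inv_inv]; exact d1))
    exact hne (f1.trans (f3.trans f2.symm))
  obtain ⟨a, ha⟩ := exists_conj_mem_sylow T (k := 1) (by simpa using hs)
  obtain ⟨b, hb⟩ := exists_conj_mem_sylow T (k := 1) (by simpa using ht)
  obtain ⟨g, hg⟩ : ∃ g, cj g (T : Subgroup G) ≠ T := by
    by_contra hc
    push Not at hc
    exact hnn (normal_iff_cj.2 hc)
  have := key (a * s * a⁻¹) (g * (b * t * b⁻¹) * g⁻¹) 1 g (ord2_conj hs a)
    (ord2_conj (ord2_conj ht b) g) (by rw [cj_one]; exact ha) (conj_mem_cj g hb)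
    (by rw [cj_one]; exact hg.symm)
  refine (isConj_iff.2 ⟨a, rfl⟩).trans (this.trans (isConj_iff.2 ⟨b⁻¹ * g⁻¹, by group⟩))

end Cfsg.Agent.S0231
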