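import Cfsg.Statements.S0232
import Cfsg.Agent.GS.Misc1
import Cfsg.Agent.S0233
import Cfsg.Agent.H2.Count

set_option autoImplicit false
open Cfsg

namespace Cfsg.Agent.S0232

open Cfsg.Agent.H1

section
open Subgroup Pointwise commutatorElement Cfsg.Agent.BG Cfsg.Agent.GS
open Cfsg.Agent.H2 hiding card_lt_of_lt card_lt_of_ne_top isMulCommutative_of_le isPGroup_zpowers_iff mem_of_pow_mem_of_coprime inf_eq_bot_of_cop exists_maxElem_ge Sec
open Cfsg.Agent.H8 (Op Opp Fit SN)
open Cfsg.Agent.L (FPF)
universe u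

theorem aux (n : ℕ) : ∀ (G : Type u) [Group G] [Finite G], ♯G = n → Even ♯G → 2 < ♯G → ∃ H : Subgroup G, H ≠ ⊤ ∧ ♯G < ♯H ^ 3 := by
  induction n using Nat.strong_induction_on with | _ n ih =>
  intro G _ _ hn h1 h2
  have k : ∀ H : Subgroup G, H.index = 2 → ∃ H : Subgroup G, H ≠ ⊤ ∧ ♯G < ♯H ^ 3 := fun H h => ⟨H, by rintro rfl; simp at h, by
    have := H.card_mul_index
    rw [h] at this
    have : 2 ≤ ♯H := by omega
    nlinarith [Nat.mul_le_mul this this]⟩
  rcases Nat.even_or_odd ♯(center G) with h | h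
  · obtain ⟨z, hz⟩ := exists_prime_orderOf_dvd_card' (G := center G) 2 h.two_dvd
    haveI : (zpowers z.1).Normal := ⟨fun n hn g => by rwa [mem_center_iff.1 (zpowers_le.2 z.2 hn) g, mul_inv_cancel_right]⟩
    have c : ♯(zpowers z.1) = 2 := by rw [Nat.card_zpowers, orderOf_coe, hz]
    have d := (zpowers z.1).card_mul_index
    rcases Nat.even_or_odd (zpowers z.1).index with e | e
    · by_cases f : (zpowers z.1).index = 2
      · exact k _ f
      have := (zpowers z.1).index_ne_zero_of_finite
      obtain ⟨H, a, b⟩ := ih _ (by rw [← index_eq_card]; rw [c] at d; omega) (G ⧸ zpowers z.1) rfl e (by rw [← index_eq_card]; obtain ⟨m, e⟩ := e; omega)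
      refine ⟨H.comap (QuotientGroup.mk' _), fun h => a (comap_injective (QuotientGroup.mk'_surjective _) (by simp [h])), ?_⟩
      have g := (H.comap (QuotientGroup.mk' _)).card_mul_index
      have i := H.card_mul_index
      rw [index_comap_of_surjective _ (QuotientGroup.mk'_surjective _)] at g
      rw [← index_eq_card] at i b
      rw [show ♯(H.comap (QuotientGroup.mk' (zpowers z.1))) = 2 * ♯H from Nat.eq_of_mul_eq_mul_right
        (Nat.pos_of_ne_zero H.index_ne_zero_of_finite) (by rw [g, ← d, c, ← i, mul_assoc]), mul_pow]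
      rw [c] at d; omega
    · obtain ⟨H, hH⟩ := exists_right_complement'_of_coprime (N := zpowers z.1) (by rwa [c, Nat.coprime_two_left])
      exact k H (hH.index_eq_card.trans c)
  obtain ⟨H, a, b | b⟩ := S0233.result h1 h
  · exact k H b
  obtain ⟨t, ht⟩ := exists_prime_orderOf_dvd_card' (G := G) 2 h1.two_dvd
  by_contra! c
  have d := c H a
  have e := c (centralizer {t}) fun e => by
    have := orderOf_dvd_natCard (⟨t, mem_center_iff.2 fun g => mem_centralizer_singleton_iff.1 (e.ge (mem_top g))⟩ : center G)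
    rw [orderOf_mk, ht] at this
    exact h.not_two_dvd_nat this
  have f : (centralizer ({t} : Set G)).index ≤ ♯{t : G // orderOf t = 2} := H2.card_isConj_eq_index t ▸
    Nat.card_le_card_of_injective (fun y => ⟨y.1, by obtain ⟨y, c, hc⟩ := y; exact (hc.orderOf_eq _).symm.trans ht⟩) fun x y h => Subtype.ext (congrArg (·.1) h)
  have g := (centralizer ({t} : Set G)).card_mul_index
  have i := H.card_mul_index
  have j : 0 < ♯(centralizer ({t} : Set G)) := Nat.card_pos
  generalize ♯{t : G // orderOf t = 2} = m, ♯(centralizer ({t} : Set G)) = x, (centralizer ({t} : Set G)).index = y, ♯G = g', ♯H = u, H.index = v at *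
  have l : g' ≤ x * m := g ▸ Nat.mul_le_mul_left x f
  have o : v < x ^ 2 := by
    by_contra! o
    have := Nat.mul_le_mul l (Nat.add_le_add_right l m)
    have := Nat.mul_le_mul_right (m ^ 2) o
    have := Nat.mul_le_mul_left (x * m ^ 2) j
    nlinarith
  have r : g' ^ 3 ≤ g' * v ^ 3 := by conv_lhs => rw [← i, mul_pow]
                                     exact Nat.mul_le_mul_right _ d
  have := Nat.pow_lt_pow_left o three_ne_zero
  have := Nat.pow_le_pow_left e 2
  nlinarith [Nat.mul_lt_mul_of_pos_left ‹v ^ 3 < _› (show 0 < g' by omega), Nat.mul_le_mul_left g' ‹(x ^ 3) ^ 2 ≤ _›]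

end

/-- A finite group G of even order greater than 2 has a proper subgroup H with |G| < |H|^3. -/
theorem result {G : Type*} [Group G] [Finite G] (heven : Even (Nat.card G)) (hgt : 2 < Nat.card G) : ∃ H : Subgroup G, H ≠ ⊤ ∧ Nat.card G < (Nat.card H) ^ 3 := by
  open Subgroup Pointwise commutatorElement Cfsg.Agent.BG Cfsg.Agent.GS in
  open Cfsg.Agent.H2 hiding card_lt_of_lt card_lt_of_ne_top isMulCommutative_of_le isPGroup_zpowers_iff mem_of_pow_mem_of_coprime inf_eq_bot_of_cop exists_maxElem_ge Sec in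
  open Cfsg.Agent.H8 (Op Opp Fit SN) in
  open Cfsg.Agent.L (FPF) in focus
    exact aux _ G rfl heven hgt

end Cfsg.Agent.S0232
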