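import Cfsg.Statements.S0234
import Cfsg.Agent.GS.Misc1
import Cfsg.Agent.S0233
import Cfsg.Agent.S0991
import Cfsg.Agent.S0493
import Cfsg.Agent.S0494

set_option autoImplicit false
open Cfsg

namespace Cfsg.Agent.S0234

open Cfsg.Agent.H1

/-- In a finite simple group G of even order greater than 2, the number n of involutions satisfies 3n < |G|. -/
theorem result {G : Type*} [Group G] [Finite G] [IsSimpleGroup G] (heven : Even (Nat.card G)) (hgt : 2 < Nat.card G) : 3 * Nat.card {t : G // orderOf t = 2} < Nat.card G := by
  open Subgroup Pointwise commutatorElement Cfsg.Agent.BG Cfsg.Agent.GS in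
  open Cfsg.Agent.H2 hiding card_lt_of_lt card_lt_of_ne_top isMulCommutative_of_le isPGroup_zpowers_iff mem_of_pow_mem_of_coprime inf_eq_bot_of_cop exists_maxElem_ge Sec in
  open Cfsg.Agent.H8 (Op Opp Fit SN) in
  open Cfsg.Agent.L (FPF) in focus
    have m : ¬ IsMulCommutative G := fun h => by
      letI : CommGroup G := { mul_comm := h.is_comm.comm }
      have := (IsSimpleGroup.prime_card (α := G)).even_iff.1 heven; omega
    have n : ¬ IsCyclic G := fun h => m inferInstance
    have z : center G = ⊥ := (IsSimpleGroup.eq_bot_or_eq_top_of_normal _ inferInstance).resolve_right fun h =>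
      m ⟨⟨fun a b => mem_center_iff.1 (h.ge (mem_top b)) a⟩⟩
    obtain ⟨H, a, b⟩ := S0233.result heven (by simp [z])
    by_contra! c
    have d : H.index ≤ 5 := b.elim (fun _ => by omega) fun b => by
      by_contra! e
      generalize ♯{t : G // orderOf t = 2} = k at *
      nlinarith [Nat.mul_le_mul c (Nat.add_le_add_right c k), Nat.mul_le_mul_right (k ^ 2) e]
    obtain ⟨f, hf⟩ := S0991.result m H a
    have e := Nat.card_le_card_of_injective f hf
    have g : ♯(alternatingGroup (Fin H.index)) ≤ 60 := by
      have := H.index_ne_zero_of_finite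
      have := mt index_eq_one.1 a
      haveI : Nontrivial (Fin H.index) := Fin.nontrivial_iff_two_le.2 (by omega)
      have := two_mul_nat_card_alternatingGroup (α := Fin H.index)
      rw [Nat.card_perm, Nat.card_fin] at this
      have := Nat.factorial_le d
      simp only [Nat.factorial] at this; omega
    have i := S0493.result n (by omega)
    obtain ⟨φ⟩ := S0494.result i
    rw [Nat.card_congr (φ.toEquiv.subtypeEquiv (q := (orderOf · = 2)) fun t => by simp), card_A5_inv] at c
    omega

end Cfsg.Agent.S0234
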