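import Cfsg.Statements.S0235
import Mathlib
import Cfsg.Agent.H2.Invol

set_option autoImplicit false
open Cfsg

namespace Cfsg.Agent.S0235

open Cfsg.Agent.H2

/-- If x² ≠ 1, the ordered pairs (u, v) of involutions with uv = x correspond bijectively to the involutions t with t x t⁻¹ = x⁻¹ (via (u, v) ↦ u), so the two counts agree. -/
theorem result {G : Type*} [Group G] [Finite G] (x : G) (hx : x ^ 2 ≠ 1) : Nat.card {p : G × G // orderOf p.1 = 2 ∧ orderOf p.2 = 2 ∧ p.1 * p.2 = x} = Nat.card {t : G // orderOf t = 2 ∧ t * x * t⁻¹ = x⁻¹} := by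
  refine Nat.card_congr ⟨fun a => ⟨a.1.1, a.2.1, ?_⟩, fun t => ⟨(t.1, t.1 * x), t.2.1, ?_, ?_⟩, ?_, ?_⟩
  · obtain ⟨⟨u, v⟩, hu, hv, rfl⟩ := a
    exact inverts_left (ord2_mul_self hu) (ord2_mul_self hv)
  · obtain ⟨t, ht, h⟩ := t
    apply ord2_of
    · have := refl_mul_self (ord2_mul_self ht) h 1
      simpa using this
    · intro h1
      apply hx
      have h2 : x = t := by rw [← ord2_inv ht]; exact (eq_inv_of_mul_eq_one_right h1)
      rw [h2, sq, ord2_mul_self ht]
  · show t.1 * (t.1 * x) = x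
    rw [← mul_assoc, ord2_mul_self t.2.1, one_mul]
  · rintro ⟨⟨u, v⟩, hu, hv, rfl⟩
    apply Subtype.ext
    show (u, u * (u * v)) = (u, v)
    rw [← mul_assoc, ord2_mul_self hu, one_mul]
  · intro t; rfl

end Cfsg.Agent.S0235
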