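import Cfsg.Statements.S0237
import Mathlib
import Cfsg.Agent.H2.Invol

set_option autoImplicit false
open Cfsg

namespace Cfsg.Agent.S0237

open Cfsg.Agent.H2

/-- If x is real (conjugate to x⁻¹) in a finite group G, the number of g with g x g⁻¹ = x⁻¹ equals |C_G(x)|. -/
theorem result {G : Type*} [Group G] [Finite G] (x : G) (hreal : IsConj x x⁻¹) : Nat.card {g : G // g * x * g⁻¹ = x⁻¹} = Nat.card (Subgroup.centralizer ({x} : Set G)) := by
  obtain ⟨g, hg⟩ := isConj_iff.1 hreal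
  refine Nat.card_congr ⟨fun a => ⟨g⁻¹ * a.1, ?_⟩, fun c => ⟨g * c.1, ?_⟩, ?_, ?_⟩
  · rw [Subgroup.mem_centralizer_singleton_iff]
    have := a.2.trans hg.symm
    calc g⁻¹ * a.1 * x = g⁻¹ * (a.1 * x * a.1⁻¹) * a.1 := by group
      _ = x * (g⁻¹ * a.1) := by rw [this]; group
  · have := Subgroup.mem_centralizer_singleton_iff.1 c.2
    calc g * c.1 * x * (g * c.1)⁻¹ = g * (c.1 * x) * c.1⁻¹ * g⁻¹ := by group
      _ = x⁻¹ := by rw [this, ← hg]; group
  · intro a; simp
  · intro a; simp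

end Cfsg.Agent.S0237
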