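import Cfsg.Statements.S0239
import Mathlib
import Cfsg.Agent.H2.Invol

set_option autoImplicit false
open Cfsg

namespace Cfsg.Agent.S0239

open Cfsg.Agent.H2

/-- If some nontrivial element x of a finite group G is conjugate to x⁻¹, then |G| is even. -/
theorem result {G : Type*} [Group G] [Finite G] (x : G) (hx : x ≠ 1) (hreal : IsConj x x⁻¹) : Even (Nat.card G) := by
  by_contra hodd
  rw [Nat.not_even_iff_odd] at hodd
  obtain ⟨g, hg⟩ := isConj_iff.1 hreal
  have h1 : ∀ k : ℕ, g ^ (2 * k + 1) * x * (g ^ (2 * k + 1))⁻¹ = x⁻¹ := by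
    intro k
    induction k with
    | zero => simpa using hg
    | succ k ih =>
      have h2 : g * x⁻¹ * g⁻¹ = x := by rw [← conj_inv, hg, inv_inv]
      calc g ^ (2 * (k + 1) + 1) * x * (g ^ (2 * (k + 1) + 1))⁻¹
          = g * (g * (g ^ (2 * k + 1) * x * (g ^ (2 * k + 1))⁻¹) * g⁻¹) * g⁻¹ := by group
        _ = x⁻¹ := by rw [ih, h2, hg]
  obtain ⟨m, hm⟩ := hodd
  have h2 := h1 m
  rw [← hm, pow_card_eq_one'] at h2
  simp only [one_mul, inv_one, mul_one] at h2
  have h3 : orderOf x = 2 := ord2_of (by nth_rewrite 2 [h2]; simp) hx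
  have h4 : orderOf x ∣ Nat.card G := orderOf_dvd_natCard x
  rw [h3, hm] at h4
  omega

end Cfsg.Agent.S0239
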