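import Cfsg.Statements.S0240
import Mathlib
import Cfsg.Agent.H2.Count

set_option autoImplicit false
open Cfsg

namespace Cfsg.Agent.S0240

open Cfsg.Agent.H2 Cfsg.Agent.L

/-- Let G be a finite group with n involutions and H a subgroup with |H|·(n+1) > |G|. Then some nontrivial h ∈ H is strongly real in G: an involution t of G satisfies t h t⁻¹ = h⁻¹. -/
theorem result {G : Type*} [Group G] [Finite G] (H : Subgroup G) (hH : Nat.card G < Nat.card H * (Nat.card {t : G // orderOf t = 2} + 1)) : ∃ h : G, h ∈ H ∧ h ≠ 1 ∧ ∃ t : G, orderOf t = 2 ∧ t * h * t⁻¹ = h⁻¹ := by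
  have h1 : Nat.card (G ⧸ H) < Nat.card (Option {t : G // orderOf t = 2}) := by
    rw [Finite.card_option, ← Subgroup.index_eq_card]
    rw [← H.card_mul_index] at hH
    exact lt_of_mul_lt_mul_left hH (Nat.zero_le _)
  haveI := Fintype.ofFinite (G ⧸ H)
  haveI := Fintype.ofFinite (Option {t : G // orderOf t = 2})
  rw [Nat.card_eq_fintype_card, Nat.card_eq_fintype_card] at h1
  obtain ⟨a, b, hne, hab⟩ := Fintype.exists_ne_map_eq_of_card_lt
    (fun o : Option {t : G // orderOf t = 2} => ((o.elim 1 fun t => t.1 : G) : G ⧸ H)) h1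
  rw [QuotientGroup.eq] at hab
  rcases a with _ | ⟨u, hu⟩ <;> rcases b with _ | ⟨v, hv⟩
  · exact absurd rfl hne
  · exact ⟨v, by simpa using hab, ord2_ne_one hv, v, hv, by simp [ord2_inv hv, ord2_mul_self hv]⟩
  · exact ⟨u, by simpa using hab, ord2_ne_one hu, u, hu, by simp [ord2_inv hu, ord2_mul_self hu]⟩
  · refine ⟨u * v, by simpa [ord2_inv hu] using hab, ?_, u, hu,
      inverts_left (ord2_mul_self hu) (ord2_mul_self hv)⟩
    intro h
    apply hne
    have : u = v := by rw [← ord2_inv hv]; exact eq_inv_of_mul_eq_one_left h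
    subst this; rfl

end Cfsg.Agent.S0240
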