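import Cfsg.Statements.S0241
import Mathlib
import Cfsg.Agent.H2.Count

set_option autoImplicit false
open Cfsg

namespace Cfsg.Agent.S0241

open Cfsg.Agent.H2 Cfsg.Agent.L

/-- If x ≠ 1 is conjugate to x⁻¹ in a finite group G and |C_G(x)| is odd, then some involution t satisfies t x t⁻¹ = x⁻¹. -/
theorem result {G : Type*} [Group G] [Finite G] (x : G) (hx : x ≠ 1) (hreal : IsConj x x⁻¹) (hodd : Odd (Nat.card (Subgroup.centralizer ({x} : Set G)))) : ∃ t : G, orderOf t = 2 ∧ t * x * t⁻¹ = x⁻¹ := by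
  have hxC : x ∈ Subgroup.centralizer ({x} : Set G) := Subgroup.mem_centralizer_singleton_iff.2 rfl
  have hxx : x * x ≠ 1 := fun h => odd_card_iff.1 hodd x hxC (ord2_of h hx)
  have he : Even (Nat.card (extCent x)) := by rw [card_extCent hxx hreal]; exact even_two_mul _
  obtain ⟨t, ht, h2⟩ := exists_ord2_mem_of_even he
  refine ⟨t, h2, ?_⟩
  rcases ht with ht | ht
  · exact absurd h2 (odd_card_iff.1 hodd t (mem_centralizer_singleton_conj.2 ht))
  · exact ht

end Cfsg.Agent.S0241
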