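import Cfsg.Statements.S0247
import Cfsg.Agent.H9.SpS

set_option autoImplicit false
open Cfsg

namespace Cfsg.Agent.S0247

open Cfsg.Agent Cfsg.Agent.H9

/-- Sp_4(2) is isomorphic to the symmetric group S_6. -/
theorem result {F : Type*} [Field F] [Fintype F] (hF : Fintype.card F = 2) : Nonempty (Matrix.symplecticGroup (Fin 2) F ≃* Equiv.Perm (Fin 6)) := by
  have hF' : ∀ x : F, x * x = x := by
    intro x
    have := FiniteField.pow_card x
    rw [hF, pow_two] at this
    exact this
  obtain ⟨f, hf⟩ := perm_embed_sp (Ω := Fin 6) hF' 2 le_rfl (by simp)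
  have hc : Nat.card (Matrix.symplecticGroup (Fin 2) F) = 720 := by
    rw [Nat.card_congr (H4.spEquiv F 2).toEquiv, (H4.spF_nondeg (F := F) 2).symp_card_iso (m := 2) (by simp), hF]
    decide
  haveI : Finite (Matrix.symplecticGroup (Fin 2) F) := Nat.finite_of_card_ne_zero (by omega)
  refine ⟨(MulEquiv.ofBijective f ?_).symm⟩
  rw [Nat.bijective_iff_injective_and_card]
  refine ⟨hf, ?_⟩
  rw [hc, Nat.card_perm]
  simp
  rfl

end Cfsg.Agent.S0247
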