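import Cfsg.Statements.S0250
import Cfsg.Agent.H4.Dick6

set_option autoImplicit false
open Cfsg

namespace Cfsg.Agent.S0250

/-- SL_2(2) is isomorphic to S_3. -/
theorem result {F : Type*} [Field F] [Fintype F] (hF : Fintype.card F = 2) : Nonempty (Matrix.SpecialLinearGroup (Fin 2) F ≃* Equiv.Perm (Fin 3)) := by
  open Cfsg.Agent.H4 in
  have h2 : (2 : F) = 0 := even_card_iff.1 (by rw [hF]; decide)
  have hinj : Function.Injective (Matrix.SpecialLinearGroup.toPGL (n := Fin 2) (R := F)) := by
    rw [injective_iff_map_eq_one]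
    intro g hg
    rcases toPGL_eq_one_iff.1 hg with h | h
    · exact h
    · rw [h, neg_one_sm, sm_eq_one]
      exact ⟨by linear_combination -h2, rfl, rfl, by linear_combination -h2⟩
  have h1 := card_LL (K := F)
  rw [hF] at h1
  have h3 : Nat.card (OnePoint F) = 3 := by
    change Nat.card (Option F) = 3
    rw [Finite.card_option, Nat.card_eq_fintype_card, hF]
  let e := Finite.equivFinOfCardEq h3
  let f := (e.permCongrHom.toMonoidHom.comp (MulAction.toPermHom (Matrix.ProjGenLinGroup (Fin 2) F) (OnePoint F))).comp
    (Matrix.SpecialLinearGroup.toPGL (n := Fin 2) (R := F))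
  refine equiv_perm_of_injective f (e.permCongrHom.injective.comp (Function.Injective.comp ?_ hinj)) ?_
  · rw [injective_iff_map_eq_one]
    intro g hg
    have : ∀ x : OnePoint F, g • x = x := fun x => congrArg (fun σ : Equiv.Perm _ => σ x) hg
    exact pgl_three (OnePoint.infty_ne_coe (0 : F)) (OnePoint.infty_ne_coe (1 : F)) (by simp) (this _) (this _)
      (this _)
  · rw [Nat.card_congr (MonoidHom.ofInjective hinj).toEquiv]
    exact (one_mul _).symm.trans h1

end Cfsg.Agent.S0250
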