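import Cfsg.Statements.S0263
import Cfsg.Agent.H4.GLa
import Cfsg.Agent.H4.Dick9

set_option autoImplicit false
open Cfsg

namespace Cfsg.Agent.S0263

/-- A Sylow p-subgroup of GL_n(q), p the characteristic, has order q^(n(n-1)/2). -/
theorem result {F : Type*} [Field F] [Fintype F] {q : ℕ} (hF : Fintype.card F = q) (p : ℕ) [Fact p.Prime] [CharP F p] (n : ℕ) (P : Sylow p (Matrix.GeneralLinearGroup (Fin n) F)) : Nat.card P = q ^ (n * (n - 1) / 2) := by
  open Cfsg.Agent.H4 Module in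
  obtain ⟨k, hp, hk⟩ := FiniteField.card F p
  have h := Matrix.card_GL_field (𝔽 := F) n
  rw [prod_pow_sub_pow, hF] at h
  have hq : q = p ^ (k : ℕ) := hF ▸ hk
  rw [card_sylow_eq P (k := k * (n * (n - 1) / 2)) (by rw [h, pow_mul, ← hq]) ?_, pow_mul, ← hq]
  rw [Prime.dvd_finset_prod_iff hp.prime]
  rintro ⟨i, -, hi⟩
  exact not_dvd_pow_sub_one hp (hq ▸ dvd_pow_self p k.ne_zero) (hq ▸ pow_pos hp.pos _)
    (by have := i.2; omega) hi

end Cfsg.Agent.S0263
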