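import Cfsg.Statements.S0264
import Cfsg.Agent.H4.Linear

set_option autoImplicit false
open Cfsg

namespace Cfsg.Agent.S0264
open scoped commutatorElement

/-- GL_n(F)' = SL_n(F) (as the kernel of det), for every field F and every n, except n = 2 over the field of two elements. -/
theorem result {F : Type*} [Field F] (n : ℕ) (h : n = 2 → ∃ a : F, a ≠ 0 ∧ a ≠ 1) : commutator (Matrix.GeneralLinearGroup (Fin n) F) = (Matrix.GeneralLinearGroup.det : Matrix.GeneralLinearGroup (Fin n) F →* Fˣ).ker := by
  apply le_antisymm
  · exact Abelianization.commutator_subset_ker _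
  · rw [← H4.range_toGL]
    rintro _ ⟨A, rfl⟩
    refine H4.SL_transvection_induction
      (fun A => Matrix.SpecialLinearGroup.toGL A ∈ commutator (Matrix.GeneralLinearGroup (Fin n) F))
      (by simp) ?_ (fun A B hA hB => by rw [map_mul]; exact mul_mem hA hB) A
    intro i j hij c
    by_cases h3 : 3 ≤ n
    · have := H4.SL_commutator_eq_top (F := F) (ι := Fin n) (by simpa using h3)
      have h1 : Matrix.SpecialLinearGroup.transvection hij c ∈ commutator _ := this ▸ Subgroup.mem_top _
      have h2 := Subgroup.mem_map_of_mem Matrix.SpecialLinearGroup.toGL h1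
      rw [commutator_def, Subgroup.map_commutator] at h2
      exact Subgroup.commutator_mono le_top le_top h2
    · have hn : n = 2 := by
        have : (i : ℕ) ≠ j := fun h => hij (Fin.ext h)
        have := i.2
        have := j.2
        omega
      obtain ⟨a, ha0, ha1⟩ := h hn
      let D : Matrix.GeneralLinearGroup (Fin n) F :=
        Matrix.GeneralLinearGroup.mkOfDetNeZero (Matrix.diagonal (Function.update 1 i a)) (by
          rw [Matrix.det_diagonal, Finset.prod_update_of_mem (Finset.mem_univ _)]; simp [ha0])
      have key : ∀ b : F, D * Matrix.SpecialLinearGroup.toGL (Matrix.SpecialLinearGroup.transvection hij b) =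
          Matrix.SpecialLinearGroup.toGL (Matrix.SpecialLinearGroup.transvection hij (a * b)) * D := by
        intro b
        apply Units.ext
        simp only [Units.val_mul, Matrix.SpecialLinearGroup.coe_GL_coe_matrix,
          Matrix.SpecialLinearGroup.transvection_coe, D, Matrix.GeneralLinearGroup.val_mkOfDetNeZero]
        ext k l
        simp only [Matrix.diagonal_mul, Matrix.mul_diagonal, Matrix.add_apply, Matrix.one_apply,
          Matrix.single_apply, Function.update_apply, Pi.one_apply]
        by_cases h1 : k = l <;> by_cases h2 : i = k <;> by_cases h3 : j = l <;> simp_all [eq_comm]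
      have hc : Matrix.SpecialLinearGroup.toGL (Matrix.SpecialLinearGroup.transvection hij c) =
          ⁅D, Matrix.SpecialLinearGroup.toGL (Matrix.SpecialLinearGroup.transvection hij (c / (a - 1)))⁆ := by
        rw [commutatorElement_def, key, mul_inv_cancel_right, ← map_inv, ← map_mul,
          Matrix.SpecialLinearGroup.transvection_inv, ← Matrix.SpecialLinearGroup.transvection_add]
        congr 2
        have : a - 1 ≠ 0 := sub_ne_zero.2 ha1
        field_simp; ring
      rw [hc]
      exact Subgroup.commutator_mem_commutator (Subgroup.mem_top _) (Subgroup.mem_top _)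

end Cfsg.Agent.S0264
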