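import Cfsg.Statements.S0266
import Mathlib
import Cfsg.Agent.H7.MultiTrans

set_option autoImplicit false
open scoped MatrixGroups
open Cfsg

namespace Cfsg.Agent.S0266

open Cfsg.Agent.H7 MulAction Projectivization Matrix

theorem ne_det {F : Type*} [Field F] {v w : Fin 2 → F} (hv : v ≠ 0) (hw : w ≠ 0)
    (h : Projectivization.mk F v hv ≠ Projectivization.mk F w hw) : v 0 * w 1 - w 0 * v 1 ≠ 0 := by
  intro e
  apply h
  rw [mk_eq_mk_iff']
  by_cases h0 : w 0 = 0
  · have h1 : w 1 ≠ 0 := fun h1 => hw (by ext i; fin_cases i <;> simp [h0, h1])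
    refine ⟨v 1 / w 1, ?_⟩
    ext i; fin_cases i
    · simp [h0] at e ⊢; simpa [h1] using (e.resolve_right h1).symm
    · simp [h1]
  · refine ⟨v 0 / w 0, ?_⟩
    ext i; fin_cases i
    · simp [h0]
    · simp; field_simp; linear_combination e

theorem frame {F : Type*} [Field F] (a b c : Projectivization F (Fin 2 → F)) (hab : a ≠ b) (hac : a ≠ c)
    (hbc : b ≠ c) : ∃ g : GL (Fin 2) F,
      ProjGenLinGroup.mk g • Projectivization.mk F ![1, 0] (by simp) = a ∧
      ProjGenLinGroup.mk g • Projectivization.mk F ![0, 1] (by simp) = b ∧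
      ProjGenLinGroup.mk g • Projectivization.mk F ![1, 1] (by simp) = c := by
  induction a using Projectivization.ind with | _ u hu =>
  induction b using Projectivization.ind with | _ v hv =>
  induction c using Projectivization.ind with | _ w hw =>
  have h1 := ne_det hu hv hab
  have h2 := ne_det hu hw hac
  have h3 := ne_det hv hw hbc
  set s := v 0 * w 1 - w 0 * v 1
  set t := u 0 * w 1 - w 0 * u 1
  refine ⟨GeneralLinearGroup.mkOfDetNeZero !![-s * u 0, t * v 0; -s * u 1, t * v 1] (by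
    rw [det_fin_two_of]
    have : -s * u 0 * (t * v 1) - t * v 0 * (-s * u 1) = -(s * t * (u 0 * v 1 - v 0 * u 1)) := by ring
    rw [this]; simp [h1, h2, h3]), ?_, ?_, ?_⟩ <;> rw [PGL.mk_smul_mk, mk_eq_mk_iff']
  · refine ⟨-s, ?_⟩
    ext i; fin_cases i <;> simp [Units.smul_def, mulVec, dotProduct]
  · refine ⟨t, ?_⟩
    ext i; fin_cases i <;> simp [Units.smul_def, mulVec, dotProduct]
  · refine ⟨u 0 * v 1 - v 0 * u 1, ?_⟩
    ext i; fin_cases i <;> simp [Units.smul_def, mulVec, dotProduct, s, t] <;> ring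

/-- PGL_2(F) is sharply 3-transitive on the projective line: it is 3-transitive and the stabiliser of three distinct points is trivial. -/
theorem result {F : Type*} [Field F] : MulAction.IsMultiplyPretransitive (Matrix.ProjGenLinGroup (Fin 2) F) (Projectivization F (Fin 2 → F)) 3 ∧ ∀ (g : Matrix.ProjGenLinGroup (Fin 2) F) (a b c : Projectivization F (Fin 2 → F)), a ≠ b → a ≠ c → b ≠ c → g • a = a → g • b = b → g • c = c → g = 1 := by
  refine ⟨mt_three_iff.2 fun a b c a' b' c' h1 h2 h3 h4 h5 h6 => ?_, fun g a b c h1 h2 h3 ha hb hc => ?_⟩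
  · obtain ⟨g, rfl, rfl, rfl⟩ := frame a b c h1 h2 h3
    obtain ⟨g', rfl, rfl, rfl⟩ := frame a' b' c' h4 h5 h6
    exact ⟨ProjGenLinGroup.mk g' * (ProjGenLinGroup.mk g)⁻¹, by simp only [mul_smul, inv_smul_smul, and_self]⟩
  · obtain ⟨m, rfl, rfl, rfl⟩ := frame a b c h1 h2 h3
    obtain ⟨h, hh⟩ := ProjGenLinGroup.mk_surjective ((ProjGenLinGroup.mk m)⁻¹ * g * ProjGenLinGroup.mk m)
    have key : ∀ x : Projectivization F (Fin 2 → F), g • ProjGenLinGroup.mk m • x = ProjGenLinGroup.mk m • x →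
        ProjGenLinGroup.mk h • x = x := fun x hx => by rw [hh, mul_smul, mul_smul, hx, inv_smul_smul]
    have e1 := key _ ha
    have e2 := key _ hb
    have e3 := key _ hc
    rw [PGL.mk_smul_mk, mk_eq_mk_iff'] at e1 e2 e3
    obtain ⟨x, e1⟩ := e1
    obtain ⟨y, e2⟩ := e2
    obtain ⟨z, e3⟩ := e3
    have a1 := congrFun e1 1
    have a2 := congrFun e2 0
    have a3 := congrFun e3 0
    have a4 := congrFun e3 1
    simp [Units.smul_def, mulVec, dotProduct] at a1 a2 a3 a4
    have : ProjGenLinGroup.mk h = 1 := by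
      rw [ProjGenLinGroup.mk_eq_one, Subgroup.mem_center_iff]
      intro k
      ext i j
      have b1 : h 0 0 = z := by rw [a3, ← a2, add_zero]
      have b2 : h 1 1 = z := by rw [a4, ← a1, zero_add]
      fin_cases i <;> fin_cases j <;> simp [Matrix.mul_apply, ← a1, ← a2, b1, b2, mul_comm]
    rw [this, mul_assoc, eq_inv_mul_iff_mul_eq, mul_one] at hh
    exact mul_eq_right.1 hh.symm

end Cfsg.Agent.S0266
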