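import Cfsg.Statements.S0267
import Cfsg.Agent.H9.TJ
import Cfsg.Agent.H4.Bridge
import Cfsg.Agent.S0266

set_option autoImplicit false
open Cfsg

namespace Cfsg.Agent.S0267

open Cfsg.Agent Cfsg.Agent.H9
open Matrix in
theorem smul_eq {F : Type*} [Field F] (g : Matrix.SpecialLinearGroup (Fin 2) F) (x : Projectivization F (Fin 2 → F)) :
    Matrix.ProjGenLinGroup.mk (Matrix.SpecialLinearGroup.toGL g) • x = g • x := by
  induction x using Projectivization.ind with | _ v hv =>
  rw [Projectivization.PGL.mk_smul_mk]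
  rfl

/-- SL_2(q) is 3-transitive on the q+1 points of the projective line if and only if q is even. -/
theorem result {F : Type*} [Field F] [Fintype F] : MulAction.IsMultiplyPretransitive (Matrix.SpecialLinearGroup (Fin 2) F) (Projectivization F (Fin 2 → F)) 3 ↔ ringChar F = 2 := by
  constructor
  · intro h
    by_contra hc
    obtain ⟨r, hr⟩ := FiniteField.exists_nonsquare (F := F) hc
    have hr0 : r ≠ 0 := by rintro rfl; exact hr ⟨0, by simp⟩
    have ne : ∀ (v w : Fin 2 → F) (hv : v ≠ 0) (hw : w ≠ 0), v 0 * w 1 ≠ w 0 * v 1 → Projectivization.mk F v hv ≠ Projectivization.mk F w hw := by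
      intro v w hv hw hne e
      rw [Projectivization.mk_eq_mk_iff'] at e
      obtain ⟨a, rfl⟩ := e
      apply hne; simp; ring
    obtain ⟨g, h1, h2, h3⟩ := H7.mt_three_iff.1 h (Projectivization.mk F ![1, 0] (by simp)) (Projectivization.mk F ![0, 1] (by simp))
      (Projectivization.mk F ![1, 1] (by simp)) (Projectivization.mk F ![1, 0] (by simp)) (Projectivization.mk F ![0, 1] (by simp))
      (Projectivization.mk F ![r, 1] (by simp)) (ne _ _ _ _ (by simp)) (ne _ _ _ _ (by simp)) (ne _ _ _ _ (by simp))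
      (ne _ _ _ _ (by simp)) (ne _ _ _ _ (by simp)) (ne _ _ _ _ (by simpa using hr0.symm))
    rw [Projectivization.smul_mk, Projectivization.mk_eq_mk_iff'] at h1 h2 h3
    obtain ⟨a, ha⟩ := h1
    obtain ⟨b, hb⟩ := h2
    obtain ⟨c, hc⟩ := h3
    have a1 := congrFun ha 1
    have b0 := congrFun hb 0
    have c0 := congrFun hc 0
    have c1 := congrFun hc 1
    have hd := g.2
    rw [Matrix.det_fin_two] at hd
    simp [Matrix.SpecialLinearGroup.smul_def, Matrix.mulVec, dotProduct] at a1 b0 c0 c1
    apply hr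
    refine ⟨g 0 0, ?_⟩
    rw [← a1] at c1 hd
    rw [← b0] at c0 hd
    linear_combination (g 0 0) * c0 - r * (g 0 0) * c1 - r * hd
  · intro h
    refine H7.mt_three_iff.2 fun a b c a' b' c' h1 h2 h3 h4 h5 h6 => ?_
    obtain ⟨g, hg⟩ := H7.mt_three_iff.1 (Cfsg.Agent.S0266.result (F := F)).1 a b c a' b' c' h1 h2 h3 h4 h5 h6
    have hs : Function.Surjective (Matrix.ProjectiveSpecialLinearGroup.toPGL (n := Fin 2) (R := F)) := by
      apply Matrix.ProjectiveSpecialLinearGroup.toPGL_surj_of_roots
      intro r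
      obtain ⟨k, hk⟩ := FiniteField.isSquare_of_char_two h (r : F)
      have hk0 : k ≠ 0 := by rintro rfl; simp at hk
      exact ⟨Units.mk0 k hk0, Units.ext (by simp [hk, pow_two])⟩
    obtain ⟨X, rfl⟩ := hs g
    induction X using QuotientGroup.induction_on with | H X =>
    rw [Matrix.ProjectiveSpecialLinearGroup.toPGL_mk, smul_eq, smul_eq, smul_eq] at hg
    exact ⟨X, hg⟩

end Cfsg.Agent.S0267
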