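import Cfsg.Statements.S0268
import Mathlib

set_option autoImplicit false
open Cfsg

namespace Cfsg.Agent.S0268

/-- For q odd, -1 is the unique involution of SL_2(q). -/
theorem result {F : Type*} [Field F] [Fintype F] (hF : Odd (Fintype.card F)) (g : Matrix.SpecialLinearGroup (Fin 2) F) (h1 : g ≠ 1) (h2 : g * g = 1) : (g : Matrix (Fin 2) (Fin 2) F) = -1 := by
  have h2F : (2 : F) ≠ 0 := by
    intro h
    have : ringChar F = 2 := by
      have := (ringChar.spec F 2).1 (by exact_mod_cast h)
      rcases (Nat.dvd_prime Nat.prime_two).1 this with h1 | h1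
      · exact absurd h1 CharP.ringChar_ne_one
      · exact h1
    have := FiniteField.even_card_of_char_two this
    rw [Nat.odd_iff] at hF; omega
  have hd := g.2
  rw [Matrix.det_fin_two] at hd
  have hinv : g⁻¹ = g := inv_eq_of_mul_eq_one_right h2
  have e := congrArg (fun x : Matrix.SpecialLinearGroup (Fin 2) F => (x : Matrix (Fin 2) (Fin 2) F)) hinv
  simp only [Matrix.SpecialLinearGroup.coe_inv, Matrix.adjugate_fin_two] at e
  have e00 := congrFun (congrFun e 0) 0
  have e01 := congrFun (congrFun e 0) 1
  have e10 := congrFun (congrFun e 1) 0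
  simp at e00 e01 e10
  have hb : g.1 0 1 = 0 := by
    apply mul_left_cancel₀ h2F; linear_combination -e01
  have hc : g.1 1 0 = 0 := by
    apply mul_left_cancel₀ h2F; linear_combination -e10
  have ha : (g.1 0 0 - 1) * (g.1 0 0 + 1) = 0 := by
    rw [hb, e00] at hd; linear_combination hd
  rcases mul_eq_zero.1 ha with ha | ha
  · exfalso; apply h1
    ext i j; fin_cases i <;> fin_cases j <;> simp [hb, hc, e00, sub_eq_zero.1 ha]
  · ext i j; fin_cases i <;> fin_cases j <;> simp [hb, hc, e00, eq_neg_of_add_eq_zero_left ha]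

end Cfsg.Agent.S0268
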