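import Cfsg.Statements.S0275
import Cfsg.Agent.H4.Dick4

set_option autoImplicit false
open Cfsg

namespace Cfsg.Agent.S0275

/-- If p is odd and H is a subgroup of SL_2(q), q a power of p, with more than one Sylow p-subgroup, then the Sylow 2-subgroups of H are generalised quaternion. -/
theorem result {F : Type*} [Field F] [Fintype F] (p : ℕ) [Fact p.Prime] [CharP F p] (hp : p ≠ 2) (H : Subgroup (Matrix.SpecialLinearGroup (Fin 2) F)) (hH : 1 < Nat.card (Sylow p H)) (S : Sylow 2 H) : ∃ k : ℕ, 1 ≤ k ∧ Nonempty ((S : Subgroup H) ≃* QuaternionGroup (2 ^ k)) := by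
  open Cfsg.Agent.H4 in
  obtain ⟨a, b, i, j, ha, hb, hab⟩ := exists_noncomm_of_sylow hH
  obtain ⟨f, hf, hle⟩ := exists_SL_prime_le hp a.2 b.2 (congrArg Subtype.val ha) (congrArg Subtype.val hb)
    (fun e => hab (Subtype.ext e))
  have h2 : (2 : ZMod p) ≠ 0 := two_ne_zero_of_char hp
  obtain ⟨x, y, h3, h4, h5⟩ := exists_Q8 h2
  obtain ⟨k, hk, -⟩ := exists_Q8_hom h2 h3 h4 h5
  exact quaternion_sylow (two_ne_zero_of_char hp) H.subtype Subtype.val_injective
    ((f.comp k).codRestrict H fun x => hle ⟨_, rfl⟩)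
    (fun x y e => hk (hf (congrArg Subtype.val e))) S

end Cfsg.Agent.S0275
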