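import Cfsg.Statements.S0276
import Cfsg.Agent.H4.Dick9

set_option autoImplicit false
open Cfsg

namespace Cfsg.Agent.S0276

/-- For q = 3 or 5 mod 8 the Sylow 2-subgroups of PSL_2(q) are elementary abelian of order 4. -/
theorem result {F : Type*} [Field F] [Fintype F] {q : ℕ} (hF : Fintype.card F = q) (hq : q % 8 = 3 ∨ q % 8 = 5) (P : Sylow 2 (Matrix.ProjectiveSpecialLinearGroup (Fin 2) F)) : IsKleinFour (P : Subgroup (Matrix.ProjectiveSpecialLinearGroup (Fin 2) F)) := by
  open Cfsg.Agent.H4 in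
  subst hF
  have ho : Odd (Fintype.card F) := Nat.odd_iff.2 (by omega)
  obtain ⟨m, hm, hm2⟩ := sq_sub_one_mod hq
  have h1 := two_mul_card_LL ho
  have h2 : Nat.card P = 2 ^ 2 := card_sylow_eq P (m := Fintype.card F * m)
    (by rw [card_PSL_eq]; rw [hm] at h1; linarith)
    fun h => ((Nat.Prime.dvd_mul Nat.prime_two).1 h).elim (by omega) hm2
  exact isKleinFour_congr (imEquiv _).symm (isKleinFour_of_le_LL hq (im_le _) (by rw [card_im, h2]; rfl))

end Cfsg.Agent.S0276
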