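import Cfsg.Statements.S0284
import Cfsg.Agent.H4.Bridge2

set_option autoImplicit false
open Cfsg

namespace Cfsg.Agent.S0284

/-- The standard Hermitian form on F^n, |F| = q^2, has exactly q^(n-1) (q^n - (-1)^n) vectors of norm 1. -/
theorem result {F : Type*} [Field F] [Fintype F] {q : ℕ} (hF : Fintype.card F = q ^ 2) (n : ℕ) : Nat.card {v : Fin n → F // Cfsg.hermForm n F q v v = 1} = (if Even n then q ^ (n - 1) * (q ^ n - 1) else q ^ (n - 1) * (q ^ n + 1)) := by
  open Cfsg.Agent.H4 in
  have h1 := ((unF_nondeg hF n).unit_cnt hF).2 1 one_ne_zero (one_pow q)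
  have hq := two_le_of_card_sq hF
  rw [Module.finrank_fin_fun] at h1
  change (unF hF n).cnt 1 = _
  apply Nat.cast_injective (R := ℤ)
  apply mul_left_cancel₀ (a := (q : ℤ)) (by omega)
  rw [h1]
  split_ifs with h
  · rw [h.neg_one_pow]
    rcases n with _ | n
    · simp
    · push_cast [Nat.one_le_pow _ _ (show 0 < q by omega)]; ring
  · rw [(Nat.not_even_iff_odd.1 h).neg_one_pow]
    rcases n with _ | n
    · simp at h
    · push_cast; ring

end Cfsg.Agent.S0284
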