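import Cfsg.Statements.S0285
import Cfsg.Agent.H4.Bridge2

set_option autoImplicit false
open Cfsg

namespace Cfsg.Agent.S0285

/-- The standard Hermitian form on F^n, |F| = q^2, has exactly (q^n - (-1)^n)(q^(n-1) + (-1)^n) non-zero isotropic vectors; counting the zero vector too: -/
theorem result {F : Type*} [Field F] [Fintype F] {q : ℕ} (hF : Fintype.card F = q ^ 2) (n : ℕ) : Nat.card {v : Fin n → F // Cfsg.hermForm n F q v v = 0} = (if Even n then (q ^ n - 1) * (q ^ (n - 1) + 1) else (q ^ n + 1) * (q ^ (n - 1) - 1)) + 1 := by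
  open Cfsg.Agent.H4 in
  have h1 := ((unF_nondeg hF n).unit_cnt hF).1
  have hq := two_le_of_card_sq hF
  rw [Module.finrank_fin_fun] at h1
  change (unF hF n).cnt 0 = _
  apply Nat.cast_injective (R := ℤ)
  apply mul_left_cancel₀ (a := (q : ℤ)) (by omega)
  rw [h1]
  split_ifs with h
  · rw [h.neg_one_pow]
    rcases n with _ | n
    · simp
    · push_cast [Nat.one_le_pow _ _ (show 0 < q by omega)]; ring
  · rw [(Nat.not_even_iff_odd.1 h).neg_one_pow]
    rcases n with _ | n
    · simp at h
    · push_cast [Nat.one_le_pow _ _ (show 0 < q by omega)]; ring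

end Cfsg.Agent.S0285
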