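import Cfsg.Statements.S0289
import Cfsg.Agent.H4.Bridge2

set_option autoImplicit false
open Cfsg

namespace Cfsg.Agent.S0289

/-- The hyperbolic quadratic form on F^(2m), m at least 1, has q^(2m-1) + q^m - q^(m-1) zeros (that is, (q^m - 1)(q^(m-1) + 1) non-zero isotropic vectors). -/
theorem result {F : Type*} [Field F] [Fintype F] {q : ℕ} (hF : Fintype.card F = q) (m : ℕ) (hm : 1 ≤ m) : Nat.card {v : Fin m ⊕ Fin m → F // Cfsg.quadFormPlus m F v = 0} = q ^ (2 * m - 1) + q ^ m - q ^ (m - 1) := by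
  open Cfsg.Agent.H4 in
  subst hF
  have h1 := (plusF_nondeg (F := F) m).orth_cnt.1 (by rw [plusF_wi]; simp; ring)
  rw [plusF_wi] at h1
  have hq := Fintype.one_lt_card (α := F)
  obtain ⟨m, rfl⟩ : ∃ k, m = k + 1 := ⟨m - 1, by omega⟩
  change (plusF F (m + 1)).cnt 0 = _
  apply Nat.eq_sub_of_add_eq
  apply Nat.cast_injective (R := ℤ)
  apply mul_left_cancel₀ (a := (Fintype.card F : ℤ)) (by omega)
  rw [show 2 * (m + 1) - 1 = 2 * m + 1 by omega]
  push_cast
  linear_combination h1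

end Cfsg.Agent.S0289
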