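import Cfsg.Statements.S0292
import Cfsg.Agent.H4.Orth2

set_option autoImplicit false
open Cfsg

namespace Cfsg.Agent.S0292

/-- 2 |PΩ_{2m+1}(q)| = q^(m^2) prod_{i=1}^{m} (q^(2i) - 1), for q odd and m at least 3 (type B_m). -/
theorem result {F : Type*} [Field F] [Fintype F] {q : ℕ} (hF : Fintype.card F = q) (hodd : Odd q) (m : ℕ) (hm : 3 ≤ m) : 2 * Nat.card (Cfsg.POmega F (Cfsg.quadFormOdd m F)) = q ^ (m ^ 2) * ∏ i ∈ Finset.range m, (q ^ (2 * (i + 1)) - 1) := by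
  open Cfsg.Agent.H4 in
  subst hF
  have hf := oddF_nondeg (two_ne_zero_of_odd hodd) m
  have hn : Module.finrank F (Unit ⊕ (Fin m ⊕ Fin m) → F) = 2 * m + 1 := by simp; omega
  have h1 := hf.orth_card_quot_odd (hn ▸ odd_two_mul_add_one m) (by omega)
  rw [hf.orth_card_odd hn, ← Nat.card_congr (pomegaEquivE (hf.orth_commutator_eq_E' (by omega))).toEquiv,
    oddF_Q] at h1
  apply Nat.eq_of_mul_eq_mul_left two_pos
  rw [← mul_assoc, ← mul_assoc]; exact h1

end Cfsg.Agent.S0292
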