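import Cfsg.Statements.S0294
import Cfsg.Agent.H4.Orth2

set_option autoImplicit false
open Cfsg

namespace Cfsg.Agent.S0294

/-- gcd(4, q^m + 1) |PΩ^-_{2m}(q)| = q^(m(m-1)) (q^m + 1) prod_{i=1}^{m-1} (q^(2i) - 1), m at least 4 (type ²D_m). -/
theorem result {F : Type*} [Field F] [Fintype F] {q : ℕ} (hF : Fintype.card F = q) (m : ℕ) (hm : 4 ≤ m) (a b : F) (hab : ∀ z₁ z₂ : F, z₁ ^ 2 + a * z₁ * z₂ + b * z₂ ^ 2 = 0 → z₁ = 0 ∧ z₂ = 0) : Nat.gcd 4 (q ^ m + 1) * Nat.card (Cfsg.POmega F (Cfsg.quadFormMinus (m - 1) F a b)) = q ^ (m * (m - 1)) * (q ^ m + 1) * ∏ i ∈ Finset.range (m - 1), (q ^ (2 * (i + 1)) - 1) := by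
  open Cfsg.Agent.H4 in
  subst hF
  have hf := minusF_nondeg (m - 1) hab
  have hn : Module.finrank F ((Fin (m - 1) ⊕ Fin (m - 1)) ⊕ Fin 2 → F) = 2 * m := by simp; omega
  have hw := minusF_wi (m - 1) hab
  have h1 := hf.orth_card_quot_even hn (by omega) (Or.inr (by omega))
  rw [hf.orth_card_minus (by omega) hn, if_neg (by omega),
    ← Nat.card_congr (pomegaEquivE (hf.orth_commutator_eq_E' (by omega))).toEquiv, minusF_Q] at h1
  apply Nat.eq_of_mul_eq_mul_left two_pos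
  rw [h1]; ring

end Cfsg.Agent.S0294
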