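import Cfsg.Statements.S0295
import Cfsg.Agent.H4.Orth2

set_option autoImplicit false
open Cfsg

namespace Cfsg.Agent.S0295

/-- PΩ_{2m+1}(q) is simple for q odd and m at least 3. -/
theorem result {F : Type*} [Field F] [Fintype F] (hodd : Odd (Fintype.card F)) (m : ℕ) (hm : 3 ≤ m) : IsSimpleGroup (Cfsg.POmega F (Cfsg.quadFormOdd m F)) := by
  open Cfsg.Agent.H4 in
  have hf := oddF_nondeg (two_ne_zero_of_odd hodd) m
  have hn : 5 ≤ Module.finrank F (Unit ⊕ (Fin m ⊕ Fin m) → F) := by simp; omega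
  have := hf.orth_simple hn (hf.orth_wi_two hn)
  exact (pomegaEquivE (hf.orth_commutator_eq_E' hn)).isSimpleGroup

end Cfsg.Agent.S0295
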