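import Cfsg.Statements.S0296
import Cfsg.Agent.H4.Orth2

set_option autoImplicit false
open Cfsg

namespace Cfsg.Agent.S0296

/-- PΩ^+_{2m}(q) is simple for m at least 4. -/
theorem result {F : Type*} [Field F] [Fintype F] (m : ℕ) (hm : 4 ≤ m) : IsSimpleGroup (Cfsg.POmega F (Cfsg.quadFormPlus m F)) := by
  open Cfsg.Agent.H4 in
  have hf := plusF_nondeg (F := F) m
  have hn : 5 ≤ Module.finrank F (Fin m ⊕ Fin m → F) := by simp; omega
  have := hf.orth_simple hn (hf.orth_wi_two hn)
  exact (pomegaEquivE (hf.orth_commutator_eq_E' hn)).isSimpleGroup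

end Cfsg.Agent.S0296
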