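import Cfsg.Statements.S0297
import Cfsg.Agent.H4.Orth2

set_option autoImplicit false
open Cfsg

namespace Cfsg.Agent.S0297

/-- PΩ^-_{2m}(q) is simple for m at least 4 (the form is quadFormMinus (m-1) with anisotropic binary part). -/
theorem result {F : Type*} [Field F] [Fintype F] (m : ℕ) (hm : 4 ≤ m) (a b : F) (hab : ∀ z₁ z₂ : F, z₁ ^ 2 + a * z₁ * z₂ + b * z₂ ^ 2 = 0 → z₁ = 0 ∧ z₂ = 0) : IsSimpleGroup (Cfsg.POmega F (Cfsg.quadFormMinus (m - 1) F a b)) := by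
  open Cfsg.Agent.H4 in
  have hf := minusF_nondeg (m - 1) hab
  have hn : 5 ≤ Module.finrank F ((Fin (m - 1) ⊕ Fin (m - 1)) ⊕ Fin 2 → F) := by simp; omega
  have := hf.orth_simple hn (hf.orth_wi_two hn)
  exact (pomegaEquivE (hf.orth_commutator_eq_E' hn)).isSimpleGroup

end Cfsg.Agent.S0297
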