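import Cfsg.Statements.S0298
import Cfsg.Agent.H4.Om3

set_option autoImplicit false
open Cfsg

namespace Cfsg.Agent.S0298

/-- PΩ_3(q) is isomorphic to PSL_2(q) for q odd. -/
theorem result {F : Type*} [Field F] [Fintype F] (hodd : Odd (Fintype.card F)) : Nonempty (Cfsg.POmega F (Cfsg.quadFormOdd 1 F) ≃* Matrix.ProjectiveSpecialLinearGroup (Fin 2) F) := by
  open Cfsg.Agent.H4 Matrix in
  have h2 := two_ne_zero_of_odd hodd
  have hf := oddF_nondeg h2 1
  have hF := exists_ne_zero_one_of_two h2
  have hn : Module.finrank F (Unit ⊕ (Fin 1 ⊕ Fin 1) → F) = 2 * 1 + 1 := by simp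
  have hE := hf.orth_commutator_eq_E (by omega) (CForm.Nondeg.orth_not_aniso (by omega)) (Or.inl hF)
  have h1 := hf.orth_card_quot_odd (hn ▸ odd_two_mul_add_one 1) (by omega)
  rw [hf.orth_card_odd hn] at h1
  have h3 := card_PSL_two (F := F)
  rw [Nat.gcd_eq_left (Nat.Odd.sub_odd hodd odd_one).two_dvd] at h3
  have h4 : Nat.card (ProjectiveSpecialLinearGroup (Fin 2) F) = Nat.card ((oddF F 1).E ⧸ Subgroup.center (oddF F 1).E) := by
    simp only [Finset.range_one, Finset.prod_singleton, one_pow, pow_one, zero_add, mul_one, mul_assoc] at h1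
    omega
  have : Finite ((oddF F 1).E ⧸ Subgroup.center (oddF F 1).E) := Nat.finite_of_card_ne_zero (h4 ▸ Nat.card_pos.ne')
  obtain ⟨e⟩ := quot_equiv_of_hom (QuotientGroup.mk' (Subgroup.center (SpecialLinearGroup (Fin 2) F)))
    (QuotientGroup.mk'_surjective _) (om3.comp SpecialLinearGroup.toGL) (oddF F 1).E
    (fun g => hE ▸ SL2_mem_comm hF _ _ (fun A => om3_mem _) (fun P => ⟨om3 P, om3_mem P, fun A B h => by
      simp only [MonoidHom.comp_apply, ← map_mul]
      exact congrArg _ (Units.ext h)⟩) g)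
    (fun z hz n _ => by
      obtain ⟨r, -, h5⟩ := Matrix.SpecialLinearGroup.mem_center_iff.1 ((QuotientGroup.eq_one_iff z).1 hz)
      have : (om3.comp SpecialLinearGroup.toGL) z = 1 := LinearEquiv.ext fun v => by
        rw [← om3p_e ((om3.comp SpecialLinearGroup.toGL) z v), MonoidHom.comp_apply, om3e_om3]
        rw [show (SpecialLinearGroup.toGL z).1 * om3e v = om3e v * (SpecialLinearGroup.toGL z).1 from
          show z.1 * _ = _ * z.1 from h5 ▸ (scalar_commute r (fun _ => Commute.all _ _) _).eq, mul_assoc, Units.mul_inv, mul_one, om3p_e]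
        rfl
      rw [this, mul_one, one_mul])
    (fun g h => (QuotientGroup.eq_one_iff _).2 (SL2_center_two fun x => by
      have h5 := h x
      generalize (x * g)⁻¹ * (g * x) = y at h5
      have h6 : ∀ v, y.1 * om3e v = om3e v * y.1 := fun v => by
        have := om3e_om3 (SpecialLinearGroup.toGL y) v
        rw [show om3 (SpecialLinearGroup.toGL y) = 1 from h5] at this
        exact ((Units.eq_mul_inv_iff_mul_eq _).1 this).symm
      have h7 := h6 (Pi.single (.inr (.inl 0)) 1)
      have h8 := h6 (Pi.single (.inr (.inr 0)) 1)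
      simp only [← Matrix.ext_iff, Fin.forall_fin_two, mul_apply, Fin.sum_univ_two] at h7 h8
      simp [om3e] at h7 h8
      exact SL2_mem_center (by grind) (by grind) (by grind))) h4
  exact ⟨(pomegaEquivE hE).trans e⟩

end Cfsg.Agent.S0298
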