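import Cfsg.Statements.S0299
import Cfsg.Agent.H4.Om3

set_option autoImplicit false
open Cfsg

namespace Cfsg.Agent.S0299

/-- PΩ^+_4(q) is isomorphic to PSL_2(q) x PSL_2(q) for q at least 3. -/
theorem result {F : Type*} [Field F] [Fintype F] (hF : 3 ≤ Fintype.card F) : Nonempty (Cfsg.POmega F (Cfsg.quadFormPlus 2 F) ≃* Matrix.ProjectiveSpecialLinearGroup (Fin 2) F × Matrix.ProjectiveSpecialLinearGroup (Fin 2) F) := by
  open Cfsg.Agent.H4 Matrix in
  have hf := plusF_nondeg (F := F) 2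
  have hF' : ∃ a : F, a ≠ 0 ∧ a ≠ 1 := by
    classical
    by_contra! hne
    have : (Finset.univ : Finset F) ⊆ {0, 1} := fun s _ => by
      by_cases h : s = 0 <;> simp [h, hne s]
    have h1 := (Finset.card_le_card this).trans Finset.card_le_two
    rw [Finset.card_univ] at h1
    omega
  have hn : Module.finrank F (Fin 2 ⊕ Fin 2 → F) = 2 * 2 := by simp
  have hE := hf.orth_commutator_eq_E (by omega) (CForm.Nondeg.orth_not_aniso (by omega)) (Or.inl hF')
  have h1 := hf.orth_card_quot_even hn (by omega) (Or.inl hF')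
  rw [hf.orth_card_plus (by omega) (plusF_wi 2) hn, if_pos (plusF_wi 2)] at h1
  have h3 := card_PSL_two (F := F)
  have h2 : Nat.gcd 4 (Fintype.card F ^ 2 - 1) = Nat.gcd 2 (Fintype.card F - 1) ^ 2 := by
    obtain ⟨k, hk | hk⟩ := Nat.even_or_odd' (Fintype.card F)
    · have h4 : Odd (Fintype.card F ^ 2 - 1) := Nat.Even.sub_odd (Nat.one_le_pow _ _ (by omega)) (by simp [hk, parity_simps]) odd_one
      have h5 : Odd (Fintype.card F - 1) := Nat.Even.sub_odd (by omega) (by simp [hk]) odd_one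
      rw [Nat.coprime_two_left.2 h5]
      exact Nat.Coprime.pow_left 2 (Nat.coprime_two_left.2 h4)
    · rw [hk, show (2 * k + 1) ^ 2 = 4 * (k ^ 2 + k) + 1 by ring]
      simp
  have h4 : Nat.card (ProjectiveSpecialLinearGroup (Fin 2) F × ProjectiveSpecialLinearGroup (Fin 2) F) =
      Nat.card ((plusF F 2).E ⧸ Subgroup.center (plusF F 2).E) := by
    apply Nat.eq_of_mul_eq_mul_left (show 0 < 2 * Nat.gcd 2 (Fintype.card F - 1) ^ 2 by positivity)
    rw [mul_assoc, mul_assoc, ← h2, h1, h2, Nat.card_prod, sq, mul_mul_mul_comm, h3]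
    simp; ring
  have : Finite ((plusF F 2).E ⧸ Subgroup.center (plusF F 2).E) := Nat.finite_of_card_ne_zero (h4 ▸ Nat.card_pos.ne')
  let φ := om4.comp ((SpecialLinearGroup.toGL (n := Fin 2) (R := F)).prodMap SpecialLinearGroup.toGL)
  have h5 : ∀ g v, om4e (φ g v) = g.1.1 * om4e v * g.2.1ᵀ := fun g v => om4e_om4 _ v
  have h6 : ∀ g, φ g ∈ (plusF F 2).iso := fun g => om4_mem (by simp)
  have h7 : ∀ A B : SpecialLinearGroup (Fin 2) F, (∀ X, A.1 * X * B.1ᵀ = X) → A ∈ Subgroup.center _ := fun A B h =>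
    Subgroup.mem_center_iff.2 fun X => Subtype.ext (by
      have := h 1
      rw [mul_one, mul_eq_one_comm] at this
      show X.1 * A.1 = A.1 * X.1
      rw [← h (X.1 * A.1), mul_assoc, mul_assoc, mul_eq_one_comm.1 this, mul_one])
  obtain ⟨e⟩ := quot_equiv_of_hom ((QuotientGroup.mk' (Subgroup.center (SpecialLinearGroup (Fin 2) F))).prodMap
    (QuotientGroup.mk' (Subgroup.center (SpecialLinearGroup (Fin 2) F))))
    ((QuotientGroup.mk'_surjective _).prodMap (QuotientGroup.mk'_surjective _)) φ (plusF F 2).E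
    (fun g => by
      rw [← hE, ← g.fst_mul_snd, map_mul]
      refine mul_mem (SL2_mem_comm hF' (φ.comp (MonoidHom.inl _ _)) _ (fun A => h6 _) (fun P => ⟨om4 (P, P⁻¹), om4_mem ?_, fun A B h => ?_⟩) g.1)
        (SL2_mem_comm hF' (φ.comp (MonoidHom.inr _ _)) _ (fun A => h6 _) (fun P => ⟨om4 (P⁻¹, P), om4_mem ?_, fun A B h => ?_⟩) g.2)
      · rw [← det_mul, Units.mul_inv, det_one]
      · simp only [φ, MonoidHom.comp_apply, ← map_mul]
        exact congrArg _ (Prod.ext (Units.ext h) (by simp))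
      · rw [← det_mul, Units.inv_mul, det_one]
      · simp only [φ, MonoidHom.comp_apply, ← map_mul]
        exact congrArg _ (Prod.ext (by simp) (Units.ext h)))
    (fun z hz n _ => by
      obtain ⟨r, -, h8⟩ := Matrix.SpecialLinearGroup.mem_center_iff.1 ((QuotientGroup.eq_one_iff z.1).1 (congrArg Prod.fst hz))
      obtain ⟨s, -, h9⟩ := Matrix.SpecialLinearGroup.mem_center_iff.1 ((QuotientGroup.eq_one_iff z.2).1 (congrArg Prod.snd hz))
      have : ∀ v, φ z v = (r * s) • v := fun v => om4e.injective (by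
        rw [h5, ← h8, ← h9, map_smul]
        simp [scalar_apply, ← smul_one_eq_diagonal, smul_smul, mul_comm])
      exact LinearEquiv.ext fun v => by simp [this])
    (fun g h => by
      have h8 : ∀ x X, ((x * g)⁻¹ * (g * x)).1.1 * X * ((x * g)⁻¹ * (g * x)).2.1ᵀ = X := fun x X => by
        have := h5 ((x * g)⁻¹ * (g * x)) (om4e.symm X)
        rw [h x] at this
        simpa using this.symm
      refine Prod.ext ((QuotientGroup.eq_one_iff g.1).2 (SL2_center_two fun x => h7 _ _ (h8 (x, 1))))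
        ((QuotientGroup.eq_one_iff g.2).2 (SL2_center_two fun x => h7 _ ((((1, x) : _ × _) * g)⁻¹ * (g * (1, x))).1 fun X => ?_))
      have := congrArg transpose (h8 (1, x) Xᵀ)
      rwa [transpose_mul, transpose_mul, transpose_transpose, transpose_transpose, ← mul_assoc] at this) h4
  exact ⟨(pomegaEquivE hE).trans e⟩

end Cfsg.Agent.S0299
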