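import Cfsg.Statements.S0300
import Cfsg.Agent.H4.Om4
import Cfsg.Agent.H4.Dick2

set_option autoImplicit false
open Cfsg

namespace Cfsg.Agent.S0300

/-- PΩ^-_4(q) is isomorphic to PSL_2(q^2). -/
theorem result {F K : Type*} [Field F] [Fintype F] [Field K] [Fintype K] {q : ℕ} (hF : Fintype.card F = q) (hK : Fintype.card K = q ^ 2) (a b : F) (hab : ∀ z₁ z₂ : F, z₁ ^ 2 + a * z₁ * z₂ + b * z₂ ^ 2 = 0 → z₁ = 0 ∧ z₂ = 0) : Nonempty (Cfsg.POmega F (Cfsg.quadFormMinus 1 F a b) ≃* Matrix.ProjectiveSpecialLinearGroup (Fin 2) K) := by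
  open Cfsg.Agent.H4 Matrix in
  subst hF
  have : Fact (∀ r : F, r ^ 2 ≠ -b + a * r) := ⟨fun r h => by
    simpa using (hab r (-1) (by linear_combination h)).2⟩
  let _ : Fintype (QuadraticAlgebra F (-b) a) := Fintype.ofEquiv _ (QuadraticAlgebra.equivProd (-b) a).symm
  have hL : Fintype.card (QuadraticAlgebra F (-b) a) = Fintype.card F ^ 2 := by
    rw [Fintype.card_congr (QuadraticAlgebra.equivProd (-b) a), Fintype.card_prod, sq]
  have h0 := aniso_disc_ne hab
  have hf := minusF_nondeg 1 hab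
  have hn : Module.finrank F ((Fin 1 ⊕ Fin 1) ⊕ Fin 2 → F) = 2 * 2 := by simp
  have hw := minusF_wi 1 hab
  have hE := hf.w1_commutator (by omega) (CForm.Nondeg.orth_not_aniso (by omega)) hw.le
  have hq : 1 < Fintype.card F := Fintype.one_lt_card
  have h1 : 2 * (Nat.gcd 2 (Fintype.card F ^ 2 - 1) * Nat.card ((minusF 1 a b).E ⧸ Subgroup.center (minusF 1 a b).E)) =
      Nat.card (minusF 1 a b).iso := by
    by_cases h2 : (2 : F) = 0
    · have h5 : Even (Fintype.card F) := by
        by_contra h; exact two_ne_zero_of_odd (Nat.not_even_iff_odd.1 h) h2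
      rw [Nat.coprime_two_left.2 (Nat.Even.sub_odd (Nat.one_le_pow _ _ (by omega)) (h5.pow_of_ne_zero two_ne_zero) odd_one),
        one_mul, hf.w1_card h2 (by omega) hw.le]
    · rw [← hf.orth_card_quot_even hn (by omega) (Or.inl (exists_ne_zero_one_of_two h2)), if_neg (by omega)]
      obtain ⟨k, hk⟩ := odd_of_two_ne_zero h2
      rw [hk, show (2 * k + 1) ^ 2 = 4 * (k ^ 2 + k) + 1 by ring, Nat.add_sub_cancel,
        Nat.gcd_eq_left (m := 2) (by omega), Nat.gcd_rec, show (4 * (k ^ 2 + k) + 1 + 1) % 4 = 2 by omega]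
      rfl
  rw [hf.orth_card_minus (m := 2) (by omega) hn] at h1
  have h3 := card_PSL_two (F := QuadraticAlgebra F (-b) a)
  rw [hL] at h3
  have h4 : Nat.card (ProjectiveSpecialLinearGroup (Fin 2) (QuadraticAlgebra F (-b) a)) =
      Nat.card ((minusF 1 a b).E ⧸ Subgroup.center (minusF 1 a b).E) := by
    apply Nat.eq_of_mul_eq_mul_left (show 0 < 2 * Nat.gcd 2 (Fintype.card F ^ 2 - 1) by positivity)
    rw [mul_assoc, mul_assoc, h1, h3]
    have h6 : ∀ j, 1 ≤ Fintype.card F ^ j := fun j => Nat.one_le_pow _ _ (by omega)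
    simp only [← pow_mul, Nat.add_one_sub_one, Finset.prod_range_one]
    zify [h6]
    ring
  have : Finite ((minusF 1 a b).E ⧸ Subgroup.center (minusF 1 a b).E) := Nat.finite_of_card_ne_zero (h4 ▸ Nat.card_pos.ne')
  obtain ⟨e⟩ := quot_equiv_of_qs (qs_SL (F := QuadraticAlgebra F (-b) a) (m := 2) le_rfl (fun _ => by nlinarith))
    (omH h0) hE (omH_mem h0)
    (fun z hz n => by
      obtain ⟨r, -, h8⟩ := Matrix.SpecialLinearGroup.mem_center_iff.1 hz
      have : ∀ v, omH h0 z v = QuadraticAlgebra.norm r • v := fun v => by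
        rw [omH_apply, ← h8, scalar_apply, ← smul_one_eq_diagonal, conjTranspose_smul, conjTranspose_one, Matrix.mul_smul,
          Matrix.smul_mul, mul_one, one_mul, smul_smul, mul_comm, ← QuadraticAlgebra.algebraMap_norm_eq_mul_star,
          algebraMap_smul, map_smul, omHp_e]
      exact LinearEquiv.ext fun v => by simp [this])
    ⟨Matrix.SpecialLinearGroup.transvection (show (0 : Fin 2) ≠ 1 by decide) 1, fun h => by
      have := congrFun (LinearEquiv.congr_fun h (Pi.single (.inl (.inr 0)) 1)) (.inl (.inl 0))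
      rw [omH_apply] at this
      simp [omHp, omHe, Matrix.SpecialLinearGroup.transvection, Matrix.transvection, mul_apply,
        Fin.sum_univ_two, one_apply, single_apply] at this⟩ h4
  obtain ⟨e'⟩ := psl_congr_card (hL.trans hK.symm)
  exact ⟨((pomegaEquivE hE).trans e).trans e'⟩

end Cfsg.Agent.S0300
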