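import Cfsg.Statements.S0301
import Cfsg.Agent.H5.Rp4

set_option autoImplicit false
open Cfsg

namespace Cfsg.Agent.S0301

/-- PΩ_5(q) is isomorphic to PSp_4(q) for q odd. -/
theorem result {F : Type*} [Field F] [Fintype F] (hodd : Odd (Fintype.card F)) : Nonempty (Cfsg.POmega F (Cfsg.quadFormOdd 2 F) ≃* Cfsg.PSp 2 F) := by
  have hF : ∃ a : F, a ≠ 0 ∧ a ≠ 1 := by
    classical
    by_contra hne
    push Not at hne
    have : (Finset.univ : Finset F) ⊆ {0, 1} := fun s _ => by
      by_cases h : s = 0 <;> simp [h, hne s]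
    have h1 := (Finset.card_le_card this).trans Finset.card_le_two
    rw [Finset.card_univ] at h1
    have h2 := Fintype.one_lt_card (α := F)
    obtain ⟨k, hk⟩ := hodd
    omega
  obtain ⟨e⟩ := H5.pomegaB2 hF
  obtain ⟨e'⟩ := H5.pspB2 hF
  exact ⟨e.symm.trans e'⟩

end Cfsg.Agent.S0301
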