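import Cfsg.Statements.S0302
import Cfsg.Agent.H4.Om6

set_option autoImplicit false
open Cfsg

namespace Cfsg.Agent.S0302

/-- PΩ^+_6(q) is isomorphic to PSL_4(q). -/
theorem result {F : Type*} [Field F] [Fintype F] : Nonempty (Cfsg.POmega F (Cfsg.quadFormPlus 3 F) ≃* Matrix.ProjectiveSpecialLinearGroup (Fin 4) F) := by
  open Cfsg.Agent.H4 Matrix in
  have hf := plusF_nondeg (F := F) 3
  have hn : Module.finrank F (Fin 3 ⊕ Fin 3 → F) = 2 * 3 := by simp
  have hE := hf.orth_commutator_eq_E' (by omega)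
  have h1 := hf.orth_card_quot_even hn (by omega) (Or.inr (by omega))
  rw [hf.orth_card_plus (by omega) (plusF_wi 3) hn, if_pos (plusF_wi 3)] at h1
  have h3 := card_PSL (F := F) 4 (by omega)
  have hq : 1 < Fintype.card F := Fintype.one_lt_card
  have h4 : Nat.card (ProjectiveSpecialLinearGroup (Fin 4) F) =
      Nat.card ((plusF F 3).E ⧸ Subgroup.center (plusF F 3).E) := by
    generalize Fintype.card F = q at *
    obtain ⟨k, rfl⟩ : ∃ k, q = k + 1 := ⟨q - 1, by omega⟩
    have h2 : Nat.gcd 4 ((k + 1) ^ 3 - 1) = Nat.gcd 4 k := by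
      rw [show (k + 1) ^ 3 = k * (k * (k + 1) + 2 * (k + 1) + 1) + 1 by ring, Nat.add_sub_cancel]
      refine Nat.Coprime.gcd_mul_right_cancel_right _ (Nat.Coprime.pow_right 2 (Nat.coprime_two_right.2 ?_))
      exact ((Nat.even_mul_succ_self k).add (even_two_mul _)).add_one
    apply Nat.eq_of_mul_eq_mul_left (show 0 < 2 * k * Nat.gcd 4 k from Nat.mul_pos (by omega) (Nat.gcd_pos_of_pos_left _ (by omega)))
    rw [h2] at h1
    simp only [Nat.add_sub_cancel, Fin.prod_univ_four, Finset.prod_range_succ, Finset.prod_range_zero] at h1 h3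
    have h5 : ∀ i j, i ≤ j → (k + 1) ^ i ≤ (k + 1) ^ j := fun i j => Nat.pow_le_pow_right (by omega)
    have h6 : ∀ j, 1 ≤ (k + 1) ^ j := fun j => h5 0 j j.zero_le
    zify [h6, h5 (0 : Fin 4) 4 (by decide), h5 (1 : Fin 4) 4 (by decide), h5 (2 : Fin 4) 4 (by decide), h5 (3 : Fin 4) 4 (by decide)] at h1 h3 ⊢
    simp only [Fin.val_zero, Fin.val_one, Fin.val_two, show ((3 : Fin 4) : ℕ) = 3 from rfl] at h3
    linear_combination 2 * h3 - k * h1
  have : Finite ((plusF F 3).E ⧸ Subgroup.center (plusF F 3).E) := Nat.finite_of_card_ne_zero (h4 ▸ Nat.card_pos.ne')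
  obtain ⟨e⟩ := quot_equiv_of_qs (qs_SL (F := F) (m := 4) (by omega) (by omega)) om6 hE om6_mem
    (fun z hz n => by
      obtain ⟨r, -, h8⟩ := Matrix.SpecialLinearGroup.mem_center_iff.1 hz
      have : ∀ v, om6 z v = (r * r) • v := fun v => by
        rw [om6_apply, ← h8]
        simp [scalar_apply, ← smul_one_eq_diagonal, smul_smul, om6p_u]
      exact LinearEquiv.ext fun v => by simp [this])
    ⟨Matrix.SpecialLinearGroup.transvection (show (0 : Fin 4) ≠ 1 by decide) 1, fun h => by
      have := congrFun (LinearEquiv.congr_fun h (Pi.single (.inr 2) 1)) (.inl 1)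
      rw [om6_apply] at this
      simp [om6p, om6u, Matrix.SpecialLinearGroup.transvection, Matrix.transvection, mul_apply,
        Fin.sum_univ_four, one_apply, single_apply] at this⟩ h4
  exact ⟨(pomegaEquivE hE).trans e⟩

end Cfsg.Agent.S0302
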