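import Cfsg.Statements.S0303
import Cfsg.Agent.H4.Om5
import Cfsg.Agent.S0280
import Cfsg.Agent.S0283

set_option autoImplicit false
open Cfsg

namespace Cfsg.Agent.S0303

/-- PΩ^-_6(q) is isomorphic to PSU_4(q). -/
theorem result {F K : Type*} [Field F] [Fintype F] [Field K] [Fintype K] {q : ℕ} (hF : Fintype.card F = q) (hK : Fintype.card K = q ^ 2) (a b : F) (hab : ∀ z₁ z₂ : F, z₁ ^ 2 + a * z₁ * z₂ + b * z₂ ^ 2 = 0 → z₁ = 0 ∧ z₂ = 0) : Nonempty (Cfsg.POmega F (Cfsg.quadFormMinus 2 F a b) ≃* Cfsg.PSU 4 K q) := by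
  open Cfsg.Agent.H4 Matrix in
  subst hF
  have : Fact (∀ r : F, r ^ 2 ≠ -b + a * r) := ⟨fun r h => by
    simpa using (hab r (-1) (by linear_combination h)).2⟩
  let _ : Fintype (QuadraticAlgebra F (-b) a) := Fintype.ofEquiv _ (QuadraticAlgebra.equivProd (-b) a).symm
  have hL : Fintype.card (QuadraticAlgebra F (-b) a) = Fintype.card F ^ 2 := by
    rw [Fintype.card_congr (QuadraticAlgebra.equivProd (-b) a), Fintype.card_prod, sq]
  have h0 := aniso_disc_ne hab
  have hf := minusF_nondeg 2 hab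
  have hn : Module.finrank F ((Fin 2 ⊕ Fin 2) ⊕ Fin 2 → F) = 2 * 3 := by simp
  have hw := minusF_wi 2 hab
  have hE := hf.orth_commutator_eq_E' (by omega)
  have hq : 1 < Fintype.card F := Fintype.one_lt_card
  have h1 := hf.orth_card_quot_even hn (by omega) (Or.inr (by omega))
  rw [hf.orth_card_minus (m := 3) (by omega) hn, if_neg (by omega)] at h1
  have h3 := S0280.result hK 4 (by omega)
  have h4 : Nat.card (PSU 4 K (Fintype.card F)) =
      Nat.card ((minusF 2 a b).E ⧸ Subgroup.center (minusF 2 a b).E) := by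
    generalize Nat.card (PSU 4 K (Fintype.card F)) = x at *
    generalize Fintype.card F = q at *
    obtain ⟨k, rfl⟩ : ∃ k, q = k + 1 := ⟨q - 1, by omega⟩
    have h2 : Nat.gcd 4 ((k + 1) ^ 3 + 1) = Nat.gcd 4 (k + 1 + 1) := by
      rw [show (k + 1) ^ 3 + 1 = (k + 1 + 1) * (k * (k + 1) + 1) by ring]
      exact Nat.Coprime.gcd_mul_right_cancel_right _ (Nat.Coprime.pow_right 2 (Nat.coprime_two_right.2
        (Nat.even_mul_succ_self k).add_one))
    apply Nat.eq_of_mul_eq_mul_left (show 0 < 2 * (k + 2) * Nat.gcd 4 (k + 1 + 1) by positivity)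
    rw [h2] at h1
    simp only [Finset.prod_range_succ, Finset.prod_range_zero, Even.zero, even_two, if_true,
      show ¬ Even 1 by decide, show ¬ Even 3 by decide, if_false] at h1 h3
    have h6 : ∀ j, 1 ≤ (k + 1) ^ j := fun j => Nat.one_le_pow _ _ (by omega)
    zify [h6] at h1 h3 ⊢
    linear_combination 2 * h3 - (k + 2) * h1
  have : Finite ((minusF 2 a b).E ⧸ Subgroup.center (minusF 2 a b).E) := Nat.finite_of_card_ne_zero (h4 ▸ Nat.card_pos.ne')
  let e := FiniteField.ringEquivOfCardEq (hK.trans hL.symm)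
  let ψ := (Matrix.SpecialLinearGroup.map (n := Fin 4) e.toRingHom).comp (SU 4 K (Fintype.card F)).subtype
  have hψ : ∀ g, (ψ g).1.map (starRingEnd _) * (ψ g).1ᵀ = 1 := fun g => by
    rw [mul_eq_one_comm]
    ext i j : 1
    have := congrArg e (g.2 (Pi.single i 1) (Pi.single j 1))
    simp only [hermForm, map_sum, map_mul, map_pow, ← star_eq_pow hL] at this
    simpa [mul_apply, ψ, starRingEnd_apply, Pi.single_apply, one_apply, apply_ite, eq_comm] using this
  obtain ⟨c, hc⟩ := exists_norm_eq hL (μ := -1) (by rw [← star_eq_pow hL]; simp)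
  obtain ⟨ε, hε⟩ := (nrmF_nondeg h0).isom_minusF (m := 2) (by simp [Module.finrank_pi_fintype, QuadraticAlgebra.finrank_eq_two])
    (nrmF_wi h0 (c := c) ((algebraMap F (QuadraticAlgebra F (-b) a)).injective (by
      rw [QuadraticAlgebra.algebraMap_norm_eq_mul_star, star_eq_pow hL, ← pow_succ', hc]; simp))) hab
  have hU := unF_nondeg hK 4
  have hQ : IsQuasisimple (SU 4 K (Fintype.card F)) := by
    refine ⟨?_, S0283.result hK 4 (by omega) (by omega)⟩
    have : Group.IsPerfect (unF hK 4).E := ⟨(commutator_eq_top_iff _).2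
      ((hU.unT_E_le_Tr hK (by simp) (by simp)).trans (hU.unit_Tr_le_commutator (frobq_ne hK) (by simp)))⟩
    exact Group.IsPerfect.ofSurjective (f := (suEquivE hK (n := 4) (by omega)).symm.toMonoidHom) (MulEquiv.surjective _)
  obtain ⟨e'⟩ := quot_equiv_of_qs hQ ((conjE ε).toMonoidHom.comp (omU ψ hψ)) hE
    (fun g => hε.conjE_mem.1 (omU_mem ψ hψ g))
    (fun z hz n => by
      obtain ⟨u, hu0, hu⟩ := CForm.not_aniso.1 (CForm.Nondeg.unT_not_aniso hK (f := unF hK 4) (by simp))
      obtain ⟨r, hr⟩ := (hU.mem_center_E_iff (CForm.unit_thick (frobq_ne hK) _) hu0 hu (g := suEquivE hK (by omega) z)).1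
        (Subgroup.mem_center_iff.2 fun y => by
          obtain ⟨y, rfl⟩ := (suEquivE hK (by omega)).surjective y
          rw [← map_mul, ← map_mul, Subgroup.mem_center_iff.1 hz])
      have h8 : z.1.1 = r • 1 := ext_of_mulVec_single fun i => by rw [smul_mulVec, one_mulVec]; exact hr _
      have h9 : (ψ z).1 = e r • 1 := by
        show z.1.1.map e = _
        rw [h8]; ext i j : 1; by_cases h : i = j <;> simp [one_apply, h]
      have h10 : e r * e r * (e r * e r) = 1 := by
        have := (ψ z).det_coe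
        rw [h9, det_smul, det_one, Fintype.card_fin] at this
        linear_combination this
      have h11 : ∀ v, omU ψ hψ z v = (e r * e r) • v := fun v => by
        rw [omU_apply, om6_apply, h9]
        simp [smul_smul, om6p_u]
        rfl
      obtain ⟨n, rfl⟩ := (conjE ε).surjective n
      show _ * conjE ε _ = conjE ε _ * _
      rw [← map_mul, ← map_mul]
      congr 1
      obtain h | h := mul_self_eq_one_iff.1 h10 <;> exact LinearEquiv.ext fun v => by simp [h11, h])
    ⟨⟨⟨!![0, 0, 1, 0; 1, 0, 0, 0; 0, 1, 0, 0; 0, 0, 0, 1], by simp [om6_det]⟩, fun u v => by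
      show hermForm 4 K _ (!![0, 0, 1, 0; 1, 0, 0, 0; 0, 1, 0, 0; 0, 0, 0, 1] *ᵥ u)
        (!![0, 0, 1, 0; 1, 0, 0, 0; 0, 1, 0, 0; 0, 0, 0, 1] *ᵥ v) = _
      simp [hermForm, Fin.sum_univ_four, mulVec, dotProduct]; ring⟩, fun h => by
      have := congrFun (LinearEquiv.congr_fun ((map_eq_one_iff _ (conjE ε).injective).1 h) (Pi.single 0 1)) 0
      rw [omU_apply, om6_apply] at this
      change om6p (Matrix.map !![0, 0, 1, 0; 1, 0, 0, 0; 0, 1, 0, 0; 0, 0, 0, 1] e * _ *
        (Matrix.map !![0, 0, 1, 0; 1, 0, 0, 0; 0, 1, 0, 0; 0, 0, 0, 1] e)ᵀ) (.inl 0) = _ at this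
      simp [om6p, om6u, omUi, mul_apply, Fin.sum_univ_four] at this⟩ h4
  exact ⟨(pomegaEquivE hE).trans e'⟩

end Cfsg.Agent.S0303
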