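import Cfsg.Statements.S0307
import Cfsg.Agent.H9.TJ
import Cfsg.Agent.H4.Unit
import Cfsg.Agent.H4.Linear

set_option autoImplicit false
open Cfsg

namespace Cfsg.Agent.S0307

open Cfsg.Agent Cfsg.Agent.H9

/-- PSL_n(q) is normal in PGL_n(q) with cyclic quotient of order gcd(n, q-1): the image of the natural map PSL_n → PGL_n is the kernel of a surjective homomorphism onto the cyclic group of that order. -/
theorem result {F : Type*} [Field F] [Fintype F] {q : ℕ} (hF : Fintype.card F = q) (n : ℕ) (hn : 1 ≤ n) : ∃ g : Matrix.ProjGenLinGroup (Fin n) F →* Multiplicative (ZMod (Nat.gcd n (q - 1))), Function.Surjective g ∧ g.ker = (Matrix.ProjectiveSpecialLinearGroup.toPGL : Matrix.ProjectiveSpecialLinearGroup (Fin n) F →* Matrix.ProjGenLinGroup (Fin n) F).range := by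
  haveI : Nonempty (Fin n) := ⟨⟨0, hn⟩⟩
  have hq : q - 1 = Nat.card Fˣ := by rw [H4.card_units_field, hF]
  rw [hq]
  obtain ⟨φ, hφ, hk⟩ := H4.exists_hom_zmod_gcd (C := Fˣ) n
  refine ⟨Matrix.ProjGenLinGroup.lift (φ.comp Matrix.GeneralLinearGroup.det) ?_, ?_, ?_⟩
  · ext u : 1
    have : u ^ n ∈ φ.ker := by rw [hk]; exact ⟨u, rfl⟩
    simpa [Matrix.GeneralLinearGroup.det_scalar] using this
  · intro y
    obtain ⟨r, rfl⟩ := hφ y
    obtain ⟨A, rfl⟩ := Matrix.GeneralLinearGroup.det_surjective (n := Fin n) r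
    exact ⟨Matrix.ProjGenLinGroup.mk A, rfl⟩
  · ext g
    induction g using Matrix.ProjGenLinGroup.induction_on with | mk g =>
    rw [MonoidHom.mem_ker, Matrix.ProjGenLinGroup.lift_mk, MonoidHom.comp_apply, ← MonoidHom.mem_ker, hk]
    constructor
    · rintro ⟨u, hu⟩
      have : g * (Matrix.GeneralLinearGroup.scalar (Fin n) u)⁻¹ ∈ (Matrix.SpecialLinearGroup.toGL : Matrix.SpecialLinearGroup (Fin n) F →* GL (Fin n) F).range := by
        rw [H4.range_toGL, MonoidHom.mem_ker, map_mul, map_inv, Matrix.GeneralLinearGroup.det_scalar, ← hu]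
        simp
      obtain ⟨X, hX⟩ := this
      refine ⟨QuotientGroup.mk X, ?_⟩
      rw [Matrix.ProjectiveSpecialLinearGroup.toPGL_mk, hX, map_mul, map_inv, Matrix.ProjGenLinGroup.mk_scalar]
      simp
    · rintro ⟨X, hX⟩
      induction X using QuotientGroup.induction_on with | H X =>
      rw [Matrix.ProjectiveSpecialLinearGroup.toPGL_mk, Matrix.ProjGenLinGroup.mk_eq_mk_iff] at hX
      obtain ⟨u, rfl⟩ := hX
      refine ⟨u, ?_⟩
      simp [Matrix.GeneralLinearGroup.det_scalar]

end Cfsg.Agent.S0307
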