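import Cfsg.Statements.S0314
import Cfsg.Agent.H5.BN

set_option autoImplicit false
open Cfsg

namespace Cfsg.Agent.S0314

/-- Distinct sets of distinguished generators give distinct standard parabolic subgroups. -/
theorem result {G : Type*} [Group G] (P : Cfsg.BNPair G) {J K : Set G}
    (hJ : J ⊆ P.S) (hK : K ⊆ P.S) (h : P.parabolic J = P.parabolic K) : J = K := by
  rw [H5.BN.parabolic_eq hJ, H5.BN.parabolic_eq hK] at h
  have := congrArg (Subtype.val '' ·) (H5.BN.parSub_inj h)
  simp only [Subtype.image_preimage_val] at this
  rwa [Set.inter_eq_right.2 hJ, Set.inter_eq_right.2 hK] at this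

end Cfsg.Agent.S0314
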