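import Cfsg.Statements.S0316
import Cfsg.Agent.H5.BN

set_option autoImplicit false
open Cfsg

namespace Cfsg.Agent.S0316

/-- The map `J ↦ P_J` is a lattice isomorphism from the power set of the set of distinguished generators onto the
subgroups containing `B`. -/
theorem result {G : Type*} [Group G] (P : Cfsg.BNPair G) :
    ∃ e : Set P.S ≃o {M : Subgroup G // P.B ≤ M},
      ∀ J : Set P.S, ((e J : {M : Subgroup G // P.B ≤ M}) : Subgroup G) = P.parabolic (Subtype.val '' J) := by
  let f : Set P.S → {M : Subgroup G // P.B ≤ M} := fun J => ⟨H5.BN.parSub P J, H5.BN.B_le_parSub J⟩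
  have hf : Function.Bijective f :=
    ⟨fun J K h => H5.BN.parSub_inj (congrArg Subtype.val h),
      fun M => ⟨_, Subtype.ext (H5.BN.eq_parSub M.2).symm⟩⟩
  refine ⟨⟨Equiv.ofBijective f hf, fun {J K} => H5.BN.parSub_le_iff⟩, fun J => H5.BN.parSub_eq J⟩

end Cfsg.Agent.S0316
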