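import Cfsg.Statements.S0321
import Cfsg.Agent.H5.BN

set_option autoImplicit false
open Cfsg

namespace Cfsg.Agent.S0321

/-- For `n ∈ N` not in `B`, the union `B ∪ B n B` is (the underlying set of) a subgroup exactly when `n` agrees
modulo `B ⊓ N` with one of the distinguished representatives; thus the distinguished involutions are
determined by `B` and `N`. -/
theorem result {G : Type*} [Group G] (P : Cfsg.BNPair G) {n : G}
    (hn : n ∈ P.N) (hnB : n ∉ P.B) :
    (∃ H : Subgroup G, (H : Set G) = (P.B : Set G) ∪ DoubleCoset.doubleCoset n (P.B : Set G) P.B) ↔ ∃ s ∈ P.S, s⁻¹ * n ∈ P.B := by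
  constructor
  · rintro ⟨H, hH⟩
    have hB : P.B ≤ H := fun b hb => by rw [← SetLike.mem_coe, hH]; exact Or.inl hb
    have h1 := H5.BN.eq_parSub hB
    by_cases hJ : {i : P.S | (i : G) ∈ H} = ∅
    · rw [hJ, H5.BN.parSub_empty] at h1
      have : n ∈ H := by
        rw [← SetLike.mem_coe, hH]; exact Or.inr (DoubleCoset.mem_doubleCoset_self _ _ _)
      exact absurd (h1 ▸ this) hnB
    · obtain ⟨i, hi⟩ := Set.nonempty_iff_ne_empty.2 hJ
      have hi' : (i : G) ∈ (H : Set G) := hi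
      rw [hH] at hi'
      rcases hi' with h | h
      · exact absurd h (H5.BN.s_not_mem_B i)
      · have h2 := H5.BN.cell_mk (P := P) ⟨n, hn⟩
        simp only at h2
        rw [← h2] at h
        exact ⟨i, i.2, H5.BN.mk_eq_iff.1 (H5.BN.eq_of_mem_cell (H5.BN.s_mem_cell i) h)⟩
  · rintro ⟨s, hs, h⟩
    have h1 : H5.BN.sW P ⟨s, hs⟩ = ((⟨n, hn⟩ : P.N) : H5.BN.W P) := H5.BN.mk_eq_iff.2 h
    have h2 := H5.BN.cell_mk (P := P) ⟨n, hn⟩
    simp only at h2
    refine ⟨H5.BN.parSub P {⟨s, hs⟩}, ?_⟩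
    rw [← h2, ← h1]
    ext g
    constructor
    · rintro ⟨w, hw, hg⟩
      rcases H5.BN.mem_par_singleton hw with rfl | rfl
      · exact Or.inl (H5.BN.mem_cell_one.1 hg)
      · exact Or.inr hg
    · rintro (hg | hg)
      · exact H5.BN.B_le_parSub _ hg
      · exact ⟨_, (H5.BN.exSys P).s_mem_par rfl, hg⟩

end Cfsg.Agent.S0321
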