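import Cfsg.Statements.S0322
import Cfsg.Agent.H5.BN

set_option autoImplicit false
open Cfsg

namespace Cfsg.Agent.S0322

/-- A group with a (B,N)-pair of rank one acts doubly transitively on the left cosets of `B`. -/
theorem result {G : Type*} [Group G] (P : Cfsg.BNPair G) (h : P.rank = 1) : MulAction.IsMultiplyPretransitive G (G ⧸ P.B) 2 := by
  obtain ⟨s, -, -, -, -, hs⟩ := H5.BN.rank_one h
  have key : ∀ a b : G ⧸ P.B, a ≠ b → ∃ g : G, g • ((1 : G) : G ⧸ P.B) = a ∧ g • (s : G ⧸ P.B) = b := by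
    intro a b hab
    obtain ⟨x, rfl⟩ := QuotientGroup.mk_surjective a
    obtain ⟨y, rfl⟩ := QuotientGroup.mk_surjective b
    obtain ⟨b, hb, b', hb', h1⟩ := hs (x⁻¹ * y) (fun h => hab (QuotientGroup.eq.2 h))
    refine ⟨x * b, ?_, ?_⟩
    · rw [MulAction.Quotient.smul_mk, QuotientGroup.eq]; simpa using hb
    · rw [MulAction.Quotient.smul_mk, QuotientGroup.eq]
      have : y = x * (b * s * b') := by rw [← h1]; simp
      rw [this]; simpa [mul_assoc] using hb'
  rw [MulAction.is_two_pretransitive_iff]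
  intro a b c d hab hcd
  obtain ⟨g, h1, h2⟩ := key a b hab
  obtain ⟨g', h3, h4⟩ := key c d hcd
  exact ⟨g' * g⁻¹, by rw [← h1, ← h3]; simp [mul_smul, -MulAction.Quotient.smul_mk],
    by rw [← h2, ← h4]; simp [mul_smul, -MulAction.Quotient.smul_mk]⟩

end Cfsg.Agent.S0322
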