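import Cfsg.Statements.S0323
import Cfsg.Agent.H5.BN

set_option autoImplicit false
open scoped Pointwise
open Cfsg

namespace Cfsg.Agent.S0323

/-- A doubly transitive action on a set with at least three points yields a (B,N)-pair of rank one:
`B` is the stabiliser of a point `x`, `N` the setwise stabiliser of a pair `{x, y}`. -/
theorem result {G Ω : Type*} [Group G] [MulAction G Ω]
    (h2 : MulAction.IsMultiplyPretransitive G Ω 2) {x y z : Ω} (hxy : x ≠ y) (hyz : y ≠ z) (hxz : x ≠ z) :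
    ∃ P : Cfsg.BNPair G, P.B = MulAction.stabilizer G x ∧
      P.N = MulAction.stabilizer G ({x, y} : Set Ω) ∧ P.rank = 1 := by
  rw [MulAction.is_two_pretransitive_iff] at h2
  obtain ⟨s, hs1, hs2⟩ := h2 hxy hxy.symm
  have hN : ∀ g : G, g ∈ MulAction.stabilizer G ({x, y} : Set Ω) ↔
      (g • x = x ∧ g • y = y) ∨ (g • x = y ∧ g • y = x) := by
    intro g
    rw [MulAction.mem_stabilizer_iff, Set.smul_set_insert, Set.smul_set_singleton, Set.pair_eq_pair_iff]
  have hcell : ∀ g n : G, g • x ≠ x → n • x ≠ x →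
      g ∈ DoubleCoset.doubleCoset n (MulAction.stabilizer G x : Set G) (MulAction.stabilizer G x) := by
    intro g n hg hn
    obtain ⟨b, hb1, hb2⟩ := h2 hn.symm hg.symm
    refine DoubleCoset.mem_doubleCoset.2 ⟨b, hb1, (b * n)⁻¹ * g, ?_, by group⟩
    rw [SetLike.mem_coe, MulAction.mem_stabilizer_iff, mul_smul, ← hb2, ← mul_smul b, inv_smul_smul]
  have hcell' : ∀ g n : G, g • x = x → n • x = x →
      g ∈ DoubleCoset.doubleCoset n (MulAction.stabilizer G x : Set G) (MulAction.stabilizer G x) := by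
    intro g n hg hn
    refine DoubleCoset.mem_doubleCoset.2 ⟨1, one_mem _, n⁻¹ * g, ?_, by group⟩
    rw [SetLike.mem_coe, MulAction.mem_stabilizer_iff, mul_smul, hg, inv_smul_eq_iff, hn]
  refine ⟨⟨MulAction.stabilizer G x, MulAction.stabilizer G ({x, y} : Set Ω), {s}, ?_, ?_, ?_, ?_, ?_, ?_, ?_, ?_⟩,
    rfl, rfl, by simp [Cfsg.BNPair.rank]⟩
  · rw [eq_top_iff]
    intro g _
    by_cases hg : g • x = x
    · exact Subgroup.mem_sup_left hg
    · obtain ⟨b, hb, b', hb', rfl⟩ := DoubleCoset.mem_doubleCoset.1 (hcell g s hg (hs1 ▸ hxy.symm))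
      exact mul_mem (mul_mem (Subgroup.mem_sup_left hb) (Subgroup.mem_sup_right ((hN s).2 (Or.inr ⟨hs1, hs2⟩))))
        (Subgroup.mem_sup_left hb')
  · rintro n hn t ⟨ht1, ht2⟩
    change t • x = x at ht1
    have ht3 : t • y = y := by
      rcases (hN t).1 ht2 with h | h
      · exact h.2
      · exact absurd (ht1.symm.trans h.1) hxy
    rw [MulAction.mem_stabilizer_iff, mul_smul, mul_smul]
    rcases (hN _).1 (inv_mem hn) with h | h
    · rw [h.1, ht1, ← h.1, smul_inv_smul, h.1]
    · rw [h.1, ht3, ← h.1, smul_inv_smul]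
  · rintro _ rfl; exact (hN _).2 (Or.inr ⟨hs1, hs2⟩)
  · rintro _ rfl; rw [MulAction.mem_stabilizer_iff, mul_smul, hs1, hs2]
  · rintro _ rfl _ rfl _; rfl
  · apply le_antisymm
    · refine sup_le ((Subgroup.closure_le _).2 ?_) inf_le_right
      rintro _ rfl; exact (hN _).2 (Or.inr ⟨hs1, hs2⟩)
    · intro n hn
      rcases (hN _).1 hn with h | h
      · exact Subgroup.mem_sup_right ⟨h.1, hn⟩
      · have : n = s * (s⁻¹ * n) := by group
        rw [this]
        refine mul_mem (Subgroup.mem_sup_left (Subgroup.subset_closure rfl)) (Subgroup.mem_sup_right (Subgroup.mem_inf.2 ⟨?_, ?_⟩))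
        · rw [MulAction.mem_stabilizer_iff, mul_smul, h.1, inv_smul_eq_iff, hs1]
        · exact mul_mem (inv_mem ((hN _).2 (Or.inr ⟨hs1, hs2⟩))) hn
  · rintro s' hs' n hn b hb
    obtain rfl : s = s' := hs'.symm
    rw [MulAction.mem_stabilizer_iff] at hb
    rcases (hN _).1 hn with h | h
    · left
      refine hcell _ _ ?_ ?_
      · rw [mul_smul, mul_smul, h.1, hb, hs1]; exact hxy.symm
      · rw [mul_smul, h.1, hs1]; exact hxy.symm
    · by_cases hg : (s * b * n) • x = x
      · left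
        exact hcell' _ _ hg (by rw [mul_smul, h.1, hs2])
      · right
        exact hcell _ _ hg (by rw [h.1]; exact hxy.symm)
  · rintro s' hs' h
    obtain rfl : s = s' := hs'.symm
    obtain ⟨b, hb1, hb2⟩ := h2 hxy hxz
    have : s * b * s ∈ (MulAction.stabilizer G x : Set G) := by rw [← h]; exact ⟨b, hb1, rfl⟩
    rw [SetLike.mem_coe, MulAction.mem_stabilizer_iff, mul_smul, mul_smul, hs1, hb2, ← hs2] at this
    exact hyz (MulAction.injective s this).symm

end Cfsg.Agent.S0323
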