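import Cfsg.Statements.S0327
import Cfsg.Agent.H5.Sz5

set_option autoImplicit false
open Cfsg

namespace Cfsg.Agent.S0327

/-- The Suzuki group (`m ≥ 1`) is a Zassenhaus group on the `q² + 1` points of the Suzuki–Tits ovoid. -/
theorem result {F : Type*} [Field F] [Fintype F] {m : ℕ} (hm : 1 ≤ m)
    (hF : Fintype.card F = 2 ^ (2 * m + 1)) :
    Cfsg.IsZassenhausGroup (Cfsg.Sz F m) (Cfsg.suzukiOvoid F m) := by
  have := H5.Suz.charP hF
  have Z := H5.Suz.szO hm hF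
  have hq := H5.Suz.natCard_eq hF
  have h4 := Z.q_ge
  have := Z.simple
  obtain ⟨k, h0, h1⟩ := Z.two
  have hk : Z.h (Units.mk0 k h0) ≠ 1 := fun e => h1 (congrArg Units.val (Z.h_inj (e.trans (map_one _).symm)))
  refine ⟨Z.z3.faithful (by rw [Z.cardΩ]; nlinarith), Z.z3.two, Z.z3.three, ⟨_, hk, _, _, Z.inf_ne_o, Z.h_inf _, Z.h_o _⟩,
    fun N hN ht => ⟨Z.inf, fun e => ?_⟩⟩
  rcases hN.eq_bot_or_eq_top with rfl | rfl
  · obtain ⟨⟨g, hg⟩, h⟩ := ht.exists_smul_eq Z.inf Z.o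
    obtain rfl := Subgroup.mem_bot.1 hg
    exact Z.inf_ne_o ((one_smul _ _).symm.trans h)
  · have : (⟨Z.h (Units.mk0 k h0), trivial⟩ : (⊤ : Subgroup (Cfsg.Sz F m))) ∈ MulAction.stabilizer _ Z.inf := Z.h_inf _
    rw [e, Subgroup.mem_bot] at this
    exact hk (congrArg Subtype.val this)

end Cfsg.Agent.S0327
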