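import Cfsg.Statements.S0328
import Cfsg.Agent.H5.Sz5

set_option autoImplicit false
open Cfsg

namespace Cfsg.Agent.S0328

/-- The stabiliser in the Suzuki group of the two ovoid points spanned by `(1,0,0,0)` and `(0,0,0,1)` is
isomorphic to the multiplicative group of the field (cyclic of order `q - 1`). -/
theorem result {F : Type*} [Field F] [Fintype F] {m : ℕ} (hm : 1 ≤ m)
    (hF : Fintype.card F = 2 ^ (2 * m + 1)) :
    Nonempty (↥(MulAction.stabilizer (Cfsg.Sz F m) (Cfsg.suzukiPointInfinity F) ⊓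
        MulAction.stabilizer (Cfsg.Sz F m) (Cfsg.suzukiPointZero F)) ≃* Fˣ) := by
  have := H5.Suz.charP hF
  let Z := H5.Suz.szO hm hF
  have e1 : (Z.inf : Projectivization F (Fin 4 → F)) = Cfsg.suzukiPointInfinity F := rfl
  have e2 : (Z.o : Projectivization F (Fin 4 → F)) = Cfsg.suzukiPointZero F := by
    simp [Z, H5.Suz.SzG.o, H5.Suz.szO, H5.Suz.ptO, H5.Suz.vec, Cfsg.suzukiPointZero]
  rw [← e1, ← e2]
  exact ⟨(MulEquiv.subgroupCongr (Subgroup.ext fun g => and_congr
    (Subtype.ext_iff (a1 := g • Z.inf) (a2 := Z.inf)).symm (Subtype.ext_iff (a1 := g • Z.o) (a2 := Z.o)).symm)).trans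
    (Z.St_equiv Z.inf_ne_o).some⟩

end Cfsg.Agent.S0328
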