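import Cfsg.Statements.S0335
import Cfsg.Agent.H5.Sz5

set_option autoImplicit false
open Cfsg

namespace Cfsg.Agent.S0335

/-- The Suzuki–Tits point set is an ovoid: any three distinct points of it are projectively independent
(no line of projective 3-space meets it in more than two points). -/
theorem result {F : Type*} [Field F] [Fintype F] {m : ℕ} (hm : 1 ≤ m)
    (hF : Fintype.card F = 2 ^ (2 * m + 1)) (p : Fin 3 ↪ Cfsg.suzukiOvoid F m) :
    Projectivization.Independent (fun i => (p i : Projectivization F (Fin 4 → F))) := by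
  have := H5.Suz.charP hF
  let Z := H5.Suz.szO hm hF
  obtain ⟨g, h0, h1⟩ := H7.mt_two Z.z3.two Z.inf_ne_o (p.injective.ne (show (0 : Fin 3) ≠ 1 by decide))
  obtain ⟨x, y, e⟩ := Z.exists_pt (a := g⁻¹ • p 2) fun e =>
    p.injective.ne (show (2 : Fin 3) ≠ 0 by decide) ((inv_smul_eq_iff.1 e).trans h0)
  have h2 : ¬ (x = 0 ∧ y = 0) := by
    rintro ⟨rfl, rfl⟩
    exact p.injective.ne (show (2 : Fin 3) ≠ 1 by decide) ((inv_smul_eq_iff.1 e).trans h1)
  let w : Fin 3 → Option (F × F) := ![none, some 0, some (x, y)]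
  have hp : ∀ i, p i = g • H5.Suz.ptO F m (w i) := fun i => by
    fin_cases i
    exacts [h0.symm, h1.symm, inv_smul_eq_iff.1 e]
  have hl : LinearIndependent F fun i => H5.Suz.vec (H5.Suz.th F m) (w i) := Fintype.linearIndependent_iff.2 fun c hc => by
    have a0 := congrFun hc 0
    have a1 := congrFun hc 1
    have a2 := congrFun hc 2
    have a3 := congrFun hc 3
    simp [Fin.sum_univ_three, w, H5.Suz.vec] at a0 a1 a2 a3
    have : c 2 = 0 := by tauto
    intro i
    fin_cases i <;> simp_all
  have hl' := hl.map' (Matrix.toLin' g.1.1) (Matrix.ker_toLin'_eq_bot_iff.2 fun v hv =>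
    Matrix.eq_zero_of_mulVec_eq_zero (by simp) hv)
  simp only [hp]
  exact Projectivization.Independent.mk _ hl'.ne_zero hl'

end Cfsg.Agent.S0335
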