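import Cfsg.Statements.S0338
import Mathlib
import Cfsg.Agent.H7.Zass3
import Cfsg.Agent.S0740

set_option autoImplicit false
open Cfsg

namespace Cfsg.Agent.S0338

/-- A Zassenhaus group of odd degree is a simple group. -/
theorem result {G Ω : Type*} [Group G] [MulAction G Ω] [Fintype Ω]
    (hZ : Cfsg.IsZassenhausGroup G Ω) (hodd : Odd (Fintype.card Ω)) : IsSimpleGroup G := by
  haveI := H7.zass_finite hZ
  have z := H7.zass_z3 hZ
  have h3 := H7.zass_three_le hZ
  haveI : Nontrivial G := by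
    obtain ⟨g, hg, -⟩ := hZ.2.2.2.1
    exact ⟨⟨g, 1, hg⟩⟩
  refine ⟨fun N hN => or_iff_not_imp_left.2 fun hb => ?_⟩
  have hZN := H7.zass_normal hZ N hb
  obtain ⟨a, b, -, hab, -⟩ := H7.exists_three h3
  obtain ⟨s, hs, h1, h2⟩ := (S0740.result hZN hab).1
  have hc := ((S0740.result hZN hab).2.1 s hs h1 h2).1 hodd
  obtain ⟨c, hc⟩ := Set.ncard_eq_one.1 hc
  have hcs : (s : G) • c = c := (hc.symm ▸ Set.mem_singleton c : c ∈ MulAction.fixedBy Ω s)
  have h1' : (s : G) • a = b := h1
  have h2' : (s : G) • b = a := h2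
  have hH : H7.St G a b ≤ N := fun h hh => by
    obtain ⟨w, -, e⟩ := L.exists_commutator_eq_of_centralizer (K := H7.St G a b) (x := s)
      (Subgroup.mem_normalizer_fintype fun x hx => H7.conj_mem_St (Or.inr ⟨h1', h2'⟩) hx)
      (eq_bot_iff.2 fun x hx => z.three x a b c hab
        (by rintro rfl; exact hab (h2'.symm.trans hcs)) (by rintro rfl; exact hab (hcs.symm.trans h1'))
        hx.1.1 hx.1.2 (by
          have e : x * s = s * x := Subgroup.mem_centralizer_singleton_iff.1 hx.2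
          have : x • c ∈ MulAction.fixedBy Ω s := by
            change (s : G) • x • c = x • c
            rw [← mul_smul, ← e, mul_smul, hcs]
          rwa [hc] at this)) hh
    rw [← mul_inv_eq_iff_eq_mul] at e
    rw [← e]
    exact N.mul_mem (hN.conj_mem _ s.2 w) (N.inv_mem s.2)
  obtain ⟨F, k⟩ := z.exists_ker h3 a
  obtain ⟨⟨y, hy⟩, hy1⟩ := Subgroup.ne_bot_iff_exists_ne_one.1 (H7.zass_St_ne_bot hZ hab)
  have hF := k.le_normal z hab hy (fun e => hy1 (Subtype.ext e)) (hH hy)
  exact eq_top_iff.2 fun g _ => H7.mem_of_two_trans z.two N (fun g hg => by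
    obtain ⟨u, hu, h, hh, rfl⟩ := k.decomp hab.symm hg
    exact N.mul_mem (hF hu) (hH hh)) (h1' ▸ hab.symm) s.2 g

end Cfsg.Agent.S0338
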