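import Cfsg.Statements.S0344
import Mathlib
import Cfsg.Agent.H7.Sh3

set_option autoImplicit false
open Cfsg

namespace Cfsg.Agent.S0344

open Cfsg.Agent.H7

/-- A finite simple Zassenhaus group with a two-point stabiliser of even order is isomorphic to `PSL₂(F)` for a finite
field `F` with more than three elements. -/
theorem result {G Ω : Type*} [Group G] [Finite G] [MulAction G Ω] [Finite Ω]
    (hZ : Cfsg.IsZassenhausGroup G Ω) [IsSimpleGroup G]
    {a b : Ω} (hab : a ≠ b) (heven : Even (Nat.card ↥(MulAction.stabilizer G a ⊓ MulAction.stabilizer G b))) :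
    ∃ (F : Type) (_ : Field F) (_ : Fintype F), 3 < Fintype.card F ∧ Nonempty (G ≃* Matrix.ProjectiveSpecialLinearGroup (Fin 2) F) := by
  have z := zass_z3 hZ
  have h3 := zass_three_le hZ
  obtain ⟨F, k⟩ := z.exists_ker h3 a
  have hd := zass_even_le hZ hab heven
  obtain ⟨p, f, hp, hf, -, h2⟩ := k.elementary z hab.symm h3 (z.large_of_even hab heven)
  obtain ⟨K, i1, i2, h4, -⟩ := exists_field_card hp hf
  have h5 : 2 ≤ Nat.card (St G a b) := Nat.le_of_dvd Nat.card_pos heven.two_dvd
  exact ⟨K, i1, i2, by omega, z.psl_even hab heven hd K (by rw [h4, h2])⟩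

end Cfsg.Agent.S0344
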