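import Cfsg.Statements.S0340
import Mathlib
import Cfsg.Agent.H7.ZS3
import Cfsg.Agent.S0344

set_option autoImplicit false
open Cfsg

namespace Cfsg.Agent.S0340

open Cfsg.Agent.H7

/-- Classification of Zassenhaus groups, simple case, order-level form: a finite simple Zassenhaus group is
isomorphic to `PSL₂(F)` for some finite field `F` or is simple of Suzuki order. -/
theorem result {G Ω : Type*} [Group G] [Finite G] [MulAction G Ω]
    [Finite Ω] (hZ : Cfsg.IsZassenhausGroup G Ω) [IsSimpleGroup G] :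
    (∃ (F : Type) (_ : Field F) (_ : Fintype F), Nonempty (G ≃* Matrix.ProjectiveSpecialLinearGroup (Fin 2) F)) ∨ Cfsg.IsSuzuki G := by
  have z := zass_z3 hZ
  have h3 := zass_three_le hZ
  obtain ⟨a, b, -, hab, -⟩ := exists_three h3
  rcases Nat.even_or_odd (Nat.card (St G a b)) with he | ho
  · obtain ⟨F, i1, i2, -, h⟩ := S0344.result hZ hab he
    exact Or.inl ⟨F, i1, i2, h⟩
  obtain ⟨F, k⟩ := z.exists_ker h3 a
  have hc := k.card hab.symm
  rcases zass_feit hZ hab k ho with ⟨h, -⟩ | ⟨h2, hna, -⟩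
  · left
    have hl : Nat.card Ω - 2 ≤ 2 * Nat.card (St G a b) := by omega
    rcases zass_large hZ hab k (k.comm_of_large z hab.symm hl) with h1 | ⟨-, K, i1, i2, -, -, h1⟩
    · obtain ⟨p, f, hp, hf, -, h2⟩ := k.elementary z hab.symm h3 hl
      obtain ⟨K, i1, i2, h4, -⟩ := exists_field_card hp hf
      have h5 := Nat.le_of_dvd (by omega) (z.card_St_dvd hab)
      rw [Nat.odd_iff] at ho
      exact ⟨K, i1, i2, (z.pgl_odd_degree hab (Nat.odd_iff.2 (by omega)) h1 K (by rw [h4, h2])).2⟩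
    · exact ⟨K, i1, i2, h1⟩
  · exact Or.inr ((zt_of_simple hZ hab k h2).isSuzuki hna)

end Cfsg.Agent.S0340
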