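import Cfsg.Statements.S0345
import Mathlib
import Cfsg.Agent.H7.Sh3

set_option autoImplicit false
open Cfsg

namespace Cfsg.Agent.S0345

open Cfsg.Agent.H7

/-- In a finite simple Zassenhaus group the stabiliser `H` of two points `a ≠ b` is cyclic, and some involution
interchanging `a` and `b` inverts every element of `H`. -/
theorem result {G Ω : Type*} [Group G] [Finite G] [MulAction G Ω] [Finite Ω]
    (hZ : Cfsg.IsZassenhausGroup G Ω) [IsSimpleGroup G]
    {a b : Ω} (hab : a ≠ b) :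
    IsCyclic ↥(MulAction.stabilizer G a ⊓ MulAction.stabilizer G b) ∧
      ∃ v : G, orderOf v = 2 ∧ v • a = b ∧ v • b = a ∧ ∀ h ∈ MulAction.stabilizer G a ⊓ MulAction.stabilizer G b, v * h * v⁻¹ = h⁻¹ := by
  have z := zass_z3 hZ
  have h3 := zass_three_le hZ
  obtain ⟨F, k⟩ := z.exists_ker h3 a
  obtain ⟨s, h1, h2⟩ := mt_two z.two hab hab.symm
  have h4 : s * s = 1 ∧ ∀ h ∈ St G a b, s * h * s⁻¹ = h⁻¹ := by
    rcases Nat.even_or_odd (Nat.card (St G a b)) with he | ho
    · exact z.inv_of_even hab he (zass_even_le hZ hab he) h1 h2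
    · have o := zo_of_simple hZ hab k ho
      exact ⟨o.swap_sq h1 h2, o.inv s h1 h2⟩
  haveI : IsMulCommutative (St G a b) :=
    ⟨⟨fun x y => Subtype.ext (comm_of_inverted h4.2 x x.2 y y.2)⟩⟩
  exact ⟨(k.fpf z hab).isCyclic_of_isMulCommutative k.le_normalizer (k.ne_bot h3), s,
    H2.ord2_of h4.1 (by rintro rfl; exact hab (by simpa using h1)), h1, h2, h4.2⟩

end Cfsg.Agent.S0345
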