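import Cfsg.Statements.S0346
import Mathlib
import Cfsg.Agent.H7.Zass6

set_option autoImplicit false
open Cfsg

namespace Cfsg.Agent.S0346

open Cfsg.Agent.H7

/-- The number of points of a finite simple Zassenhaus group is `p^k + 1` for some prime power `p^k` (the regular normal
subgroup of a point stabiliser is a `p`-group). -/
theorem result {G Ω : Type*} [Group G] [Finite G] [MulAction G Ω] [Fintype Ω]
    (hZ : Cfsg.IsZassenhausGroup G Ω) [IsSimpleGroup G] :
    IsPrimePow (Fintype.card Ω - 1) := by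
  have z := zass_z3 hZ
  have h3 := zass_three_le hZ
  obtain ⟨a, b, -, hab, -⟩ := exists_three h3
  obtain ⟨F, k⟩ := z.exists_ker h3 a
  have h1 := k.card hab.symm
  rw [← Nat.card_eq_fintype_card]
  by_cases h : Nat.card Ω - 2 ≤ 2 * Nat.card (St G a b)
  · obtain ⟨p, f, hp, hf, -, h2⟩ := k.elementary z hab.symm h3 h
    rw [h2, Nat.add_sub_cancel]
    exact ⟨p, f, hp.prime, hf, rfl⟩
  rcases zass_feit hZ hab k (Nat.not_even_iff_odd.1 fun e => h (z.large_of_even hab e)) with
    h2 | ⟨h2, -⟩
  · omega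
  · obtain ⟨n, hn⟩ := IsPGroup.iff_card.1 h2
    refine ⟨2, n, Nat.prime_two.prime, Nat.pos_of_ne_zero ?_, by omega⟩
    rintro rfl
    omega

end Cfsg.Agent.S0346
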