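import Cfsg.Statements.S0347
import Mathlib
import Cfsg.Agent.H7.ZS3

set_option autoImplicit false
open Cfsg

namespace Cfsg.Agent.S0347

open Cfsg.Agent.H7

/-- If in a finite simple Zassenhaus group the stabiliser of a point `x` has a normal `2`-subgroup `U` which is
non-abelian and acts regularly on the points other than `x`, then the group is simple of Suzuki order (order-level
predicate `IsSuzuki`). -/
theorem result {G Ω : Type*} [Group G] [Finite G] [MulAction G Ω] [Finite Ω]
    (hZ : Cfsg.IsZassenhausGroup G Ω) [IsSimpleGroup G]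
    (x : Ω) (U : Subgroup G) (hUle : U ≤ MulAction.stabilizer G x) (hUn : (U.subgroupOf (MulAction.stabilizer G x)).Normal)
    (hU2 : IsPGroup 2 U) (hUna : ∃ u v : U, u * v ≠ v * u)
    (hreg : ∀ y z : Ω, y ≠ x → z ≠ x → ∃! u : U, (u : G) • y = z) :
    Cfsg.IsSuzuki G := by
  obtain ⟨y, -, hy⟩ := Z3.exists_third (zass_three_le hZ) x x
  exact (zt_of_simple hZ hy.symm (ker_of hUle hUn hreg) hU2).isSuzuki hUna

end Cfsg.Agent.S0347
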