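import Cfsg.Statements.S0365
import Cfsg.Agent.H6.SimM1

set_option autoImplicit false
open Cfsg

namespace Cfsg.Agent.S0365

open Cfsg.Agent
open scoped Pointwise commutatorElement

/-- The permutation group preserving the length-24 code is simple. -/
theorem result : IsSimpleGroup Cfsg.M24 := by
  exact H6.SMat.simple24

end Cfsg.Agent.S0365
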