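import Cfsg.Statements.S0371
import Cfsg.Agent.GS.St7

set_option autoImplicit false
open Cfsg

namespace Cfsg.Agent.S0371

/-- Multiplication by a nonzero square residue modulo 23, fixing the extra point, lies in the group of the length-24 code. -/
theorem result (u : (ZMod 23)ˣ) (hu : IsSquare u) : Equiv.optionCongr (Units.mulLeft u) ∈ Cfsg.M24 := by
  open Finset Pointwise Cfsg.Agent.St Cfsg.Agent.H6 in focus
    obtain ⟨v, rfl⟩ := hu
    have key : ∀ u : (ZMod 23)ˣ, ∀ w ∈ golayCode, (fun p => w (Equiv.optionCongr (Units.mulLeft (u * u)) p)) ∈ golayCode := by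
      intro u w hw
      induction hw using Submodule.span_induction with
      | mem x hx =>
        rcases hx with ⟨t, rfl⟩ | rfl
        · refine Submodule.subset_span (Or.inl ⟨(u⁻¹ * u⁻¹ : (ZMod 23)ˣ) * t, funext ?_⟩)
          rintro (_ | x)
          · rfl
          · refine if_congr ⟨fun ⟨r, h⟩ => ⟨u * r, ?_⟩, fun ⟨r, h⟩ => ⟨(u⁻¹ : (ZMod 23)ˣ) * r, ?_⟩⟩ rfl rfl
            · have := u.mul_inv
              simp only [Units.mulLeft_apply, Units.val_mul] at *
              rw [h]; linear_combination (t * (u * (u⁻¹ : (ZMod 23)ˣ) + 1)) * this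
            · have := u.mul_inv
              simp only [Units.mulLeft_apply, Units.val_mul] at *
              linear_combination ((u⁻¹ : (ZMod 23)ˣ) * (u⁻¹ : (ZMod 23)ˣ) : ZMod 23) * h - (x * (u * (u⁻¹ : (ZMod 23)ˣ) + 1)) * this
        · exact Submodule.subset_span (Or.inr rfl)
      | zero => exact golayCode.zero_mem
      | add x y _ _ hx hy => exact golayCode.add_mem hx hy
      | smul a x _ hx => exact golayCode.smul_mem a hx
    rw [← inv_mem_iff]
    refine mem_aut.2 (im_eq_of_le ?_)
    rintro _ ⟨w, hw, rfl⟩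
    refine ⟨_, key v w hw, ?_⟩
    ext p
    rw [mem_supp, ← Finset.mem_coe, coe_image, Equiv.Perm.inv_def, Equiv.image_symm_eq_preimage, Set.mem_preimage, mem_coe, mem_supp]

end Cfsg.Agent.S0371
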