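import Cfsg.Statements.S0374
import Cfsg.Agent.H6.M24a

set_option autoImplicit false
open Cfsg

namespace Cfsg.Agent.S0374

open Cfsg.Agent

/-- The group of the length-24 code is generated by x ↦ x+1, x ↦ -1/x and the cube-twist permutation. -/
theorem result : Subgroup.closure {Equiv.optionCongr (Equiv.addRight (1 : ZMod 23)), Cfsg.projInv, Cfsg.cubeTwist} = Cfsg.M24 := by
  apply le_antisymm
  · rw [Subgroup.closure_le]
    rintro x (rfl | rfl | rfl)
    · exact H6.pg_mem 0
    · exact H6.pg_mem 2
    · exact H6.pg_mem 3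
  · intro g hg
    have := H6.eq_top_of_letters (K := (Subgroup.closure {Equiv.optionCongr (Equiv.addRight (1 : ZMod 23)), projInv, cubeTwist}).subgroupOf M24)
      (Subgroup.mem_subgroupOf.2 (Subgroup.subset_closure (Or.inl rfl)))
      (Subgroup.mem_subgroupOf.2 (Subgroup.subset_closure (Or.inr (Or.inl rfl))))
      (Subgroup.mem_subgroupOf.2 (Subgroup.subset_closure (Or.inr (Or.inr rfl))))
    have h2 : (⟨g, hg⟩ : M24) ∈ (⊤ : Subgroup M24) := trivial
    rw [← this] at h2
    exact h2

end Cfsg.Agent.S0374
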