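import Cfsg.Statements.S0375
import Cfsg.Agent.GS.St5

set_option autoImplicit false
open Cfsg

namespace Cfsg.Agent.S0375

/-- A doubly even self-dual binary code of length 24 with no words of weight 4 is equivalent to the length-24 code built from the squares modulo 23. -/
theorem result (C : Submodule (ZMod 2) (Fin 24 → ZMod 2)) (hdim : Module.finrank (ZMod 2) C = 12) (horth : ∀ v ∈ C, ∀ w ∈ C, ∑ i, v i * w i = 0) (h4 : ∀ w ∈ C, 4 ∣ hammingNorm w) (hno4 : ∀ w ∈ C, hammingNorm w ≠ 4) : ∃ e : Fin 24 ≃ Cfsg.GolayPt, ∀ w : Cfsg.GolayPt → ZMod 2, w ∈ Cfsg.golayCode ↔ (fun i => w (e i)) ∈ C := by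
  open Finset Pointwise Cfsg.Agent.St Cfsg.Agent.H6 in focus
    have h := gc_sub (by simp) C hdim (fun w hw h0 => by
      have := h4 w hw; have := hno4 w hw
      have : hammingNorm w ≠ 0 := by rwa [Ne, hammingNorm_eq_zero]
      omega)
    obtain ⟨e, he⟩ := h.model
    refine ⟨e, fun w => ?_⟩
    rw [← support_mem_csets_iff, ← he, mem_im, ← SetLike.mem_coe (p := C), ← supp_mem]
    have : (support₂ w).image e.symm = support₂ fun i => w (e i) := by
      ext i
      rw [← Finset.mem_coe, coe_image, Equiv.image_symm_eq_preimage, Set.mem_preimage, mem_coe, mem_supp, mem_supp]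
    rw [this]

end Cfsg.Agent.S0375
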