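import Cfsg.Statements.S0377
import Cfsg.Agent.H6.SimM1
import Cfsg.Agent.H6.M24d

set_option autoImplicit false
open Cfsg

namespace Cfsg.Agent.S0377

open Cfsg.Agent
open scoped Pointwise commutatorElement

/-- A point stabiliser in the group of the length-24 code is simple. -/
theorem result (p : Cfsg.GolayPt) : IsSimpleGroup (MulAction.stabilizer Cfsg.M24 p) := by
  exact H6.simple_stab_of_mem_orbit (a := H6.pt 23) (by rw [H6.orbit_pt]; trivial) (H6.simple_congr H6.eM23.symm H6.SMat.simple23)

end Cfsg.Agent.S0377
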