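import Cfsg.Statements.S0381
import Cfsg.Agent.GS.St7

set_option autoImplicit false
open Cfsg

namespace Cfsg.Agent.S0381

/-- The pointwise stabiliser of an octad in the group of the length-24 code has order 16 and every element of it squares to the identity. -/
theorem result (o : Finset Cfsg.GolayPt) (ho : o ∈ Cfsg.octads) : Nat.card ↥(Cfsg.M24 ⊓ fixingSubgroup (Equiv.Perm Cfsg.GolayPt) (o : Set Cfsg.GolayPt)) = 16 ∧ ∀ g ∈ Cfsg.M24 ⊓ fixingSubgroup (Equiv.Perm Cfsg.GolayPt) (o : Set Cfsg.GolayPt), g * g = 1 := by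
  open Finset Pointwise Cfsg.Agent.St Cfsg.Agent.H6 in focus
    have e : ∀ g : PG, g ∈ M24 ⊓ fixingSubgroup (Equiv.Perm GolayPt) (o : Set GolayPt) ↔ ∃ hg : g ∈ M24, ⟨g, hg⟩ ∈ FixP o := by
      intro g; simp only [Subgroup.mem_inf, mem_fixingSubgroup_iff, mem_Fix]
      exact ⟨fun h => ⟨h.1, h.2⟩, fun ⟨h1, h2⟩ => ⟨h1, h2⟩⟩
    refine ⟨(Nat.card_congr (subEq e).toEquiv).trans (card_Fix_oct ho), fun g hg => ?_⟩
    obtain ⟨h1, h2⟩ := (e g).1 hg
    exact congrArg Subtype.val (sq_Fix_oct ho h2)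

end Cfsg.Agent.S0381
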