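import Cfsg.Statements.S0384
import Cfsg.Agent.H6.M24d

set_option autoImplicit false
open scoped Pointwise
open Cfsg

namespace Cfsg.Agent.S0384

open Cfsg.Agent
open scoped Pointwise commutatorElement

/-- A dodecad stabiliser is sharply 5-transitive on the dodecad. -/
theorem result (d : Finset Cfsg.GolayPt) (hd : d ∈ Cfsg.dodecads) (x y : Fin 5 ↪ Cfsg.GolayPt) (hx : ∀ i, x i ∈ d) (hy : ∀ i, y i ∈ d) : ∃! g : MulAction.stabilizer Cfsg.M24 d, ∀ i, ((g : Cfsg.M24) : Equiv.Perm Cfsg.GolayPt) (x i) = y i := by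
  obtain ⟨g, hg⟩ := H6.exists_of_orbit (H6.orbit_dp5 hd x hx) (H6.orbit_dp5 hd y hy)
  simp only [Prod.smul_mk, Prod.mk.injEq] at hg
  have hb : MulAction.stabilizer M24 (((((d, x 0), x 1), x 2), x 3), x 4) = ⊥ := by
    rw [← Subgroup.card_eq_one, H6.card_stab_of_mem_orbit (H6.orbit_dp5 hd x hx)]
    simp only [H6.stab_prod]
    exact H6.card_D5
  refine ⟨⟨g, hg.1.1.1.1.1⟩, fun i => ?_, fun k hk => ?_⟩
  · fin_cases i
    exacts [hg.1.1.1.1.2, hg.1.1.1.2, hg.1.1.2, hg.1.2, hg.2]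
  · have : g⁻¹ * k ∈ MulAction.stabilizer M24 (((((d, x 0), x 1), x 2), x 3), x 4) := by
      rw [MulAction.mem_stabilizer_iff, mul_smul, inv_smul_eq_iff]
      simp only [Prod.smul_mk, Prod.mk.injEq]
      have hk0 : (k : M24) • d = d := k.2
      exact ⟨⟨⟨⟨⟨hk0.trans hg.1.1.1.1.1.symm, (hk 0).trans hg.1.1.1.1.2.symm⟩, (hk 1).trans hg.1.1.1.2.symm⟩,
        (hk 2).trans hg.1.1.2.symm⟩, (hk 3).trans hg.1.2.symm⟩, (hk 4).trans hg.2.symm⟩
    rw [hb, Subgroup.mem_bot, inv_mul_eq_one] at this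
    exact Subtype.ext this.symm

end Cfsg.Agent.S0384
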