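import Cfsg.Statements.S0386
import Cfsg.Agent.H6.M24c

set_option autoImplicit false
open Cfsg

namespace Cfsg.Agent.S0386

open Cfsg.Agent
open scoped Pointwise commutatorElement

/-- For a fixed dodecad, 132 octads meet it in 6 points, 132 in 2 points and 495 in 4 points. -/
theorem result (d : Finset Cfsg.GolayPt) (hd : d ∈ Cfsg.dodecads) : {o : Finset Cfsg.GolayPt | o ∈ Cfsg.octads ∧ (o ∩ d).card = 6}.ncard = 132 ∧ {o : Finset Cfsg.GolayPt | o ∈ Cfsg.octads ∧ (o ∩ d).card = 2}.ncard = 132 ∧ {o : Finset Cfsg.GolayPt | o ∈ Cfsg.octads ∧ (o ∩ d).card = 4}.ncard = 495 := by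
  have := (H6.classify (G := M24) (fun _ : Finset GolayPt => octads) (fun a y => (y ∩ a).card)
    (fun g _ _ h => H6.smul_mem_octads g h) (fun g a y => H6.card_inter_smul g y a) H6.part_D_C8
    (vs := [(2, 132), (6, 132), (4, 495)]) (by simp only [List.map, H6.card_cw_inter]; decide +kernel)
    (by decide) (H6.orbit_dod hd)).1
  exact ⟨this (6, 132) (by simp), this (2, 132) (by simp), this (4, 495) (by simp)⟩

end Cfsg.Agent.S0386
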