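import Cfsg.Statements.S0388
import Cfsg.Agent.H6.SimM1
import Cfsg.Agent.H6.M24d

set_option autoImplicit false
open scoped Pointwise
open Cfsg

namespace Cfsg.Agent.S0388

open Cfsg.Agent
open scoped Pointwise commutatorElement

/-- The stabiliser of a dodecad and a point on it is simple. -/
theorem result (d : Finset Cfsg.GolayPt) (hd : d ∈ Cfsg.dodecads) (p : Cfsg.GolayPt) (hp : p ∈ d) : IsSimpleGroup ↥(MulAction.stabilizer Cfsg.M24 d ⊓ MulAction.stabilizer Cfsg.M24 p) := by
  rw [← H6.stab_prod]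
  exact H6.simple_stab_of_mem_orbit (H6.orbit_dp hd hp) (H6.stab_prod (G := M24) (H6.cw 863) (H6.pt 0) ▸ H6.simple_congr H6.eM11.symm H6.SMat.simple11)

end Cfsg.Agent.S0388
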