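import Cfsg.Statements.S0389
import Cfsg.Agent.H6.M24d

set_option autoImplicit false
open scoped Pointwise
open Cfsg

namespace Cfsg.Agent.S0389

open Cfsg.Agent
open scoped Pointwise commutatorElement

/-- The stabiliser of a dodecad and a point on it is 3-transitive on the complementary dodecad. -/
theorem result (d : Finset Cfsg.GolayPt) (hd : d ∈ Cfsg.dodecads) (p : Cfsg.GolayPt) (hp : p ∈ d) (x y : Fin 3 ↪ Cfsg.GolayPt) (hx : ∀ i, x i ∉ d) (hy : ∀ i, y i ∉ d) : ∃ g ∈ MulAction.stabilizer Cfsg.M24 d ⊓ MulAction.stabilizer Cfsg.M24 p, ∀ i, (g : Equiv.Perm Cfsg.GolayPt) (x i) = y i := by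
  obtain ⟨g, hg⟩ := H6.exists_of_orbit
    (H6.orbit_dpooo hd hp (hx 0) (hx 1) (hx 2) (by simp) (by simp) (by simp))
    (H6.orbit_dpooo hd hp (hy 0) (hy 1) (hy 2) (by simp) (by simp) (by simp))
  simp only [Prod.smul_mk, Prod.mk.injEq] at hg
  refine ⟨g, ⟨hg.1.1.1.1, hg.1.1.1.2⟩, fun i => ?_⟩
  fin_cases i
  exacts [hg.1.1.2, hg.1.2, hg.2]

end Cfsg.Agent.S0389
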