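import Cfsg.Statements.S0397
import Cfsg.Agent.H6.LeI1

set_option autoImplicit false
open Cfsg

namespace Cfsg.Agent.S0397

open Cfsg.Agent
open scoped Pointwise commutatorElement

/-- The automorphism group of the lattice has order 8315553613086720000 = 2^22·3^9·5^4·7^2·11·13·23. -/
theorem result : Nat.card Cfsg.Co0 = 8315553613086720000 := by
    exact H6.Le.C2.card0

end Cfsg.Agent.S0397
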