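import Cfsg.Statements.S0401
import Cfsg.Agent.H6.LeM

set_option autoImplicit false
open Cfsg

namespace Cfsg.Agent.S0401

open Cfsg.Agent
open scoped Pointwise commutatorElement

/-- Automorphisms of the lattice act transitively on vectors of sum of squares 48. -/
theorem result (v w : Cfsg.leechLattice) (hv : Cfsg.sqNorm (v : Cfsg.GolayPt → ℤ) = 48) (hw : Cfsg.sqNorm (w : Cfsg.GolayPt → ℤ) = 48) : ∃ g : Cfsg.Co0, g • v = w := by
    obtain ⟨a, rfl⟩ := H6.Le.ex48 hv
    obtain ⟨b, rfl⟩ := H6.Le.ex48 hw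
    exact ⟨b * a⁻¹, by simp only [mul_smul, inv_smul_smul]⟩

end Cfsg.Agent.S0401
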