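import Cfsg.Statements.S0402
import Cfsg.Agent.H6.LeM

set_option autoImplicit false
open Cfsg

namespace Cfsg.Agent.S0402

open Cfsg.Agent
open scoped Pointwise commutatorElement

/-- Stabiliser of a minimal vector is simple of order 42305421312000. -/
theorem result (v : Cfsg.leechLattice) (hv : Cfsg.sqNorm (v : Cfsg.GolayPt → ℤ) = 32) : Cfsg.IsCo2 (MulAction.stabilizer Cfsg.Co0 v) := by
    obtain ⟨g, rfl⟩ := H6.Le.ex32 hv
    exact H6.simple_card_congr (H6.conj_equiv g fun x => H6.fix_conj.trans H6.Le.fixV1.symm) H6.Le.C2.simple2 H6.Le.C2.card2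

end Cfsg.Agent.S0402
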