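import Cfsg.Statements.S0405
import Cfsg.Agent.H6.LeM
import Cfsg.Agent.H6.LeL1

set_option autoImplicit false
open Cfsg

namespace Cfsg.Agent.S0405

open Cfsg.Agent
open scoped Pointwise commutatorElement

/-- Joint stabiliser of two vectors of sum of squares 48 with coordinate dot product −32 is simple of order 44352000. -/
theorem result (v w : Cfsg.leechLattice) (hv : Cfsg.sqNorm (v : Cfsg.GolayPt → ℤ) = 48) (hw : Cfsg.sqNorm (w : Cfsg.GolayPt → ℤ) = 48) (hvw : Cfsg.dotInt (v : Cfsg.GolayPt → ℤ) (w : Cfsg.GolayPt → ℤ) = -32) : Cfsg.IsHS ↥(MulAction.stabilizer Cfsg.Co0 v ⊓ MulAction.stabilizer Cfsg.Co0 w) := by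
    obtain ⟨g, rfl, rfl⟩ := H6.Le.pairH hv hw hvw
    refine H6.simple_card_congr (H6.conj_equiv g fun x => ?_) H6.Le.Hs.simpleH H6.Le.C3.cardH
    rw [← H6.Le.fix_V2V, H6.Le.fixV2, and_comm]
    exact and_congr H6.fix_conj H6.fix_conj

end Cfsg.Agent.S0405
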