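import Cfsg.Statements.S0409
import Cfsg.Agent.GS.St5

set_option autoImplicit false
open Cfsg

namespace Cfsg.Agent.S0409

section
open Finset Pointwise Cfsg.Agent.St Cfsg.Agent.H6

theorem e1 {γ : Type*} [DecidableEq γ] (s : Finset γ) : insertNone s = insert none (s.image some) := by
  ext (_ | a) <;> simp

end

/-- Uniqueness of the Steiner system S(4, 7, 23) up to isomorphism. -/
theorem result {α β : Type*} [Fintype α] [DecidableEq α] [Fintype β] [DecidableEq β] (hα : Fintype.card α = 23) (hβ : Fintype.card β = 23) {B : Set (Finset α)} {B' : Set (Finset β)} (hB : Cfsg.IsSteinerSystem 4 7 B) (hB' : Cfsg.IsSteinerSystem 4 7 B') : Cfsg.SetSystemIso B B' := by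
  open Finset Pointwise Cfsg.Agent.St Cfsg.Agent.H6 in focus
    obtain ⟨e, h1, -, h2⟩ := model23 hα hB
    obtain ⟨e', h1', -, h2'⟩ := model23 hβ hB'
    have h0 : (e.trans e'.symm) none = none := by rw [Equiv.trans_apply, h1, ← h1', Equiv.symm_apply_apply]
    have h3 : ∀ a, some ((e.trans e'.symm).removeNone a) = (e.trans e'.symm) (some a) := fun a =>
      Equiv.removeNone_some _ (by
        rcases h : (e.trans e'.symm) (some a) with _ | b
        · rw [← h0] at h; simpa using (e.trans e'.symm).injective h
        · exact ⟨b, rfl⟩)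
    refine ⟨(e.trans e'.symm).removeNone, steiner_le (steiner_im hB _) hB' (by omega) ?_⟩
    rintro _ ⟨b, hb, rfl⟩
    rw [h2']
    convert (h2 b).1 hb using 1
    have : insertNone (b.image (e.trans e'.symm).removeNone) = (insertNone b).image (e.trans e'.symm) := by
      rw [e1, e1, image_insert, h0, image_image, image_image]
      congr 2; exact funext h3
    rw [this, image_image]; congr 1; ext; simp

end Cfsg.Agent.S0409
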