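import Cfsg.Statements.S0412
import Cfsg.Agent.GS.St6
import Cfsg.Agent.S0365

set_option autoImplicit false
open Cfsg

namespace Cfsg.Agent.S0412

/-- Aut of an S(5, 8, 24) is simple of order 244823040 and 5-transitive on points. -/
theorem result {α : Type*} [Fintype α] [DecidableEq α] (hα : Fintype.card α = 24) {B : Set (Finset α)} (hB : Cfsg.IsSteinerSystem 5 8 B) : Cfsg.IsM24 (Cfsg.setSystemAut B) ∧ MulAction.IsMultiplyPretransitive (Cfsg.setSystemAut B) α 5 := by
  open Finset Pointwise Cfsg.Agent.St Cfsg.Agent.H6 in focus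
    obtain ⟨e, he⟩ := model24 hα hB
    let φ : setSystemAut B ≃* M24 := (autEquiv e he).trans (MulEquiv.subgroupCongr M24_eq.symm)
    have := S0365.result
    refine ⟨⟨φ.isSimpleGroup, (Nat.card_congr φ.toEquiv).trans card_M24⟩, mpt_of fun x y => ?_⟩
    obtain ⟨g, hg⟩ := exists_M24 le_rfl (e.injective.comp x.injective) (e.injective.comp y.injective)
    refine ⟨φ.symm g, (φ.symm g).2, fun i => ?_⟩
    change e.symm ((g : PG) (e (x i))) = _
    rw [Equiv.symm_apply_eq]; exact hg i

end Cfsg.Agent.S0412
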