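import Cfsg.Statements.S0413
import Cfsg.Agent.GS.St6
import Cfsg.Agent.S0377
import Cfsg.Agent.S0376

set_option autoImplicit false
open Cfsg

namespace Cfsg.Agent.S0413

section
open Finset Pointwise Cfsg.Agent.St Cfsg.Agent.H6

theorem e1 {γ : Type*} [DecidableEq γ] (s : Finset γ) : insertNone s = insert none (s.image some) := by
  ext (_ | a) <;> simp

end

/-- Aut of an S(4, 7, 23) is simple of order 10200960 and 4-transitive. -/
theorem result {α : Type*} [Fintype α] [DecidableEq α] (hα : Fintype.card α = 23) {B : Set (Finset α)} (hB : Cfsg.IsSteinerSystem 4 7 B) : Cfsg.IsM23 (Cfsg.setSystemAut B) ∧ MulAction.IsMultiplyPretransitive (Cfsg.setSystemAut B) α 4 := by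
  open Finset Pointwise Cfsg.Agent.St Cfsg.Agent.H6 in focus
    obtain ⟨e, h0, h1, h2⟩ := model23 hα hB
    have hι : Function.Injective fun a => e (some a) := e.injective.comp (Option.some_injective _)
    obtain ⟨φ, hφ⟩ := equiv_of_induce' (G := MulAction.stabilizer M24 (pt 23)) (H := setSystemAut B) hι (fun g => by
        obtain ⟨σ, hσ⟩ := exists_perm_of hι (g := g) (fun a => by
          obtain ⟨_ | b, hb⟩ := e.surjective (g • e (some a))
          · have h5 : g • pt 23 = g • e (some a) := (show g • pt 23 = pt 23 from g.2).trans (h0.symm.trans hb)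
            rw [smul_left_cancel_iff, ← h0] at h5
            simpa using h5
          · exact ⟨b, hb.symm⟩)
        refine ⟨σ, mem_aut.2 (im_eq_of_le fun b hb => ?_), hσ⟩
        rw [h2]
        convert smul_mem_octads g.1 ((h2 b).1 hb) using 1
        rw [e1, e1, image_insert, image_insert, smul_finset_insert, h0, show g.1 • pt 23 = pt 23 from g.2,
          smul_finset_def, image_image, image_image, image_image, image_image]
        congr 2; exact (funext hσ).symm)
      (fun g h => Subtype.ext (eq_one_of_fix_compl (R := {pt 23}) (by simp) fun x hx => by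
        obtain ⟨_ | b, rfl⟩ := e.surjective x
        · simp [h0] at hx
        · exact h b))
      (fun σ hσ => by
        have h3 : σ.optionCongr ∈ setSystemAut (Ev (insertNone '' B)) := by
          rw [mem_aut, im_ev, im_eq_of_le]
          rintro _ ⟨b, hb, rfl⟩
          refine ⟨b.image σ, (aut_mem hσ).2 hb, ?_⟩
          rw [e1, e1, image_insert, image_image, image_image]; rfl
        refine ⟨⟨autEquiv e h1 ⟨_, h3⟩, ?_⟩, fun a => ?_⟩
        · change e (σ.optionCongr (e.symm (pt 23))) = _
          rw [← h0, Equiv.symm_apply_apply]; rfl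
        · change e (σ.optionCongr (e.symm _)) = _
          rw [Equiv.symm_apply_apply]; rfl)
    have := S0377.result (pt 23)
    refine ⟨⟨φ.symm.isSimpleGroup, (Nat.card_congr φ.symm.toEquiv).trans (S0376.result _)⟩, mpt_of fun x y => ?_⟩
    have inj : ∀ x : Fin 4 ↪ α, Function.Injective (Fin.cons (pt 23) fun i => e (some (x i)) : Fin 5 → GolayPt) := by
      intro x
      rw [Fin.cons_injective_iff]
      refine ⟨?_, hι.comp x.injective⟩
      rintro ⟨i, hi⟩
      rw [← h0] at hi; simpa using hi
    obtain ⟨g, hg⟩ := exists_M24 le_rfl (inj x) (inj y)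
    refine ⟨φ ⟨g, hg 0⟩, (φ _).2, fun i => hι ?_⟩
    exact (hφ ⟨g, hg 0⟩ (x i)).symm.trans (hg i.succ)

end Cfsg.Agent.S0413
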