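import Cfsg.Statements.S0425
import Cfsg.Agent.GS.St6
import Cfsg.Agent.S0383
import Cfsg.Agent.S0382

set_option autoImplicit false
open Cfsg

namespace Cfsg.Agent.S0425

/-- Aut of an S(5, 6, 12) is simple of order 95040 and sharply 5-transitive on points. -/
theorem result {α : Type*} [Fintype α] [DecidableEq α] (hα : Fintype.card α = 12) {B : Set (Finset α)} (hB : Cfsg.IsSteinerSystem 5 6 B) : Cfsg.IsM12 (Cfsg.setSystemAut B) ∧ MulAction.IsMultiplyPretransitive (Cfsg.setSystemAut B) α 5 ∧ ∀ x : Fin 5 ↪ α, MulAction.stabilizer (Cfsg.setSystemAut B) x = ⊥ := by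
  open Finset Pointwise Cfsg.Agent.St Cfsg.Agent.H6 in focus
    have hS := steiner_d d0_mem
    obtain ⟨φ1, -⟩ := aut_d d0_mem
    obtain ⟨φ2⟩ := aut_equiv_of_iso (iso_of_models (model12 (by rw [card_sub, d0_mem.2]) hS) (model12 hα hB))
    let φ := (φ1.trans φ2).symm
    have := S0383.result d0 d0_mem
    exact ⟨⟨φ.isSimpleGroup, (Nat.card_congr φ.toEquiv).trans (S0382.result _ d0_mem)⟩, mpt_of_model fun x hx => model12' hα hB hx,
      fun x => stab_triv hB (F := 0x1f) (by simp only [mem_fN]; decide) (model12' hα hB x.injective) triv12⟩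

end Cfsg.Agent.S0425
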