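import Cfsg.Statements.S0426
import Cfsg.Agent.GS.St6
import Cfsg.Agent.S0388
import Cfsg.Agent.S0387

set_option autoImplicit false
open Cfsg

namespace Cfsg.Agent.S0426

/-- Aut of an S(4, 5, 11) is simple of order 7920 and sharply 4-transitive on points. -/
theorem result {α : Type*} [Fintype α] [DecidableEq α] (hα : Fintype.card α = 11) {B : Set (Finset α)} (hB : Cfsg.IsSteinerSystem 4 5 B) : Cfsg.IsM11 (Cfsg.setSystemAut B) ∧ MulAction.IsMultiplyPretransitive (Cfsg.setSystemAut B) α 4 ∧ ∀ x : Fin 4 ↪ α, MulAction.stabilizer (Cfsg.setSystemAut B) x = ⊥ := by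
  open Finset Pointwise Cfsg.Agent.St Cfsg.Agent.H6 in focus
    have hp : pt 0 ∈ d0 := mem_fs.2 (by decide)
    have hS := steiner_dp d0_mem hp
    obtain ⟨φ1⟩ := aut_dp d0_mem hp
    obtain ⟨φ2⟩ := aut_equiv_of_iso (iso_of_models (model11 (by rw [card_sub, card_erase_of_mem hp, d0_mem.2]) hS) (model11 hα hB))
    let φ := (φ1.trans φ2).symm
    have := S0388.result d0 d0_mem _ hp
    exact ⟨⟨φ.isSimpleGroup, (Nat.card_congr φ.toEquiv).trans (S0387.result _ d0_mem _ hp)⟩, mpt_of_model fun x hx => model11' hα hB hx,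
      fun x => stab_triv hB (F := 0xf) (by simp only [mem_fN]; decide) (model11' hα hB x.injective) triv11⟩

end Cfsg.Agent.S0426
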