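import Cfsg.Statements.S0427
import Cfsg.Agent.GS.St1

set_option autoImplicit false
open Cfsg

namespace Cfsg.Agent.S0427

section
open Finset Pointwise Cfsg.Agent.St Cfsg.Agent.H6

theorem ncard_sub {α : Type*} {B : Set (Finset α)} (P : Finset α → Prop) :
    {d : B | P d}.ncard = {d | d ∈ B ∧ P d}.ncard := by
  rw [← Set.ncard_image_of_injective _ Subtype.val_injective]
  congr 1; ext d; simp only [Set.mem_image, Set.mem_ofPred_eq]
  exact ⟨fun ⟨a, h, e⟩ => e ▸ ⟨a.2, h⟩, fun h => ⟨⟨d, h.1⟩, h.2, rfl⟩⟩

end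

/-- The block graph (adjacent = disjoint) of an S(3, 6, 22) is strongly regular with parameters (77, 16, 0, 4). -/
theorem result {α : Type*} [Fintype α] (hα : Fintype.card α = 22) {B : Set (Finset α)} (hB : Cfsg.IsSteinerSystem 3 6 B) [Fintype B] [DecidableRel (Cfsg.blockGraph B).Adj] : (Cfsg.blockGraph B).IsSRGWith 77 16 0 4 := by
  open Finset Pointwise Cfsg.Agent.St Cfsg.Agent.H6 in focus
    classical
    have adj : ∀ b c : B, (blockGraph B).Adj b c ↔ Disjoint (b : Finset α) c := by
      intro b c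
      rw [blockGraph, SimpleGraph.fromRel_adj, disjoint_comm (a := (c : Finset α)), or_self, and_iff_right_iff_imp]
      rintro h rfl
      have := hB.1 b b.2
      rw [disjoint_self, bot_eq_empty] at h
      rw [h] at this; simp at this
    have com : ∀ b c : B, b ≠ c → Fintype.card ((blockGraph B).commonNeighbors b c) = 2 * ((b : Finset α) ∩ c).card := by
      intro b c h
      rw [← common22 hα hB b.2 c.2 (fun e => h (Subtype.ext e)), ← ncard_sub, ← Nat.card_eq_fintype_card, Nat.card_coe_set_eq]
      congr 1; ext d; simp [SimpleGraph.mem_commonNeighbors, adj]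
    refine ⟨?_, fun b => ?_, fun b c h => ?_, fun b c h h' => ?_⟩
    · rw [← Nat.card_eq_fintype_card, Nat.card_coe_set_eq, ncard_blk hB hα lam22]; rfl
    · rw [← SimpleGraph.card_neighborSet_eq_degree, ← disj22 hα hB b.2, ← ncard_sub, ← Nat.card_eq_fintype_card, Nat.card_coe_set_eq]
      congr 1; ext d; simp [adj]
    · rw [com b c h.ne, disjoint_iff_inter_eq_empty.1 ((adj b c).1 h)]; rfl
    · rw [com b c h]
      rcases inter22 hα hB b.2 c.2 (fun e => h (Subtype.ext e)) with h1 | h1
      · exact absurd ((adj b c).2 (disjoint_iff_inter_eq_empty.2 (card_eq_zero.1 h1))) h'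
      · rw [h1]

end Cfsg.Agent.S0427
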