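import Cfsg.Statements.S0439
import Cfsg.Agent.H6.TT2

set_option autoImplicit false
open Cfsg

namespace Cfsg.Agent.S0439

open Cfsg.Agent
open scoped Pointwise commutatorElement

/-- In the symmetric group of degree n ≥ 2, the set of transpositions is a conjugacy class of 3-transpositions which generates the group. -/
theorem result (n : ℕ) (hn : 2 ≤ n) : Cfsg.IsThreeTranspositionClass {σ : Equiv.Perm (Fin n) | σ.IsSwap} := by
  obtain ⟨n, rfl⟩ : ∃ m, n = m + 2 := ⟨n - 2, by omega⟩
  refine ⟨⟨fun d hd => ?_, ?_⟩, ⟨Equiv.swap 0 1, ⟨0, 1, by simp, rfl⟩, ?_⟩, Equiv.Perm.closure_isSwap⟩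
  · obtain ⟨x, y, h, rfl⟩ := hd
    exact orderOf_eq_prime (by rw [pow_two, Equiv.swap_mul_self]) (by simpa using h)
  · rintro _ ⟨x, y, h, rfl⟩ _ ⟨z, w, h', rfl⟩
    have key : ∀ a b c : Fin (n + 2), a ≠ b → a ≠ c → (Equiv.swap a b * Equiv.swap a c) ^ 2 = 1 ∨
        (Equiv.swap a b * Equiv.swap a c) ^ 3 = 1 := fun a b c h1 h2 => by
      by_cases e : b = c
      · left; rw [e, Equiv.swap_mul_self]; simp
      · right
        rw [← (Equiv.Perm.isThreeCycle_swap_mul_swap_same h1 h2 e).orderOf, pow_orderOf_eq_one]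
    by_cases c1 : x = z
    · subst c1; exact key _ _ _ h h'
    by_cases c2 : x = w
    · subst c2; rw [Equiv.swap_comm z]; exact key _ _ _ h h'.symm
    by_cases c3 : y = z
    · subst c3; rw [Equiv.swap_comm x]; exact key _ _ _ h.symm h'
    by_cases c4 : y = w
    · subst c4; rw [Equiv.swap_comm x, Equiv.swap_comm z]; exact key _ _ _ h.symm h'.symm
    left
    exact H6.sq_of_commute (Equiv.swap_mul_self _ _) (Equiv.swap_mul_self _ _)
      (Equiv.Perm.disjoint_swap_swap (by simp [*])).commute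
  · ext σ
    constructor
    · rintro ⟨x, y, h, rfl⟩
      exact Equiv.Perm.isConj_swap (by simp) h
    · intro h
      obtain ⟨g, rfl⟩ := isConj_iff.1 h
      exact ⟨g 0, g 1, by simp, (Equiv.swap_apply_apply _ _ _).symm⟩

end Cfsg.Agent.S0439
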