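import Cfsg.Statements.S0440
import Cfsg.Agent.H4.Inv1

set_option autoImplicit false
open Cfsg

namespace Cfsg.Agent.S0440

/-- In the symplectic group in dimension 2n ≥ 2 over the field with two elements, the elements g for which g - 1 has rank one (the symplectic transvections) form a conjugacy class of 3-transpositions generating the group. -/
theorem result (n : ℕ) (hn : 1 ≤ n) : Cfsg.IsThreeTranspositionClass {g : Matrix.symplecticGroup (Fin n) (ZMod 2) | ((g : Matrix (Fin n ⊕ Fin n) (Fin n ⊕ Fin n) (ZMod 2)) - 1).rank = 1} := by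
  have h1 : ∀ c : ZMod 2, c ≠ 0 → c = 1 := by decide
  refine (H4.spF_nondeg n).three_tv rfl (fun c hc => by simp [h1 c hc]) (H4.spEquiv _ n) le_rfl (P := (· ≠ 0))
    (fun p hp => ⟨hp, H4.CForm.symp_B_self _ p, H4.CForm.symp_tv_mem_iso p 1, H4.CForm.symp_tvOk p 1⟩)
    (fun p c hp hc _ _ => ⟨h1 c hc, hp⟩) ⟨Pi.single (.inl ⟨0, hn⟩) 1, by simp⟩ (fun p p' hp hp' => ?_)
    (fun S hS => (H4.spF_nondeg n).symp_iso_le fun p c => ?_)
    fun g => by rw [Set.mem_setOf, H4.rank_eq_rg (H4.spEquiv_apply n g)]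
  · obtain ⟨g, hg, h⟩ := (H4.spF_nondeg n).witt_vec hp hp' rfl
    exact ⟨g, hg, 1, one_ne_zero, by simp [h]⟩
  · by_cases hp : p = 0
    · simp [hp]
    by_cases hc : c = 0
    · simp [hc]
    exact h1 c hc ▸ hS p hp

end Cfsg.Agent.S0440
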