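import Cfsg.Statements.S0442
import Cfsg.Agent.H6.TT2

set_option autoImplicit false
open Cfsg

namespace Cfsg.Agent.S0442

open Cfsg.Agent
open scoped Pointwise commutatorElement

/-- A standard trick for producing elements of an involution centraliser: for an involution a and an element g, let b be the conjugate g⁻¹ * a * g. If a * b has odd order 2m + 1 then g * (a * b) ^ m commutes with a; if a * b has even order 2m then (a * b) ^ m and (a * (g * a * g⁻¹)) ^ m commute with a. -/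
theorem result {G : Type*} [Group G] (a g : G) (ha : orderOf a = 2) : (∀ m : ℕ, orderOf (a * (g⁻¹ * a * g)) = 2 * m + 1 → Commute (g * (a * (g⁻¹ * a * g)) ^ m) a) ∧ (∀ m : ℕ, orderOf (a * (g⁻¹ * a * g)) = 2 * m → Commute ((a * (g⁻¹ * a * g)) ^ m) a ∧ Commute ((a * (g * a * g⁻¹)) ^ m) a) := by
  have sa : a * a = 1 := by rw [← pow_two, ← ha, pow_orderOf_eq_one]
  have inv : ∀ b : G, b * b = 1 → ∀ m : ℕ, a * (a * b) ^ m * a⁻¹ = ((a * b) ^ m)⁻¹ := fun b sb m => by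
    rw [← conj_pow, ← inv_pow, mul_inv_rev, H6.inv_of_sq sb, ← mul_assoc, sa, one_mul]
  have ev : ∀ b : G, b * b = 1 → ∀ m : ℕ, orderOf (a * b) = 2 * m → Commute ((a * b) ^ m) a := fun b sb m h => by
    refine (H6.comm_of_cj ?_).symm
    rw [inv b sb, H6.inv_of_sq (by rw [← pow_add, ← two_mul, ← h, pow_orderOf_eq_one])]
  have s1 : g⁻¹ * a * g * (g⁻¹ * a * g) = 1 := by
    rw [show g⁻¹ * a * g * (g⁻¹ * a * g) = g⁻¹ * (a * a) * g by group, sa]; simp
  have s2 : g * a * g⁻¹ * (g * a * g⁻¹) = 1 := by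
    rw [show g * a * g⁻¹ * (g * a * g⁻¹) = g * (a * a) * g⁻¹ by group, sa]; simp
  refine ⟨fun m h => H6.comm_of_cj ?_, fun m h => ⟨ev _ s1 m h, ev _ s2 m ?_⟩⟩
  · have h1 := inv _ s1 m
    have h2 : (a * (g⁻¹ * a * g)) ^ m * (a * (g⁻¹ * a * g)) ^ m * (a * (g⁻¹ * a * g)) = 1 := by
      rw [← pow_add, ← two_mul, ← pow_succ, ← h, pow_orderOf_eq_one]
    generalize (a * (g⁻¹ * a * g)) ^ m = u at h1 h2
    have h3 : u * a * u⁻¹ = u * u * a := by
      rw [show u * a * u⁻¹ = u * (a * u⁻¹ * a⁻¹) * a by group, show a * u⁻¹ * a⁻¹ = (a * u * a⁻¹)⁻¹ by group, h1, inv_inv]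
    have h4 : u * u * a = g⁻¹ * a * g := by
      rw [← mul_assoc] at h2
      rw [eq_inv_of_mul_eq_one_left h2, H6.inv_of_sq s1]
    rw [show g * u * a * (g * u)⁻¹ = g * (u * a * u⁻¹) * g⁻¹ by group, h3, h4]; group
  · rw [← h, ← orderOf_inv, mul_inv_rev, H6.inv_of_sq s2, H6.inv_of_sq sa,
      show g * a * g⁻¹ * a = g * (a * (g⁻¹ * a * g)) * g⁻¹ by group]
    exact (MulAut.conj g).orderOf_eq _

end Cfsg.Agent.S0442
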