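import Cfsg.Statements.S0443
import Cfsg.Agent.H6.TT2

set_option autoImplicit false
open Cfsg

namespace Cfsg.Agent.S0443

open Cfsg.Agent
open scoped Pointwise commutatorElement

/-- Two definitions of a 2-central involution agree: an element t of order 2 of a finite group lies in the centre of some Sylow 2-subgroup if and only if its centraliser contains some Sylow 2-subgroup. -/
theorem result {G : Type*} [Group G] [Finite G] (t : G) (ht : orderOf t = 2) : Cfsg.IsTwoCentralInvolution t ↔ ∃ P : Sylow 2 G, (P : Subgroup G) ≤ Subgroup.centralizer ({t} : Set G) := by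
  haveI : Fact (Nat.Prime 2) := ⟨Nat.prime_two⟩
  refine ⟨fun ⟨_, P, _, h⟩ => ⟨P, fun x hx => Subgroup.mem_centralizer_singleton_iff.2 (h x hx)⟩, fun ⟨P, h⟩ => ?_⟩
  have h' : ∀ x ∈ P, x * t = t * x := fun x hx => Subgroup.mem_centralizer_singleton_iff.1 (h hx)
  refine ⟨ht, P, ?_, h'⟩
  have h2 : IsPGroup 2 (Subgroup.zpowers t) := IsPGroup.of_card (n := 1) (by rw [Nat.card_zpowers, ht]; rfl)
  have hn : (P : Subgroup G) ≤ Subgroup.normalizer (Subgroup.zpowers t : Set G) := fun x hx =>
    Subgroup.centralizer_le_normalizer _ (by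
      rintro _ ⟨k, rfl⟩; exact (Commute.zpow_left (show Commute t x from (h' x hx).symm) k))
  have := P.3 (IsPGroup.to_sup_of_normal_left' h2 P.isPGroup' hn) le_sup_right
  show t ∈ (P : Subgroup G)
  rw [← this]; exact Subgroup.mem_sup_left (Subgroup.mem_zpowers t)

end Cfsg.Agent.S0443
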