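import Cfsg.Statements.S0444
import Cfsg.Agent.H6.TT2

set_option autoImplicit false
open Cfsg

namespace Cfsg.Agent.S0444

open Cfsg.Agent
open scoped Pointwise commutatorElement

/-- Two members of a set of 3-transpositions which do not commute generate a subgroup isomorphic to the symmetric group on three letters. -/
theorem result {G : Type*} [Group G] {E : Set G} (hE : Cfsg.IsThreeTranspositionSet E) {d e : G} (hd : d ∈ E) (he : e ∈ E) (h : ¬ Commute d e) : Nonempty (Subgroup.closure ({d, e} : Set G) ≃* Equiv.Perm (Fin 3)) := by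
  have hc : H6.CoxA 2 (fun i => if i = 0 then d else e) := ⟨fun i _ => by split_ifs; exacts [H6.ts_sq hE hd, H6.ts_sq hE he],
    fun i hi => by obtain rfl : i = 0 := by omega
                   simpa using H6.ts_br hE hd he h, fun i j a b => by omega⟩
  obtain ⟨φ, h1, h2⟩ := hc.hom
  have a0 := h1 0 (by norm_num)
  have a1 := h1 1 (by norm_num)
  simp only [if_true, one_ne_zero, if_false] at a0 a1
  have inj : Function.Injective φ := by
    rw [injective_iff_map_eq_one]
    intro x hx
    by_contra c
    have : ∀ x : Equiv.Perm (Fin 3), x ≠ 1 → ∃ g k : Equiv.Perm (Fin 3), g * x * g⁻¹ * (k * x⁻¹ * k⁻¹) =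
      H6.sw 2 0 * H6.sw 2 1 * (H6.sw 2 0)⁻¹ * (H6.sw 2 1)⁻¹ := by decide +kernel
    obtain ⟨g, k, e⟩ := this x c
    have := congrArg φ e
    simp only [map_mul, map_inv, hx, a0, a1, mul_one, mul_inv_cancel, inv_one] at this
    exact h (commutatorElement_eq_one_iff_commute.1 this.symm)
  refine ⟨(MulEquiv.subgroupCongr ?_).trans (MonoidHom.ofInjective inj).symm⟩
  rw [h2]; congr 1; ext x
  constructor
  · rintro (rfl | rfl); exacts [⟨0, by simp, by simp⟩, ⟨1, by simp, by simp⟩]
  · rintro ⟨i, -, rfl⟩; dsimp only; split_ifs <;> simp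

end Cfsg.Agent.S0444
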