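import Cfsg.Statements.S0445
import Cfsg.Agent.H4.Inv4
import Cfsg.Agent.H7.Count

set_option autoImplicit false
open Cfsg

namespace Cfsg.Agent.S0445

/-- In the special linear group of dimension 5 over the field with two elements, the centraliser of a transvection has order 21504 = 2 ^ 7 · 168 (it is an extension of an extraspecial group of order 2 ^ 7 by the simple group of order 168). -/
theorem result (s : Matrix.SpecialLinearGroup (Fin 5) (ZMod 2)) (hs : (s : Matrix (Fin 5) (Fin 5) (ZMod 2)) = Matrix.transvection 0 1 1) : Nat.card (Subgroup.centralizer ({s} : Set (Matrix.SpecialLinearGroup (Fin 5) (ZMod 2)))) = 21504 := by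
  have h1 : ∀ c : ZMod 2, c ≠ 0 → c = 1 := by decide
  let P := {x : (Fin 5 → ZMod 2) × (Fin 5 → ZMod 2) // x.1 ≠ 0 ∧ x.2 ≠ 0 ∧ x.2 ⬝ᵥ x.1 = 0}
  have key : ∀ x : P, ∃ y : Matrix.SpecialLinearGroup (Fin 5) (ZMod 2), y.1 = 1 + Matrix.vecMulVec x.1.1 x.1.2 ∧
      orderOf y = 2 ∧ (y.1 - 1).rank = 1 := fun ⟨⟨a, φ⟩, h2, h3, h4⟩ => by
    obtain ⟨i, hi : a i ≠ 0⟩ := Function.ne_iff.1 h2
    obtain ⟨j, hj : φ j ≠ 0⟩ := Function.ne_iff.1 h3
    obtain ⟨y, h5, -, h6⟩ := H4.exists_SL_inv (F := ZMod 2) rfl (A := Matrix.replicateCol (Fin 1) a)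
      (B := Matrix.replicateCol (Fin 1) φ) (by ext; simpa [Matrix.mul_apply, dotProduct] using h4) le_rfl
      (c := fun _ => j) (d := fun _ => i) (by
        ext k l; simp [Matrix.mul_apply, h1 _ hi, h1 _ hj, Matrix.one_apply, Subsingleton.elim k l])
    exact ⟨y, h5.trans (by rw [Matrix.vecMulVec_eq (Fin 1)]; rfl), h6⟩
  choose f h2 h3 h4 using key
  have h5 : s = f ⟨(Pi.single 0 1, Pi.single 1 1), by decide⟩ := Subtype.ext (by rw [hs, h2]; decide)
  have h6 : Nat.card {y // IsConj s y} = 465 := by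
    rw [← Nat.card_congr (Equiv.ofBijective (fun x : P => (⟨f x, h5 ▸ (H4.SL_isConj_iff rfl (h3 _) (h3 _)).2
      ((h4 _).trans (h4 _).symm)⟩ : {y // IsConj s y})) ⟨?_, ?_⟩), Nat.card_eq_fintype_card]
    · decide +kernel
    · rintro ⟨⟨a, φ⟩, k1⟩ ⟨⟨b, ψ⟩, k2⟩ h
      have h7 : ∀ i j, a i * φ j = b i * ψ j := congrFun₂ (show Matrix.vecMulVec a φ = Matrix.vecMulVec b ψ from
        add_left_cancel ((h2 _).symm.trans ((congrArg (·.1.1) h).trans (h2 _))))
      obtain ⟨i, hi : a i ≠ 0⟩ := Function.ne_iff.1 k1.1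
      obtain ⟨j, hj : φ j ≠ 0⟩ := Function.ne_iff.1 k1.2.1
      have h8 := (mul_ne_zero hi hj).symm.trans_eq (h7 i j)
      refine Subtype.ext (Prod.ext (funext fun k => ?_) (funext fun k => ?_))
      · simpa [h1 _ hj, h1 _ (right_ne_zero_of_mul h8.symm)] using h7 k j
      · simpa [h1 _ hi, h1 _ (left_ne_zero_of_mul h8.symm)] using h7 i k
    · rintro ⟨_, hy⟩
      obtain ⟨g, rfl⟩ := isConj_iff.1 hy
      have h7 : g.1 * (g⁻¹).1 = 1 := by rw [← Matrix.SpecialLinearGroup.coe_mul, mul_inv_cancel]; rfl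
      have h8 : (g⁻¹).1 * g.1 = 1 := by rw [← Matrix.SpecialLinearGroup.coe_mul, inv_mul_cancel]; rfl
      refine ⟨⟨(g.1.mulVec (Pi.single 0 1), Matrix.vecMul (Pi.single 1 1) (g⁻¹).1), fun h => ?_, fun h => ?_, ?_⟩,
        Subtype.ext (Subtype.ext ?_)⟩
      · simpa [-Matrix.mulVec_single, -Matrix.SpecialLinearGroup.coe_inv, h8] using congrArg (g⁻¹).1.mulVec h
      · simpa [-Matrix.single_vecMul, -Matrix.SpecialLinearGroup.coe_inv, h8] using congrArg (Matrix.vecMul · g.1) h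
      · rw [← Matrix.dotProduct_mulVec, Matrix.mulVec_mulVec, h8]; simp
      · change (f _).1 = g.1 * s.1 * (g⁻¹).1
        rw [h2, h5, h2, mul_add, add_mul, mul_one, h7, Matrix.mul_vecMulVec, Matrix.vecMulVec_mul]
  have h7 := H7.card_isConj_mul_card_centralizer s
  have h8 := H4.card_SL (F := ZMod 2) 5 (by norm_num)
  simp only [ZMod.card, Fin.prod_univ_five] at h8
  rw [h6] at h7
  norm_num [-Nat.card_eq_fintype_card] at h8
  omega

end Cfsg.Agent.S0445
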