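import Cfsg.Statements.S0446
import Cfsg.Agent.H6.TT2

set_option autoImplicit false
open Cfsg

namespace Cfsg.Agent.S0446

open Cfsg.Agent
open scoped Pointwise commutatorElement

/-- Every finite group of even order contains a 2-central involution, i.e. an element of order 2 in the centre of some Sylow 2-subgroup. -/
theorem result {G : Type*} [Group G] [Finite G] (h : Even (Nat.card G)) : ∃ t : G, Cfsg.IsTwoCentralInvolution t := by
  haveI : Fact (Nat.Prime 2) := ⟨Nat.prime_two⟩
  obtain ⟨P⟩ : Nonempty (Sylow 2 G) := inferInstance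
  haveI : Nontrivial P := (Subgroup.nontrivial_iff_ne_bot _).2 (P.ne_bot_of_dvd_card (even_iff_two_dvd.1 h))
  haveI := P.isPGroup'.center_nontrivial
  have h2 : IsPGroup 2 (Subgroup.center P) := P.isPGroup'.to_subgroup _
  obtain ⟨n, hn, e⟩ := h2.nontrivial_iff_card.1 inferInstance
  obtain ⟨z, hz⟩ := exists_prime_orderOf_dvd_card' (G := Subgroup.center P) 2 (by rw [e]; exact dvd_pow_self 2 hn.ne')
  refine ⟨z, (Subgroup.orderOf_coe _).trans ((Subgroup.orderOf_coe z).trans hz), P, z.1.2, fun x hx => ?_⟩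
  exact congrArg Subtype.val (Subgroup.mem_center_iff.1 z.2 ⟨x, hx⟩)

end Cfsg.Agent.S0446
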