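import Cfsg.Statements.S0458
import Cfsg.Agent.GS.Mk1
import Cfsg.Agent.H6.J3B3

set_option autoImplicit false
open Cfsg

namespace Cfsg.Agent.S0458

section
open Finset Pointwise Cfsg.Agent.St Cfsg.Agent.H6

set_option maxRecDepth 100000 in
theorem orb : MulAction.orbit (H6.cl (H6.finG H6.J3.m2ok) (H6.lw [0,1,2,3,4,5,6,7,8,9])) (H6.finX 6156 0) = H6.rng 6156 (H6.finX 6156) :=
  (H6.finModel H6.J3.m2ok).toIsPre.orbit_of_transChk (r := 300) (by decide +kernel)

theorem gen {n : ℕ} (H : Subgroup (Equiv.Perm (Fin n))) (a : Fin n) (h : MulAction.orbit H a = Set.univ) :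
    MulAction.IsPretransitive H (Fin n) ∧ n * Nat.card (MulAction.stabilizer H a) = Nat.card H := by
  haveI := (MulAction.isPretransitive_iff_orbit_eq_univ a).2 h
  refine ⟨this, ?_⟩
  rw [← Subgroup.index_mul_card (MulAction.stabilizer H a), MulAction.index_stabilizer_of_transitive, Nat.card_fin]

end

/-- Janko's third group exists as a transitive permutation group of degree 6156 with point stabiliser of order 8160: a simple group of order 50232960. -/
theorem result : ∃ H : Subgroup (Equiv.Perm (Fin 6156)), Cfsg.IsJ3 H ∧ MulAction.IsPretransitive H (Fin 6156) ∧ Nat.card (MulAction.stabilizer H (0 : Fin 6156)) = 8160 := by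
  open Finset Pointwise Cfsg.Agent.St Cfsg.Agent.H6 in focus
    obtain ⟨h1, h2⟩ := gen _ (0 : Fin 6156) (orb.trans (Set.eq_univ_of_forall fun y => ⟨y.1, y.2, Fin.ext (Nat.mod_eq_of_lt y.2)⟩))
    refine ⟨_, ⟨H6.J3.simpleJ, H6.J3.cardJ⟩, h1, ?_⟩
    have h3 := h2.trans H6.J3.cardJ
    omega

end Cfsg.Agent.S0458
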