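import Cfsg.Statements.S0459
import Cfsg.Agent.GS.Mk1
import Cfsg.Agent.GS.Ru1

set_option autoImplicit false
open Cfsg

namespace Cfsg.Agent.S0459

section
open Finset Pointwise Cfsg.Agent.St Cfsg.Agent.H6

set_option maxRecDepth 100000
theorem gen {n : ℕ} (H : Subgroup (Equiv.Perm (Fin n))) (a : Fin n) (h : MulAction.orbit H a = Set.univ) :
    MulAction.IsPretransitive H (Fin n) ∧ n * Nat.card (MulAction.stabilizer H a) = Nat.card H := by
  haveI := (MulAction.isPretransitive_iff_orbit_eq_univ a).2 h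
  refine ⟨this, ?_⟩
  rw [← Subgroup.index_mul_card (MulAction.stabilizer H a), MulAction.index_stabilizer_of_transitive, Nat.card_fin]

theorem orb : MulAction.orbit RuP.GR (finX 4060 0) = rng 4060 (finX 4060) :=
  (orbit_of_cl RuP.topR _).trans (RuP.modelR.toIsPre.orbit_of_transChk (r := 200) (by decide +kernel))

theorem tits : ∃ T : Subgroup (MulAction.stabilizer RuP.GR (finX 4060 0)), IsTits T := by
  obtain ⟨φ, a, b⟩ := Ti.bdT.homTop Ti.satT RuP.satTR Ti.topT Ti.cardT.ge
  have inj : Function.Injective φ := (MonoidHom.ker_eq_bot_iff φ).1 ((Ti.simpleT.eq_bot_or_eq_top_of_normal _ φ.normal_ker).resolve_right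
    fun h => RuP.modelR.ne_of_mp (u := [0]) (w := []) (p := 1) (by decide +kernel)
      ((b _ (by decide +kernel)).symm.trans (h.ge (Subgroup.mem_top _))))
  have hle : φ.range ≤ MulAction.stabilizer RuP.GR (finX 4060 0) := a ▸ RuP.modelR.toIsPre.cl_le_stab (by decide +kernel)
  let e := (MonoidHom.ofInjective inj).trans (Subgroup.subgroupOfEquivOfLe hle).symm
  exact ⟨_, simple_congr e Ti.simpleT, (Nat.card_congr e.toEquiv).symm.trans Ti.cardT⟩

end

/-- The Rudvalis group exists as a transitive permutation group of degree 4060: simple of order 145926144000, with point stabiliser of order 35942400 containing a simple subgroup of order 17971200 (the order of the Tits group). -/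
theorem result : ∃ H : Subgroup (Equiv.Perm (Fin 4060)), Cfsg.IsRu H ∧ MulAction.IsPretransitive H (Fin 4060) ∧ Nat.card (MulAction.stabilizer H (0 : Fin 4060)) = 35942400 ∧ ∃ T : Subgroup (MulAction.stabilizer H (0 : Fin 4060)), Cfsg.IsTits T := by
  open Finset Pointwise Cfsg.Agent.St Cfsg.Agent.H6 in focus
    obtain ⟨h1, h2⟩ := gen _ (0 : Fin 4060) (orb.trans (Set.eq_univ_of_forall fun y => ⟨y.1, y.2, Fin.ext (Nat.mod_eq_of_lt y.2)⟩))
    refine ⟨_, ⟨RuP.simpleR, RuP.cardR⟩, h1, ?_, tits⟩
    have h3 := h2.trans RuP.cardR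
    omega

end Cfsg.Agent.S0459
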