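import Cfsg.Statements.S0460
import Cfsg.Agent.GS.Mk1
import Cfsg.Agent.GS.Jn1
import Cfsg.Agent.GS.Mn1
import Cfsg.Agent.H6.ONB4

set_option autoImplicit false
open Cfsg

namespace Cfsg.Agent.S0460

section
open Finset Pointwise Cfsg.Agent.St Cfsg.Agent.H6

set_option maxRecDepth 100000
noncomputable def sb (W : List (List ℕ)) (w : List ℕ) : List ℕ :=
  List.rec (motive := fun _ => List ℕ) [] (fun l _ ih => lapp (lk [] W l) ih) w

theorem wp_sb {G : Type*} [Group G] (g : ℕ → G) (W : List (List ℕ)) (w : List ℕ) :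
    wp (fun l => wp g (lk [] W l)) w = wp g (sb W w) := by
  induction w with
  | nil => rfl
  | cons a w ih => rw [wp_cons, ih]; exact (wp_lapp _ _).symm

theorem emb {G X : Type} [Group G] [Group X] {il kl : List ℕ} {R : List (List ℕ)} {B : ℕ} {gens : ℕ → G} {g : ℕ → X}
    (hb : Bound.{0} (iota il) R kl B) (s : Sat (iota il) R gens) (ht : cl gens (lw kl) = ⊤) (hB : Nat.card G = B)
    (hs : IsSimpleGroup G) {eqv : List ℕ → List ℕ → Bool} (he : ∀ u w, eqv u w = true → wp g u = wp g w) {W : List (List ℕ)}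
    (hc : band (Nat.ble (llen il) (llen W)) (band (nall (fun l => eqv (sb W [iota il l, l]) []) (llen W))
      (lall (fun r => eqv (sb W r) []) R)) = true)
    (h0 : wok (tb (mkM kl)) [0] = true) (hne : wp g (sb W [0]) ≠ wp g []) {Y : Type} [Group Y] (i : X ≃* Y) :
    ∃ K : Subgroup Y, IsSimpleGroup K ∧ Nat.card K = B := by
  have s' : Sat (iota il) R fun l => wp g (lk [] W l) := sat_of_test (t := fun w => eqv (sb W w) [])
    (fun w h => (wp_sb g W w).trans (he _ _ h))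
    (fun l h => by rw [lk_eq, List.getD_eq_default _ _ (by rwa [llen_eq] at h)]; rfl) hc
  obtain ⟨φ, -, b⟩ := hb.homTop s s' ht hB.ge
  have inj : Function.Injective φ := (MonoidHom.ker_eq_bot_iff φ).1 ((hs.eq_bot_or_eq_top_of_normal _ φ.normal_ker).resolve_right
    fun h => hne ((wp_sb g W _).symm.trans ((b _ h0).symm.trans (h.ge (Subgroup.mem_top _)))))
  let e := (MonoidHom.ofInjective inj).trans (i.subgroupMap φ.range)
  exact ⟨_, simple_congr e hs, (Nat.card_congr e.toEquiv).symm.trans hB⟩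

theorem gen {n : ℕ} (H : Subgroup (Equiv.Perm (Fin n))) (a : Fin n) (h : MulAction.orbit H a = Set.univ) :
    MulAction.IsPretransitive H (Fin n) ∧ n * Nat.card (MulAction.stabilizer H a) = Nat.card H := by
  haveI := (MulAction.isPretransitive_iff_orbit_eq_univ a).2 h
  refine ⟨this, ?_⟩
  rw [← Subgroup.index_mul_card (MulAction.stabilizer H a), MulAction.index_stabilizer_of_transitive, Nat.card_fin]

noncomputable def wJ : List (List ℕ) := [[6,4,3,2,3,6,1,2,6,3,4,3,2,3,1,2,3,2,1,3,2,3,4,3,7,2,1,7,3,2,3,4,7],[7,3,1,2,3,4,1,6,3,2,3,1,2,3,2,1,3,2,3,7,1,4,3,2,1,3,6],[1,7,3,1,2,6,4,3,2,1,7,4,3,2,1,0,1,2,3,4,6,1,2,3,4,7,2,1,3,6,1],[5,4,7,4,2,3,1,2,3,4,3,7,4,3,1,2,3,2,3,2,1,3,4,6,3,4,3,2,1,3,2,4,6,4,5],[2,3,6,4,5,3,4,1,2,3,2,6,1,2,3,2,1,7,2,3,2,1,4,3,5,4,7,3,2]]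
noncomputable def wM : List (List ℕ) := [[2,3,4,6,1,2,3,2,6,4,1,2,3,2,3,2,1,4,7,2,3,2,1,7,4,3,2],[1,2,3,7,4,1,2,7,3,4,1,7,4,2,3,2,4,6,1,4,3,6,2,1,4,6,3,2,1],[1,7,1,2,3,4,1,2,7,3,1,6,4,2,3,2,4,7,1,3,6,2,1,4,3,2,1,6,1],[1,2,3,7,4,1,2,3,6,4,0,1,6,3,2,3,2,3,7,1,0,4,7,3,2,1,4,6,3,2,1],[4,3,1,7,1,2,7,4,3,2,1,2,3,4,6,2,1,6,1,3,4]]
theorem exJ {Y : Type} [Group Y] (i : Spor.ON ≃* Y) : ∃ K : Subgroup Y, IsJ1 K :=
  emb JN.bdJ JN.satJ JN.topJ JN.cardJ JN.simpleJ ON.heqON (W := wJ) (by decide +kernel) (by decide +kernel)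
    (ON.modelON.ne_of_mp (p := 0) (by decide +kernel)) i
theorem exM {Y : Type} [Group Y] (i : Spor.ON ≃* Y) : ∃ K : Subgroup Y, IsM11 K :=
  emb MN.bdM MN.satM MN.topM MN.cardM MN.simpleM ON.heqON (W := wM) (by decide +kernel) (by decide +kernel)
    (ON.modelON.ne_of_mp (p := 0) (by decide +kernel)) i

end

/-- The O'Nan group exists as a transitive permutation group of degree 122760: simple of order 460815505920, point stabiliser of order 3753792, and containing simple subgroups of orders 175560 and 7920. -/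
theorem result : ∃ H : Subgroup (Equiv.Perm (Fin 122760)), Cfsg.IsON H ∧ MulAction.IsPretransitive H (Fin 122760) ∧ Nat.card (MulAction.stabilizer H (0 : Fin 122760)) = 3753792 ∧ (∃ K : Subgroup H, Cfsg.IsJ1 K) ∧ (∃ K : Subgroup H, Cfsg.IsM11 K) := by
  open Finset Pointwise Cfsg.Agent.St Cfsg.Agent.H6 in focus
    let i := MonoidHom.ofInjective ON.cardinjON.2
    have hc : Nat.card ON.piON.range = 460815505920 := (Nat.card_congr i.toEquiv).symm.trans ON.cardON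
    obtain ⟨h1, h2⟩ := gen ON.piON.range (0 : Fin 122760) (Set.eq_univ_of_forall fun y => by
      obtain ⟨g, hg⟩ : y ∈ MulAction.orbit Spor.ON (finX 122760 0) := ON.trON.ge ⟨y.1, y.2, Fin.ext (Nat.mod_eq_of_lt y.2)⟩
      exact ⟨i g, hg⟩)
    refine ⟨_, ⟨simple_congr i ON.simpleON, hc⟩, h1, ?_, exJ i, exM i⟩
    have h3 := h2.trans hc
    omega

end Cfsg.Agent.S0460
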