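import Cfsg.Statements.S0462
import Cfsg.Agent.GS.Mk1
import Cfsg.Agent.S1682
import Cfsg.Agent.S1683
import Cfsg.Agent.S1695

set_option autoImplicit false
open Cfsg

namespace Cfsg.Agent.S0462

section
open Finset Pointwise Cfsg.Agent.St Cfsg.Agent.H6

theorem real {G : Type} [Group G] (hG : IsHe G) (K : Subgroup G) (hK : K.index = 2058)
    (h : ∃ (N : Subgroup K) (F : Type) (_ : Field F) (_ : Fintype F), N.Normal ∧ N.index = 2 ∧ Fintype.card F = 4 ∧
      Nonempty (N ≃* Matrix.symplecticGroup (Fin 2) F)) :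
    ∃ H : Subgroup (Equiv.Perm (Fin 2058)), IsHe H ∧ MulAction.IsPretransitive H (Fin 2058) ∧ ∃ (F : Type) (_ : Field F) (_ : Fintype F),
      Fintype.card F = 4 ∧ ∃ N : Subgroup (MulAction.stabilizer H (0 : Fin 2058)), N.index = 2 ∧ Nonempty (N ≃* Matrix.symplecticGroup (Fin 2) F) := by
  classical
  obtain ⟨N, F, _, _, -, hN, hF, ⟨eN⟩⟩ := h
  haveI := hG.1
  haveI : Finite (G ⧸ K) := Nat.finite_of_card_ne_zero (by rw [← Subgroup.index, hK]; norm_num)
  let e0 : G ⧸ K ≃ Fin 2058 := Finite.equivFinOfCardEq hK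
  let e : G ⧸ K ≃ Fin 2058 := e0.trans (Equiv.swap (e0 (1 : G)) 0)
  have he : e (1 : G) = 0 := Equiv.swap_apply_left _ _
  let φ : G →* Equiv.Perm (Fin 2058) := e.permCongrHom.toMonoidHom.comp (MulAction.toPermHom G (G ⧸ K))
  have hφ : ∀ g q, φ g (e q) = e (g • q) := fun g q => by simp [φ, Equiv.permCongr_apply]
  have st : ∀ g, φ g 0 = 0 ↔ g ∈ K := fun g => by
    rw [← he, hφ, e.apply_eq_iff_eq, ← MulAction.mem_stabilizer_iff, MulAction.stabilizer_quotient]
  have inj : Function.Injective φ := (MonoidHom.ker_eq_bot_iff φ).1 (φ.normal_ker.eq_bot_or_eq_top.resolve_right fun h => by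
    have : K = ⊤ := eq_top_iff.2 fun g _ => (st g).1 (by rw [show φ g = 1 from h.ge (Subgroup.mem_top g)]; rfl)
    rw [this, Subgroup.index_top] at hK; omega)
  let i := MonoidHom.ofInjective inj
  let j : K ≃* MulAction.stabilizer φ.range (0 : Fin 2058) := (i.subgroupMap K).trans (MulEquiv.subgroupCongr (by
    ext x
    obtain ⟨g, rfl⟩ := i.surjective x
    rw [MulAction.mem_stabilizer_iff]
    exact ⟨fun ⟨y, hy, e⟩ => i.injective e ▸ (st y).2 hy, fun h => ⟨g, (st g).1 h, rfl⟩⟩))
  refine ⟨φ.range, ⟨i.symm.isSimpleGroup, (Nat.card_congr i.toEquiv).symm.trans hG.2⟩, ⟨fun x y => ?_⟩, F, inferInstance, inferInstance, hF,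
    N.map j.toMonoidHom, (Subgroup.index_map_of_bijective j.bijective N).trans hN, ⟨(j.subgroupMap N).symm.trans eN⟩⟩
  obtain ⟨g, hg⟩ := MulAction.exists_smul_eq G (e.symm x) (e.symm y)
  exact ⟨i g, by show φ g x = y; rw [← e.apply_symm_apply x, hφ, hg, e.apply_symm_apply]⟩

end

/-- The Held group exists as a transitive permutation group of degree 2058: simple of order 4030387200, with point stabiliser containing, with index 2, a copy of the 4-dimensional symplectic group over the field with four elements. -/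
theorem result : ∃ H : Subgroup (Equiv.Perm (Fin 2058)), Cfsg.IsHe H ∧ MulAction.IsPretransitive H (Fin 2058) ∧ ∃ (F : Type) (_ : Field F) (_ : Fintype F), Fintype.card F = 4 ∧ ∃ N : Subgroup (MulAction.stabilizer H (0 : Fin 2058)), N.index = 2 ∧ Nonempty (N ≃* Matrix.symplecticGroup (Fin 2) F) := by
  open Finset Pointwise Cfsg.Agent.St Cfsg.Agent.H6 in focus
    exact real S1695.result _ S1683.result.1 S1682.result

end Cfsg.Agent.S0462
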