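import Cfsg.Statements.S0471
import Cfsg.Agent.H6.U6c1

set_option autoImplicit false
open Cfsg

namespace Cfsg.Agent.S0471

open Cfsg.Agent
open scoped Pointwise commutatorElement
open H6 H6.Fi

/-- The Fischer group of order 64561751654400 exists as a 3-transposition group: a simple group of that order generated by a conjugacy class of 3510 3-transpositions, the centraliser of each being a non-split double cover of PSU(6, 2). -/
theorem result : ∃ (G : Type) (_ : Group G) (_ : Finite G), Cfsg.IsFi22 G ∧ ∃ D : Set G, Cfsg.IsThreeTranspositionClass D ∧ Nat.card D = 3510 ∧ ∀ d ∈ D, ∃ (F : Type) (_ : Field F) (_ : Fintype F), Fintype.card F = 4 ∧ Cfsg.IsNonsplitDoubleCover (Subgroup.centralizer ({d} : Set G)) (Cfsg.PSU 6 F 2) := by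
    letI : Fintype (GaloisField 2 2) := Fintype.ofFinite _
    have hF : Fintype.card (GaloisField 2 2) = 4 := by
      rw [← Nat.card_eq_fintype_card, GaloisField.card 2 2 (by norm_num)]; norm_num
    refine ⟨Spor.Fi22, inferInstance, inferInstance, ⟨simpleFi22, cardFi22⟩, _, ttc22, cardD22, fun d hd =>
      ⟨GaloisField 2 2, inferInstance, inferInstance, hF, ?_⟩⟩
    obtain ⟨e⟩ := centralizer_conj_equiv hd
    exact nonsplit_congr ((MulEquiv.subgroupCongr (stabFi22.trans centFi22.symm)).trans e) (cover22 hF)

end Cfsg.Agent.S0471
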