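import Cfsg.Statements.S1625
import Cfsg.Agent.H6.J3B12

set_option autoImplicit false
open scoped MatrixGroups
open Cfsg

namespace Cfsg.Agent.S1625

open Cfsg.Agent
open scoped Pointwise commutatorElement

/-- The matrix group over the field with 4 elements generated by the 9×9 matrices of the definitions (ω a root of ω² + ω + 1) has order 150698880 and centre of order 3; its central quotient is simple of order 50232960 = 2^7·3^5·5·17·19. -/
theorem result (F : Type) [Field F] [Fintype F] (hF : Fintype.card F = 4) (ω : F) (hω : ω ^ 2 + ω + 1 = 0) : Nat.card ↥(Subgroup.center ↥(Cfsg.Spor.threeJ3 F ω)) = 3 ∧ Nat.card ↥(Cfsg.Spor.threeJ3 F ω) = 150698880 ∧ Nat.card (Cfsg.Spor.J3 F ω) = 50232960 ∧ IsSimpleGroup (Cfsg.Spor.J3 F ω) := by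
  obtain ⟨h, ⟨e⟩⟩ := H6.J3.main hF ω hω
  have hc : Nat.card (Cfsg.Spor.J3 F ω) = 50232960 := (Nat.card_congr e.toEquiv).symm.trans H6.J3.cardJ
  refine ⟨h, ?_, hc, H6.simple_congr e H6.J3.simpleJ⟩
  rw [Subgroup.card_eq_card_quotient_mul_card_subgroup (Subgroup.center _), h]
  exact congrArg (· * 3) hc

end Cfsg.Agent.S1625
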