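import Cfsg.Statements.S0478
import Cfsg.Agent.GS.Mk1
import Cfsg.Agent.S1625

set_option autoImplicit false
open Cfsg

namespace Cfsg.Agent.S0478

section
open Finset Pointwise Cfsg.Agent.St Cfsg.Agent.H6

set_option maxRecDepth 100000
open Matrix in
theorem toSU {ι F : Type} [Fintype ι] [DecidableEq ι] [Field F] {n q : ℕ} (e : ι ≃ Fin n) (T : Subgroup (GL ι F))
    (h1 : T ≤ preserving ((reindexRingEquiv F e).toMonoidHom.comp (Units.coeHom _)) (hermForm n F q))
    (h2 : ∀ t ∈ T, GeneralLinearGroup.det t = 1) : ∃ φ : T →* SU n F q, Function.Injective φ := by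
  let φ0 : T →* SpecialLinearGroup (Fin n) F := MonoidHom.mk' (fun t => ⟨reindexRingEquiv F e t.1.1, by
    show (reindex e e _).det = 1
    rw [det_reindex_self]
    exact congrArg Units.val (h2 _ t.2)⟩) fun a b => Subtype.ext (map_mul (reindexRingEquiv F e) a.1.1 b.1.1)
  exact ⟨φ0.codRestrict _ fun t => h1 t.2, fun a b h => Subtype.ext (Units.ext ((reindexRingEquiv F e).injective
    (congrArg (fun x : SU n F q => x.1.1) h)))⟩

open Matrix in
theorem key {F : Type} [Field F] [Fintype F] (hF : Fintype.card F = 4) {ω : F} (hω : ω ^ 2 + ω + 1 = 0) :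
    ∃ φ : Spor.threeJ3 F ω →* SU 9 F 2, Function.Injective φ := by
  haveI : CharP F 2 := charP_of_card (k := 2) Nat.prime_two hF
  haveI : Fact (Nat.Prime 2) := ⟨Nat.prime_two⟩
  haveI : Fact (Nat.Prime 3) := ⟨Nat.prime_three⟩
  obtain ⟨h3, hT, -, hs⟩ := S1625.result F hF ω hω
  obtain ⟨g, hg⟩ := J3.base hω J3.k1 (J3.f2l J3.agr).1
  let ψ0 : GL Spor.F9 F →* Matrix (Fin 9) (Fin 9) F := (reindexRingEquiv F J3.ixF9.e).toMonoidHom.comp (Units.coeHom _)
  have hh : lall ((cd2 2 1 1).hermC 9 2) J3.bG = true := by decide +kernel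
  have herm : Spor.threeJ3 F ω ≤ preserving ψ0 (hermForm 9 F 2) := (Subgroup.closure_le _).2 fun M hM => by
    obtain ⟨u, hu, e⟩ := (J3.mem_gens hω _).1 hM
    obtain ⟨X, hX, a⟩ := (J3.f2l J3.agr).2 u hu
    have e2 : ψ0 M = toMat (ixFin 9) (cd2 2 1 1).q (val2 2 ω) X := by
      show reindex J3.ixF9.e J3.ixF9.e (M : Matrix Spor.F9 Spor.F9 F) = _
      rw [e, ← toMat_of (c := cd2 2 1 1) (I := J3.ixF9) u a]; ext i j; simp [toMat, Ix.ix, ixFin]
    intro u v
    rw [e2]
    exact (sem4 hω).hermC (frobenius F 2) (fun _ => rfl) ((lall_eq _ _).1 hh X hX) u v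
  let d : Spor.threeJ3 F ω →* Fˣ := GeneralLinearGroup.det.comp (Spor.threeJ3 F ω).subtype
  have hz : wp g [1,19,2,20] ∈ Subgroup.center _ := hg.sc (by decide +kernel)
  have hz1 : wp g [1,19,2,20] ≠ wp g [] := hg.nev (inj4 hω) (i := 0) (j := 0) (by decide +kernel)
  have e1 : wp g [1,2] = 1 := hg.one (by decide +kernel)
  have e2 : wp g [19,20] = 1 := hg.one (by decide +kernel)
  have hd : d (wp g [1,19,2,20]) = 1 := by
    have a := congrArg d e1
    have b := congrArg d e2
    simp only [wp_cons, wp_nil, map_mul, map_one, mul_one] at a b ⊢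
    rw [mul_left_comm (d (g 19)), ← mul_assoc, a, b, mul_one]
  have hZ : Subgroup.center (Spor.threeJ3 F ω) ≤ d.ker := by
    have := ((d.ker.subgroupOf (Subgroup.center _)).eq_bot_or_eq_top_of_prime_card (hp := ⟨by rw [h3]; exact Nat.prime_three⟩)).resolve_left fun h =>
      hz1 (congrArg Subtype.val (Subgroup.mem_bot.1 (h.le (show (⟨_, hz⟩ : Subgroup.center _) ∈ d.ker.subgroupOf _ from hd))))
    exact Subgroup.subgroupOf_eq_top.1 this
  have hK : d.ker = ⊤ := by
    have hc := Subgroup.comap_map_eq_self (f := QuotientGroup.mk' (Subgroup.center (Spor.threeJ3 F ω))) (H := d.ker)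
      (by rwa [QuotientGroup.ker_mk'])
    rcases hs.eq_bot_or_eq_top_of_normal _ (d.normal_ker.map _ (QuotientGroup.mk'_surjective _)) with h | h
    · rw [h, MonoidHom.comap_bot, QuotientGroup.ker_mk'] at hc
      have a := d.ker.index_mul_card
      rw [Subgroup.index_ker, ← hc, h3, hT] at a
      have b := Nat.card_le_card_of_injective _ d.range.subtype_injective
      rw [Nat.card_units, Nat.card_eq_fintype_card (α := F), hF] at b
      omega
    · rw [← hc, h, Subgroup.comap_top]
  exact toSU J3.ixF9.e _ herm fun t ht => hK.ge (Subgroup.mem_top ⟨t, ht⟩)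

end

/-- A triple cover of Janko's third group inside a unitary group: for a field F with four elements, the special unitary group of dimension 9 (with respect to the form with q = 2) has a subgroup whose centre has order 3 and whose quotient by its centre is simple of order 50232960. -/
theorem result : ∃ (F : Type) (_ : Field F) (_ : Fintype F), Fintype.card F = 4 ∧ ∃ H : Subgroup (Cfsg.SU 9 F 2), Nat.card (Subgroup.center H) = 3 ∧ Cfsg.IsJ3 (H ⧸ Subgroup.center H) := by
  open Finset Pointwise Cfsg.Agent.St Cfsg.Agent.H6 in focus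
    obtain ⟨F, _, _, hF⟩ := exists_F4
    obtain ⟨ω, hω⟩ := exists_w4 hF
    obtain ⟨φ, hφ⟩ := key hF hω
    obtain ⟨h3, -, hJ, hs⟩ := S1625.result F hF ω hω
    let i := MonoidHom.ofInjective hφ
    let e : Spor.J3 F ω ≃* φ.range ⧸ Subgroup.center φ.range := QuotientGroup.congr _ _ i (by
      ext x
      exact ⟨fun ⟨y, hy, e⟩ => e ▸ (Subgroup.centerCongr i ⟨y, hy⟩).2,
        fun h => ⟨i.symm x, (Subgroup.centerCongr i.symm ⟨x, h⟩).2, i.apply_symm_apply x⟩⟩)
    exact ⟨F, inferInstance, inferInstance, hF, φ.range, (Nat.card_congr (Subgroup.centerCongr i).toEquiv).symm.trans h3,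
      simple_congr e hs, (Nat.card_congr e.toEquiv).symm.trans hJ⟩

end Cfsg.Agent.S0478
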