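import Cfsg.Statements.S0481
import Mathlib
import Cfsg.Agent.H2.LX2

set_option autoImplicit false
open Cfsg

namespace Cfsg.Agent.S0481

open Cfsg.Agent.H2 Subgroup

/-- Large extraspecial subgroups: let z be an involution of a finite group G whose centraliser C contains a normal 2-subgroup Q with centre of order 2 and all squares central, such that every element of G centralising Q lies in Q. Then C contains a Sylow 2-subgroup of G, and any involution of G whose centraliser contains a Sylow 2-subgroup of G is conjugate to z. -/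
theorem result {G : Type*} [Group G] [Finite G] (z : G) (hz : orderOf z = 2) (Q : Subgroup G) (hQC : Q ≤ Subgroup.centralizer ({z} : Set G)) (hQn : ∀ g ∈ Subgroup.centralizer ({z} : Set G), ∀ q ∈ Q, g * q * g⁻¹ ∈ Q) (hQ2 : IsPGroup 2 Q) (hZ : Nat.card (Subgroup.center Q) = 2) (hsq : ∀ x : Q, x ^ 2 ∈ Subgroup.center Q) (hlarge : Subgroup.centralizer (Q : Set G) ≤ Q) : (∃ P : Sylow 2 G, (P : Subgroup G) ≤ Subgroup.centralizer ({z} : Set G)) ∧ ∀ u : G, orderOf u = 2 → (∃ P : Sylow 2 G, (P : Subgroup G) ≤ Subgroup.centralizer ({u} : Set G)) → IsConj z u := by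
  have hzQ : z ∈ Q := hlarge fun x hx => mem_cent1.1 (hQC hx)
  have h1 : Zc Q = zpowers z := by
    refine (H1.eq_of_le_of_card_prime ?_ (zpowers_le.2 (mem_Zc.2 ⟨hzQ, fun x hx =>
      mem_cent1.1 (hQC hx)⟩)) (by simpa using ord2_ne_one hz)).symm
    rw [← center_map_eq_Zc, H8.card_map_subtype, hZ]; exact Nat.prime_two
  obtain ⟨T, hT⟩ := exists_sylIn 2 (centralizer ({z} : Set G))
  have h2 : Q ≤ T := hT.normal_le hQ2 hQC (hT.le.trans (H8.le_normalizer_of_conj hQn))
  have h3 : Zc T = zpowers z := by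
    refine le_antisymm (fun x hx => ?_) (zpowers_le.2 ?_)
    · rw [← h1]
      have : x ∈ centralizer (Q : Set G) := fun y hy => (mem_Zc.1 hx).2 y (h2 hy)
      exact mem_Zc.2 ⟨hlarge this, this⟩
    · exact mem_Zc.2 ⟨h2 hzQ, fun x hx => mem_cent1.1 (hT.le hx)⟩
  have h4 : SylIn 2 T ⊤ := by
    refine sylIn_of_sylIn_normalizer (hT.mono (le_inf le_top le_normalizer) (inf_le_right.trans ?_))
    refine le_trans ?_ (normalizer_zpowers_invol (ord2_mul_self hz))
    rw [← h3, ← center_map_eq_Zc]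
    exact H8.normalizer_le_normalizer_map_of_char _
  obtain ⟨S, hS⟩ := h4.exists_sylow_top
  refine ⟨⟨S, hS ▸ hT.le⟩, ?_⟩
  rintro u hu ⟨P, hP⟩
  have h5 := sylIn_top P
  have h6 : u ∈ centralizer ((P : Subgroup G) : Set G) := fun x hx => mem_cent1.1 (hP hx)
  have h7 : u ∈ (P : Subgroup G) := h5.mem_of_mem_normalizer (mem_top u) (k := 1)
    (by simpa [pow_two] using ord2_mul_self hu) (centralizer_le_normalizer _ h6)
  obtain ⟨g, -, hg⟩ := h5.exists_cj_eq h4
  have h8 : g * u * g⁻¹ ∈ Zc T := by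
    rw [← hg]
    refine mem_Zc.2 ⟨H2.conj_mem_cj g h7, ?_⟩
    rintro _ ⟨x, hx, rfl⟩
    exact commute_conj (h6 x hx) g
  rw [h3, mem_zpowers_invol (ord2_mul_self hz)] at h8
  rcases h8 with e | e
  · exact absurd (by simpa using e) (ord2_ne_one hu)
  · exact (isConj_iff.2 ⟨g, e⟩).symm

end Cfsg.Agent.S0481
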