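import Cfsg.Statements.S0499
import Cfsg.Agent.GS.Misc1

set_option autoImplicit false
open Cfsg

namespace Cfsg.Agent.S0499

open Cfsg.Agent.H1

/-- A non-abelian finite simple group of even order has order divisible by 12, 16 or 56. -/
theorem result {G : Type*} [Group G] [Finite G] [IsSimpleGroup G]
    (hG : ¬ IsMulCommutative G) (h2 : Even (Nat.card G)) :
    12 ∣ Nat.card G ∨ 16 ∣ Nat.card G ∨ 56 ∣ Nat.card G := by
  open Subgroup Pointwise commutatorElement Cfsg.Agent.BG Cfsg.Agent.GS in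
  open Cfsg.Agent.H2 hiding card_lt_of_lt card_lt_of_ne_top isMulCommutative_of_le isPGroup_zpowers_iff mem_of_pow_mem_of_coprime inf_eq_bot_of_cop exists_maxElem_ge Sec in
  open Cfsg.Agent.H8 (Op Opp Fit SN) in
  open Cfsg.Agent.L (FPF) in focus
    obtain ⟨q, a, b, hq, -, c, d, e, f⟩ := exists_of_not_npc (not_npc_of_simple hG h2.two_dvd)
    by_cases h : 4 ≤ a
    · exact Or.inr (Or.inl ((pow_dvd_pow 2 h).trans e))
    obtain g | g | g : a - b = 1 ∨ a - b = 2 ∨ a - b = 3 := by omega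
    · exact absurd (by simpa [g] using f) hq.ne_one
    · rw [(Nat.prime_dvd_prime_iff_eq hq Nat.prime_three).1 (by simpa [g] using f)] at c
      exact Or.inl ((by decide : Nat.Coprime 3 (2 ^ 2)).mul_dvd_of_dvd_of_dvd c ((pow_dvd_pow 2 (by omega)).trans e))
    · rw [(Nat.prime_dvd_prime_iff_eq hq (by decide : Nat.Prime 7)).1 (by simpa [g] using f)] at c
      exact Or.inr (Or.inr ((by decide : Nat.Coprime 7 (2 ^ 3)).mul_dvd_of_dvd_of_dvd c ((pow_dvd_pow 2 (by omega)).trans e)))

end Cfsg.Agent.S0499
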