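import Cfsg.Statements.S0505
import Cfsg.Agent.H8.Spe
import Cfsg.Agent.H8.Sig2

set_option autoImplicit false
open Cfsg

namespace Cfsg.Agent.S0505

open Subgroup Cfsg.Agent.H1 Cfsg.Agent.BG Cfsg.Agent.SF
open Cfsg.Agent.H2 hiding card_lt_of_lt card_lt_of_ne_top isMulCommutative_of_le isPGroup_zpowers_iff mem_of_pow_mem_of_coprime
open Cfsg.Agent.H8 (Op Opp Fit Fs Lay PLay SN Comp PComp Op_le Opp_le Opp_coprime Op_isPGroup le_normalizer_Op le_normalizer_Opp
  le_normalizer_Opp_of le_normalizer_Op_of le_Op le_Opp inf_Opp_le le_of_centralizers)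


/-- Let G be a finite group of even order in which the centralizer of every involution is solvable and has trivial
core (no nontrivial normal subgroup of odd order). Then G is of characteristic 2 type. -/
theorem result {G : Type*} [Group G] [Finite G]
    (h2 : Even (Nat.card G))
    (hs : ∀ t : G, orderOf t = 2 → Group.IsSolvable (Subgroup.centralizer ({t} : Set G)))
    (hc : ∀ t : G, orderOf t = 2 → Cfsg.oddCore (Subgroup.centralizer ({t} : Set G)) = ⊥) :
    Cfsg.IsCharacteristicTwoType G := by
  exact H8.charTwoType_iff.2 ⟨h2, fun t ht => H8.Fs_eq_Op_of_solvable (hs t ht)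
    (H8.map_subtype_eq_bot_iff.2 (hc t ht))⟩

end Cfsg.Agent.S0505
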