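import Cfsg.Statements.S0514
import Mathlib
import Cfsg.Agent.H2.MCF

set_option autoImplicit false
open Cfsg

namespace Cfsg.Agent.S0514

open Cfsg.Agent.H2 Cfsg.Agent.L Subgroup

/-- In a finite group whose Sylow 2-subgroups are dihedral of order at least 4, the centralizer of any involution has a
normal subgroup of odd order whose index in the centralizer is a power of 2. -/
theorem result {X : Type*} [Group X] [Finite X]
    (S : Sylow 2 X) (n : ℕ) (hn : 2 ≤ n) (hS : Nonempty ((S : Subgroup X) ≃* DihedralGroup n)) (t : X)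
    (ht : orderOf t = 2) :
    ∃ N : Subgroup (Subgroup.centralizer ({t} : Set X)), N.Normal ∧ Odd (Nat.card N) ∧ ∃ k : ℕ, N.index = 2 ^ k := by
  have h : PNil 2 (centralizer ({t} : Set X)) := by
    refine pNil_of_forall_centralizer fun U hU hU2 _ g hg ho => ?_
    by_contra hn
    have hc : ∀ c ∈ centralizer ({t} : Set X), c * t * c⁻¹ = t := fun c hc =>
      mem_centralizer_singleton_conj.1 hc
    have htn : U ≤ normalizer (zpowers t : Set X) := fun u hu => by
      rw [mem_normalizer_iff_cj, cj_zpowers, hc u (hU hu)]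
    have h2 : IsPGroup 2 ↥(U ⊔ zpowers t) :=
      IsPGroup.to_sup_of_normal_right' hU2 (isPGroup_zpowers_ord2 ht) htn
    have h3 : g ∈ normalizer ((U ⊔ zpowers t : Subgroup X) : Set X) := by
      rw [mem_normalizer_iff_cj, cj_sup, cj_zpowers, hc g hg.1, cj_eq_of_mem_normalizer hg.2]
    obtain ⟨s, hs⟩ := exists_cj_le_sylow S h2
    have h4 : s * g * s⁻¹ ∈ normalizer (cj s (U ⊔ zpowers t) : Set X) := by
      rw [← cj_normalizer]; exact conj_mem_cj s h3
    have hf := oddAut_conj h4 (by rwa [orderOf_conj'])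
    have hne := exists_conj_ne (V := cj s (U ⊔ zpowers t)) (g := s * g * s⁻¹) (by
      rw [← cj_centralizer, conj_mem_cj_iff]
      exact fun e => hn (centralizer_le (SetLike.coe_subset_coe.2 le_sup_left) e))
    have h5 := isKleinFour_of_dih S.2 hS.some hs hf hne
    have h6 : s * t * s⁻¹ ∈ cj s (U ⊔ zpowers t) := conj_mem_cj s (mem_sup_right (mem_zpowers t))
    obtain ⟨b, hk⟩ := exists_k4_of_mem h5 h6 (ord2_ne_one (ord2_conj ht s))
    refine hf.not_mem_zpowers hk.isPGroup h6 hk.ix2 hne ?_
    have : s * g * s⁻¹ * (s * t * s⁻¹) * (s * g * s⁻¹)⁻¹ = s * (g * t * g⁻¹) * s⁻¹ := by group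
    rw [this, hc g hg.1]; exact mem_zpowers _
  refine ⟨pResidual 2 _, inferInstance, ?_, index_pResidual 2 _⟩
  have := pNil_iff_card.1 (pNil_top_subtype_iff.2 h)
  rw [resOf_top] at this
  exact Nat.coprime_two_right.1 this

end Cfsg.Agent.S0514
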