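import Cfsg.Statements.S0508
import Mathlib
import Cfsg.Agent.H7.BSW4
import Cfsg.Agent.S0514

set_option autoImplicit false
open Cfsg

namespace Cfsg.Agent.S0508

open Cfsg.Agent.H7 Cfsg.Agent.H2 Subgroup

/-- Let G be a finite simple group with a dihedral Sylow 2-subgroup S (of order at least 4), t an involution in the
centre of S, C the centralizer of t and O the core of C (its largest normal subgroup of odd order). Suppose that: if O
is nontrivial then the centralizer of O in S is cyclic of index 2 in S; every element of S not centralizing O inverts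
every element of O; and the normalizer of every nontrivial subgroup of O lies in C. Then G is isomorphic to a projective
special linear group of dimension 2 over a field of odd order. -/
theorem result {G : Type*} [Group G] [Finite G] [IsSimpleGroup G] (S : Sylow 2 G) (n : ℕ)
    (hn : 2 ≤ n) (hS : Nonempty ((S : Subgroup G) ≃* DihedralGroup n)) (t : G) (ht : orderOf t = 2)
    (htS : t ∈ (S : Subgroup G))
    (htZ : ∀ s ∈ (S : Subgroup G), s * t = t * s) (O : Subgroup G)
    (hO : O = (Cfsg.oddCore (Subgroup.centralizer ({t} : Set G))).map (Subgroup.centralizer ({t} : Set G)).subtype)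
    (ha : O ≠ ⊥ → IsCyclic ((S : Subgroup G) ⊓ Subgroup.centralizer (O : Set G) : Subgroup G) ∧
      ((S : Subgroup G) ⊓ Subgroup.centralizer (O : Set G)).relIndex (S : Subgroup G) = 2)
    (hb : ∀ s ∈ (S : Subgroup G), s ∉ Subgroup.centralizer (O : Set G) → ∀ y ∈ O, s * y * s⁻¹ = y⁻¹)
    (hc : ∀ Y : Subgroup G, Y ≤ O → Y ≠ ⊥ → Subgroup.normalizer (Y : Set G) ≤ Subgroup.centralizer ({t} : Set G)) :
    ∃ (F : Type) (_ : Field F) (_ : Fintype F), Odd (Fintype.card F) ∧ Nonempty (G ≃* Matrix.ProjectiveSpecialLinearGroup (Fin 2) F) := by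
  obtain ⟨K, s, d⟩ := exists_DS S.2 hn hS.some ht htS htZ
  have hSc : 4 ≤ Nat.card (S : Subgroup G) := by
    rw [Nat.card_congr hS.some.toEquiv, DihedralGroup.nat_card]; omega
  have hG : ∀ H : Subgroup G, H.index ≠ 2 := fun H hH => by
    rcases (normal_of_index_eq_two hH).eq_bot_or_eq_top with rfl | rfl
    · have := (S : Subgroup G).card_le_card_group
      rw [index_bot] at hH; omega
    · simp at hH
  have hp : commutator G = ⊤ := (inferInstance : (commutator G).Normal).eq_bot_or_eq_top.resolve_left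
    fun e => by
      haveI : IsMulCommutative G := (commutator_eq_bot_iff G).1 e
      letI : CommGroup G := { (inferInstance : Group G) with mul_comm := mul_comm' }
      have h1 := IsSimpleGroup.prime_card (α := G)
      have h2 := (Nat.prime_dvd_prime_iff_eq Nat.prime_two h1).1 (ht ▸ orderOf_dvd_natCard t)
      have := (S : Subgroup G).card_le_card_group
      omega
  have hSC : (S : Subgroup G) ≤ centralizer ({t} : Set G) := fun g hg =>
    mem_centralizer_singleton_iff.2 (htZ g hg)
  have hOC : O ≤ centralizer ({t} : Set G) := hO ▸ map_subtype_le _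
  have hOo : Odd (Nat.card O) := by
    rw [hO, card_map_of_injective (subtype_injective _)]; exact L.odd_card_oddCore
  have hOn : centralizer ({t} : Set G) ≤ normalizer (O : Set G) := by
    intro g hg
    rw [hO, mem_normalizer_iff'']
    have key : ∀ g ∈ centralizer ({t} : Set G), ∀ x ∈ (oddCore (centralizer ({t} : Set G))).map
        (centralizer ({t} : Set G)).subtype, g * x * g⁻¹ ∈ (oddCore (centralizer ({t} : Set G))).map
        (centralizer ({t} : Set G)).subtype := by
      rintro g hg _ ⟨x, hx, rfl⟩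
      exact ⟨_, (inferInstance : (oddCore (centralizer ({t} : Set G))).Normal).conj_mem x hx ⟨g, hg⟩, rfl⟩
    intro x
    refine ⟨fun hx => by simpa using key g⁻¹ (inv_mem hg) x hx, fun hx => ?_⟩
    have := key g hg _ hx
    simpa [mul_assoc] using this
  have hSO : ∀ x ∈ (S : Subgroup G), x ∈ O → x = 1 := fun x h1 h2 =>
    eq_one_of_mem_pgroup_of_coprime S.2 h1 (hOo.of_dvd_nat (orderOf_dvd_natCard O h2)).coprime_two_right
  have hdec : ∀ g ∈ centralizer ({t} : Set G), ∃ o ∈ O, ∃ σ ∈ (S : Subgroup G), o * σ = g := fun g hg => by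
    obtain ⟨N, hN, h1, k, h2⟩ := S0514.result S n hn hS t ht
    have h3 : N ≤ oddCore _ := L.le_pPrimeCore h1.coprime_two_right
    have h4 : oddCore (centralizer ({t} : Set G)) ⊔ (S.subtype hSC : Subgroup _) = ⊤ := by
      refine index_eq_one.1 (Nat.Coprime.eq_one_of_dvd ?_ dvd_rfl)
      refine Nat.Coprime.coprime_dvd_left ((index_dvd_of_le (h3.trans le_sup_left)).trans h2.dvd)
        (Nat.Coprime.pow_left _ (Nat.Coprime.coprime_dvd_right (index_dvd_of_le le_sup_right) ?_))
      exact (Nat.Prime.coprime_iff_not_dvd Nat.prime_two).2 (S.subtype hSC).not_dvd_index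
    have : (⟨g, hg⟩ : centralizer ({t} : Set G)) ∈ ((oddCore (centralizer ({t} : Set G)) ⊔
      (S.subtype hSC : Subgroup _) : Subgroup _) : Set _) := by rw [h4]; trivial
    rw [normal_mul] at this
    obtain ⟨a, ha, b, hb, e⟩ := this
    exact ⟨a, hO ▸ ⟨a, ha, rfl⟩, b, hb, congrArg Subtype.val e⟩
  have hKO : K ≤ centralizer (O : Set G) ∧ ∀ y ∈ O, s * y * s⁻¹ = y⁻¹ := by
    by_cases h0 : O = ⊥
    · subst h0
      exact ⟨fun x _ y hy => by rw [mem_bot.1 hy]; simp, fun y hy => by rw [mem_bot.1 hy]; simp⟩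
    obtain ⟨h1, h2⟩ := ha h0
    obtain ⟨a, ha⟩ := (Subgroup.isCyclic_iff_exists_zpowers_eq_top _).1 h1
    have tC : t ∈ (S : Subgroup G) ⊓ centralizer (O : Set G) :=
      ⟨htS, fun y hy => mem_centralizer_singleton_iff.1 (hOC hy)⟩
    have aS : a ∈ (S : Subgroup G) := (ha.le (mem_zpowers a)).1
    have aK : a ∈ K := by
      by_contra aK
      have a2 := (d.mem a aS).resolve_left aK
      have a3 : a * a = 1 := by
        have h1 := d.inv _ a2
        rw [inv_of_ord d.ord, mul_inv_rev, inv_of_ord d.ord, mul_assoc, mul_assoc,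
          mul_self_of_ord d.ord, mul_one, mul_left_cancel_iff] at h1
        exact mul_eq_one_iff_eq_inv.2 h1
      obtain ⟨i, hi⟩ := ha.ge tC
      obtain ⟨j, rfl | rfl⟩ := Int.even_or_odd' i
      · exact ne_one_of_ord ht (by rw [← hi]; simp only; rw [zpow_mul, zpow_two, a3, one_zpow])
      · simp only at hi
        rw [zpow_add_one, zpow_mul, zpow_two, a3, one_zpow, one_mul] at hi
        exact aK (hi ▸ d.tK)
    have e : (S : Subgroup G) ⊓ centralizer (O : Set G) = K :=
      eq_of_le_of_card_ge (ha ▸ zpowers_le_of_mem aK) (by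
        have a1 := H1.card_mul_relIndex d.le
        have a2 := H1.card_mul_relIndex (inf_le_left : (S : Subgroup G) ⊓ centralizer (O : Set G) ≤ S)
        rw [d.idx] at a1
        rw [h2] at a2
        omega)
    exact ⟨e.ge.trans inf_le_right, hb s d.sS fun a => d.nm (e.le ⟨d.sS, a⟩)⟩
  have hmem : ∀ g, g ∈ O ⊔ K ↔ ∃ o ∈ O, ∃ k ∈ K, o * k = g := fun g => by
    rw [← SetLike.mem_coe, coe_mul_of_right_le_normalizer_left _ _ ((d.le.trans hSC).trans hOn)]
    rfl
  have h : BSW t (O ⊔ K) s := by
    refine BSW.of ht (mem_sup_right d.tK) d.ord (fun a => ?_) (fun x hx => ?_) (fun x hx e => ?_)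
      (fun g hg => ?_) (fun x hx x1 ho g hg => ?_) (d.conj hG)
    · obtain ⟨o, ho, k, hk, e⟩ := (hmem s).1 a
      rw [hSO o (by rw [eq_mul_inv_of_mul_eq e]; exact mul_mem d.sS (inv_mem (d.le hk))) ho, one_mul] at e
      exact d.nm (e ▸ hk)
    · obtain ⟨o, ho, k, hk, rfl⟩ := (hmem x).1 hx
      rw [← conj_mul, hKO.2 o ho, d.inv k hk, ← mul_inv_rev, hKO.1 hk o ho]
    · obtain ⟨o, ho, k, hk, rfl⟩ := (hmem x).1 hx
      have c : Commute o k := hKO.1 hk o ho
      have e' : o ^ 2 * k ^ 2 = 1 := by rw [← c.mul_pow, pow_two, e]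
      have o2 : o ^ 2 = 1 := hSO _ (by
        rw [eq_inv_of_mul_eq_one_left e']; exact inv_mem (pow_mem (d.le hk) _)) (pow_mem ho _)
      have o1 : o = 1 := orderOf_eq_one_iff.1 (Nat.Coprime.eq_one_of_dvd
        (hOo.of_dvd_nat (orderOf_dvd_natCard O ho)).coprime_two_right (orderOf_dvd_of_pow_eq_one o2))
      rw [o1, one_mul] at e ⊢
      exact d.uniq k hk e
    · obtain ⟨o, ho, σ, hσ, rfl⟩ := hdec g (mem_centralizer_singleton_iff.2 hg)
      exact (d.mem σ hσ).imp (fun a => mul_mem_sup ho a) fun a => mul_assoc o σ s ▸ mul_mem_sup ho a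
    · obtain ⟨o, ho', k, hk, rfl⟩ := (hmem x).1 hx
      have c : Commute o k := hKO.1 hk o ho'
      have e := pow_orderOf_eq_one (o * k)
      rw [c.mul_pow] at e
      have k1 : k = 1 := eq_one_of_mem_pgroup_of_coprime S.2 (d.le hk) (Odd.coprime_two_right
        (ho.of_dvd_nat (orderOf_dvd_of_pow_eq_one (hSO _ (pow_mem (d.le hk) _) (by
          rw [eq_inv_of_mul_eq_one_right e]; exact inv_mem (pow_mem ho' _))))))
      rw [k1, mul_one] at x1 hg
      refine mem_centralizer_singleton_iff.1 (hc (zpowers o) (zpowers_le_of_mem ho')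
        (zpowers_ne_bot.2 x1) (centralizer_le_normalizer _ ?_))
      rw [centralizer_zpowers]
      exact mem_centralizer_singleton_iff.2 hg
  obtain ⟨q, h1, -, ⟨F, _, _, hF⟩, h3⟩ := h.exists_psl (Or.inr hp)
  exact ⟨F, _, _, Nat.odd_iff.2 (by omega), h3 F hF⟩

end Cfsg.Agent.S0508
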