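import Cfsg.Statements.S0518
import Mathlib
import Cfsg.Agent.H2.JC5

set_option autoImplicit false
open Cfsg

namespace Cfsg.Agent.S0518

open Cfsg.Agent.H2 Cfsg.Agent.H2.JC Subgroup

/-- Let G be a finite group of characteristic 2 type with trivial 2-core in which every 2-local subgroup is solvable
and, for every Sylow 2-subgroup S, the centralizer of the set of central involutions of S lies in the normalizer of S.
Then either G has a strongly embedded subgroup, or the subgroup generated by the elements of odd order has two distinct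
maximal 2-local subgroups, each isomorphic to the symmetric group of degree 4, whose intersection has order 8. -/
theorem result {G : Type*} [Group G] [Finite G]
    (hL : Cfsg.IsCharacteristicTwoType G) (hO : Cfsg.pCore 2 G = ⊥)
    (hN : ∀ N : Subgroup G, Cfsg.IsTwoLocal N → Group.IsSolvable N)
    (hZ : ∀ S : Sylow 2 G,
      Subgroup.centralizer {z : G | z ∈ (S : Subgroup G) ∧ z ^ 2 = 1 ∧ ∀ s ∈ (S : Subgroup G), s * z = z * s} ≤
        Subgroup.normalizer ((S : Subgroup G) : Set G))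
    (H : Subgroup G) (hH : H = Subgroup.closure {g : G | Odd (orderOf g)}) :
    (∃ K : Subgroup G, Cfsg.IsStronglyEmbedded K) ∨
      ∃ M₁ M₂ : Subgroup H, M₁ ≠ M₂ ∧ Cfsg.IsMaximalTwoLocal M₁ ∧ Cfsg.IsMaximalTwoLocal M₂ ∧
        Nonempty (M₁ ≃* Equiv.Perm (Fin 4)) ∧ Nonempty (M₂ ≃* Equiv.Perm (Fin 4)) ∧ Nat.card ↥(M₁ ⊓ M₂) = 8 := by
  obtain rfl : H = resOf 2 ⊤ := by simp [hH, resOf]
  have z := zn_mk hL hN fun S => le_trans (centralizer_le fun x hx => mem_OZ.2
    ⟨hx.1, hx.2.2, sq x ▸ hx.2.1⟩) (hZ S)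
  refine (z.s4_type hL.1 hO).imp_right fun ⟨T, K, L, K', L', u, v, hb⟩ => ?_
  obtain ⟨h1, h2⟩ := u.final v hb
  obtain ⟨h3, h4⟩ := v.final u (SD.hb' hb)
  have e := u.inf_res v hb
  have h5 : L ⊓ L' = T := le_antisymm (by
    by_contra h
    exact u.not_Q_le v hb (H8.le_Op (u.r.1.Q_le.trans v.r.le) ((eq_of_le_of_card_ge
      (u.r.1.gen' v.r.le inf_le_left h inf_le_right) (by
        rw [card_eq_relIndex_mul u.r.le, card_eq_relIndex_mul v.r.le, u.r.idx, v.r.idx])).ge.trans
          A3.Loc.nQ) (H8.Op_isPGroup 2 L))) (le_inf u.r.le v.r.le)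
  have h6 : Nat.card ↥(L.subgroupOf (resOf 2 ⊤) ⊓ L'.subgroupOf (resOf 2 ⊤)) = 8 := by
    rw [← comap_subtype, ← comap_subtype, ← comap_inf, h5, comap_subtype, ← inf_subgroupOf_right,
      Nat.card_congr (subgroupOfEquivOfLe inf_le_right).toEquiv, e, u.card_T0 v hb]
  refine ⟨_, _, fun e => ?_, h1, h3, h2, h4, h6⟩
  rw [← e, inf_idem, Nat.card_congr h2.some.toEquiv, Nat.card_perm] at h6
  simp [Nat.factorial] at h6

end Cfsg.Agent.S0518
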