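import Cfsg.Statements.S0519
import Cfsg.Agent.L.PCyc2

set_option autoImplicit false
open Cfsg

namespace Cfsg.Agent.S0519

open Cfsg.Agent

/-- Let P be a finite p-group in which every abelian normal subgroup is cyclic, but which has a non-cyclic abelian
subgroup. Then p = 2 and P is generalized quaternion, dihedral of order at least 16, or quasi-dihedral. -/
theorem result {P : Type*} [Group P] [Finite P] (p : ℕ) [Fact p.Prime]
    (hP : IsPGroup p P) (hn : ∀ A : Subgroup P, A.Normal → IsMulCommutative A → IsCyclic A)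
    (hm : ∃ B : Subgroup P, IsMulCommutative B ∧ ¬ IsCyclic B) :
    p = 2 ∧ ((∃ n : ℕ, Nonempty (P ≃* QuaternionGroup n)) ∨ (∃ n : ℕ, 8 ≤ n ∧ Nonempty (P ≃* DihedralGroup n)) ∨
      Cfsg.IsQuasiDihedral P) := by
  rcases L.structure_of_normal_elementary_cyclic hP (fun A h1 h2 => hn A h1 h2.1) with
    h | ⟨rfl, n, a, b, h3, hc, ha, hi, hb, hcases⟩
  · obtain ⟨B, -, hB⟩ := hm
    exact (hB inferInstance).elim
  refine ⟨rfl, ?_⟩
  obtain ⟨m, rfl⟩ : ∃ m, n = m + 3 := ⟨n - 3, by omega⟩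
  rcases hcases with h1 | h1 | h1
  · refine Or.inr (Or.inl ⟨2 ^ (m + 2), ?_, L.nonempty_equiv_dihedral ha hb h1.2.1 h1.2.2 (by rw [hc]; ring)⟩)
    exact Nat.pow_le_pow_right (n := 2) (i := 3) (by norm_num) (by omega)
  · exact Or.inl ⟨2 ^ (m + 1), L.nonempty_equiv_quaternion (by rw [ha, ← pow_succ']; rfl) hb h1.1 h1.2
      (by rw [hc]; ring)⟩
  · exact Or.inr (Or.inr ⟨m + 2, by omega, hc, a, b, ha,
      orderOf_eq_prime h1.2.1 fun h => hb (h ▸ one_mem _), h1.2.2⟩)

end Cfsg.Agent.S0519
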