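import Cfsg.Statements.S0521
import Cfsg.Agent.H8.Stb

set_option autoImplicit false
open Cfsg

namespace Cfsg.Agent.S0521

open Subgroup Cfsg.Agent.H1 Cfsg.Agent.BG Cfsg.Agent.SF
open Cfsg.Agent.H2 hiding card_lt_of_lt card_lt_of_ne_top isMulCommutative_of_le isPGroup_zpowers_iff mem_of_pow_mem_of_coprime
open Cfsg.Agent.H8 (Op Opp Fit Fs Lay PLay SN Comp PComp Op_le Opp_le Opp_coprime Op_isPGroup le_normalizer_Op le_normalizer_Opp
  le_normalizer_Opp_of le_normalizer_Op_of le_Op le_Opp inf_Opp_le le_of_centralizers)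


/-- Let X be a finite solvable group of odd order, p a prime and S a Sylow p-subgroup of X whose commutator subgroup is
cyclic. Then the product of the largest normal subgroup of X of order prime to p with S is a normal subgroup of X. -/
theorem result {X : Type*} [Group X] [Finite X] [Group.IsSolvable X]
    (hX : Odd (Nat.card X)) (p : ℕ) [Fact p.Prime] (S : Sylow p X) (hS : IsCyclic (commutator (S : Subgroup X))) :
    (Cfsg.pPrimeCore p X ⊔ (S : Subgroup X)).Normal := by
  have := pPrimeCore_normal' p X
  set f := QuotientGroup.mk' (pPrimeCore p X) with hf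
  have hS' := sylIn_mk' (sylIn_top S) (pPrimeCore p X)
  have h1 : (S : Subgroup X).map f = Op p ⊤ := by
    refine le_antisymm ?_ (Op_le_sylIn hS')
    by_cases hp2 : p = 2
    · subst hp2
      rw [((sylIn_top S).eq_bot_iff).2 (by
        rw [card_top]; exact fun e => (Nat.not_even_iff_odd.2 hX) (even_iff_two_dvd.2 e)), Subgroup.map_bot]
      exact bot_le
    refine le_Op_of_cyclic_der hp2 (pSt_of_odd hp2 (odd_quot hX _))
      (quot_char (H8.PLay_eq_bot_of_solvable inferInstance)) hS'.pgrp le_top (Op_le_sylIn hS') ?_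
    rw [← map_commutator, ← commutator_map_subtype']
    exact isCyclic_map f (isCyclic_map _ hS)
  have h2 := H8.normal_of_top_le (le_normalizer_Op p (⊤ : Subgroup (X ⧸ pPrimeCore p X)))
  have h3 := h2.comap f
  rwa [← h1, comap_map_eq, QuotientGroup.ker_mk', sup_comm] at h3

end Cfsg.Agent.S0521
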