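import Cfsg.Statements.S0522
import Cfsg.Agent.H8.Stb

set_option autoImplicit false
open Cfsg

namespace Cfsg.Agent.S0522

open Subgroup Cfsg.Agent.H1 Cfsg.Agent.BG Cfsg.Agent.SF
open Cfsg.Agent.H2 hiding card_lt_of_lt card_lt_of_ne_top isMulCommutative_of_le isPGroup_zpowers_iff mem_of_pow_mem_of_coprime
open Cfsg.Agent.H8 (Op Opp Fit Fs Lay PLay SN Comp PComp Op_le Opp_le Opp_coprime Op_isPGroup le_normalizer_Op le_normalizer_Opp
  le_normalizer_Opp_of le_normalizer_Op_of le_Op le_Opp inf_Opp_le le_of_centralizers)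


/-- Transitivity Theorem (odd-order setting). Let X be a finite group of odd order in which the normalizer of every
nontrivial p-subgroup is solvable, P a Sylow p-subgroup, and B an abelian subgroup of P, normalized by P, with
C_P(B) = B and containing an elementary abelian subgroup of order p^3. Then for every prime q ≠ p, any two q-subgroups
that are maximal among the q-subgroups normalized by B are conjugate by an element of the centralizer of B. -/
theorem result {X : Type*} [Group X] [Finite X] (hX : Odd (Nat.card X)) (p : ℕ)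
    [Fact p.Prime] (hloc : ∀ T : Subgroup X, IsPGroup p T → T ≠ ⊥ → Group.IsSolvable (Subgroup.normalizer (T : Set X)))
    (P : Sylow p X) (B : Subgroup X) (hBP : B ≤ (P : Subgroup X))
    (hBn : ∀ x ∈ (P : Subgroup X), ∀ b ∈ B, x * b * x⁻¹ ∈ B) (hBa : IsMulCommutative B)
    (hBc : (P : Subgroup X) ⊓ Subgroup.centralizer (B : Set X) = B)
    (hB3 : ∃ E : Subgroup X, E ≤ B ∧ (∀ e ∈ E, e ^ p = 1) ∧ p ^ 3 ≤ Nat.card E)
    (q : ℕ) [Fact q.Prime] (hqp : q ≠ p) (Q₁ Q₂ : Subgroup X)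
    (h₁ : IsPGroup q Q₁ ∧ B ≤ Subgroup.normalizer (Q₁ : Set X) ∧
      ∀ R : Subgroup X, IsPGroup q R → B ≤ Subgroup.normalizer (R : Set X) → Q₁ ≤ R → R = Q₁)
    (h₂ : IsPGroup q Q₂ ∧ B ≤ Subgroup.normalizer (Q₂ : Set X) ∧
      ∀ R : Subgroup X, IsPGroup q R → B ≤ Subgroup.normalizer (R : Set X) → Q₂ ≤ R → R = Q₂) :
    ∃ c ∈ Subgroup.centralizer (B : Set X), Q₂ = Q₁.map (MulAut.conj c).toMonoidHom := by
  have hs := odd_order hX
  have hp2 : p ≠ 2 := by
    rintro rfl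
    obtain ⟨E, h1, h2, h3⟩ := hB3
    have h4 := BL.dvd_card_of_pgroup (isPGroup_of_le P.isPGroup' (h1.trans hBP))
      (H8.ne_bot_of_pow_le h3) (le_top (a := E))
    rw [card_top] at h4
    exact (Nat.not_even_iff_odd.2 hX) (even_iff_two_dvd.2 h4)
  have hO := card_pPrimeCore_coprime p X
  have hn : B ≤ 𝒩 (pPrimeCore p X) := le_top.trans (H8.normal_iff_top_le.1 (pPrimeCore_normal' p X))
  have hBp := isPGroup_of_le P.isPGroup' hBP
  have key : ∀ Q : Subgroup X, (IsPGroup q Q ∧ B ≤ 𝒩 Q ∧ ∀ R : Subgroup X, IsPGroup q R → B ≤ 𝒩 R → Q ≤ R → R = Q) →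
      SylIn q Q (pPrimeCore p X) := fun Q h => by
    obtain ⟨R, h1, h2, h3⟩ := exists_inv_sylIn_ge hn (coprime_of_pgroup hBp hO) (Or.inr inferInstance)
      (le_pPrimeCore_of_SCN (pSt_of_odd hp2 (odd_quot hX _)) (H8.PLay_eq_bot_of_solvable inferInstance)
        (sylIn_top P) hBP (H8.le_normalizer_of_conj hBn) hBa hBc.le (coprime_primes_pgroup h.1 hqp) h.2.1)
      h.1 h.2.1
    exact h.2.2 R h1.pgrp h3 h2 ▸ h1
  obtain ⟨c, hc, h⟩ := inv_sylIn_conj hn (coprime_of_pgroup hBp hO) (Or.inr inferInstance) (key _ h₁) (key _ h₂)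
    h₁.2.1 h₂.2.1
  exact ⟨c, hc.2, h.symm⟩

end Cfsg.Agent.S0522
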