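import Cfsg.Statements.S0525
import Cfsg.Agent.H1.Misc

set_option autoImplicit false
open Cfsg

namespace Cfsg.Agent.S0525

open Cfsg.Agent.H1

/-- A direct product of two finite supersolvable groups is supersolvable. -/
theorem result {G H : Type*} [Group G] [Group H] [Finite G] [Finite H] (hG : Cfsg.IsSupersolvable G) (hH : Cfsg.IsSupersolvable H) : Cfsg.IsSupersolvable (G × H) := by
  refine isSupersolvable_of_inf_eq_bot (MonoidHom.fst G H).ker (MonoidHom.snd G H).ker
    (IsSupersolvable.of_equiv hG (QuotientGroup.quotientKerEquivOfSurjective _ Prod.fst_surjective).symm)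
    (IsSupersolvable.of_equiv hH (QuotientGroup.quotientKerEquivOfSurjective _ Prod.snd_surjective).symm) ?_
  rw [eq_bot_iff]
  rintro ⟨a, b⟩ ⟨h1, h2⟩
  exact Prod.ext h1 h2

end Cfsg.Agent.S0525
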