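import Cfsg.Statements.S0529
import Cfsg.Agent.H1.Misc

set_option autoImplicit false
open Cfsg

namespace Cfsg.Agent.S0529

open Cfsg.Agent.H1

/-- A finite supersolvable group has a chain of normal subgroups, from the trivial subgroup to the whole group, in which every step has prime index and the primes occurring are non-increasing as one goes up the chain. -/
theorem result {G : Type*} [Group G] [Finite G] (hG : Cfsg.IsSupersolvable G) : ∃ (n : ℕ) (H : Fin (n + 1) → Subgroup G), H 0 = ⊥ ∧ H (Fin.last n) = ⊤ ∧ (∀ i, (H i).Normal) ∧ (∀ i : Fin n, H i.castSucc ≤ H i.succ ∧ ((H i.castSucc).relIndex (H i.succ)).Prime) ∧ ∀ i j : Fin n, i ≤ j → (H j.castSucc).relIndex (H j.succ) ≤ (H i.castSucc).relIndex (H i.succ) := by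
  have key : ∀ N : Subgroup G, N.Normal → ∃ (n : ℕ) (H : Fin (n + 1) → Subgroup G), H 0 = N ∧ H (Fin.last n) = ⊤ ∧ (∀ i, (H i).Normal) ∧ (∀ i : Fin n, H i.castSucc ≤ H i.succ ∧ ((H i.castSucc).relIndex (H i.succ)).Prime ∧ (H i.castSucc).relIndex (H i.succ) ∣ N.index) ∧ ∀ i j : Fin n, i ≤ j → (H j.castSucc).relIndex (H j.succ) ≤ (H i.castSucc).relIndex (H i.succ) := by
    intro N
    induction N using WellFoundedGT.induction with
    | ind N ih =>
      intro hN
      by_cases hT : N = ⊤
      · exact ⟨0, fun _ => N, rfl, hT, fun _ => hN, fun i => i.elim0, fun i => i.elim0⟩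
      obtain ⟨p, hp, hd, hmax⟩ := exists_max_prime_dvd (n := N.index) Subgroup.index_ne_zero_of_finite
        (fun e => hT (Subgroup.index_eq_one.1 e))
      obtain ⟨M, hM, hc⟩ := IsSupersolvable.exists_normal_card_eq (IsSupersolvable.quotient hG N) hp hd hmax
      have hMb : M ≠ ⊥ := fun e => hp.ne_one (by rw [← hc, e, Subgroup.card_bot])
      obtain ⟨n, H, h0, h1, h2, h3, h4⟩ := ih _ (lt_comap_mk' N hMb) inferInstance
      have hi : N.relIndex (H 0) = p := by rw [h0, relIndex_comap_mk', hc]
      have hdv := Subgroup.index_dvd_of_le (le_comap_mk'' N M)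
      refine ⟨n + 1, Fin.cons N H, rfl, ?_, fun i => ?_, fun i => ?_, fun i j hij => ?_⟩
      · rw [← Fin.succ_last, Fin.cons_succ, h1]
      · induction i using Fin.cases with
        | zero => exact hN
        | succ i => exact h2 i
      · induction i using Fin.cases with
        | zero => exact ⟨(le_comap_mk'' N M).trans h0.ge, hi ▸ hp, hi ▸ hd⟩
        | succ i => exact ⟨(h3 i).1, (h3 i).2.1, (h3 i).2.2.trans hdv⟩
      · induction i using Fin.cases with
        | zero =>
          induction j using Fin.cases with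
          | zero => exact le_rfl
          | succ j => exact (hmax _ (h3 j).2.1 ((h3 j).2.2.trans hdv)).trans hi.ge
        | succ i =>
          induction j using Fin.cases with
          | zero => exact absurd hij (by simp)
          | succ j => exact h4 i j (Fin.succ_le_succ_iff.1 hij)
  obtain ⟨n, H, h0, h1, h2, h3, h4⟩ := key ⊥ inferInstance
  exact ⟨n, H, h0, h1, h2, fun i => ⟨(h3 i).1, (h3 i).2.1⟩, h4⟩

end Cfsg.Agent.S0529
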