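import Cfsg.Statements.S0530
import Cfsg.Agent.H1.Misc

set_option autoImplicit false
open Cfsg

namespace Cfsg.Agent.S0530

open Cfsg.Agent.H1

/-- A finite group whose order is twice a prime power is supersolvable. -/
theorem result {G : Type*} [Group G] [Finite G] (p n : ℕ) (hp : p.Prime) (hG : Nat.card G = 2 * p ^ n) : Cfsg.IsSupersolvable G := by
  haveI := Fact.mk hp
  by_cases h2 : p = 2
  · subst h2
    exact isSupersolvable_of_isNilpotent (IsPGroup.of_card (p := 2) (n := n + 1) (by rw [hG, pow_succ'])).isNilpotent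
  obtain ⟨P, hP⟩ := Sylow.exists_subgroup_card_pow_prime (G := G) p (n := n) (by rw [hG]; exact Dvd.intro_left _ rfl)
  have hi : P.index = 2 := by
    have := P.index_mul_card
    rw [hP, hG] at this
    exact Nat.eq_of_mul_eq_mul_right (pow_pos hp.pos n) this
  haveI := Subgroup.normal_of_index_eq_two hi
  have hPp : IsPGroup p P := IsPGroup.of_card hP
  haveI : Fact (Nat.Prime 2) := ⟨Nat.prime_two⟩
  haveI : IsCyclic (G ⧸ P) := isCyclic_of_prime_card (p := 2) hi
  refine isSupersolvable_of_quotient_prime P (isSupersolvable_of_isNilpotent (isNilpotent_of_isMulCommutative inferInstance))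
    fun A M _ _ h3 h4 h5 => ?_
  rw [relIndex_eq_prime_of_chief h3 (hPp.to_le h4) h5 (commutator_le_of_chief hPp.isNilpotent h3.le h5)
    (Subgroup.Normal.quotient_commutative_iff_commutator_le.1 inferInstance) fun g => ?_]
  · exact hp
  · obtain ⟨k, hk⟩ := (hp.even_sub_one h2).two_dvd
    rw [hk, pow_mul]
    exact pow_mem (hi ▸ P.pow_index_mem g) k

end Cfsg.Agent.S0530
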