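import Cfsg.Statements.S0532
import Cfsg.Agent.H1.Misc

set_option autoImplicit false
open Cfsg

namespace Cfsg.Agent.S0532

open Cfsg.Agent.H1

theorem aux {G : Type*} [Group G] [Finite G] (p : ℕ) [Fact p.Prime] (K : Subgroup G)
    (h : ∀ H : Subgroup G, H ≤ K → Cfsg.HasSubgroupOfEveryOrder H) (hmax : ∀ q : ℕ, q.Prime → q ∣ Nat.card K → q ≤ p)
    (P : Subgroup G) (hP : IsSylowIn p P K) : K ≤ Subgroup.normalizer (P : Set G) := by
  induction K using WellFoundedLT.induction with
  | ind K ih =>
  by_cases hK : IsPGroup p K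
  · rw [← hP.eq_of_le hP.1 le_rfl hK]; exact Subgroup.le_normalizer
  have h1 : Nat.card K ≠ 1 := fun e => hK (IsPGroup.of_card (n := 0) (by simpa using e))
  have hq := Nat.minFac_prime h1
  obtain ⟨d, hd⟩ := Nat.minFac_dvd (Nat.card K)
  obtain ⟨L, hL⟩ := h K le_rfl d (Dvd.intro_left _ hd.symm)
  have hi : L.index = (Nat.card K).minFac := by
    have := L.index_mul_card
    rw [hL] at this
    have h0 : 0 < d := hL ▸ Nat.card_pos
    exact Nat.eq_of_mul_eq_mul_right h0 (this.trans hd)
  haveI := Subgroup.normal_of_index_eq_minFac_card hi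
  have hn := le_normalizer_map_subtype_of_normal K L
  have hne : (Nat.card K).minFac ≠ p := fun e => hK (isPGroup_iff_forall_prime.2 fun r hr hd =>
    le_antisymm (hmax r hr hd) (e ▸ Nat.minFac_le_of_dvd hr.two_le hd))
  have hPL : P ≤ L.map K.subtype := le_of_coprime_relIndex hP.1 hn (by
    rw [relIndex_map_subtype, hi]
    exact coprime_card_of_isPGroup hP.2.1 ((Nat.coprime_primes hq Fact.out).2 hne))
  have hlt : L.map K.subtype < K := lt_of_le_of_ne (Subgroup.map_subtype_le L) fun e => hq.ne_one (by
    rw [← hi, ← relIndex_map_subtype, e, Subgroup.relIndex_self])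
  have hP' := hP.of_le hPL hlt.le
  exact hn.trans (hP'.normalizer_le_of_normal (ih _ hlt (fun H hH => h H (hH.trans hlt.le))
    (fun q hq hd => hmax q hq (hd.trans (Subgroup.card_dvd_of_le hlt.le))) hP'))

/-- If each subgroup of a finite group satisfies the converse of Lagrange's theorem, then a Sylow subgroup for the largest prime dividing the group order is normal. -/
theorem result {G : Type*} [Group G] [Finite G] (h : ∀ H : Subgroup G, Cfsg.HasSubgroupOfEveryOrder H) (p : ℕ) [Fact p.Prime] (hdvd : p ∣ Nat.card G) (hmax : ∀ q : ℕ, q.Prime → q ∣ Nat.card G → q ≤ p) (P : Sylow p G) : (P : Subgroup G).Normal := by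
  exact normal_of_top_le_normalizer (aux p ⊤ (fun H _ => h H) (by simpa using hmax) P (isSylowIn_top P))

end Cfsg.Agent.S0532
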