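import Cfsg.Statements.S0533
import Cfsg.Agent.H1.Misc
import Cfsg.Agent.S0532

set_option autoImplicit false
open Cfsg

namespace Cfsg.Agent.S0533

open Cfsg.Agent.H1

open Pointwise
universe u in
theorem aux {G : Type u} [Group G] [Finite G] (h : ∀ H : Subgroup G, Cfsg.HasSubgroupOfEveryOrder H) : Cfsg.IsSupersolvable G := by
  induction hn : Nat.card G using Nat.strong_induction_on generalizing G with
  | h n ih =>
  by_cases h1 : Nat.card G = 1
  · haveI := (Nat.card_eq_one_iff_unique.1 h1).1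
    exact isSupersolvable_of_subsingleton
  obtain ⟨p, hp, hd, hmax⟩ := exists_max_prime_dvd Nat.card_pos.ne' h1
  haveI := Fact.mk hp
  obtain ⟨P₀⟩ : Nonempty (Sylow p G) := inferInstance
  haveI := S0532.result h p hd hmax P₀
  have hP := isSylowIn_top P₀
  generalize (P₀ : Subgroup G) = P at *
  obtain ⟨K, -, hKP, hs, hc⟩ := exists_complement_of_coprime (le_top : P ≤ ⊤) Subgroup.le_normalizer_of_normal hP.coprime_relIndex
  have hKp : ¬ p ∣ Nat.card K := hc ▸ hP.2.2
  have hKT : K ≠ ⊤ := fun e => hKp (by rwa [e, Subgroup.card_top])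
  have hK : IsSupersolvable K := ih _ (hn ▸ card_lt_of_ne_top hKT) (fun H d hd => by
    obtain ⟨L, hL⟩ := h (H.map K.subtype) d (by rwa [card_map_subtype])
    refine ⟨((L.map (H.map K.subtype).subtype).subgroupOf K).subgroupOf H, ?_⟩
    have h2 : L.map (H.map K.subtype).subtype ≤ H.map K.subtype := Subgroup.map_subtype_le _
    rw [card_subgroupOf, card_subgroupOf (h2.trans (Subgroup.map_subtype_le _)), card_map_subtype, hL]
    exact (Subgroup.subgroupOf_mono _ h2).trans (subgroupOf_map_subtype' H).le) rfl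
  obtain ⟨e⟩ := nonempty_equiv_quotient hKP hs
  have hsol : Group.IsSolvable G := isSolvable_of_normal_of_quotient P (isSolvable_of_isPGroup hP.2.1)
    (isSolvable_of_equiv e (IsSupersolvable.isSolvable hK))
  refine isSupersolvable_of_quotient_prime P (IsSupersolvable.of_equiv hK e) fun A B _ _ hAB hBP hch => ?_
  have hc := commutator_le_of_chief (F := P) hP.2.1.isNilpotent hAB.le hch
  obtain ⟨D, hDB, ⟨hKD, hDA⟩, hmin⟩ := exists_minimal_le
    (fun D : Subgroup G => K ≤ Subgroup.normalizer (D : Set G) ∧ D ⊔ A = B) (N := B)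
    ⟨Subgroup.le_normalizer_of_normal, sup_eq_left.2 hAB.le⟩
  have hDp : IsPGroup p D := hP.2.1.to_le (hDB.trans hBP)
  have hDb : D ≠ ⊥ := by rintro rfl; exact hAB.ne (by simpa using hDA)
  obtain ⟨d, hd'⟩ := (dvd_card_of_isPGroup_of_ne_bot hDp hDb).trans (Subgroup.card_dvd_of_le (le_sup_right : D ≤ K ⊔ D))
  obtain ⟨L₀, hL₀⟩ := h (K ⊔ D) d (Dvd.intro_left _ hd'.symm)
  have hi₀ : (L₀.map (K ⊔ D).subtype).relIndex (K ⊔ D) = p := by
    rw [relIndex_map_subtype]
    have := L₀.index_mul_card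
    rw [hL₀] at this
    have h0 : 0 < d := hL₀ ▸ Nat.card_pos
    exact Nat.eq_of_mul_eq_mul_right h0 (this.trans hd')
  have hle₀ : L₀.map (K ⊔ D).subtype ≤ K ⊔ D := Subgroup.map_subtype_le _
  generalize L₀.map (K ⊔ D).subtype = L₁ at hi₀ hle₀
  obtain ⟨H, hH⟩ := exists_hallOf {p}ᶜ (K := L₁) inferInstance
  have hH' : IsPiHallOf {p}ᶜ H (K ⊔ D) := ⟨hH.1.trans hle₀, hH.2.1, fun r hr hπ hd => by
    rw [← Subgroup.relIndex_mul_relIndex H L₁ _ hH.1 hle₀, hi₀] at hd
    exact ((Nat.Prime.dvd_mul hr).1 hd).elim (hH.2.2 r hr hπ) fun h => hπ ((Nat.prime_dvd_prime_iff_eq hr hp).1 h)⟩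
  obtain ⟨k, hk, hkle⟩ := hallOf_conj_le (K := K ⊔ D) inferInstance hH' le_sup_left
    (fun r _ hd e => hKp (e ▸ hd))
  have hKL : K ≤ MulAut.conj k⁻¹ • L₁ := conj_smul_le_iff_le.1 (hkle.trans hH.1)
  have hk' := conj_smul_eq_self_iff.2 (Subgroup.le_normalizer (inv_mem hk))
  have hle : MulAut.conj k⁻¹ • L₁ ≤ K ⊔ D := (conj_smul_mono _ hle₀).trans hk'.le
  have hi : (MulAut.conj k⁻¹ • L₁).relIndex (K ⊔ D) = p := by
    have e1 := card_mul_relIndex hle
    rw [card_conj_smul, ← card_mul_relIndex hle₀, hi₀] at e1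
    exact Nat.eq_of_mul_eq_mul_left Nat.card_pos e1
  generalize MulAut.conj k⁻¹ • L₁ = L at hKL hle hi
  have hi' : L.relIndex D = p := by
    rw [← hi]
    exact (forall_mul_iff_relIndex_eq le_sup_right hle).1 fun g hg => by
      obtain ⟨a, ha, b, hb, e⟩ := (mem_sup_left_norm' hKD).1 hg
      exact ⟨a, ha, b, hKL hb, e⟩
  have hKL' : K ≤ Subgroup.normalizer ((L ⊓ D : Subgroup G) : Set G) := le_normalizer_inf (hKL.trans Subgroup.le_normalizer) hKD
  haveI : (L ⊓ D ⊔ A).Normal := normal_of_top_le_normalizer (by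
    rw [← hs]
    refine sup_le (le_normalizer_sup hKL' Subgroup.le_normalizer_of_normal) ?_
    rw [Subgroup.le_normalizer_iff_commutator_le_left]
    exact ((Subgroup.commutator_mono (sup_le (inf_le_right.trans hDB) hAB.le) le_rfl).trans hc).trans le_sup_right)
  rcases hch (L ⊓ D ⊔ A) this le_sup_right (sup_le (inf_le_right.trans hDB) hAB.le) with e1 | e1
  · have h3 : A.relIndex B ∣ p := by
      rw [← hDA, relIndex_sup_norm Subgroup.le_normalizer_of_normal, ← hi', ← Subgroup.inf_relIndex_right L D]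
      exact Subgroup.relIndex_dvd_of_le_left _ (le_sup_left.trans e1.le)
    rcases (Nat.dvd_prime hp).1 h3 with e2 | e2
    · exact absurd (Subgroup.relIndex_eq_one.1 e2) (not_le_of_gt hAB)
    · exact e2 ▸ hp
  · have := hmin _ ⟨hKL', e1⟩ inf_le_right
    rw [Subgroup.relIndex_eq_one.2 (this.ge.trans inf_le_left)] at hi'
    exact absurd hi'.symm hp.ne_one

/-- If every subgroup of a finite group has subgroups of all orders dividing its order, then the group is supersolvable. -/
theorem result {G : Type*} [Group G] [Finite G] (h : ∀ H : Subgroup G, Cfsg.HasSubgroupOfEveryOrder H) : Cfsg.IsSupersolvable G := by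
  exact aux h

end Cfsg.Agent.S0533
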