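import Cfsg.Statements.S0534
import Cfsg.Agent.H1.Misc

set_option autoImplicit false
open Cfsg

namespace Cfsg.Agent.S0534

open Cfsg.Agent.H1

/-- Let G be a finite solvable group and A a finite abelian group such that every prime dividing the order of A divides the order of G and, for each prime p dividing the order of G, the exponent of p in the order of A is one less than its exponent in the order of G. Then G × A has a subgroup of every order dividing its order. -/
theorem result {G A : Type*} [Group G] [CommGroup A] [Finite G] [Finite A] [Group.IsSolvable G] (hA : ∀ p : ℕ, p.Prime → p ∣ Nat.card A → p ∣ Nat.card G) (hexp : ∀ p : ℕ, p.Prime → p ∣ Nat.card G → (Nat.card A).factorization p + 1 = (Nat.card G).factorization p) : Cfsg.HasSubgroupOfEveryOrder (G × A) := by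
  intro d hd
  have hG0 : Nat.card G ≠ 0 := Nat.card_pos.ne'
  have hA0 : Nat.card A ≠ 0 := Nat.card_pos.ne'
  rw [Nat.card_prod] at hd
  have hd0 : d ≠ 0 := fun e => by simp [e, hG0, hA0] at hd
  obtain ⟨H, hH⟩ := exists_hall {p | (Nat.card G).factorization p ≤ d.factorization p} ‹Group.IsSolvable G›
  have hH0 : Nat.card H ≠ 0 := Nat.card_pos.ne'
  have hHf : ∀ p, p.Prime → (Nat.card H).factorization p + H.index.factorization p = (Nat.card G).factorization p := fun p _ => by
    rw [← H.card_mul_index, Nat.factorization_mul hH0 Subgroup.index_ne_zero_of_finite]; rfl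
  have h1 : Nat.card H ∣ d := by
    rw [← Nat.factorization_prime_le_iff_dvd hH0 hd0]
    intro p hp
    by_cases hdv : p ∣ Nat.card H
    · have := hHf p hp
      have h2 : (Nat.card G).factorization p ≤ d.factorization p := hH.1 p hp hdv
      omega
    · rw [Nat.factorization_eq_zero_of_not_dvd hdv]; exact Nat.zero_le _
  obtain ⟨e, rfl⟩ := h1
  have he0 : e ≠ 0 := fun h => hd0 (by simp [h])
  have h2 : e ∣ Nat.card A := by
    rw [← Nat.factorization_prime_le_iff_dvd he0 hA0]
    intro p hp
    have h3 := (Nat.factorization_prime_le_iff_dvd hd0 (mul_ne_zero hG0 hA0)).2 hd p hp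
    rw [Nat.factorization_mul hH0 he0, Nat.factorization_mul hG0 hA0, Finsupp.add_apply, Finsupp.add_apply] at h3
    have h4 := hHf p hp
    by_cases hπ : (Nat.card G).factorization p ≤ (Nat.card H * e).factorization p
    · have := Nat.factorization_eq_zero_of_not_dvd (hH.2 p hp hπ)
      omega
    · rw [Nat.factorization_mul hH0 he0, Finsupp.add_apply] at hπ
      have h5 : p ∣ Nat.card G := Nat.dvd_of_factorization_pos (by omega)
      have := hexp p hp h5
      omega
  obtain ⟨B, hB⟩ := IsSupersolvable.exists_card_eq (isSupersolvable_of_isNilpotent (G := A) inferInstance) h2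
  exact ⟨H.prod B, by rw [Nat.card_congr (Subgroup.prodEquiv H B).toEquiv, Nat.card_prod, hB]⟩

end Cfsg.Agent.S0534
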