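import Cfsg.Statements.S0537
import Cfsg.Agent.H1.Burnside

set_option autoImplicit false
open Cfsg

namespace Cfsg.Agent.S0537

open Cfsg.Agent.H1

/-- A finite non-abelian group in which every proper subgroup is abelian is either of prime-power order, or is generated by a cyclic Sylow p-subgroup and a normal Sylow q-subgroup that is elementary abelian, for distinct primes p and q. -/
theorem result {G : Type*} [Group G] [Finite G] (hna : ¬ IsMulCommutative G) (h : ∀ H : Subgroup G, H ≠ ⊤ → IsMulCommutative H) : (∃ p : ℕ, p.Prime ∧ IsPGroup p G) ∨ ∃ p q : ℕ, p.Prime ∧ q.Prime ∧ p ≠ q ∧ ∃ (P : Sylow p G) (Q : Sylow q G), IsCyclic P ∧ (Q : Subgroup G).Normal ∧ Cfsg.IsElementaryAbelian q (Q : Subgroup G) ∧ (P : Subgroup G) ⊔ Q = ⊤ := by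
  by_cases hn : Group.IsNilpotent G
  · left
    by_contra! hc
    refine hna ?_
    have := isMulCommutative_of_isNilpotent_of_forall_isPGroup (K := ⊤) (Group.isNilpotent_top.2 hn)
      fun r hr R _ hR => h R fun e => hc r hr (isPGroup_top_iff.1 (e ▸ hR))
    exact ⟨⟨fun a b => mul_comm_of_mem (A := ⊤) trivial trivial⟩⟩
  right
  obtain ⟨p, q, hp, hq, hpq, x, Q, h1, h2, h3, h4, h5⟩ := minimalNonNilpotent_structure
    ⟨hn, fun H hH => isNilpotent_of_isMulCommutative (h H hH)⟩
  haveI := Fact.mk hp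
  haveI := Fact.mk hq
  have hQ : Q ≠ ⊤ := fun e => hn (isPGroup_top_iff.1 (e ▸ h2.2.1)).isNilpotent
  haveI := h Q hQ
  have hel : IsElementaryAbelian q Q := by
    haveI := L.powKer_normal Q q
    by_cases hT : Subgroup.zpowers x ⊔ L.powKer Q q = ⊤
    · have := sup_inf_assoc_norm' (A := Subgroup.zpowers x) Subgroup.le_normalizer_of_normal (L.powKer_le Q q)
      rw [hT, top_inf_eq, (IsPGroup.disjoint_of_ne p q hpq _ _ h1.2.1 h2.2.1).eq_bot, bot_sup_eq] at this
      rw [this]; exact L.powKer_isElementaryAbelian Q q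
    · exfalso
      haveI := h _ hT
      have := le_centralizer_of_prime_order_abelian (A := Subgroup.zpowers x) (V := Q) Subgroup.le_normalizer_of_normal
        (IsPGroup.coprime_card_of_ne p q hpq _ _ h1.2.1 h2.2.1) fun v hv ho => by
          have e := isPGroup_iff_forall_prime.1 h2.2.1 _ ho (orderOf_dvd_card_of_mem hv)
          have hv' : v ∈ L.powKer Q q := L.mem_powKer.2 ⟨hv, e ▸ pow_orderOf_eq_one v⟩
          exact fun y hy => mul_comm_of_mem (Subgroup.mem_sup_left hy) (Subgroup.mem_sup_right hv')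
      exact h5 (normal_of_top_le_normalizer (h4 ▸ sup_le Subgroup.le_normalizer (le_normalizer_of_centralizer_ge this)))
  obtain ⟨P, hP⟩ := h1.exists_sylow_top
  obtain ⟨Q, rfl⟩ := h2.exists_sylow_top
  exact ⟨p, q, hp, hq, hpq, P, Q, isCyclic_of_zpowers_eq hP.symm, h3, hel, hP ▸ h4⟩

end Cfsg.Agent.S0537
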