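import Cfsg.Statements.S0541
import Cfsg.Agent.H1.Misc
import Cfsg.Agent.H8.Subnormal
import Cfsg.Agent.S0539

set_option autoImplicit false
open Pointwise
open Cfsg

namespace Cfsg.Agent.S0541

open Cfsg.Agent.H1

/-- Let Z and Y be subgroups of a finite group G and p a prime. Suppose that for every g in G the subgroup generated by the conjugates of g Z g⁻¹ under Y is a p-group. Then there is a Sylow p-subgroup P of G such that Y normalizes the subgroup generated by all conjugates of Z contained in P. -/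
theorem result {G : Type*} [Group G] [Finite G] (p : ℕ) [Fact p.Prime] (Z Y : Subgroup G) (h : ∀ g : G, IsPGroup p ↥(⨆ y ∈ Y, MulAut.conj (y * g) • Z)) : ∃ P : Sylow p G, Y ≤ Subgroup.normalizer ((⨆ g ∈ {g : G | MulAut.conj g • Z ≤ (P : Subgroup G)}, MulAut.conj g • Z : Subgroup G) : Set G) := by
  obtain ⟨U, -, ⟨hU1, hU2, hU3⟩, hmax⟩ := exists_maximal_ge (fun U : Subgroup G => IsPGroup p U ∧ Y ≤ Subgroup.normalizer (U : Set G) ∧
    U ≤ sSup {B | (∃ g : G, B = MulAut.conj g • Z) ∧ B ≤ U}) (N := ⊥) ⟨IsPGroup.of_bot, Subgroup.le_normalizer_of_normal, bot_le⟩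
  obtain ⟨P, hP⟩ := hU1.exists_le_sylow
  have hU4 : sSup {B | (∃ g : G, B = MulAut.conj g • Z) ∧ B ≤ U} = U := le_antisymm (sSup_le fun B hB => hB.2) hU3
  have hsub : {B | (∃ g : G, B = MulAut.conj g • Z) ∧ B ≤ U} ⊆ {B | (∃ g : G, B = MulAut.conj g • Z) ∧ B ≤ P} :=
    fun B hB => ⟨hB.1, hB.2.trans hP⟩
  refine ⟨P, ?_⟩
  rcases hsub.eq_or_ssubset with e | e
  · have : (⨆ g ∈ {g : G | MulAut.conj g • Z ≤ (P : Subgroup G)}, MulAut.conj g • Z : Subgroup G) = U := by
      rw [← hU4, e]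
      refine le_antisymm (iSup₂_le fun g hg => le_sSup ⟨⟨g, rfl⟩, hg⟩) (sSup_le ?_)
      rintro _ ⟨⟨g, rfl⟩, hg⟩
      exact le_biSup (fun g : G => MulAut.conj g • Z) hg
    rwa [this]
  · exfalso
    obtain ⟨_, ⟨⟨g, rfl⟩, hX1⟩, hX2, hX3⟩ := S0539.aux P _ _ (fun B hB => H8.sn_of_isPGroup P.isPGroup' hB.2)
      (fun B hB g hg => by
        obtain ⟨⟨x, rfl⟩, hx⟩ := hB
        exact ⟨⟨g * x, conj_smul_conj_smul _ _ _⟩, (conj_smul_mono g hx).trans (conj_smul_eq_self_iff.2 (Subgroup.le_normalizer hg)).le⟩) e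
    rw [hU4] at hX3
    have hW : (⨆ y ∈ Y, MulAut.conj (y * g) • Z) ≤ Subgroup.normalizer (U : Set G) := iSup₂_le fun y hy => by
      rw [← conj_smul_conj_smul, ← conj_smul_eq_self_iff.2 (hU2 hy), normalizer_conj_smul]
      exact conj_smul_mono y hX3
    have hYW : Y ≤ Subgroup.normalizer ((⨆ y ∈ Y, MulAut.conj (y * g) • Z : Subgroup G) : Set G) := fun x hx =>
      mem_normalizer_of_conj_mem (conj_smul_le_iff.1 (by
        rw [conj_smul_le_iff_le]
        refine iSup₂_le fun y hy => ?_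
        rw [← conj_smul_le_iff_le, conj_smul_conj_smul, ← mul_assoc]
        exact le_biSup (fun y : G => MulAut.conj (y * g) • Z) (mul_mem hx hy)))
    have := hmax ((⨆ y ∈ Y, MulAut.conj (y * g) • Z) ⊔ U) ⟨IsPGroup.to_sup_of_normal_right' (h g) hU1 hW,
      le_normalizer_sup hYW hU2, sup_le (iSup₂_le fun y hy => le_sSup ⟨⟨_, rfl⟩,
        (le_biSup (fun y : G => MulAut.conj (y * g) • Z) hy).trans le_sup_left⟩)
        (hU3.trans (sSup_le_sSup fun B hB => ⟨hB.1, hB.2.trans le_sup_right⟩))⟩ le_sup_right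
    refine hX2 ⟨⟨g, rfl⟩, le_trans ?_ (le_sup_left.trans this.le)⟩
    have := le_biSup (fun y : G => MulAut.conj (y * g) • Z) (one_mem Y)
    simpa using this

end Cfsg.Agent.S0541
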