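import Cfsg.Statements.S0542
import Cfsg.Agent.H1.Misc
import Cfsg.Agent.H8.Subnormal

set_option autoImplicit false
open Cfsg

namespace Cfsg.Agent.S0542

open Cfsg.Agent.H1

/-- A Sylow p-subgroup of a finite group meets every subnormal subgroup H in a Sylow p-subgroup of H. -/
theorem result {G : Type*} [Group G] [Finite G] (p : ℕ) [Fact p.Prime] (H : Subgroup G) (hH : H.IsSubnormal) (S : Sylow p G) : ∃ Q : Sylow p H, (Q : Subgroup H) = (S : Subgroup G).subgroupOf H := by
  have key : ∀ A : Subgroup G, H8.SN ⊤ A → IsSylowIn p ((S : Subgroup G) ⊓ A) A := by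
    intro A hA
    induction hA with
    | refl => simpa using isSylowIn_top S
    | step A B h1 _ h3 ih =>
      have := ih.inf_normal h1 h3
      rwa [inf_assoc, inf_eq_right.2 h1] at this
  obtain ⟨Q, hQ⟩ := (key H (H8.SN.of_isSubnormal hH)).exists_sylow
  exact ⟨Q, by rw [← subgroupOf_map_subtype' (Q : Subgroup H), hQ, Subgroup.inf_subgroupOf_right]⟩

end Cfsg.Agent.S0542
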