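import Cfsg.Statements.S0546
import Cfsg.Agent.H1.Carter

set_option autoImplicit false
open Cfsg

namespace Cfsg.Agent.S0546

open Cfsg.Agent.H1

/-- The normal closure of a system normalizer of a finite solvable group is the whole group. -/
theorem result {G : Type*} [Group G] [Finite G] [Group.IsSolvable G] (K : Nat.Primes → Subgroup G) (hK : Cfsg.IsComplementSystem K) : Subgroup.normalClosure ((Cfsg.systemNormalizer K : Subgroup G) : Set G) = ⊤ := by
  by_contra hne
  obtain ⟨M, hMn, hM, hp⟩ : ∃ M : Subgroup G, M.Normal ∧ M ≠ ⊤ ∧ Subgroup.normalClosure ((Cfsg.systemNormalizer K : Subgroup G) : Set G) ⊔ commutator G ≤ M := by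
    refine ⟨_, inferInstance, fun e => hne ?_, le_rfl⟩
    generalize_proofs at e
    set N := Subgroup.normalClosure ((Cfsg.systemNormalizer K : Subgroup G) : Set G)
    by_contra hN
    haveI := nontrivial_quotient_of_ne_top hN
    have := commutator_lt_self (isSolvable_top_iff.2 (inferInstance : Group.IsSolvable (G ⧸ N))) top_ne_bot
    refine this.ne ?_
    rw [← Subgroup.map_top_of_surjective _ (QuotientGroup.mk'_surjective N), ← Subgroup.map_commutator,
      Subgroup.map_top_of_surjective _ (QuotientGroup.mk'_surjective N), map_mk'_eq_top_iff, sup_comm]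
    exact e
  have h1 := IsComplementSystem.systemNormalizer_map ‹_› hK M
  rw [map_mk'_eq_bot_iff.2 (Subgroup.le_normalClosure.trans (le_sup_left.trans hp))] at h1
  haveI : IsMulCommutative (G ⧸ M) := Subgroup.Normal.quotient_commutative_iff_commutator_le.2 (le_sup_right.trans hp)
  haveI := nontrivial_quotient_of_ne_top hM
  obtain ⟨x, hx⟩ := exists_ne (1 : G ⧸ M)
  refine hx (Subgroup.mem_bot.1 (h1 ▸ mem_systemNormalizer.2 fun p => ?_))
  exact Subgroup.centralizer_le_normalizer _ fun y _ => mul_comm' y x

end Cfsg.Agent.S0546
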