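import Cfsg.Statements.S0547
import Cfsg.Agent.H1.Misc
import Cfsg.Agent.H7.Basic

set_option autoImplicit false
open Cfsg

namespace Cfsg.Agent.S0547

open Cfsg.Agent.H1

/-- Let a finite solvable group G act faithfully and primitively on a set, and let M be a minimal normal subgroup of G. Then M is transitive with trivial point stabilizers, and the number of points equals the order of M, which is a prime power p ^ d with d ≥ 1. -/
theorem result {G : Type*} [Group G] [Finite G] [Group.IsSolvable G] {Ω : Type*} [Nonempty Ω] [MulAction G Ω] [FaithfulSMul G Ω] (hprim : MulAction.IsPreprimitive G Ω) (M : Subgroup G) [M.Normal] (hM : M ≠ ⊥) (hmin : ∀ K : Subgroup G, K.Normal → K ≤ M → K = ⊥ ∨ K = M) : MulAction.IsPretransitive M Ω ∧ (∀ ω : Ω, MulAction.stabilizer M ω = ⊥) ∧ ∃ p d : ℕ, p.Prime ∧ 0 < d ∧ Nat.card Ω = p ^ d ∧ Nat.card M = p ^ d := by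
  obtain ⟨p, hp, hel⟩ := elementary_of_minimal_normal hM inferInstance hmin
  haveI := Fact.mk hp
  have ht : MulAction.IsPretransitive M Ω := MulAction.IsQuasiPreprimitive.isPretransitive_of_normal fun e => hM (by
    rw [eq_bot_iff]
    intro m hm
    exact FaithfulSMul.eq_of_smul_eq_smul (α := Ω) fun ω => by
      have : ω ∈ MulAction.fixedPoints M Ω := e ▸ Set.mem_univ ω
      rw [one_smul]; exact this ⟨m, hm⟩)
  haveI := hel.1
  have hr : ∀ ω : Ω, MulAction.stabilizer M ω = ⊥ := fun ω => by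
    rw [eq_bot_iff]
    intro m hm
    refine Subtype.ext (FaithfulSMul.eq_of_smul_eq_smul (α := Ω) fun ω' => ?_)
    obtain ⟨x, rfl⟩ := ht.exists_smul_eq ω ω'
    have h1 : (m : G) • ω = ω := hm
    show (m : G) • (x : G) • ω = (1 : G) • (x : G) • ω
    rw [one_smul, ← mul_smul, mul_comm_of_mem m.2 x.2, mul_smul, h1]
  obtain ⟨d, hd⟩ := (IsElementaryAbelian.isPGroup' hel).exists_card_eq
  obtain ⟨ω⟩ := ‹Nonempty Ω›
  refine ⟨ht, hr, p, d, hp, Nat.pos_of_ne_zero fun e => hM ?_, (H7.card_eq_of_regular (hr ω)).symm.trans hd, hd⟩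
  rwa [e, pow_zero, Subgroup.card_eq_one] at hd

end Cfsg.Agent.S0547
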