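import Cfsg.Statements.S0548
import Cfsg.Agent.H1.Misc
import Cfsg.Agent.S0547

set_option autoImplicit false
open Cfsg

namespace Cfsg.Agent.S0548

open Cfsg.Agent.H1

/-- Let a finite solvable group G act faithfully and primitively on a set, let M be a minimal normal subgroup and H the stabilizer of a point. Then H is a complement to M, no non-identity element of H centralizes M, and the only subgroups of M normalized by H are the trivial subgroup and M. -/
theorem result {G : Type*} [Group G] [Finite G] [Group.IsSolvable G] {Ω : Type*} [MulAction G Ω] [FaithfulSMul G Ω] (hprim : MulAction.IsPreprimitive G Ω) (M : Subgroup G) [M.Normal] (hM : M ≠ ⊥) (hmin : ∀ K : Subgroup G, K.Normal → K ≤ M → K = ⊥ ∨ K = M) (ω : Ω) : Subgroup.IsComplement' M (MulAction.stabilizer G ω) ∧ MulAction.stabilizer G ω ⊓ Subgroup.centralizer (M : Set G) = ⊥ ∧ ∀ K : Subgroup G, K ≤ M → MulAction.stabilizer G ω ≤ Subgroup.normalizer (K : Set G) → K = ⊥ ∨ K = M := by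
  haveI : Nonempty Ω := ⟨ω⟩
  obtain ⟨ht, hr, -⟩ := S0547.result hprim M hM hmin
  obtain ⟨p, hp, hel⟩ := elementary_of_minimal_normal hM inferInstance hmin
  haveI := hel.1
  have h1 : M ⊓ MulAction.stabilizer G ω = ⊥ := by
    rw [eq_bot_iff]
    intro m hm
    have : (⟨m, hm.1⟩ : M) ∈ MulAction.stabilizer M ω := hm.2
    rw [hr] at this
    exact congrArg Subtype.val this
  have h2 : M ⊔ MulAction.stabilizer G ω = ⊤ := by
    rw [eq_top_iff]
    intro g _
    obtain ⟨x, hx⟩ := ht.exists_smul_eq ω (g • ω)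
    have : g = x * ((x : G)⁻¹ * g) := by group
    rw [this]
    refine Subgroup.mul_mem_sup x.2 ?_
    show ((x : G)⁻¹ * g) • ω = ω
    rw [mul_smul, ← hx]; exact inv_smul_smul _ _
  refine ⟨isComplement'_of_inf_eq_bot_of_sup_eq_top h1 h2, ?_, fun K hK hn => hmin K
    (normal_of_top_le_normalizer (h2 ▸ sup_le (le_normalizer_of_isMulCommutative hK) hn)) hK⟩
  rw [eq_bot_iff]
  intro g hg
  refine FaithfulSMul.eq_of_smul_eq_smul (α := Ω) fun ω' => ?_
  obtain ⟨x, rfl⟩ := ht.exists_smul_eq ω ω'
  have h1 : g • ω = ω := hg.1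
  show g • (x : G) • ω = (1 : G) • (x : G) • ω
  rw [one_smul, ← mul_smul, ← hg.2 x x.2, mul_smul, h1]

end Cfsg.Agent.S0548
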