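import Cfsg.Statements.S0549
import Cfsg.Agent.H1.Misc

set_option autoImplicit false
open Cfsg

namespace Cfsg.Agent.S0549

open Cfsg.Agent.H1

/-- Let U be a maximal subgroup of a finite group G whose normal core is trivial, and N a nontrivial normal subgroup with centralizer C. Then C ∩ U = 1, and either C = 1 or C is a minimal normal subgroup of G. -/
theorem result {G : Type*} [Group G] [Finite G] (U : Subgroup G) (hU : IsCoatom U) (hcore : U.normalCore = ⊥) (N : Subgroup G) [N.Normal] (hN : N ≠ ⊥) : Subgroup.centralizer (N : Set G) ⊓ U = ⊥ ∧ (Subgroup.centralizer (N : Set G) = ⊥ ∨ (Subgroup.centralizer (N : Set G) ≠ ⊥ ∧ ∀ K : Subgroup G, K.Normal → K ≤ Subgroup.centralizer (N : Set G) → K = ⊥ ∨ K = Subgroup.centralizer (N : Set G))) := by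
  have hs : ∀ K : Subgroup G, K.Normal → K ≠ ⊥ → U ⊔ K = ⊤ := fun K _ hK =>
    hU.2 _ (lt_of_le_of_ne le_sup_left fun e => hK (le_bot_iff.1 (hcore ▸ Subgroup.normal_le_normalCore.2 (e ▸ le_sup_right))))
  have h1 : Subgroup.centralizer (N : Set G) ⊓ U = ⊥ := by
    haveI : (Subgroup.centralizer (N : Set G) ⊓ U).Normal := normal_of_top_le_normalizer (by
      rw [← hs N ‹_› hN]
      exact sup_le (le_normalizer_inf Subgroup.le_normalizer_of_normal Subgroup.le_normalizer)
        (le_normalizer_of_centralizer_ge inf_le_left))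
    exact le_bot_iff.1 (hcore ▸ Subgroup.normal_le_normalCore.2 inf_le_right)
  refine ⟨h1, (em _).imp_right fun h => ⟨h, fun K hK hle => (em _).imp_right fun hb => ?_⟩⟩
  have := sup_inf_assoc_norm' (A := U) Subgroup.le_normalizer_of_normal hle
  rw [hs K hK hb, top_inf_eq, inf_comm, h1, bot_sup_eq] at this
  exact this.symm

end Cfsg.Agent.S0549
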