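import Cfsg.Statements.S0550
import Cfsg.Agent.H1.Misc
import Cfsg.Agent.S0549

set_option autoImplicit false
open Cfsg

namespace Cfsg.Agent.S0550

open Cfsg.Agent.H1

/-- Let U be a maximal subgroup with trivial normal core in a finite group G, and A ≠ B two minimal normal subgroups. Then A is the centralizer of B and B that of A, U complements each of them, A and B are non-abelian, and A, B and (A ⊔ B) ∩ U are pairwise isomorphic. -/
theorem result {G : Type*} [Group G] [Finite G] (U : Subgroup G) (hU : IsCoatom U) (hcore : U.normalCore = ⊥) (A B : Subgroup G) [A.Normal] [B.Normal] (hA : A ≠ ⊥) (hB : B ≠ ⊥) (hAmin : ∀ K : Subgroup G, K.Normal → K ≤ A → K = ⊥ ∨ K = A) (hBmin : ∀ K : Subgroup G, K.Normal → K ≤ B → K = ⊥ ∨ K = B) (hAB : A ≠ B) : Subgroup.centralizer (B : Set G) = A ∧ Subgroup.centralizer (A : Set G) = B ∧ Subgroup.IsComplement' A U ∧ Subgroup.IsComplement' B U ∧ ¬ IsMulCommutative A ∧ Nonempty (A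 ≃* B) ∧ Nonempty (A ≃* ↥((A ⊔ B) ⊓ U)) := by
  have hs : ∀ K : Subgroup G, K.Normal → K ≠ ⊥ → U ⊔ K = ⊤ := fun K _ hK =>
    hU.2 _ (lt_of_le_of_ne le_sup_left fun e => hK (le_bot_iff.1 (hcore ▸ Subgroup.normal_le_normalCore.2 (e ▸ le_sup_right))))
  have hd : A ⊓ B = ⊥ := by
    by_contra hne
    exact hAB (((hAmin _ inferInstance inf_le_left).resolve_left hne).symm.trans ((hBmin _ inferInstance inf_le_right).resolve_left hne))
  have k : ∀ X Y : Subgroup G, X.Normal → Y.Normal → X ≠ ⊥ → Y ≠ ⊥ → X ⊓ Y = ⊥ → Subgroup.centralizer (Y : Set G) = X ∧ X ⊓ U = ⊥ := fun X Y _ _ hX hY h => by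
    have h1 := le_centralizer_of_normal_of_disjoint h
    obtain ⟨h2, h3⟩ := S0549.result U hU hcore Y hY
    have h4 := ((h3.resolve_left fun e => hX (le_bot_iff.1 (e ▸ h1))).2 X ‹_› h1).resolve_left hX
    exact ⟨h4.symm, h4 ▸ h2⟩
  obtain ⟨a1, a2⟩ := k A B ‹_› ‹_› hA hB hd
  obtain ⟨b1, b2⟩ := k B A ‹_› ‹_› hB hA (inf_comm A B ▸ hd)
  have e1 : Nonempty (A ≃* ↥((A ⊔ B) ⊓ U)) := nonempty_equiv_of_sup_eq (N := B) hd
    (by rw [inf_right_comm, inf_eq_right.2 (le_sup_right : B ≤ A ⊔ B), b2]) (by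
      rw [inf_comm, ← sup_inf_assoc_norm' Subgroup.le_normalizer_of_normal le_sup_right, hs B ‹_› hB, top_inf_eq])
  have e2 : Nonempty (B ≃* ↥((A ⊔ B) ⊓ U)) := nonempty_equiv_of_sup_eq (N := A) (inf_comm A B ▸ hd)
    (by rw [inf_right_comm, inf_eq_right.2 (le_sup_left : A ≤ A ⊔ B), a2]) (by
      rw [inf_comm, ← sup_inf_assoc_norm' Subgroup.le_normalizer_of_normal le_sup_left, hs A ‹_› hA, top_inf_eq, sup_comm])
  refine ⟨a1, b1, isComplement'_of_inf_eq_bot_of_sup_eq_top a2 (sup_comm U A ▸ hs A ‹_› hA),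
    isComplement'_of_inf_eq_bot_of_sup_eq_top b2 (sup_comm U B ▸ hs B ‹_› hB), fun h => hA ?_, ⟨e1.some.trans e2.some.symm⟩, e1⟩
  rw [← hd, left_eq_inf, ← b1]
  exact Subgroup.le_centralizer A

end Cfsg.Agent.S0550
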