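import Cfsg.Statements.S0551
import Cfsg.Agent.H1.Misc
import Cfsg.Agent.S0549

set_option autoImplicit false
open Pointwise
open Cfsg

namespace Cfsg.Agent.S0551

open Cfsg.Agent.H1

/-- In a finite solvable group all core-free maximal subgroups are conjugate. -/
theorem result {G : Type*} [Group G] [Finite G] [Group.IsSolvable G] (U V : Subgroup G) (hU : IsCoatom U) (hV : IsCoatom V) (hUc : U.normalCore = ⊥) (hVc : V.normalCore = ⊥) : ∃ g : G, MulAut.conj g • U = V := by
  have hT : (⊤ : Subgroup G) ≠ ⊥ := fun e => hU.1 (le_antisymm le_top (e ▸ bot_le))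
  obtain ⟨N, p, hN, hb, -, hp, hel, hmin⟩ := exists_minimal_normal_elementary ⊤ hT inferInstance
  haveI := hel.1
  haveI := Fact.mk hp
  have hs : ∀ U : Subgroup G, IsCoatom U → U.normalCore = ⊥ → ∀ K : Subgroup G, K.Normal → K ≠ ⊥ → U ⊔ K = ⊤ := fun U hU hcore K _ hK =>
    hU.2 _ (lt_of_le_of_ne le_sup_left fun e => hK (le_bot_iff.1 (hcore ▸ Subgroup.normal_le_normalCore.2 (e ▸ le_sup_right))))
  have hd : ∀ U : Subgroup G, IsCoatom U → U.normalCore = ⊥ → N ⊓ U = ⊥ := fun U hU hcore =>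
    (isComplement'_of_minimal_normal hmin hU.1 (hs U hU hcore N hN hb)).disjoint.eq_bot
  by_cases hNT : N = ⊤
  · have h1 := hd U hU hUc
    have h2 := hd V hV hVc
    rw [hNT, top_inf_eq] at h1 h2
    exact ⟨1, by rw [conj_one_smul, h1, h2]⟩
  have hC : Subgroup.centralizer (N : Set G) = N := by
    obtain ⟨-, h3⟩ := S0549.result U hU hUc N hb
    exact (((h3.resolve_left fun e => hb (le_bot_iff.1 (e ▸ Subgroup.le_centralizer N))).2 N hN (Subgroup.le_centralizer N)).resolve_left hb).symm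
  obtain ⟨M, hM, hlt, -, hch⟩ := exists_minimal_normal_gt (B := ⊤) (lt_top_iff_ne_top.2 hNT)
  obtain ⟨q, hq, hel'⟩ := elementary_of_chief hlt inferInstance hch
  haveI := Fact.mk hq
  have hNp := IsElementaryAbelian.isPGroup' hel
  have hqp : q ≠ p := by
    rintro rfl
    have hMp : IsPGroup q M := by
      have := (IsElementaryAbelian.isPGroup' hel').comap_of_ker_isPGroup (QuotientGroup.mk' N) (by rwa [QuotientGroup.ker_mk'])
      rwa [comap_map_mk', sup_eq_left.2 hlt.le] at this
    have := commutator_le_of_chief (U := N) (V := ⊥) hMp.isNilpotent bot_le fun W hW _ h => hmin W hW h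
    rw [le_bot_iff, Subgroup.commutator_eq_bot_iff_le_centralizer, Subgroup.le_centralizer_iff, hC] at this
    exact not_le_of_gt hlt this
  have k : ∀ U : Subgroup G, IsCoatom U → U.normalCore = ⊥ → IsSylowIn q (U ⊓ M) M ∧ Subgroup.normalizer ((U ⊓ M : Subgroup G) : Set G) = U := fun U hU hcore => by
    have h1 : U ⊓ M ⊔ N = M := by
      rw [← sup_inf_assoc_norm' Subgroup.le_normalizer_of_normal hlt.le, hs U hU hcore N hN hb, top_inf_eq]
    have h2 : U ⊓ M ⊓ N = ⊥ := by rw [inf_right_comm, inf_comm U N, hd U hU hcore, bot_inf_eq]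
    obtain ⟨e⟩ := nonempty_equiv_map_of_disjoint (QuotientGroup.mk' N) (X := U ⊓ M) (by rwa [QuotientGroup.ker_mk'])
    refine ⟨⟨inf_le_right, ((IsElementaryAbelian.isPGroup' hel').to_le (Subgroup.map_mono inf_le_right)).of_equiv e.symm, fun h => hqp ?_⟩, ?_⟩
    · have h3 := relIndex_inf_dvd_relIndex_sup (P := U ⊓ M) (N := N) Subgroup.le_normalizer_of_normal
      rw [h1] at h3
      rw [← h3] at h
      exact isPGroup_iff_forall_prime.1 hNp q hq (h.trans (Subgroup.relIndex_dvd_card _ _))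
    · refine ((le_normalizer_inf Subgroup.le_normalizer Subgroup.le_normalizer_of_normal).lt_or_eq.resolve_left fun h => ?_).symm
      haveI := normal_of_top_le_normalizer (hU.2 _ h).ge
      have : U ⊓ M = ⊥ := le_bot_iff.1 (hcore ▸ Subgroup.normal_le_normalCore.2 inf_le_left)
      rw [this, bot_sup_eq] at h1
      exact hlt.ne h1
  obtain ⟨g, -, hg⟩ := (k U hU hUc).1.conj (k V hV hVc).1
  exact ⟨g, by rw [← (k U hU hUc).2, ← normalizer_conj_smul, hg, (k V hV hVc).2]⟩

end Cfsg.Agent.S0551
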