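import Cfsg.Statements.S0552
import Cfsg.Agent.H1.Misc

set_option autoImplicit false
open Cfsg

namespace Cfsg.Agent.S0552

open Cfsg.Agent.H1

/-- Let σ be an automorphism of a finite solvable group G fixing every element of the Fitting subgroup. If σ is not the identity then the order of σ and the order of G have a common prime factor. -/
theorem result {G : Type*} [Group G] [Finite G] [Group.IsSolvable G] (σ : G ≃* G) (hσ : ∀ x ∈ Cfsg.fittingSubgroup G, σ x = x) (hne : σ ≠ MulEquiv.refl G) : ¬ (orderOf σ).Coprime (Nat.card G) := by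
  intro hc
  refine hne (MulEquiv.ext fun g => ?_)
  have h1 : g⁻¹ * σ g ∈ fittingSubgroup G := centralizer_fittingSubgroup_le ‹_› fun f hf => by
    have := hσ _ ((fittingSubgroup_normal G).conj_mem f hf g)
    rw [map_mul, map_mul, map_inv, hσ f hf] at this
    calc f * (g⁻¹ * σ g) = g⁻¹ * (g * f * g⁻¹) * σ g := by group
      _ = _ := by rw [← this]; group
  have h2 : ∀ n : ℕ, (σ ^ n) g = g * (g⁻¹ * σ g) ^ n := fun n => by
    induction n with
    | zero => simp
    | succ n ih => rw [pow_succ', MulAut.mul_apply, ih, map_mul, hσ _ (pow_mem h1 n), pow_succ', ← mul_assoc, mul_inv_cancel_left]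
  have h3 := h2 (orderOf σ)
  rw [pow_orderOf_eq_one, MulAut.one_apply, left_eq_mul] at h3
  have h4 : orderOf (g⁻¹ * σ g) = 1 := Nat.eq_one_of_dvd_coprimes hc (orderOf_dvd_of_pow_eq_one h3) (orderOf_dvd_natCard _)
  rw [orderOf_eq_one_iff, inv_mul_eq_one] at h4
  exact h4.symm

end Cfsg.Agent.S0552
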