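import Cfsg.Statements.S0553
import Cfsg.Agent.H1.Misc

set_option autoImplicit false
open Cfsg

namespace Cfsg.Agent.S0553

open Cfsg.Agent.H1

/-- Let G be a nontrivial finite solvable group in which every maximal subgroup has order coprime to its index. Then for some prime p dividing the order of G the Sylow p-subgroups of G are normal. -/
theorem result {G : Type*} [Group G] [Finite G] [Group.IsSolvable G] [Nontrivial G] (h : ∀ M : Subgroup G, IsCoatom M → (Nat.card M).Coprime M.index) : ∃ p : ℕ, p.Prime ∧ p ∣ Nat.card G ∧ ∀ P : Sylow p G, (P : Subgroup G).Normal := by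
  haveI := nontrivial_quotient_of_ne_top (frattini_ne_top (G := G))
  obtain ⟨N, p, hN, hb, -, hp, hel, hmin⟩ := exists_minimal_normal_elementary (⊤ : Subgroup (G ⧸ frattini G)) top_ne_bot inferInstance
  haveI := Fact.mk hp
  haveI := hel.1
  have hf := QuotientGroup.mk'_surjective (frattini G)
  obtain ⟨M, hM, hNM⟩ : ∃ M : Subgroup (G ⧸ frattini G), IsCoatom M ∧ ¬ N ≤ M := by
    by_contra! hc
    exact hb (le_bot_iff.1 (frattini_quotient_frattini (G := G) ▸ le_frattini_iff.2 hc))
  have hc := isComplement'_of_minimal_normal hmin hM.1 (hM.2 _ (lt_of_le_of_ne le_sup_left fun e => hNM (e ▸ le_sup_right)))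
  have h1 := h _ (isCoatom_comap_of_surjective' hf hM)
  rw [index_comap_mk', card_comap_mk', hc.index_eq_card, ← hc.symm.index_eq_card] at h1
  have hd := dvd_card_of_isPGroup_of_ne_bot (IsElementaryAbelian.isPGroup' hel) hb
  have hnil : Group.IsNilpotent (N.comap (QuotientGroup.mk' (frattini G))) :=
    isNilpotent_of_map_mk'_of_le_frattini le_rfl (by rw [map_comap_mk']; exact isNilpotent_of_isMulCommutative inferInstance)
  refine ⟨p, hp, hd.trans ((Subgroup.card_subgroup_dvd_card N).trans (Subgroup.card_quotient_dvd_card _)), fun P => ?_⟩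
  have hle : (P : Subgroup G) ≤ N.comap (QuotientGroup.mk' (frattini G)) := le_of_coprime_index (by
    rw [index_comap_mk']
    exact coprime_card_of_isPGroup P.isPGroup' ((h1.coprime_dvd_right hd).coprime_dvd_left (Dvd.intro_left _ rfl)))
  exact normal_of_top_le_normalizer (Subgroup.le_normalizer_of_normal.trans ((isSylowIn_of_sylow_le P hle).normalizer_le_of_isNilpotent hnil))

end Cfsg.Agent.S0553
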