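import Cfsg.Statements.S0554
import Cfsg.Agent.H1.Misc

set_option autoImplicit false
open Cfsg

namespace Cfsg.Agent.S0554

open Cfsg.Agent.H1

theorem aux1 {G : Type*} [Group G] (N : Subgroup G) [hN : N.Normal] (t : ℕ) (s : Fin t → G) (j : Fin t) (n : G) (hn : n ∈ N) :
    ∃ n' ∈ N, (List.ofFn s).prod * n = (List.ofFn (Function.update s j (s j * n'))).prod := by
  induction t with
  | zero => exact j.elim0
  | succ t ih =>
    induction j using Fin.cases with
    | zero =>
      refine ⟨_, hN.conj_mem n hn (List.ofFn fun i => s i.succ).prod, ?_⟩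
      simp [List.ofFn_succ, Function.update, mul_assoc]
    | succ j =>
      obtain ⟨n', hn', e⟩ := ih (fun i => s i.succ) j
      refine ⟨n', hn', ?_⟩
      rw [List.ofFn_succ, List.ofFn_succ, List.prod_cons, List.prod_cons, mul_assoc, e, Function.update_of_ne (Fin.succ_ne_zero j).symm]
      congr 3
      ext i
      simp [Function.update]

universe u in
theorem aux {G : Type u} [Group G] [Finite G] (hs : Group.IsSolvable G) (t : ℕ) (p : Fin t → ℕ) (hp : ∀ i, (p i).Prime) (hall : ∀ q : ℕ, q.Prime → q ∣ Nat.card G → ∃ i, p i = q) (S : (i : Fin t) → Subgroup G) (hS : ∀ i, IsSylowIn (p i) (S i) ⊤) (g : G) : ∃ s : (i : Fin t) → G, (∀ i, s i ∈ (S i : Subgroup G)) ∧ g = (List.ofFn s).prod := by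
  induction hn : Nat.card G using Nat.strong_induction_on generalizing G with
  | h n ih =>
  by_cases hT : (⊤ : Subgroup G) = ⊥
  · exact ⟨fun _ => 1, fun _ => one_mem _, by simpa using Subgroup.mem_bot.1 (hT ▸ Subgroup.mem_top g)⟩
  obtain ⟨N, q, hN, hb, -, hq, hNq⟩ := exists_normal_isPGroup_of_isSolvable ⊤ hT inferInstance
  haveI := Fact.mk hq
  obtain ⟨j, rfl⟩ := hall q hq ((dvd_card_of_isPGroup_of_ne_bot hNq hb).trans (Subgroup.card_subgroup_dvd_card N))
  have hf := QuotientGroup.mk'_surjective N
  obtain ⟨s, hs, e⟩ := ih _ (hn ▸ card_quotient_lt hb) inferInstance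
    (fun q hq hd => hall q hq (hd.trans (Subgroup.card_quotient_dvd_card N))) (fun i => (S i).map (QuotientGroup.mk' N))
    (fun i => Subgroup.map_top_of_surjective _ hf ▸ (hS i).map _) (QuotientGroup.mk' N g) rfl
  choose s' hs' hs'' using hs
  have h1 : (List.ofFn s').prod⁻¹ * g ∈ N := by
    rw [← QuotientGroup.eq, ← QuotientGroup.mk'_apply, ← QuotientGroup.mk'_apply, e, map_list_prod, List.map_ofFn]
    congr 2
    exact funext hs''
  obtain ⟨n', hn', e'⟩ := aux1 N t s' j _ h1
  refine ⟨_, fun i => ?_, by rw [← e']; group⟩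
  by_cases hij : i = j
  · subst hij
    rw [Function.update_self]
    exact mul_mem (hs' i) ((hS i).le_of_normal le_top hNq Subgroup.le_normalizer_of_normal hn')
  · rw [Function.update_of_ne hij]; exact hs' i

/-- Let G be a finite solvable group and let S assign to each of t distinct primes, including every prime divisor of the order of G, a Sylow subgroup of G. Then every element of G is a product s_0 s_1 ⋯ s_(t-1) with s_i in S i, the factors taken in the given order. -/
theorem result {G : Type*} [Group G] [Finite G] [Group.IsSolvable G] (t : ℕ) (p : Fin t → ℕ) (hp : ∀ i, (p i).Prime) (hinj : Function.Injective p) (hall : ∀ q : ℕ, q.Prime → q ∣ Nat.card G → ∃ i, p i = q) (S : (i : Fin t) → Sylow (p i) G) : ∀ g : G, ∃ s : (i : Fin t) → G, (∀ i, s i ∈ (S i : Subgroup G)) ∧ g = (List.ofFn s).prod := by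
  exact aux ‹_› t p hp hall (fun i => S i) fun i => by
    haveI := Fact.mk (hp i)
    exact isSylowIn_top (S i)

end Cfsg.Agent.S0554
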