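import Cfsg.Statements.S0555
import Cfsg.Agent.H1.Misc

set_option autoImplicit false
open Cfsg

namespace Cfsg.Agent.S0555

open Cfsg.Agent.H1

/-- Let i ≥ 1. If in the derived series of a group the quotient of the i-th term by the (i+1)-st and the quotient of the (i+1)-st by the (i+2)-nd are both cyclic, then the (i+1)-st and (i+2)-nd terms coincide. -/
theorem result {G : Type*} [Group G] (i : ℕ) (hi : 1 ≤ i) (h₁ : IsCyclic (↥(derivedSeries G i) ⧸ (derivedSeries G (i + 1)).subgroupOf (derivedSeries G i))) (h₂ : IsCyclic (↥(derivedSeries G (i + 1)) ⧸ (derivedSeries G (i + 2)).subgroupOf (derivedSeries G (i + 1)))) : derivedSeries G (i + 1) = derivedSeries G (i + 2) := by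
  obtain ⟨i, rfl⟩ : ∃ j, i = j + 1 := ⟨i - 1, by omega⟩
  obtain ⟨x, hx, h1⟩ := exists_generator_of_isCyclic_quotient h₁
  obtain ⟨a, ha, h2⟩ := exists_generator_of_isCyclic_quotient h₂
  refine le_antisymm ?_ (Subgroup.commutator_le_left _ _)
  set B := derivedSeries G (i + 1 + 2)
  have e1 : (derivedSeries G (i + 1 + 1)).map (QuotientGroup.mk' B) = Subgroup.zpowers (QuotientGroup.mk' B a) := by
    refine le_antisymm ?_ (Subgroup.zpowers_le.2 (Subgroup.mem_map_of_mem _ ha))
    rintro _ ⟨y, hy, rfl⟩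
    obtain ⟨n, b, hb, rfl⟩ := h2 y hy
    rw [map_mul, show QuotientGroup.mk' B b = 1 from (QuotientGroup.eq_one_iff b).2 hb, mul_one, map_zpow]
    exact Subgroup.zpow_mem_zpowers _ _
  have e2 : (derivedSeries G (i + 1)).map (QuotientGroup.mk' B) ≤ Subgroup.zpowers (QuotientGroup.mk' B x) ⊔ Subgroup.zpowers (QuotientGroup.mk' B a) := by
    rintro _ ⟨y, hy, rfl⟩
    obtain ⟨n, b, hb, rfl⟩ := h1 y hy
    rw [map_mul, map_zpow]
    exact Subgroup.mul_mem_sup (Subgroup.zpow_mem_zpowers _ _) (e1 ▸ Subgroup.mem_map_of_mem _ hb)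
  haveI : (Subgroup.zpowers (QuotientGroup.mk' B a)).Normal := e1 ▸ Subgroup.Normal.map inferInstance _ (QuotientGroup.mk'_surjective B)
  have e3 : QuotientGroup.mk' B x ∈ Subgroup.centralizer (Subgroup.zpowers (QuotientGroup.mk' B a) : Set (G ⧸ B)) := by
    refine L.commutator_le_centralizer_of_isCyclic _ ?_
    have := Subgroup.mem_map_of_mem (QuotientGroup.mk' B) hx
    rw [derivedSeries_succ, Subgroup.map_commutator] at this
    exact Subgroup.commutator_mono le_top le_top this
  haveI := isMulCommutative_zpowers_sup_of_le_centralizer e3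
  haveI := isMulCommutative_of_le e2
  rw [derivedSeries_succ G (i + 1), commutator_le_iff_map_mk']
  exact Subgroup.le_centralizer _

end Cfsg.Agent.S0555
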