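import Cfsg.Statements.S0557
import Cfsg.Agent.H1.Carter
import Cfsg.Agent.H2.Transfer

set_option autoImplicit false
open Cfsg

namespace Cfsg.Agent.S0557

open Cfsg.Agent.H1

/-- Let H be a subgroup of a finite group G with order coprime to its index. If iterating the focal-subgroup construction starting from H reaches the trivial subgroup after finitely many steps, then H has a normal complement in G. -/
theorem result {G : Type*} [Group G] [Finite G] (H : Subgroup G) (hHall : (Nat.card H).Coprime H.index) (n : ℕ) (hfoc : (fun K : Subgroup G => Subgroup.focalSubgroup K)^[n] H = ⊥) : ∃ N : Subgroup G, N.Normal ∧ Subgroup.IsComplement' N H := by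
  open Subgroup Pointwise commutatorElement in focus
    obtain ⟨N, hN, h1, h2, h3⟩ := exists_normal_residual (G := G) (Nat.card H)
    have hs : N ⊔ H = ⊤ := sup_eq_top_of_coprime_index (Nat.coprime_of_dvd' fun r hr d1 d2 =>
      Nat.eq_one_of_dvd_coprimes hHall (h3 r hr d1) d2 ▸ dvd_rfl)
    refine ⟨N, hN, isComplement'_of_inf_eq_bot_of_sup_eq_top ?_ hs⟩
    have hcop : (Nat.card H).Coprime ((N ⊓ H).relIndex N) := by
      rw [inf_relIndex_left]
      exact hHall.coprime_dvd_right (relIndex_dvd_index_of_normal_right H N)
    have key : N ⊓ H ≤ focalSubgroup (N ⊓ H) := by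
      obtain ⟨M, -, hMn, -, hd, hM⟩ := H2.exists_transfer_ker_in (K := N) (H := N ⊓ H) (D := focalSubgroup (N ⊓ H))
        inf_le_left (commutator_le_focalSubgroup _)
      have hNM : N ≤ M := h2 M fun g hg => le_of_coprime_relIndex (zpowers_le.2 (h1 g hg)) hMn (by
        rw [Nat.card_zpowers]
        exact hg.coprime_dvd_right (hd.trans ((relIndex_dvd_card _ _).trans (card_dvd_of_le inf_le_right)))) (mem_zpowers g)
      intro x hx
      refine mem_of_pow_mem_of_coprime ((hM x hx fun k a _ h => ?_).1 (hNM hx.1))
        (hcop.coprime_dvd_left (orderOf_dvd_card_of_mem hx.2)).symm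
      rw [← inv_mem_iff]
      refine subset_closure ⟨inv_mem (mul_mem h (inv_mem (pow_mem hx k))), x ^ k, pow_mem hx k, a, ?_⟩
      rw [commutatorElement_def]; group
    have : ∀ k : ℕ, N ⊓ H ≤ (fun K : Subgroup G => focalSubgroup K)^[k] H := by
      intro k
      induction k with
      | zero => exact inf_le_right
      | succ k ih =>
        rw [Function.iterate_succ_apply']
        exact key.trans (closure_mono fun g ⟨h1, x, hx, h2⟩ => ⟨ih h1, x, ih hx, h2⟩)
    exact le_bot_iff.1 (hfoc ▸ this n)

end Cfsg.Agent.S0557
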