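import Cfsg.Statements.S0558
import Cfsg.Agent.H1.Misc
import Cfsg.Agent.H2.Transfer

set_option autoImplicit false
open Cfsg

namespace Cfsg.Agent.S0558

open Cfsg.Agent.H1

/-- Let H be a subgroup of a finite group G that is not a Sylow subgroup of G for any prime, and suppose that for every prime p dividing the order of H and every Sylow p-subgroup P of H the normalizer of P in G is exactly H. Then some normal subgroup of G is a complement to H. -/
theorem result {G : Type*} [Group G] [Finite G] (H : Subgroup G) (hnot : ∀ p : ℕ, p.Prime → ∀ P : Sylow p G, (P : Subgroup G) ≠ H) (hnorm : ∀ p : ℕ, p.Prime → p ∣ Nat.card H → ∀ P : Sylow p H, Subgroup.normalizer (((P : Subgroup H).map H.subtype : Subgroup G) : Set G) = H) : ∃ N : Subgroup G, N.Normal ∧ Subgroup.IsComplement' N H := by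
  open Subgroup Pointwise commutatorElement in focus
    have h0 : ∀ p : ℕ, p.Prime → p ∣ Nat.card H → ∀ P, IsSylowIn p P H → normalizer (P : Set G) = H ∧ IsSylowIn p P ⊤ := fun p hp hd P hP => by
      haveI := Fact.mk hp
      have e : normalizer (P : Set G) = H := by
        obtain ⟨P, rfl⟩ := hP.exists_sylow
        exact hnorm p hp hd P
      obtain ⟨S, hS, hPS⟩ := exists_isSylowIn_ge (le_top : P ≤ ⊤) hP.2.1
      refine ⟨e, eq_of_isNilpotent_of_normalizer_le hS.2.1.isNilpotent hPS ?_ ▸ hS⟩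
      exact (hP.eq_of_le (le_inf hPS le_normalizer) (inf_le_right.trans e.le) (hS.2.1.to_le inf_le_left)).le
    have hH : Group.IsNilpotent H := isNilpotent_of_forall_isSylowIn fun p hp => by
      haveI := Fact.mk hp
      obtain ⟨P, hP⟩ := exists_isSylowIn p H
      refine ⟨P, hP, ?_⟩
      by_cases hd : p ∣ Nat.card H
      · exact (h0 p hp hd P hP).1.ge
      · rw [eq_bot_of_isPGroup_of_not_dvd hP.2.1 fun h => hd (h.trans (card_dvd_of_le hP.1))]
        exact le_normalizer_of_normal
    have hHall : (Nat.card H).Coprime H.index := Nat.coprime_of_dvd' fun p hp d1 d2 => by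
      haveI := Fact.mk hp
      obtain ⟨P, hP⟩ := exists_isSylowIn p H
      exact absurd (d2.trans (relIndex_top_right P ▸ index_dvd_of_le hP.1)) (h0 p hp d1 P hP).2.2.2
    obtain ⟨N, hN, h1, h2, h3⟩ := exists_normal_residual (G := G) (Nat.card H)
    have hs : N ⊔ H = ⊤ := sup_eq_top_of_coprime_index (Nat.coprime_of_dvd' fun r hr d1 d2 =>
      Nat.eq_one_of_dvd_coprimes hHall (h3 r hr d1) d2 ▸ dvd_rfl)
    refine ⟨N, hN, isComplement'_of_inf_eq_bot_of_sup_eq_top ?_ hs⟩
    by_contra hne
    obtain ⟨p, hp, hd⟩ := exists_prime_dvd_card hne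
    haveI := Fact.mk hp
    have hdH := hd.trans (card_dvd_of_le inf_le_right)
    obtain ⟨P, hP⟩ := exists_isSylowIn p H
    obtain ⟨q, hq, hqd, hqp⟩ : ∃ q : ℕ, q.Prime ∧ q ∣ Nat.card H ∧ q ≠ p := by
      by_contra! hc
      obtain ⟨S, hS⟩ := (h0 p hp hdH P hP).2.exists_sylow_top
      exact hnot p hp S (hS.trans (hP.eq_of_le hP.1 le_rfl (isPGroup_iff_forall_prime.2 hc)).symm)
    haveI := Fact.mk hq
    obtain ⟨Q, hQ⟩ := exists_isSylowIn q H
    obtain ⟨K, hK⟩ := exists_hallOf {p}ᶜ (K := H) inferInstance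
    have hKP : K ≤ centralizer (P : Set G) := le_centralizer_of_isNilpotent_of_coprime hH hK.1 hP.1
      (coprime_card_of_isPGroup hP.2.1 ((Nat.Prime.coprime_iff_not_dvd hp).2 fun h => hK.2.1 p hp h rfl).symm).symm
    have hQP : Q ≤ centralizer (P : Set G) := le_centralizer_of_isNilpotent_of_coprime hH hQ.1 hP.1
      (IsPGroup.coprime_card_of_ne q p hqp _ _ hQ.2.1 hP.2.1)
    have hf := forall_mul_of_coprime_relIndex hP.1 hK.1 (coprime_of_pi (π := {p}) (fun r hr hd => by
      by_contra hc; exact hK.2.2 r hr hc hd) fun r _ hr => hr ▸ hP.2.2).symm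
    have hnil : H2.PNil p (⊤ : Subgroup G) := (H2.sylIn_iff.2 (h0 p hp hdH P hP).2).pNil_of_control fun x hx u _ hux => by
      have hQ' := (h0 q hq hqd Q hQ).2
      have c1 : Q ≤ centralizer {u * x * u⁻¹} := hQP.trans (centralizer_le (by simpa using hux))
      have c2 : MulAut.conj u • Q ≤ centralizer {u * x * u⁻¹} := conj_smul_le_iff.2 fun y hy =>
        mem_centralizer_singleton_iff.2 (by
          have := hQP hy x hx.1
          calc u * y * u⁻¹ * (u * x * u⁻¹) = u * (y * x) * u⁻¹ := by group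
            _ = _ := by rw [← this]; group)
      obtain ⟨c, hc, e⟩ := ((hQ'.conj_smul_of_mem_normalizer (le_normalizer (mem_top u))).of_le c2 le_top).conj (hQ'.of_le c1 le_top)
      rw [conj_smul_conj_smul, conj_smul_eq_self_iff, (h0 q hq hqd Q hQ).1] at e
      obtain ⟨v, hv, k, hk, e'⟩ := hf _ e
      refine ⟨v, hv, ?_⟩
      have e1 := hKP hk x hx.1
      have e2 := mem_centralizer_singleton_iff.1 hc
      calc v * x * v⁻¹ = v * (x * k) * k⁻¹ * v⁻¹ := by group
        _ = (v * k) * x * (v * k)⁻¹ := by rw [e1]; group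
        _ = c * (u * x * u⁻¹) * c⁻¹ := by rw [← e']; group
        _ = _ := by rw [e2]; group
    obtain ⟨x, hx, ho⟩ := exists_mem_orderOf_eq_prime hp hd
    have := hnil x (h2 _ (fun g hg => H2.mem_resOf (mem_top g) (hg.coprime_dvd_right hdH)) hx.1)
    rw [ho, Nat.coprime_self] at this
    exact hp.ne_one this

end Cfsg.Agent.S0558
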