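import Cfsg.Statements.S0561
import Cfsg.Agent.H1.Misc

set_option autoImplicit false
open Pointwise
open Cfsg

namespace Cfsg.Agent.S0561

open Cfsg.Agent.H1

/-- Let the finite solvable group G be the product HK of subgroups, and let A be normal in H and B normal in K, where A and B are Hall subgroups of G (order coprime to index). Then for all x, y the product set of xAx⁻¹ and yBy⁻¹ is a subgroup of G. -/
theorem result {G : Type*} [Group G] [Finite G] [Group.IsSolvable G] (H K A B : Subgroup G) (hHK : ∀ g : G, ∃ h ∈ H, ∃ k ∈ K, g = h * k) (hA : A ≤ H) (hAn : (A.subgroupOf H).Normal) (hB : B ≤ K) (hBn : (B.subgroupOf K).Normal) (hAh : (Nat.card A).Coprime A.index) (hBh : (Nat.card B).Coprime B.index) (x y : G) : ∃ S : Subgroup G, (S : Set G) = ((MulAut.conj x • A : Subgroup G) : Set G) * ((MulAut.conj y • B : Subgroup G) : Set G) := by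
  have h1 := Subgroup.le_normalizer_of_normal_subgroupOf hA
  have h2 := Subgroup.le_normalizer_of_normal_subgroupOf hB
  obtain ⟨g, e1, e2⟩ := exists_conj_both hHK h1 h2 x y
  rw [e1, e2]
  obtain ⟨R, hR, hAR⟩ := exists_hall_ge {p | p ∣ Nat.card A ∨ p ∣ Nat.card B} ‹_› (U := A) fun p _ h => Or.inl h
  obtain ⟨c, hc⟩ := hall_conj_le ‹_› hR (U := B) fun p _ h => Or.inr h
  obtain ⟨h, hh, k, hk, rfl⟩ := hHK c
  rw [← conj_smul_conj_smul, conj_smul_eq_self_iff.2 (h2 hk), conj_smul_le_iff_le] at hc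
  have hA' := conj_smul_mono h⁻¹ hAR
  rw [conj_smul_eq_self_iff.2 (h1 (inv_mem hh))] at hA'
  have hR' := isPiHall_conj_smul hR h⁻¹
  generalize MulAut.conj h⁻¹ • R = R' at *
  refine ⟨MulAut.conj g • R', coe_eq_mul_iff.2 ⟨conj_smul_mono g hA', conj_smul_mono g hc, forall_mul_conj_smul
    (forall_mul_of_coprime_relIndex hA' hc (Nat.coprime_of_dvd' fun r hr d1 d2 => ?_)) g⟩⟩
  rcases hR'.1 r hr (d1.trans (Subgroup.relIndex_dvd_card _ _)) with h | h
  · exact Nat.eq_one_of_dvd_coprimes hAh h (d1.trans (Subgroup.relIndex_dvd_index_of_le hA')) ▸ dvd_rfl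
  · exact Nat.eq_one_of_dvd_coprimes hBh h (d2.trans (Subgroup.relIndex_dvd_index_of_le hc)) ▸ dvd_rfl

end Cfsg.Agent.S0561
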