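import Cfsg.Statements.S0562
import Cfsg.Agent.H1.Misc

set_option autoImplicit false
open Cfsg

namespace Cfsg.Agent.S0562

open Cfsg.Agent.H1

/-- Let the finite group G be the product HK of subgroups, A normal in H, B normal in K, and L the normalizer of the subgroup generated by A and B. Then every element of L is a product of an element of L ∩ H and an element of L ∩ K. -/
theorem result {G : Type*} [Group G] [Finite G] (H K A B : Subgroup G) (hHK : ∀ g : G, ∃ h ∈ H, ∃ k ∈ K, g = h * k) (hA : A ≤ H) (hAn : (A.subgroupOf H).Normal) (hB : B ≤ K) (hBn : (B.subgroupOf K).Normal) : ∀ g ∈ Subgroup.normalizer ((A ⊔ B : Subgroup G) : Set G), ∃ h ∈ Subgroup.normalizer ((A ⊔ B : Subgroup G) : Set G) ⊓ H, ∃ k ∈ Subgroup.normalizer ((A ⊔ B : Subgroup G) : Set G) ⊓ K, g = h * k := by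
  have h1 := Subgroup.le_normalizer_of_normal_subgroupOf hA
  have h2 := Subgroup.le_normalizer_of_normal_subgroupOf hB
  intro g hg
  obtain ⟨h, hh, k, hk, rfl⟩ := hHK g
  have h3 : h ∈ Subgroup.normalizer ((A ⊔ B : Subgroup G) : Set G) := by
    refine mem_normalizer_of_conj_mem (conj_smul_le_iff.1 (conj_smul_le_iff_le.2 (sup_le ?_ ?_)))
    · exact conj_smul_le_iff_le.1 ((conj_smul_eq_self_iff.2 (h1 hh)).le.trans le_sup_left)
    · have := (conj_smul_mono _ le_sup_right).trans (conj_smul_eq_self_iff.2 hg).le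
      rwa [← conj_smul_conj_smul, conj_smul_eq_self_iff.2 (h2 hk), conj_smul_le_iff_le] at this
  exact ⟨h, Subgroup.mem_inf.2 ⟨h3, hh⟩, k, Subgroup.mem_inf.2 ⟨(Subgroup.mul_mem_cancel_left _ h3).1 hg, hk⟩, rfl⟩

end Cfsg.Agent.S0562
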