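import Cfsg.Statements.S0563
import Mathlib
import Cfsg.Agent.H2.KW
import Cfsg.Agent.S0561

set_option autoImplicit false
open Pointwise
open Cfsg

namespace Cfsg.Agent.S0563

open Cfsg.Agent.H2 Cfsg.Agent.H8 Subgroup

/-- If a finite group G is the product AB of two nilpotent subgroups of coprime orders, then G is solvable, and for every Sylow p-subgroup P of A and Sylow q-subgroup Q of B the product set PQ is a subgroup. -/
theorem result {G : Type*} [Group G] [Finite G] (A B : Subgroup G) (hA : Group.IsNilpotent A) (hB : Group.IsNilpotent B) (hcop : (Nat.card A).Coprime (Nat.card B)) (hAB : ∀ g : G, ∃ a ∈ A, ∃ b ∈ B, g = a * b) : Group.IsSolvable G ∧ ∀ (p q : ℕ) [Fact p.Prime] [Fact q.Prime] (P : Sylow p A) (Q : Sylow q B), ∃ S : Subgroup G, (S : Set G) = (((P : Subgroup A).map A.subtype : Subgroup G) : Set G) * (((Q : Subgroup B).map B.subtype : Subgroup G) : Set G) := by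
  haveI := kegel_wielandt hA hB (fz_top_iff.2 hAB)
  refine ⟨this, fun p q _ _ P Q => ?_⟩
  have key : ∀ {A B : Subgroup G}, Fac A B → ∀ (p : ℕ) [Fact p.Prime] (P : Sylow p A),
      (((P : Subgroup A).map A.subtype).subgroupOf A).Normal ∧
      (Nat.card ((P : Subgroup A).map A.subtype)).Coprime ((P : Subgroup A).map A.subtype).index := by
    intro A B h p _ P
    rw [(pcl_of_nilpotent h.nA).eq_Op (sylIn_map_subtype P)]
    refine ⟨(normal_subgroupOf_iff_le_normalizer (Op_le p A)).2 (le_normalizer_Op p A), ?_⟩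
    by_cases hd : p ∣ Nat.card A
    · simpa using (h.sylIn hd).coprime
    · rw [(sylIn_Op_of_nil h.nA).eq_bot_iff.2 hd]; simp
  have h : Fac A B := ⟨hA, hB, hcop, fz_top_iff.2 hAB⟩
  simpa using S0561.result A B _ _ hAB (map_subtype_le _) (key h p P).1 (map_subtype_le _)
    (key h.symm q Q).1 (key h p P).2 (key h.symm q Q).2 1 1

end Cfsg.Agent.S0563
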