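import Cfsg.Statements.S0567
import Cfsg.Agent.H1.Misc
import Cfsg.Agent.H8.Subnormal

set_option autoImplicit false
open Cfsg

namespace Cfsg.Agent.S0567

open Cfsg.Agent.H1

/-- A subgroup H of a group G is subnormal exactly when, for some m, the subgroup obtained from G by taking the commutator with H m times in succession is contained in H. -/
theorem result {G : Type*} [Group G] (H : Subgroup G) : H.IsSubnormal ↔ ∃ m : ℕ, (fun K : Subgroup G => ⁅K, H⁆)^[m] ⊤ ≤ H := by
  rw [← H8.sn_top_iff]
  constructor
  · intro h
    have key : ∀ A, H8.SN ⊤ A → H ≤ A → ∃ m : ℕ, (fun K : Subgroup G => ⁅K, H⁆)^[m] ⊤ ≤ A := by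
      intro A hA
      induction hA with
      | refl => exact fun _ => ⟨0, le_rfl⟩
      | step A B h1 _ h3 ih =>
        intro h4
        obtain ⟨m, hm⟩ := ih (h4.trans h1)
        refine ⟨m + 1, ?_⟩
        rw [Function.iterate_succ_apply']
        exact (Subgroup.commutator_mono hm h4).trans (commutator_le_right_of_le_normalizer h3)
    exact key H h le_rfl
  · rintro ⟨m, hm⟩
    have key : ∀ k : ℕ, H8.SN ⊤ (H ⊔ (fun K : Subgroup G => ⁅K, H⁆)^[k] ⊤) := by
      intro k
      induction k with
      | zero => simpa using H8.SN.refl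
      | succ k ih =>
        rw [Function.iterate_succ_apply']
        refine H8.SN.step _ _ (sup_le le_sup_left ((Subgroup.commutator_le_sup _ _).trans (sup_comm _ _).le)) ih ?_
        rw [Subgroup.commutator_comm, ← H8.ncl_eq_sup_commutator]
        exact sup_le ((H8.le_ncl _ _).trans Subgroup.le_normalizer) (H8.le_normalizer_ncl _ _)
    simpa [sup_eq_left.2 hm] using key m

end Cfsg.Agent.S0567
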