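import Cfsg.Statements.S0568
import Cfsg.Agent.H1.Carter

set_option autoImplicit false
open Cfsg

namespace Cfsg.Agent.S0568

open Cfsg.Agent.H1

/-- Let D be the system normalizer of a Hall complement system of a finite solvable group G, and let A < B be normal subgroups with no normal subgroup of G strictly between them (a chief factor). If G centralizes B modulo A then B ≤ A ⊔ D (D covers the factor); otherwise B ∩ D ≤ A (D avoids it). -/
theorem result {G : Type*} [Group G] [Finite G] [Group.IsSolvable G] (K : Nat.Primes → Subgroup G) (hK : Cfsg.IsComplementSystem K) (A B : Subgroup G) [A.Normal] [B.Normal] (hAB : A < B) (hchief : ∀ N : Subgroup G, N.Normal → A ≤ N → N ≤ B → N = A ∨ N = B) : (⁅B, (⊤ : Subgroup G)⁆ ≤ A → B ≤ A ⊔ Cfsg.systemNormalizer K) ∧ (¬ ⁅B, (⊤ : Subgroup G)⁆ ≤ A → B ⊓ Cfsg.systemNormalizer K ≤ A) := by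
  have hf := QuotientGroup.mk'_surjective A
  haveI : (B.map (QuotientGroup.mk' A)).Normal := Subgroup.Normal.map ‹_› _ hf
  rw [commutator_le_iff_map_mk', Subgroup.map_top_of_surjective _ hf]
  constructor
  · intro h
    rw [sup_comm, ← map_mk'_le_map_mk'_iff, ← IsComplementSystem.systemNormalizer_map ‹_› hK A]
    exact le_iInf fun p => (h.trans (centralizer_anti le_top)).trans (Subgroup.centralizer_le_normalizer _)
  · intro h
    obtain ⟨p, hp, hel⟩ := elementary_of_chief hAB inferInstance hchief
    haveI := Fact.mk hp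
    have hH := isComplementSystem_iff.1 (IsComplementSystem.map hK hf) ⟨p, hp⟩
    have := inf_centralizer_hall_eq_bot inferInstance (IsElementaryAbelian.isPGroup' hel)
      (map_mk'_minimal_of_chief hchief hAB.le) hH fun e => h (Subgroup.le_centralizer_iff.1 e.ge)
    rw [← map_mk'_eq_bot_iff, eq_bot_iff, ← this]
    refine le_inf (Subgroup.map_mono inf_le_left) fun x hx k hk => ?_
    have hx1 := Subgroup.map_mono (f := QuotientGroup.mk' A) (inf_le_left : B ⊓ systemNormalizer K ≤ B) hx
    have hx2 := map_le_normalizer_map (QuotientGroup.mk' A) (inf_le_right.trans (systemNormalizer_le K ⟨p, hp⟩) : B ⊓ systemNormalizer K ≤ _) hx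
    have hd := disjoint_of_isPGroup_of_coprime (IsElementaryAbelian.isPGroup' hel) ((isPiHall_compl_iff hp).1 hH).1
    have h3 : k * x * k⁻¹ * x⁻¹ ∈ B.map (QuotientGroup.mk' A) ⊓ (K ⟨p, hp⟩).map (QuotientGroup.mk' A) :=
      Subgroup.mem_inf.2 ⟨mul_mem (Subgroup.Normal.conj_mem ‹_› _ hx1 k) (inv_mem hx1), by
        rw [mul_assoc, mul_assoc, ← mul_assoc x]
        exact mul_mem hk (conj_mem_of_mem_normalizer hx2 (inv_mem hk))⟩
    rw [hd, Subgroup.mem_bot, mul_inv_eq_one, mul_inv_eq_iff_eq_mul] at h3
    exact h3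

end Cfsg.Agent.S0568
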