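import Cfsg.Statements.S0569
import Cfsg.Agent.H1.Carter

set_option autoImplicit false
open Cfsg

namespace Cfsg.Agent.S0569

open Cfsg.Agent.H1

/-- In a finite solvable group: each nilpotent self-normalizing subgroup contains the system normalizer of some Hall complement system, and the system normalizer of any Hall complement system lies in some nilpotent self-normalizing subgroup. -/
theorem result {G : Type*} [Group G] [Finite G] [Group.IsSolvable G] : (∀ C : Subgroup G, Cfsg.IsCarterSubgroup C → ∃ K : Nat.Primes → Subgroup G, Cfsg.IsComplementSystem K ∧ Cfsg.systemNormalizer K ≤ C) ∧ ∀ K : Nat.Primes → Subgroup G, Cfsg.IsComplementSystem K → ∃ C : Subgroup G, Cfsg.IsCarterSubgroup C ∧ Cfsg.systemNormalizer K ≤ C := by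
  have h1 : ∀ C : Subgroup G, Cfsg.IsCarterSubgroup C → ∃ K : Nat.Primes → Subgroup G, Cfsg.IsComplementSystem K ∧ Cfsg.systemNormalizer K ≤ C := fun C hC => by
    obtain ⟨K, hK, hr⟩ := exists_system_reduces ‹_› C
    exact ⟨K, hK, systemNormalizer_le_of_reduces ‹_› hC hK hr⟩
  refine ⟨h1, fun K hK => ?_⟩
  obtain ⟨C, hC⟩ := exists_isCarterSubgroup ‹Group.IsSolvable G›
  obtain ⟨L, hL, hle⟩ := h1 C hC
  obtain ⟨g, -, hg⟩ := IsComplementSystem.exists_conj ‹_› hL hK ⊤ (by simp)
  refine ⟨_, IsCarterSubgroup.conj_smul hC g, ?_⟩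
  rw [← funext hg, systemNormalizer_conj_smul]
  exact conj_smul_mono g hle

end Cfsg.Agent.S0569
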