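import Cfsg.Statements.S0570
import Cfsg.Agent.H1.Carter

set_option autoImplicit false
open Cfsg

namespace Cfsg.Agent.S0570

open Cfsg.Agent.H1

/-- Let G be a finite group with a nilpotent normal subgroup F such that G modulo F is nilpotent (nilpotent length at most two). Then a subgroup of G is a Carter subgroup if and only if it is the system normalizer of some Hall complement system. -/
theorem result {G : Type*} [Group G] [Finite G] (F : Subgroup G) [F.Normal] (hF : Group.IsNilpotent F) (hGF : Group.IsNilpotent (G ⧸ F)) (C : Subgroup G) : Cfsg.IsCarterSubgroup C ↔ ∃ K : Nat.Primes → Subgroup G, Cfsg.IsComplementSystem K ∧ C = Cfsg.systemNormalizer K := by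
  have hs : Group.IsSolvable G := isSolvable_of_normal_of_quotient F inferInstance inferInstance
  have h1 : ∀ C : Subgroup G, Cfsg.IsCarterSubgroup C → ∃ K : Nat.Primes → Subgroup G, Cfsg.IsComplementSystem K ∧ C = Cfsg.systemNormalizer K := fun C hC => by
    obtain ⟨K, hK, hr⟩ := exists_system_reduces hs C
    refine ⟨K, hK, eq_of_isNilpotent_of_normalizer_le (IsComplementSystem.isNilpotent_systemNormalizer hK)
      (le_iInf fun p => ?_) (inf_le_right.trans hC.2.le)⟩
    have hKp := isComplementSystem_iff.1 hK p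
    have hf := QuotientGroup.mk'_surjective F
    have h2 := isPiHallOf_map (hr p) (QuotientGroup.mk' F)
    rw [map_mk'_eq_top_iff.2 (IsCarterSubgroup.sup_eq_top hs hC F hGF)] at h2
    have h3 := eq_of_isPiHallOf_of_le h2 (Subgroup.map_mono inf_le_left) le_top (isPiHall_map hKp hf).1
    have h4 : K p = (K p ⊓ C) ⊔ (K p ⊓ F) := by
      rw [inf_comm (K p) F, ← sup_inf_assoc_norm Subgroup.le_normalizer_of_normal inf_le_left]
      exact (inf_eq_right.2 (map_mk'_le_map_mk'_iff.1 h3.le)).symm
    rw [h4]
    exact le_normalizer_sup (Subgroup.le_normalizer.trans (le_normalizer_of_hallOf_of_isNilpotent (hr p) hC.1))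
      (Subgroup.le_normalizer_of_normal.trans (le_normalizer_of_hallOf_of_isNilpotent
        (isPiHallOf_inf_normal (isPiHallOf_top.2 hKp) le_top Subgroup.le_normalizer_of_normal) hF))
  refine ⟨h1 C, ?_⟩
  rintro ⟨K, hK, rfl⟩
  obtain ⟨C, hC⟩ := exists_isCarterSubgroup hs
  obtain ⟨L, hL, rfl⟩ := h1 C hC
  obtain ⟨g, -, hg⟩ := IsComplementSystem.exists_conj hs hL hK ⊤ (by simp)
  rw [← funext hg, systemNormalizer_conj_smul]
  exact IsCarterSubgroup.conj_smul hC g

end Cfsg.Agent.S0570
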