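import Cfsg.Statements.S0573
import Cfsg.Agent.H1.Misc

set_option autoImplicit false
open Cfsg

namespace Cfsg.Agent.S0573

open Cfsg.Agent.H1

universe u in
theorem aux {G : Type u} [Group G] [Finite G] [Nontrivial G] (A B : Subgroup G) [IsMulCommutative A] [IsMulCommutative B] (hAB : ∀ g : G, ∃ a ∈ A, ∃ b ∈ B, g = a * b) : ∃ N : Subgroup G, N.Normal ∧ N ≠ ⊥ ∧ (N ≤ A ∨ N ≤ B) := by
  induction hn : Nat.card G using Nat.strong_induction_on generalizing G with
  | h n ih =>
  by_contra! hcon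
  have hA : ∀ N : Subgroup G, N.Normal → N ≤ A → N = ⊥ := fun N hN h => by_contra fun hb => (hcon N hN hb).1 h
  have hB : ∀ N : Subgroup G, N.Normal → N ≤ B → N = ⊥ := fun N hN h => by_contra fun hb => (hcon N hN hb).2 h
  haveI := isMulCommutative_commutator_of_forall_mul hAB
  set D := commutator G
  have hD : ∀ X : Subgroup G, D ≤ X → X.Normal := fun X hX => normal_of_top_le_normalizer
    (Subgroup.le_normalizer_iff_commutator_le_right.2 ((Subgroup.commutator_mono le_rfl le_top).trans hX))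
  have k1 : ∀ A B : Subgroup G, IsMulCommutative A → IsMulCommutative B → (∀ g : G, ∃ a ∈ A, ∃ b ∈ B, g = a * b) →
      (∀ N : Subgroup G, N.Normal → N ≤ A → N = ⊥) → (∀ N : Subgroup G, N.Normal → N ≤ B → N = ⊥) →
      Subgroup.centralizer ((A ⊔ D : Subgroup G) : Set G) = ⊥ := fun A B _ _ hAB hA hB => by
    haveI := hD (A ⊔ D) le_sup_right
    refine hA _ inferInstance ((centralizer_anti le_sup_left).trans fun g hg => ?_)
    obtain ⟨a, ha, b, hb, rfl⟩ := forall_mul_inf_of_le hAB (Subgroup.le_centralizer A) g hg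
    have h1 : Subgroup.centralizer (A : Set G) ⊓ B = ⊥ := hB _ (normal_of_top_le_normalizer (by
      rw [← sup_eq_top_of_forall_mul hAB]
      exact sup_le (le_normalizer_of_centralizer_ge inf_le_left) (le_normalizer_of_isMulCommutative inf_le_right))) inf_le_right
    rw [h1, Subgroup.mem_bot] at hb
    simpa [hb] using ha
  have cA := k1 A B ‹_› ‹_› hAB hA hB
  have cB := k1 B A ‹_› ‹_› (forall_mul_symm_top hAB) hB hA
  have hDb : D ≠ ⊥ := fun e => by
    have h1 := hA A (hD A (e ▸ bot_le)) le_rfl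
    have h2 := hB B (hD B (e ▸ bot_le)) le_rfl
    have := sup_eq_top_of_forall_mul hAB
    rw [h1, h2, bot_sup_eq] at this
    exact bot_ne_top this
  by_cases hH : (A ⊔ D) ⊓ (B ⊔ D) = ⊤
  · have h1 : A ⊔ D = ⊤ := eq_top_iff.2 (hH.ge.trans inf_le_left)
    have h2 : B ⊔ D = ⊤ := eq_top_iff.2 (hH.ge.trans inf_le_right)
    have hnil : Group.IsNilpotent G := isNilpotent_of_forall_sylow fun p hp => by
      haveI := Fact.mk hp
      obtain ⟨P, Q, hP, hQ, hR, -⟩ := exists_sylow_mul hAB p
      obtain ⟨S, hS⟩ := exists_isSylowIn p D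
      haveI := normal_of_top_le_normalizer (Subgroup.le_normalizer_of_normal.trans
        (hS.normalizer_le_of_isNilpotent (isNilpotent_of_isMulCommutative inferInstance)))
      have hSR := hR.le_of_normal le_top hS.2.1 Subgroup.le_normalizer_of_normal
      have e1 := (h1 ▸ isSylowIn_sup Subgroup.le_normalizer_of_normal hP hS Subgroup.le_normalizer_of_normal).eq_of_le
        (sup_le le_sup_left hSR) le_top hR.2.1
      have e2 := (h2 ▸ isSylowIn_sup Subgroup.le_normalizer_of_normal hQ hS Subgroup.le_normalizer_of_normal).eq_of_le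
        (sup_le le_sup_right hSR) le_top hR.2.1
      obtain ⟨R, hR⟩ := hR.exists_sylow_top
      refine ⟨R, normal_of_top_le_normalizer ?_⟩
      rw [← sup_eq_top_of_forall_mul hAB, hR]
      refine sup_le ?_ ?_
      · rw [e1]; exact le_normalizer_sup (le_normalizer_of_isMulCommutative hP.1) Subgroup.le_normalizer_of_normal
      · rw [e2]; exact le_normalizer_sup (le_normalizer_of_isMulCommutative hQ.1) Subgroup.le_normalizer_of_normal
    refine inf_center_ne_bot hnil ⊤ top_ne_bot ?_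
    rw [eq_bot_iff, ← cA]
    exact inf_le_right.trans (Subgroup.center_le_centralizer _)
  · have hDH : D ≤ (A ⊔ D) ⊓ (B ⊔ D) := le_inf le_sup_right le_sup_right
    have hf : ∀ g ∈ (A ⊔ D) ⊓ (B ⊔ D), ∃ a ∈ A ⊓ ((A ⊔ D) ⊓ (B ⊔ D)), ∃ b ∈ B ⊓ ((A ⊔ D) ⊓ (B ⊔ D)), g = a * b := fun g hg => by
      obtain ⟨a, ha, b, hb, rfl⟩ := hAB g
      exact ⟨a, Subgroup.mem_inf.2 ⟨ha, Subgroup.mem_sup_left ha, (Subgroup.mul_mem_cancel_right _ (Subgroup.mem_sup_left hb)).1 hg.2⟩,
        b, Subgroup.mem_inf.2 ⟨hb, (Subgroup.mul_mem_cancel_left _ (Subgroup.mem_sup_left ha)).1 hg.1, Subgroup.mem_sup_left hb⟩, rfl⟩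
    generalize (A ⊔ D) ⊓ (B ⊔ D) = H at *
    haveI : Nontrivial H := (Subgroup.nontrivial_iff_ne_bot H).2 fun e => hDb (le_bot_iff.1 (e ▸ hDH))
    haveI := isMulCommutative_of_le (inf_le_left : A ⊓ H ≤ A)
    haveI := isMulCommutative_of_le (inf_le_left : B ⊓ H ≤ B)
    obtain ⟨N, hN, hNb, hle⟩ := ih _ (hn ▸ card_lt_of_ne_top hH) ((A ⊓ H).subgroupOf H) ((B ⊓ H).subgroupOf H)
      (forall_mul_subgroupOf inf_le_right inf_le_right hf) rfl
    have hn' := le_normalizer_map_subtype_of_normal H N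
    have k2 : ∀ A : Subgroup G, IsMulCommutative A → Subgroup.centralizer ((A ⊔ D : Subgroup G) : Set G) = ⊥ →
        ¬ N ≤ (A ⊓ H).subgroupOf H := fun A _ cA h => by
      have h1 : N.map H.subtype ≤ A := (Subgroup.map_mono h).trans (by rw [map_subtype_subgroupOf inf_le_right]; exact inf_le_left)
      have h2 : A ⊓ D = ⊥ := by
        rw [eq_bot_iff, ← cA, centralizer_sup]
        exact inf_le_inf (Subgroup.le_centralizer A) (Subgroup.le_centralizer D)
      refine hNb ((Subgroup.map_eq_bot_iff_of_injective _ H.subtype_injective).1 ?_)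
      rw [eq_bot_iff, ← cA, centralizer_sup]
      refine le_inf (h1.trans (Subgroup.le_centralizer A)) (le_centralizer_of_normalizer_of_disjoint
        Subgroup.le_normalizer_of_normal (hDH.trans hn') ?_)
      rw [eq_bot_iff, ← h2]; exact inf_le_inf_right _ h1
    exact hle.elim (k2 A ‹_› cA) (k2 B ‹_› cB)

/-- If a nontrivial finite group G is the product AB of abelian subgroups A and B, then some nontrivial normal subgroup of G is contained in A or in B. -/
theorem result {G : Type*} [Group G] [Finite G] [Nontrivial G] (A B : Subgroup G) [IsMulCommutative A] [IsMulCommutative B] (hAB : ∀ g : G, ∃ a ∈ A, ∃ b ∈ B, g = a * b) : ∃ N : Subgroup G, N.Normal ∧ N ≠ ⊥ ∧ (N ≤ A ∨ N ≤ B) := by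
  exact aux A B hAB

end Cfsg.Agent.S0573
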