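import Cfsg.Statements.S0571
import Cfsg.Agent.H1.Misc
import Cfsg.Agent.S0573

set_option autoImplicit false
open Cfsg

namespace Cfsg.Agent.S0571

open Cfsg.Agent.H1

universe u in
theorem aux {G : Type u} [Group G] [Finite G] (A B : Subgroup G) [IsCyclic A] [IsCyclic B] (hAB : ∀ g : G, ∃ a ∈ A, ∃ b ∈ B, g = a * b) : Cfsg.IsSupersolvable G := by
  induction hn : Nat.card G using Nat.strong_induction_on generalizing G with
  | h n ih =>
  rcases subsingleton_or_nontrivial G with h | h
  · exact isSupersolvable_of_subsingleton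
  obtain ⟨N, hN, hb, hle⟩ := S0573.result A B hAB
  haveI : IsCyclic N := hle.elim (fun h => Subgroup.isCyclic_of_le h) fun h => Subgroup.isCyclic_of_le h
  haveI : IsCyclic (A.map (QuotientGroup.mk' N)) := isCyclic_of_surjective _ (MonoidHom.subgroupMap_surjective _ A)
  haveI : IsCyclic (B.map (QuotientGroup.mk' N)) := isCyclic_of_surjective _ (MonoidHom.subgroupMap_surjective _ B)
  exact isSupersolvable_of_isCyclic_of_quotient N (ih _ (hn ▸ card_quotient_lt hb) _ _
    (forall_mul_map hAB (QuotientGroup.mk'_surjective N)) rfl)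

/-- If a finite group G is the product AB of two cyclic subgroups (every element is a product ab), then G is supersolvable. -/
theorem result {G : Type*} [Group G] [Finite G] (A B : Subgroup G) [IsCyclic A] [IsCyclic B] (hAB : ∀ g : G, ∃ a ∈ A, ∃ b ∈ B, g = a * b) : Cfsg.IsSupersolvable G := by
  exact aux A B hAB

end Cfsg.Agent.S0571
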