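import Cfsg.Statements.S0577
import Cfsg.Agent.H1.Burnside

set_option autoImplicit false
open Cfsg

namespace Cfsg.Agent.S0577

open Cfsg.Agent.H1

/-- Let G be a finite minimal non-nilpotent group and Q a normal Sylow q-subgroup of G, and let D be the commutator subgroup of Q regarded in G (a normal subgroup). Then G modulo D is non-abelian and all its proper subgroups are abelian. -/
theorem result {G : Type*} [Group G] [Finite G] (hG : Cfsg.IsMinimalNonNilpotent G) (q : ℕ) [Fact q.Prime] (hq : q ∣ Nat.card G) (Q : Sylow q G) (hQ : (Q : Subgroup G).Normal) (D : Subgroup G) [D.Normal] (hD : D = (commutator ↥(Q : Subgroup G)).map (Q : Subgroup G).subtype) : ¬ IsMulCommutative (G ⧸ D) ∧ ∀ K : Subgroup (G ⧸ D), K ≠ ⊤ → IsMulCommutative K := by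
  obtain ⟨p, r, hp, hr, hpq, x, R, h1, h2, h3, h4, h5⟩ := minimalNonNilpotent_structure hG
  haveI := Fact.mk hp
  haveI := Fact.mk hr
  have hQ' := isSylowIn_top Q
  rw [Subgroup.map_subtype_commutator] at hD
  have hqr : q = r := by
    have hd : q ∣ Nat.card (Subgroup.zpowers x) * Nat.card R := by
      rw [← Subgroup.card_top, ← h4] at hq
      exact hq.trans (card_sup_dvd Subgroup.le_normalizer_of_normal)
    refine ((Nat.Prime.dvd_mul Fact.out).1 hd).elim (fun h => ?_) fun h => isPGroup_iff_forall_prime.1 h2.2.1 q Fact.out h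
    obtain rfl := isPGroup_iff_forall_prime.1 h1.2.1 q Fact.out h
    exact absurd (h1.eq_of_le (hQ'.le_of_le_normalizer le_top h1.2.1 Subgroup.le_normalizer_of_normal) le_top Q.isPGroup' ▸ hQ) h5
  subst hqr
  obtain rfl : (Q : Subgroup G) = R := h2.eq_of_le (hQ'.le_of_le_normalizer le_top h2.2.1 Subgroup.le_normalizer_of_normal) le_top Q.isPGroup'
  have hf := QuotientGroup.mk'_surjective D
  have hDF : D ≤ (frattini Q).map (Q : Subgroup G).subtype := hD ▸ commutator_le_map_frattini Q.isPGroup'
  constructor
  · intro hc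
    have h6 := Subgroup.Normal.quotient_commutative_iff_commutator_le.1 hc
    have := le_centralizer_of_commutator_le_frattini (A := Subgroup.zpowers x) (K := Q) Subgroup.le_normalizer_of_normal
      ((IsPGroup.coprime_card_of_ne p q hpq _ _ h1.2.1 h2.2.1).coprime_dvd_right (Subgroup.card_subgroup_dvd_card _))
      ((Subgroup.commutator_mono le_top le_top).trans (h6.trans hDF))
    exact h5 (normal_of_top_le_normalizer (h4 ▸ sup_le Subgroup.le_normalizer (le_normalizer_of_centralizer_ge this)))
  · intro K hK
    have hKn : Group.IsNilpotent K := by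
      rw [← map_comap_mk' D K]
      exact isNilpotent_map _ (hG.2 _ fun e => hK (by rw [← map_comap_mk' D K, e, Subgroup.map_top_of_surjective _ hf]))
    refine isMulCommutative_of_isNilpotent_of_forall_isPGroup hKn fun s hs S _ hS => ?_
    haveI := Fact.mk hs
    by_cases e : s = p
    · subst e
      have h7 := h1.map (QuotientGroup.mk' D)
      rw [Subgroup.map_top_of_surjective _ hf, MonoidHom.map_zpowers] at h7
      obtain ⟨g, -, hg⟩ := h7.exists_conj_le le_top hS
      rw [conj_smul_le_iff_le, conj_smul_eq_map] at hg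
      exact isMulCommutative_of_le hg
    · haveI : ((Q : Subgroup G).map (QuotientGroup.mk' D)).Normal := hQ.map _ hf
      haveI : IsMulCommutative ((Q : Subgroup G).map (QuotientGroup.mk' D)) :=
        Subgroup.le_centralizer_iff_isMulCommutative.1 (commutator_le_iff_map_mk'.1 hD.ge)
      refine isMulCommutative_of_le (le_of_coprime_index (N := (Q : Subgroup G).map (QuotientGroup.mk' D)) ?_)
      refine Nat.Coprime.coprime_dvd_right (Subgroup.index_map_dvd _ hf) ?_
      rw [← forall_mul_iff_relIndex_eq_index.1 (forall_mul_of_sup_eq_top h4)]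
      obtain ⟨k, hk⟩ := h1.2.1.exists_card_eq
      refine Nat.Coprime.coprime_dvd_right (Subgroup.relIndex_dvd_card _ _) (coprime_card_of_isPGroup hS ?_)
      rw [hk]
      exact ((Nat.coprime_primes hp hs).2 (Ne.symm e)).pow_left k

end Cfsg.Agent.S0577
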