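import Cfsg.Statements.S0578
import Cfsg.Agent.H1.Burnside

set_option autoImplicit false
open Cfsg

namespace Cfsg.Agent.S0578

open Cfsg.Agent.H1

universe u in
theorem aux {G : Type u} [Group G] [Finite G] (h : ∀ A : Subgroup G, IsMulCommutative A → Subgroup.normalizer (A : Set G) ≤ Subgroup.centralizer (A : Set G)) : IsMulCommutative G := by
  induction hn : Nat.card G using Nat.strong_induction_on generalizing G with
  | h n ih =>
  have h1 : ∀ M : Subgroup G, M ≠ ⊤ → IsMulCommutative M := fun M hM =>
    ih _ (hn ▸ card_lt_of_ne_top hM) (fun A _ g hg a ha => Subtype.ext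
      (h (A.map M.subtype) inferInstance (map_le_normalizer_map M.subtype le_rfl (Subgroup.mem_map_of_mem _ hg)) a
        (Subgroup.mem_map_of_mem M.subtype ha))) rfl
  rcases subsingleton_or_nontrivial G with hs | hs
  · exact ⟨⟨fun a b => Subsingleton.elim _ _⟩⟩
  obtain ⟨M, hMn, hM, hp⟩ := exists_normal_isCoatom_of_isSolvable
    (isSolvable_of_forall_isCoatom_isNilpotent fun M hM => isNilpotent_of_isMulCommutative (h1 M hM.1))
  have := isMulCommutative_of_relIndex_prime (R := ⊤) (D := M) le_top
    (Subgroup.le_centralizer_iff.1 (Subgroup.le_normalizer_of_normal.trans (h M (h1 M hM.1)))) (Or.inl (by simpa using hp))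
  exact ⟨⟨fun a b => mul_comm_of_mem (A := ⊤) trivial trivial⟩⟩

/-- If in a finite group the normalizer of each abelian subgroup coincides with its centralizer, then the group is abelian. -/
theorem result {G : Type*} [Group G] [Finite G] (h : ∀ A : Subgroup G, IsMulCommutative A → Subgroup.normalizer (A : Set G) = Subgroup.centralizer (A : Set G)) : IsMulCommutative G := by
  exact aux fun A hA => (h A hA).le

end Cfsg.Agent.S0578
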