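import Cfsg.Statements.S0580
import Cfsg.Agent.H1.Misc

set_option autoImplicit false
open Cfsg

namespace Cfsg.Agent.S0580

open Cfsg.Agent.H1

theorem aux1 {G : Type*} [Group G] [Finite G] (h : ∀ M : Subgroup G, IsCoatom M → M.index.Prime) {p : ℕ} [hp : Fact p.Prime]
    (hmax : ∀ q : ℕ, q.Prime → q ∣ Nat.card G → q ≤ p) (P : Sylow p G) : (P : Subgroup G).Normal := by
  by_contra hn
  obtain ⟨M, hM, hle⟩ := exists_coatom_ge (H := Subgroup.normalizer (P : Set G)) fun e => hn (normal_of_top_le_normalizer e.ge)
  have h1 := card_sylow_modEq_one p G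
  have h2 := card_sylow_modEq_one p M
  have hPM : (P : Subgroup G) ≤ M := Subgroup.le_normalizer.trans hle
  rw [Sylow.card_eq_index_normalizer P, ← Subgroup.relIndex_mul_index hle] at h1
  rw [Sylow.card_eq_index_normalizer (P.subtype hPM)] at h2
  have e : (Subgroup.normalizer ((P.subtype hPM : Sylow p M) : Set M)).index = (Subgroup.normalizer (P : Set G)).relIndex M := by
    rw [Subgroup.relIndex, show (P : Set G) = ((P : Subgroup G) : Set G) from rfl, Subgroup.subgroupOf_normalizer_eq hPM]; rfl
  rw [e] at h2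
  have h3 : M.index ≡ 1 [MOD p] := by
    have := (h2.mul_right M.index).symm.trans h1
    rwa [one_mul] at this
  have h4 := hmax _ (h M hM) M.index_dvd_card
  have h5 := (h M hM).two_le
  rcases h4.lt_or_eq with h6 | h6
  · have := Nat.ModEq.eq_of_lt_of_lt h3 h6 hp.out.one_lt
    omega
  · rw [h6] at h3
    exact hp.out.one_lt.ne' (Nat.dvd_one.1 ((Nat.modEq_zero_iff_dvd).1 (h3.symm.trans (Nat.modEq_zero_iff_dvd.2 dvd_rfl))))

theorem aux2 {G : Type*} [Group G] (h : ∀ M : Subgroup G, IsCoatom M → M.index.Prime) (N : Subgroup G) [N.Normal]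
    (M : Subgroup (G ⧸ N)) (hM : IsCoatom M) : M.index.Prime :=
  index_comap_mk' N M ▸ h _ (isCoatom_comap_of_surjective' (QuotientGroup.mk'_surjective N) hM)

universe u in
theorem aux {G : Type u} [Group G] [Finite G] (h : ∀ M : Subgroup G, IsCoatom M → M.index.Prime) : Group.IsSolvable G := by
  induction hn : Nat.card G using Nat.strong_induction_on generalizing G with
  | h n ih =>
  by_cases h1 : Nat.card G = 1
  · haveI := (Nat.card_eq_one_iff_unique.1 h1).1
    infer_instance
  obtain ⟨p, hp, hd, hmax⟩ := exists_max_prime_dvd Nat.card_pos.ne' h1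
  haveI := Fact.mk hp
  obtain ⟨P⟩ : Nonempty (Sylow p G) := inferInstance
  haveI := aux1 h hmax P
  exact isSolvable_of_normal_of_quotient P (isSolvable_of_isPGroup P.isPGroup')
    (ih _ (hn ▸ card_quotient_lt ((isSylowIn_top P).ne_bot (by simpa using hd))) (aux2 h _) rfl)

/-- If every maximal subgroup of a finite group has prime index, then the group is solvable. -/
theorem result {G : Type*} [Group G] [Finite G] (h : ∀ M : Subgroup G, IsCoatom M → M.index.Prime) : Group.IsSolvable G := by
  exact aux h

end Cfsg.Agent.S0580
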