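import Cfsg.Statements.S0579
import Cfsg.Agent.H1.Misc
import Cfsg.Agent.S0580

set_option autoImplicit false
open Cfsg

namespace Cfsg.Agent.S0579

open Cfsg.Agent.H1

universe u in
theorem aux {G : Type u} [Group G] [Finite G] (h : ∀ M : Subgroup G, IsCoatom M → M.index.Prime) : IsSupersolvable G := by
  induction hn : Nat.card G using Nat.strong_induction_on generalizing G with
  | h n ih =>
  by_cases h1 : Nat.card G = 1
  · haveI := (Nat.card_eq_one_iff_unique.1 h1).1
    exact isSupersolvable_of_subsingleton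
  obtain ⟨p, hp, hd, hmax⟩ := exists_max_prime_dvd Nat.card_pos.ne' h1
  haveI := Fact.mk hp
  obtain ⟨P₀⟩ : Nonempty (Sylow p G) := inferInstance
  haveI := S0580.aux1 h hmax P₀
  have hP := isSylowIn_top P₀
  generalize (P₀ : Subgroup G) = P at *
  obtain ⟨N, hN, hb, hNP, hmin⟩ := exists_minimal_normal_le P (hP.ne_bot (by simpa using hd))
  have hq := ih _ (hn ▸ card_quotient_lt hb) (S0580.aux2 h N) rfl
  have hel := elementary_of_minimal_normal_of_isPGroup (hP.2.1.to_le hNP) hmin
  haveI := hel.1
  suffices hc : (Nat.card N).Prime by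
    haveI := Fact.mk hc
    haveI : IsCyclic N := isCyclic_of_prime_card rfl
    exact isSupersolvable_of_isCyclic_of_quotient N hq
  by_cases hF : N ≤ frattini G
  swap
  · obtain ⟨M, hM, hNM⟩ : ∃ M : Subgroup G, IsCoatom M ∧ ¬ N ≤ M := by
      by_contra! hc
      exact hF (le_frattini_iff.2 hc)
    have hc := isComplement'_of_minimal_normal hmin hM.1 (hM.2 _ (lt_of_le_of_ne le_sup_left fun e => hNM (e ▸ le_sup_right)))
    exact hc.index_eq_card ▸ h M hM
  let D : Subgroup G := commutator G ⊔ (⨆ g : G, Subgroup.zpowers (g ^ (p - 1))) ⊔ P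
  haveI : D.Normal := normal_of_top_le_normalizer (Subgroup.le_normalizer_iff_commutator_le_right.2
    ((Subgroup.commutator_mono le_rfl le_top).trans (le_sup_left.trans le_sup_left)))
  have hPD : P ≤ D := le_sup_right
  have hPD' := hP.of_le hPD le_top
  obtain ⟨K, hKD, hKP, hs, hc⟩ := exists_complement_of_coprime hPD Subgroup.le_normalizer_of_normal hPD'.coprime_relIndex
  have hcop : (Nat.card K).Coprime (Nat.card P) := hc ▸ hPD'.coprime_relIndex.symm
  have hPs := isSolvable_of_isPGroup hP.2.1
  have h2 : ⁅P, K⁆ ≤ N := by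
    obtain ⟨X, hXP, ⟨hX, hNX, hX'⟩, hXm⟩ := exists_minimal_le (fun X : Subgroup G => X.Normal ∧ N ≤ X ∧ ⁅P, K⁆ ≤ X) (N := P)
      ⟨‹_›, hNP, Subgroup.commutator_le_left _ _⟩
    rcases hNX.lt_or_eq with hlt | e
    swap
    · exact e ▸ hX'
    obtain ⟨Y, hNY, ⟨hY, hYX⟩, hYm⟩ := exists_maximal_ge (fun Y : Subgroup G => Y.Normal ∧ Y < X) (N := N) ⟨hN, hlt⟩
    have hch : ∀ W : Subgroup G, W.Normal → Y ≤ W → W ≤ X → W = Y ∨ W = X := fun W hW h1 h2 =>
      h2.lt_or_eq.imp_left fun h => hYm W ⟨hW, h⟩ h1
    have hqY : IsSupersolvable (G ⧸ Y) := IsSupersolvable.of_surjective hq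
      (f := QuotientGroup.map N Y (MonoidHom.id G) hNY) fun y => by
        obtain ⟨y, rfl⟩ := QuotientGroup.mk_surjective y
        exact ⟨y, rfl⟩
    haveI : (X.map (QuotientGroup.mk' Y)).Normal := hX.map _ (QuotientGroup.mk'_surjective Y)
    have hXb : X.map (QuotientGroup.mk' Y) ≠ ⊥ := fun e => not_le_of_gt hYX (map_mk'_eq_bot_iff.1 e)
    have h3 := IsSupersolvable.relIndex_prime_of_chief hqY (bot_lt_iff_ne_bot.2 hXb)
      fun W hW _ h => map_mk'_minimal_of_chief hch hYX.le W hW h
    rw [Subgroup.relIndex_bot_left] at h3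
    have h4 := isPGroup_iff_forall_prime.1 ((hP.2.1.to_le hXP).map (QuotientGroup.mk' Y)) _ h3 dvd_rfl
    rw [card_map_mk'] at h3 h4
    have h5 : ⁅X, D⁆ ≤ Y := commutator_sup_right_le (commutator_sup_right_le (commutator_le_of_relIndex_prime h3)
      (commutator_iSup_right_le (fun g => commutator_zpowers_pow_le_of_relIndex_prime hp h4 g) fun _ => Subgroup.le_normalizer_of_normal)
      Subgroup.le_normalizer_of_normal Subgroup.le_normalizer_of_normal) (commutator_le_of_chief hP.2.1.isNilpotent hYX.le hch)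
      Subgroup.le_normalizer_of_normal Subgroup.le_normalizer_of_normal
    refine absurd (hXm Y ⟨hY, hNY, ?_⟩ hYX.le) hYX.ne
    rw [← commutator_commutator_eq Subgroup.le_normalizer_of_normal hcop (Or.inr hPs)]
    exact (Subgroup.commutator_mono hX' hKD).trans h5
  have h3 := hallOf_frattini (π := {r | r ∣ Nat.card K}) (H := K) (N := D) (L := ⊤) (by haveI := S0580.aux h; infer_instance)
    (isPiHallOf_of_coprime hKD (by
      rw [← hs, ← relIndex_inf_dvd_relIndex_sup Subgroup.le_normalizer_of_normal]
      exact hcop.coprime_dvd_right (Subgroup.relIndex_dvd_card _ _))) le_top Subgroup.le_normalizer_of_normal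
  have h4 : Subgroup.normalizer (K : Set G) = ⊤ := eq_top_of_sup_frattini hF (by
    rw [eq_top_iff, ← h3, ← hs]
    refine sup_le (inf_le_right.trans le_sup_left) (sup_le (Subgroup.le_normalizer.trans le_sup_left) ?_)
    rw [← commutator_sup_centralizer Subgroup.le_normalizer_of_normal hcop (Or.inr hPs)]
    exact sup_le (h2.trans le_sup_right) (inf_le_right.trans ((Subgroup.centralizer_le_normalizer _).trans le_sup_left)))
  haveI := normal_of_top_le_normalizer h4.ge
  have h5 := relIndex_eq_prime_of_chief (A := ⊥) (M := N) (C := D) (bot_lt_iff_ne_bot.2 hb) (hP.2.1.to_le hNP)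
    (fun W hW _ h => hmin W hW h) (by
      rw [← hs]
      refine commutator_sup_right_le ?_ (commutator_le_of_chief hP.2.1.isNilpotent bot_le fun W hW _ h => hmin W hW h)
        Subgroup.le_normalizer_of_normal Subgroup.le_normalizer_of_normal
      rw [le_bot_iff, Subgroup.commutator_eq_bot_iff_le_centralizer, Subgroup.le_centralizer_iff]
      exact (le_centralizer_of_normal_of_disjoint hKP).trans (centralizer_anti hNP))
    (le_sup_left.trans le_sup_left) fun g => Subgroup.mem_sup_left (Subgroup.mem_sup_right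
      (le_iSup (fun g : G => Subgroup.zpowers (g ^ (p - 1))) g (Subgroup.mem_zpowers _)))
  rw [Subgroup.relIndex_bot_left] at h5
  exact h5 ▸ hp

/-- Huppert's supersolvability criterion: if every maximal subgroup of a finite group has prime index, then the group is supersolvable. -/
theorem result {G : Type*} [Group G] [Finite G] (h : ∀ M : Subgroup G, IsCoatom M → M.index.Prime) : Cfsg.IsSupersolvable G := by
  exact aux h

end Cfsg.Agent.S0579
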