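import Cfsg.Statements.S0582
import Cfsg.Agent.H1.Misc

set_option autoImplicit false
open Pointwise
open Cfsg

namespace Cfsg.Agent.S0582

open Cfsg.Agent.H1

section
open Subgroup Pointwise commutatorElement
universe u

theorem aux {G : Type u} [Group G] [Finite G] (H K : Subgroup G) (hH : Cfsg.IsSupersolvable H) (hK : Cfsg.IsSupersolvable K) (hcard : Nat.card H = Nat.card K) (hHall : (Nat.card H).Coprime H.index) : ∃ x : G, MulAut.conj x • H = K := by
  induction hn : Nat.card G using Nat.strong_induction_on generalizing G with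
  | h n ih =>
  by_cases h1 : Nat.card H = 1
  · exact ⟨1, by rw [conj_one_smul, card_eq_one.1 h1, card_eq_one.1 (hcard.symm.trans h1)]⟩
  obtain ⟨p, hp, hd, hmax⟩ := exists_max_prime_dvd Nat.card_pos.ne' h1
  haveI := Fact.mk hp
  have hi : K.index = H.index := by
    have := K.index_mul_card.trans H.index_mul_card.symm
    rw [hcard] at this
    exact Nat.eq_of_mul_eq_mul_right Nat.card_pos this
  have k : ∀ H : Subgroup G, IsSupersolvable H → (∀ q : ℕ, q.Prime → q ∣ Nat.card H → q ≤ p) → ¬ p ∣ H.index →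
      ∃ P, IsSylowIn p P ⊤ ∧ P ≤ H ∧ H ≤ normalizer (P : Set G) := fun H hH hmax hi => by
    obtain ⟨P⟩ : Nonempty (Sylow p H) := inferInstance
    haveI := IsSupersolvable.sylow_normal hH hmax (isSylowIn_top P)
    have hP := isSylowIn_map_subtype P
    refine ⟨_, ⟨le_top, hP.2.1, fun h => ?_⟩, hP.1, le_normalizer_map_subtype_of_normal H P⟩
    rw [relIndex_top_right, ← relIndex_mul_index hP.1] at h
    exact ((Nat.Prime.dvd_mul hp).1 h).elim hP.2.2 hi
  have hpi : ¬ p ∣ H.index := fun h => hp.ne_one (Nat.eq_one_of_dvd_coprimes hHall hd h)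
  obtain ⟨P, hP, hPH, hHP⟩ := k H hH hmax hpi
  obtain ⟨Q, hQ, hQK, hKQ⟩ := k K hK (hcard ▸ hmax) (hi ▸ hpi)
  obtain ⟨g, -, rfl⟩ := hQ.conj hP
  have hK' := IsSupersolvable.of_equiv hK (conjEquiv g K)
  have hQK' := conj_smul_mono g hQK
  have hKQ' := conj_smul_mono g hKQ
  rw [← normalizer_conj_smul] at hKQ'
  rw [← card_conj_smul g K] at hcard
  suffices ∃ x : G, MulAut.conj x • H = MulAut.conj g • K by
    obtain ⟨x, hx⟩ := this
    exact ⟨g⁻¹ * x, by rw [← conj_smul_conj_smul, hx, conj_inv_smul_conj_smul]⟩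
  generalize MulAut.conj g • K = K' at *
  generalize MulAut.conj g • Q = P at *
  have hb : P ≠ ⊥ := (hP.of_le hPH le_top).ne_bot hd
  have hsec : ∀ H : Subgroup G, H ≤ normalizer (P : Set G) → IsSupersolvable H → IsSupersolvable (sec P H) := fun H h1 h2 =>
    IsSupersolvable.of_surjective (IsSupersolvable.of_equiv h2 (subgroupOfEquivOfLe h1).symm) (MonoidHom.subgroupMap_surjective _ _)
  obtain ⟨x, hx⟩ := ih _ (hn ▸ card_Sec_lt hb) (sec P H) (sec P K') (hsec H hHP hH) (hsec K' hKQ' hK') (by
    rw [card_sec _ _ hHP, card_sec _ _ hKQ']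
    have := (card_mul_relIndex hPH).trans (hcard.trans (card_mul_relIndex hQK').symm)
    exact Nat.eq_of_mul_eq_mul_left Nat.card_pos this) (by
    rw [index_sec hPH]
    exact (hHall.coprime_dvd_left (card_sec_dvd _ _ hHP)).coprime_dvd_right (relIndex_dvd_index_of_le hHP)) rfl
  obtain ⟨⟨x, hxP⟩, rfl⟩ := QuotientGroup.mk'_surjective _ x
  refine ⟨x, ?_⟩
  have h2 := congrArg (unsec P) ((sec_conj_smul H hxP).trans hx)
  rwa [unsec_sec hKQ', unsec_sec ((conj_smul_mono x hHP).trans (conj_smul_eq_self_iff.2 (le_normalizer hxP)).le),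
    sup_eq_left.2 hQK', sup_eq_left.2 ((conj_smul_eq_self_iff.2 hxP).ge.trans (conj_smul_mono x hPH))] at h2

end

/-- Let H and K be supersolvable subgroups of a finite group G of the same order, that order being coprime to their index. Then H and K are conjugate in G. -/
theorem result {G : Type*} [Group G] [Finite G] (H K : Subgroup G) (hH : Cfsg.IsSupersolvable H) (hK : Cfsg.IsSupersolvable K) (hcard : Nat.card H = Nat.card K) (hHall : (Nat.card H).Coprime H.index) : ∃ x : G, MulAut.conj x • H = K := by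
  open Subgroup Pointwise commutatorElement in focus
    exact aux H K hH hK hcard hHall

end Cfsg.Agent.S0582
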