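import Cfsg.Statements.S0586
import Cfsg.Agent.H1.Misc

set_option autoImplicit false
open Cfsg

namespace Cfsg.Agent.S0586

open Cfsg.Agent.H1

/-- If the Frattini subgroup of a finite group G is trivial, then the Fitting subgroup of G equals the join of all abelian minimal normal subgroups of G. -/
theorem result {G : Type*} [Group G] [Finite G] (hΦ : frattini G = ⊥) : Cfsg.fittingSubgroup G = sSup {N : Subgroup G | N.Normal ∧ N ≠ ⊥ ∧ IsMulCommutative N ∧ ∀ K : Subgroup G, K.Normal → K ≤ N → K = ⊥ ∨ K = N} := by
  open Subgroup Pointwise commutatorElement in focus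
    have hF : IsMulCommutative (fittingSubgroup G) := by
      rw [← le_centralizer_iff_isMulCommutative, ← commutator_eq_bot_iff_le_centralizer, eq_bot_iff, ← hΦ, ← map_subtype_commutator]
      exact (map_mono (commutator_le_frattini_of_isNilpotent inferInstance)).trans (map_subtype_frattini_le _)
    set S := sSup {N : Subgroup G | N.Normal ∧ N ≠ ⊥ ∧ IsMulCommutative N ∧ ∀ K : Subgroup G, K.Normal → K ≤ N → K = ⊥ ∨ K = N}
    have hS : S ≤ fittingSubgroup G := sSup_le fun N hN => le_fittingSubgroup hN.1 (isNilpotent_of_isMulCommutative hN.2.2.1)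
    haveI : S.Normal := sSup_normal _ fun N hN => hN.1
    haveI := isMulCommutative_of_le hS
    obtain ⟨H, hH⟩ := exists_isComplement'_of_inf_frattini S (by simp [hΦ])
    haveI := inf_normal_of_sup_eq_top (M := H) (N := fittingSubgroup G) (eq_top_iff.2 (hH.sup_eq_top ▸ sup_le (hS.trans le_sup_right) le_sup_left))
    have h1 : H ⊓ fittingSubgroup G = ⊥ := by
      by_contra hne
      obtain ⟨M, hM, hb, hle, hmin⟩ := exists_minimal_normal_le _ hne
      exact hb (le_bot_iff.1 (hH.disjoint.eq_bot ▸ le_inf (le_sSup ⟨hM, hb, isMulCommutative_of_le (hle.trans inf_le_right), hmin⟩) (hle.trans inf_le_left)))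
    have := sup_inf_assoc_norm' (A := H) le_normalizer_of_normal hS
    rwa [sup_comm H S, hH.sup_eq_top, top_inf_eq, h1, bot_sup_eq] at this

end Cfsg.Agent.S0586
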