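import Cfsg.Statements.S0587
import Cfsg.Agent.H1.Misc
import Cfsg.Agent.S0549

set_option autoImplicit false
open Cfsg

namespace Cfsg.Agent.S0587

open Cfsg.Agent.H1

/-- Let G be a finite group whose largest normal p-subgroup L is nontrivial, and M a maximal subgroup of G with trivial normal core. Then L is elementary abelian, M is a complement to L, L is a minimal normal subgroup of G, the centralizer of L is L, and for every prime q such that the largest normal q-subgroup of M is nontrivial, the order of L is congruent to 1 modulo q and q ≠ p. -/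
theorem result {G : Type*} [Group G] [Finite G] (p : ℕ) [Fact p.Prime] (hL : Cfsg.pCore p G ≠ ⊥) (M : Subgroup G) (hM : IsCoatom M) (hcore : M.normalCore = ⊥) : Cfsg.IsElementaryAbelian p (Cfsg.pCore p G) ∧ Subgroup.IsComplement' (Cfsg.pCore p G) M ∧ (∀ K : Subgroup G, K.Normal → K ≤ Cfsg.pCore p G → K = ⊥ ∨ K = Cfsg.pCore p G) ∧ Subgroup.centralizer ((Cfsg.pCore p G : Subgroup G) : Set G) = Cfsg.pCore p G ∧ ∀ (q : ℕ) [Fact q.Prime], Cfsg.pCore q ↥M ≠ ⊥ → Nat.card (Cfsg.pCore p G) % q = 1 % q ∧ q ≠ p := by
  open Subgroup Pointwise commutatorElement in focus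
    obtain ⟨N, hN, hb, hle, hmin⟩ := exists_minimal_normal_le _ hL
    have hP := isPGroup_pCore p G
    have h1 : pCore p G ≤ centralizer (N : Set G) := by
      have := commutator_le_of_chief (U := N) (V := ⊥) hP.isNilpotent bot_le fun W hW _ h => hmin W hW h
      rwa [le_bot_iff, commutator_eq_bot_iff_le_centralizer, le_centralizer_iff] at this
    obtain ⟨h2, h3⟩ := S0549.result M hM hcore N hb
    have h4 := (h3.resolve_left fun e => hL (le_bot_iff.1 (e ▸ h1))).2
    have e1 := (h4 _ inferInstance h1).resolve_left hL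
    have e2 := (h4 N hN (hle.trans h1)).resolve_left hb
    have e : pCore p G = N := e1.trans e2.symm
    have hel := elementary_of_minimal_normal_of_isPGroup (hP.to_le hle) hmin
    have hs : M ⊔ N = ⊤ := hM.2 _ (lt_of_le_of_ne le_sup_left fun e => hb (le_bot_iff.1 (hcore ▸ normal_le_normalCore.2 (e ▸ le_sup_right))))
    haveI := hel.1
    rw [e]
    refine ⟨hel, isComplement'_of_minimal_normal hmin hM.1 hs, hmin, e2.symm, fun q _ hq => ?_⟩
    have h5 := card_modEq_card_centralizer (K := N) (isPGroup_map_pCore q M) le_normalizer_of_normal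
    have hn : M ≤ normalizer (((pCore q M).map M.subtype : Subgroup G) : Set G) := le_normalizer_map_subtype_of_normal M _
    rcases hmin (N ⊓ centralizer (((pCore q M).map M.subtype : Subgroup G) : Set G)) (normal_of_top_le_normalizer (hs ▸ sup_le
      (le_normalizer_inf le_normalizer_of_normal (le_normalizer_centralizer hn)) (le_normalizer_of_isMulCommutative inf_le_left))) inf_le_left with h6 | h6
    · rw [h6, card_bot] at h5
      refine ⟨h5, ?_⟩
      rintro rfl
      have := (Nat.modEq_zero_iff_dvd.2 (dvd_card_of_isPGroup_of_ne_bot (hP.to_le hle) hb)).symm.trans h5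
      exact (Fact.out : q.Prime).ne_one (Nat.dvd_one.1 (Nat.modEq_zero_iff_dvd.1 this.symm))
    · exfalso
      refine hq ((Subgroup.map_eq_bot_iff_of_injective _ M.subtype_injective).1 (le_bot_iff.1 (h2 ▸ le_inf ?_ (map_subtype_le _))))
      exact le_centralizer_iff.1 (h6.ge.trans inf_le_right)

end Cfsg.Agent.S0587
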