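import Cfsg.Statements.S0588
import Cfsg.Agent.H1.Misc

set_option autoImplicit false
open Cfsg

namespace Cfsg.Agent.S0588

open Cfsg.Agent.H1

/-- If a subgroup H of a finite group G contains the centralizer of every non-identity element of H, then the order of H is coprime to its index. -/
theorem result {G : Type*} [Group G] [Finite G] (H : Subgroup G) (h : ∀ x ∈ H, x ≠ 1 → Subgroup.centralizer ({x} : Set G) ≤ H) : (Nat.card H).Coprime H.index := by
  open Subgroup Pointwise commutatorElement in focus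
    refine Nat.coprime_of_dvd' fun p hp d1 d2 => ?_
    haveI := Fact.mk hp
    obtain ⟨x, hx, ho⟩ := exists_mem_orderOf_eq_prime hp d1
    have h1 : x ≠ 1 := fun e => hp.ne_one (by rw [← ho, e, orderOf_one])
    obtain ⟨S, hS⟩ := (isPGroup_zpowers_iff.2 ⟨1, by rw [pow_one, ← ho, pow_orderOf_eq_one]⟩ : IsPGroup p (zpowers x)).exists_le_sylow
    have hb : (S : Subgroup G) ≠ ⊥ := fun e => h1 (mem_bot.1 (e ▸ hS (mem_zpowers x)))
    obtain ⟨⟨z, hz⟩, hz1⟩ := ne_bot_iff_exists_ne_one.1 (inf_centralizer_ne_bot_of_isPGroup S.isPGroup' S.isPGroup' le_normalizer hb)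
    have hzH : z ∈ H := h x hx h1 (mem_centralizer_singleton_iff.2 (hz.2 x (hS (mem_zpowers x))).symm)
    have : (S : Subgroup G) ≤ H := fun y hy => h z hzH (fun e => hz1 (Subtype.ext e)) (mem_centralizer_singleton_iff.2 (hz.2 y hy))
    exact absurd (d2.trans (index_dvd_of_le this)) S.not_dvd_index

end Cfsg.Agent.S0588
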