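import Cfsg.Statements.S0589
import Cfsg.Agent.H1.Burnside
import Cfsg.Agent.L.Frob2

set_option autoImplicit false
open Pointwise
open Cfsg

namespace Cfsg.Agent.S0589

open Cfsg.Agent.H1

/-- Let H be a Frobenius complement in a finite group G and L a subgroup of G whose order divides the order of H. Then L is contained in some conjugate of H. -/
theorem result {G : Type*} [Group G] [Finite G] (H : Subgroup G) (hH : Cfsg.IsFrobeniusComplement H) (L : Subgroup G) (hL : Nat.card L ∣ Nat.card H) : ∃ x : G, L ≤ MulAut.conj x • H := by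
  open Subgroup Pointwise commutatorElement in focus
    obtain ⟨K, -, hK, hc⟩ := S0035.result H hH
    have hf := Cfsg.Agent.L.fpf_of_frobenius hH hc.disjoint.eq_bot
    have hcop := hf.coprime le_normalizer_of_normal
    by_cases hb : L = ⊥
    · exact ⟨1, by simp [hb]⟩
    have hn : ∀ x ∈ L, x ≠ 1 → x ∉ K := fun x hx h1 h2 => h1 (orderOf_eq_one_iff.1 (Nat.eq_one_of_dvd_coprimes hcop
      ((orderOf_dvd_card_of_mem hx).trans hL) (orderOf_dvd_card_of_mem h2)))
    have hf' : Cfsg.Agent.L.FPF K L := fun x hx h1 => hf.inf_centralizer_of_not_mem le_normalizer_of_normal (hc.sup_eq_top ▸ mem_top x) (hn x hx h1)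
    have hKb : K ≠ ⊥ := fun e => hH.2.1 (by simpa [e] using hc.sup_eq_top)
    obtain ⟨⟨z, hz⟩, hz1⟩ := ne_bot_iff_exists_ne_one.1 (hf'.inf_centralizer_self_ne_bot le_normalizer_of_normal hKb hb)
    have hz1' : z ≠ 1 := fun e => hz1 (Subtype.ext e)
    obtain ⟨k, -, hk⟩ := hf.exists_conj_mem le_normalizer_of_normal (hc.sup_eq_top ▸ mem_top z) (hn z hz.1 hz1')
    refine ⟨k, fun y hy => mem_conj_smul.2 (Cfsg.Agent.L.mem_of_conj_mem_of_frobenius hH hk (fun e => hz1' (by simpa [mul_assoc, ← eq_inv_mul_iff_mul_eq] using e)) ?_)⟩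
    have := hz.2 y hy
    have e : k⁻¹ * y * k * (k⁻¹ * z * k) * (k⁻¹ * y * k)⁻¹ = k⁻¹ * (y * z) * y⁻¹ * k := by group
    rw [e, this]
    simpa [mul_assoc] using hk

end Cfsg.Agent.S0589
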