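import Cfsg.Statements.S0591
import Cfsg.Agent.H9.Off

set_option autoImplicit false
open Cfsg

namespace Cfsg.Agent.S0591

open Cfsg.Agent Cfsg.Agent.H9

/-- For a quadratically acting element a on an elementary abelian p-group V, the fixed points C_V(a) have order at least the square root of the order of V. -/
theorem result {G : Type*} [Group G] [Finite G] {p : ℕ} [Fact p.Prime] (V : Subgroup G) (hV : Cfsg.IsElementaryAbelian p V) (a : G) (ha : a ∈ Subgroup.normalizer (V : Set G)) (hq : ⁅⁅V, Subgroup.zpowers a⁆, Subgroup.zpowers a⁆ = ⊥) : Nat.card V ≤ Nat.card ↥(V ⊓ Subgroup.centralizer (Subgroup.zpowers a : Set G)) ^ 2 := by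
  haveI := hV.1
  have h1 := H1.card_commutator_zpowers_mul ha
  rw [← H1.centralizer_zpowers] at h1
  rw [← h1, sq]
  exact Nat.mul_le_mul_right _ (Subgroup.card_le_of_le (le_inf (H8.commutator_le_left_of_norm
    (Subgroup.zpowers_le.2 ha)) (BG.le_cent_iff_comm.2 hq)))

end Cfsg.Agent.S0591
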