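import Cfsg.Statements.S0594
import Cfsg.Agent.H9.Quad

set_option autoImplicit false
open Cfsg

namespace Cfsg.Agent.S0594

open Cfsg.Agent Cfsg.Agent.H9

/-- For odd p, two quadratic generators of a faithful group that is not a p-group, one of which acts nontrivially on a normal subgroup of order prime to p, force p = 3 and a section isomorphic to SL(2,3). -/
theorem result {G : Type*} [Group G] [Finite G] {p : ℕ} [Fact p.Prime] (hp : p ≠ 2) (V H : Subgroup G) (hV : Cfsg.IsElementaryAbelian p V) (hHV : H ≤ Subgroup.normalizer (V : Set G)) (hf : H ⊓ Subgroup.centralizer (V : Set G) = ⊥) (a b : G) (hab : H = Subgroup.closure {a, b}) (ha : ⁅⁅V, Subgroup.zpowers a⁆, Subgroup.zpowers a⁆ = ⊥) (hb : ⁅⁅V, Subgroup.zpowers b⁆, Subgroup.zpowers b⁆ = ⊥) (hnp : ¬ IsPGroup p H) (Q : Subgroup G) (hQH : Q ≤ H) (hQn : H ≤ Subgroup.normalizer (Q : Set G)) (hQ : (Nat.card Q).Coprime p) (hQa : ⁅Q, Subgroup.zpowers a⁆ ≠ ⊥) : p = 3 ∧ ∃ (K L : Subgroup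 G) (hL : (L.subgroupOf K).Normal), K ≤ H ∧ Nonempty ((K ⧸ L.subgroupOf K) ≃* Matrix.SpecialLinearGroup (Fin 2) (ZMod 3)) := by
  have haH : a ∈ H := hab ▸ Subgroup.subset_closure (by simp)
  have hz : Subgroup.zpowers a ≤ H := Subgroup.zpowers_le.2 haH
  have hL : Q ⊔ Subgroup.zpowers a ≤ H := sup_le hQH hz
  have hap : IsPGroup p (Subgroup.zpowers a) := isPGroup_of_faithful hf hz
    (resOf_le_of_pow fun x hx => quad_pow hV (hz.trans hHV) ha hx)
  have hs : Cfsg.IsPSolvable p ↥(Q ⊔ Subgroup.zpowers a) := pSolv_sup hQ hap (hz.trans hQn)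
  have h := sec_sl_of_quad hp (H8.elem_isPGroup hV) (hL.trans hHV)
    (le_bot_iff.1 (hf ▸ inf_le_inf_right _ hL)) (Subgroup.mem_sup_right (Subgroup.mem_zpowers a)) ha
    (fun h => hQa (by
      have h1 := (Subgroup.commutator_mono le_rfl (Subgroup.zpowers_le.2 h) : ⁅Q, _⁆ ≤ _)
      refine le_bot_iff.1 (h1.trans (le_of_eq ?_))
      rw [Subgroup.commutator_eq_bot_iff_le_centralizer]
      obtain ⟨k, hk⟩ := (H8.Op_isPGroup p (Q ⊔ Subgroup.zpowers a)).exists_card_eq
      exact L.le_centralizer_of_coprime (le_sup_left.trans (H8.le_normalizer_Op p _))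
        ((H8.Op_le p _).trans (hL.trans hQn)) (hk ▸ hQ.pow_right k)))
  obtain rfl := eq_three_of_pSolv hp hs h
  exact ⟨rfl, sec_sub_iff.1 (h.trans (H2.Sec.of_inj _ (Subgroup.inclusion_injective hL)))⟩

end Cfsg.Agent.S0594
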