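import Cfsg.Statements.S0600
import Cfsg.Agent.H9.Off

set_option autoImplicit false
open Cfsg

namespace Cfsg.Agent.S0600

open Cfsg.Agent Cfsg.Agent.H9

/-- A normal elementary abelian p-subgroup generated by the fixed points of the Sylow p-subgroups admits no nontrivial normal p-subgroup of G modulo its centralizer. -/
theorem result {G : Type*} [Group G] [Finite G] {p : ℕ} [Fact p.Prime] (V : Subgroup G) [V.Normal] (hV : Cfsg.IsElementaryAbelian p V) (hgen : V = ⨆ S : Sylow p G, V ⊓ Subgroup.centralizer ((S : Subgroup G) : Set G)) : Cfsg.pCore p (G ⧸ Subgroup.centralizer (V : Set G)) = ⊥ := by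
  have h : H8.Red p ⊤ V := ⟨le_top, Subgroup.le_normalizer_of_normal, hV,
    H8.redFor_of_normal Subgroup.le_normalizer_of_normal fun N _ hn h => by
      rw [BG.le_cent_comm]
      conv_lhs => rw [hgen]
      refine iSup_le fun S => ?_
      rw [BG.le_cent_comm, ← ((H2.sylIn_top S).inf_normal' hn le_top).resOf_sup]
      exact sup_le (h.trans (Subgroup.centralizer_le inf_le_left))
        (inf_le_left.trans (BG.le_cent_comm.1 inf_le_right))⟩
  exact (H8.red_top_iff.1 h).2.2.2

end Cfsg.Agent.S0600
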