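import Cfsg.Statements.S0602
import Cfsg.Agent.H9.TJ

set_option autoImplicit false
open Cfsg

namespace Cfsg.Agent.S0602

open Cfsg.Agent Cfsg.Agent.H9

/-- The Thompson subgroup is characteristic, and nontrivial as soon as p divides the group order. -/
theorem result {G : Type*} [Group G] [Finite G] {p : ℕ} [Fact p.Prime] : (Cfsg.thompsonSubgroup p G).Characteristic ∧ (p ∣ Nat.card G → Cfsg.thompsonSubgroup p G ≠ ⊥) := by
  constructor
  · rw [Subgroup.characteristic_iff_map_eq]
    intro φ
    rw [← JJ_top, map_JJ_inj φ.injective, H2.map_top_equiv]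
  · intro h hb
    obtain ⟨x, hx⟩ := exists_prime_orderOf_dvd_card' p h
    obtain ⟨A, hA⟩ := exists_MA p (⊤ : Subgroup G)
    have h1 := hA.max _ le_top (ae_zpowers (x := x) (by rw [← hx, pow_orderOf_eq_one]))
    have h2 : A = ⊥ := le_bot_iff.mp (hA.le_JJ.trans (by rw [JJ_top, hb]))
    rw [h2, Nat.card_zpowers, hx, Subgroup.card_bot] at h1
    exact absurd (Fact.out : p.Prime).one_lt (not_lt.mpr h1)

end Cfsg.Agent.S0602
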