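import Cfsg.Statements.S0604
import Cfsg.Agent.H9.TJ

set_option autoImplicit false
open Cfsg

namespace Cfsg.Agent.S0604

open Cfsg.Agent Cfsg.Agent.H9

/-- The Thompson subgroup of G is the join of the Thompson subgroups of its Sylow p-subgroups. -/
theorem result {G : Type*} [Group G] [Finite G] {p : ℕ} [Fact p.Prime] : Cfsg.thompsonSubgroup p G = ⨆ S : Sylow p G, Cfsg.thompsonSubgroupOf p (S : Subgroup G) := by
  rw [← JJ_top]
  simp only [← JJ_eq]
  obtain ⟨A, hA⟩ := exists_MA p (⊤ : Subgroup G)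
  have hp : ∀ B : Subgroup G, AE p B → IsPGroup p B := fun B hB =>
    H2.isPGroup_iff_forall.mpr fun x hx => ⟨1, by rw [pow_one, hB.2 x hx]⟩
  apply le_antisymm
  · rw [JJ_le_iff]
    intro B hB
    obtain ⟨S, hS⟩ := (hp B hB.ae).exists_le_sylow
    exact (hB.mono hS le_top).le_JJ.trans (le_iSup (fun S : Sylow p G => JJ p (S : Subgroup G)) S)
  · refine iSup_le fun S => ?_
    obtain ⟨g, hg⟩ := H2.exists_cj_le_sylow S (hp A hA.ae)
    exact JJ_mono_of (hA.cj_of_mem (H8.le_normalizer_top ⊤ (Subgroup.mem_top g))) hg le_top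

end Cfsg.Agent.S0604
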