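import Cfsg.Statements.S0607
import Cfsg.Agent.H9.Off

set_option autoImplicit false
open Cfsg

namespace Cfsg.Agent.S0607

open Cfsg.Agent Cfsg.Agent.H9

/-- The replacement Theorem for the Thompson subgroup: from A of maximal order among elementary abelian p-subgroups one obtains A₀ = [V, A] C_A([V, A]) of the same kind, quadratic on V and nontrivial on V when A is. -/
theorem result {G : Type*} [Group G] [Finite G] {p : ℕ} [Fact p.Prime] (V : Subgroup G) [V.Normal] (hV : Cfsg.IsElementaryAbelian p V) (A : Subgroup G) (hA : A ∈ Cfsg.maxElementaryAbelianSubgroups p G) : (⁅V, A⁆ ⊔ (A ⊓ Subgroup.centralizer ((⁅V, A⁆ : Subgroup G) : Set G))) ∈ Cfsg.maxElementaryAbelianSubgroups p G ∧ ⁅⁅V, ⁅V, A⁆ ⊔ (A ⊓ Subgroup.centralizer ((⁅V, A⁆ : Subgroup G) : Set G))⁆, ⁅V, A⁆ ⊔ (A ⊓ Subgroup.centralizer ((⁅V, A⁆ : Subgroup G) : Set G))⁆ = ⊥ ∧ (⁅V, A⁆ ≠ ⊥ → ⁅V, ⁅V, A⁆ ⊔ (A ⊓ Subgroup.centralizer ((⁅V, A⁆ :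 Subgroup G) : Set G))⁆ ≠ ⊥) := by
  have h := ma_top_elem.2 hA
  have hn : A ≤ Subgroup.normalizer (V : Set G) := Subgroup.le_normalizer_of_normal
  refine ⟨ma_top_elem.1 (h.repl hV le_top hn), repl_quad hV.1 hn, fun h1 => BG.ne_bot_mono
    ((h.bm hV le_top).repl_ne hV.1 (H1.IsElementaryAbelian.isPGroup' hV) hn (h.bo hV le_top).2.1
      (resOf_le_of_pow (h.bo hV le_top).2.2) le_rfl h1) (Subgroup.commutator_mono le_rfl le_sup_right)⟩

end Cfsg.Agent.S0607
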