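import Cfsg.Statements.S0614
import Cfsg.Agent.H9.Off3

set_option autoImplicit false
open Cfsg

namespace Cfsg.Agent.S0614

open Cfsg.Agent Cfsg.Agent.H9

/-- The commutator of the p'-core with a minimal nontrivially-acting best offender is a 3-group (when p = 2) or a non-abelian 2-group (when p = 3). -/
theorem result {G : Type*} [Group G] [Finite G] {p : ℕ} [Fact p.Prime] (V H : Subgroup G) (hV : Cfsg.IsElementaryAbelian p V) (hHV : H ≤ Subgroup.normalizer (V : Set G)) (hf : H ⊓ Subgroup.centralizer (V : Set G) = ⊥) (hS1 : Subgroup.centralizer (Cfsg.pPrimeCore p ↥H : Set ↥H) ≤ Cfsg.pPrimeCore p ↥H) (hS3 : H = ⨆ A : {A : Subgroup G // A ≤ H ∧ Cfsg.IsBestOffenderOn p V A}, (A : Subgroup G)) (hH1 : H ≠ ⊥) (A : Subgroup G) (hAH : A ≤ H) (hA : Cfsg.IsBestOffenderOn p V A) (hAV : ⁅V, A⁆ ≠ ⊥) (hmin : ∀ B : Subgroup G, B ≤ A → Cfsg.IsBestOffenderOn p V B → ⁅V, B⁆ ≠ ⊥ → B = A) : (p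 = 2 ∧ IsPGroup 3 ↥(⁅((Cfsg.pPrimeCore p ↥H).map H.subtype), A⁆)) ∨ (p = 3 ∧ IsPGroup 2 ↥(⁅((Cfsg.pPrimeCore p ↥H).map H.subtype), A⁆) ∧ ¬ IsMulCommutative ↥(⁅((Cfsg.pPrimeCore p ↥H).map H.subtype), A⁆)) := by
  have h := ffs_mk hV hHV hf hS1
  have t := h.min_iff.1 ⟨hAH, hA, hAV, hmin⟩
  haveI := Fact.mk Nat.prime_two
  haveI := Fact.mk Nat.prime_three
  rcases h.prime t with rfl | rfl
  · exact Or.inl ⟨rfl, h.comm_pgroup t (by norm_num)⟩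
  refine Or.inr ⟨rfl, h.comm_pgroup t (by norm_num), fun hc => ?_⟩
  obtain ⟨e⟩ := (h.ep t).nat.equiv (h.ep t).faith
  have hn := Subgroup.normalizer_commutator_ge_right (H8.Opp 3 H) A
  refine not_abSyl_sl2 (p := 3) (by norm_num) (AbSyl.map (fun P hP => ?_) e.toMonoidHom e.surjective)
  have h1 : P.map (Subgroup.subtype _) ≤ ⁅H8.Opp 3 H, A⁆ := by
    refine H1.le_of_coprime_relIndex (Subgroup.map_subtype_le P) (sup_le Subgroup.le_normalizer hn) ?_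
    have e2 : ⁅H8.Opp 3 H, A⁆.relIndex (⁅H8.Opp 3 H, A⁆ ⊔ A) = ⁅H8.Opp 3 H, A⁆.relIndex A := by
      rw [sup_comm]; exact H1.relIndex_sup_norm hn
    rw [e2]
    obtain ⟨k, hk⟩ := H1.exists_relIndex_eq_pow t.pg ⁅H8.Opp 3 H, A⁆
    rw [hk]
    exact (BG.coprime_primes_pgroup (q := 3) (hP.map _) (by norm_num)).pow_right k
  exact ae_zero.1 (AE.of_map (f := Subgroup.subtype _) (by simp) (ae_zero.2 (BG.comm_of_le hc h1)))

end Cfsg.Agent.S0614
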