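import Cfsg.Statements.S0617
import Cfsg.Agent.H9.Off3

set_option autoImplicit false
open Cfsg

namespace Cfsg.Agent.S0617

open Cfsg.Agent Cfsg.Agent.H9

/-- Structure Theorem for failure of factorization: a faithful group generated by best offenders, with self-centralizing p'-core, is a direct product of copies of SL(2, p) (p = 2 or 3), each acting on its own plane in V, which is the direct product of these planes and C_V(H). -/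
theorem result {G : Type*} [Group G] [Finite G] {p : ℕ} [Fact p.Prime] (V H : Subgroup G) (hV : Cfsg.IsElementaryAbelian p V) (hHV : H ≤ Subgroup.normalizer (V : Set G)) (hf : H ⊓ Subgroup.centralizer (V : Set G) = ⊥) (hS1 : Subgroup.centralizer (Cfsg.pPrimeCore p ↥H : Set ↥H) ≤ Cfsg.pPrimeCore p ↥H) (hS3 : H = ⨆ A : {A : Subgroup G // A ≤ H ∧ Cfsg.IsBestOffenderOn p V A}, (A : Subgroup G)) (hH1 : H ≠ ⊥) : (p = 2 ∨ p = 3) ∧ (∀ E : {E : Subgroup G // ∃ A : Subgroup G, A ≤ H ∧ Cfsg.IsBestOffenderOn p V A ∧ ⁅V, A⁆ ≠ ⊥ ∧ (∀ B : Subgroup G, B ≤ A → Cfsg.IsBestOffenderOn p V B → ⁅V, B⁆ ≠ ⊥ → B = A) ∧ E = ⁅((Cfsg.pPrimeCore p ↥H).map H.subtype), A⁆ ⊔ A}, H ≤ Subgroup.normalizer ((E : Subgroup G) : Set G) ∧ Nonempty (↥(E : Subgroup G) ≃* Matrix.SpecialLinearGroup (Fin 2) (ZMod p)) ∧ Nat.card ↥(⁅V, (E : Subgroup G)⁆) = p ^ 2) ∧ iSupIndep (fun E : {E : Subgroup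 G // ∃ A : Subgroup G, A ≤ H ∧ Cfsg.IsBestOffenderOn p V A ∧ ⁅V, A⁆ ≠ ⊥ ∧ (∀ B : Subgroup G, B ≤ A → Cfsg.IsBestOffenderOn p V B → ⁅V, B⁆ ≠ ⊥ → B = A) ∧ E = ⁅((Cfsg.pPrimeCore p ↥H).map H.subtype), A⁆ ⊔ A} => (E : Subgroup G)) ∧ (⨆ E : {E : Subgroup G // ∃ A : Subgroup G, A ≤ H ∧ Cfsg.IsBestOffenderOn p V A ∧ ⁅V, A⁆ ≠ ⊥ ∧ (∀ B : Subgroup G, B ≤ A → Cfsg.IsBestOffenderOn p V B → ⁅V, B⁆ ≠ ⊥ → B = A) ∧ E = ⁅((Cfsg.pPrimeCore p ↥H).map H.subtype), A⁆ ⊔ A}, (E : Subgroup G)) = H ∧ iSupIndep (fun o : Option {E : Subgroup G // ∃ A : Subgroup G, A ≤ H ∧ Cfsg.IsBestOffenderOn p V A ∧ ⁅V, A⁆ ≠ ⊥ ∧ (∀ B : Subgroup G, B ≤ A → Cfsg.IsBestOffenderOn p V B → ⁅V, B⁆ ≠ ⊥ → B = A) ∧ E = ⁅((Cfsg.pPrimeCore p ↥H).map H.subtype), A⁆ ⊔ A} => o.elim (V ⊓ Subgroup.centralizer (H : Set G)) (fun E => ⁅V, (E : Subgroup G)⁆)) ∧ (V ⊓ Subgroup.centralizer (H : Set G)) ⊔ (⨆ E : {E :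 Subgroup G // ∃ A : Subgroup G, A ≤ H ∧ Cfsg.IsBestOffenderOn p V A ∧ ⁅V, A⁆ ≠ ⊥ ∧ (∀ B : Subgroup G, B ≤ A → Cfsg.IsBestOffenderOn p V B → ⁅V, B⁆ ≠ ⊥ → B = A) ∧ E = ⁅((Cfsg.pPrimeCore p ↥H).map H.subtype), A⁆ ⊔ A}, ⁅V, (E : Subgroup G)⁆) = V := by
  have h := ffs_mk hV hHV hf hS1
  have hg : ∀ X, (∀ A, TV p V H A → A ≤ X) → H ≤ X := fun X => h.le_of_tv hS3
  set ι := {E : Subgroup G // ∃ A : Subgroup G, A ≤ H ∧ Cfsg.IsBestOffenderOn p V A ∧ ⁅V, A⁆ ≠ ⊥ ∧ (∀ B : Subgroup G, B ≤ A → Cfsg.IsBestOffenderOn p V B → ⁅V, B⁆ ≠ ⊥ → B = A) ∧ E = ⁅((Cfsg.pPrimeCore p ↥H).map H.subtype), A⁆ ⊔ A}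
  have k : ∀ E : ι, ∃ A, TV p V H A ∧ E.1 = ⁅H8.Opp p H, A⁆ ⊔ A := fun ⟨E, A, a, b, c, d, e⟩ =>
    ⟨A, h.min_iff.1 ⟨a, b, c, d⟩, e⟩
  have k' : ∀ A, TV p V H A → ∃ E : ι, E.1 = ⁅H8.Opp p H, A⁆ ⊔ A := fun A t =>
    have ⟨a, b, c, d⟩ := h.min_iff.2 t
    ⟨⟨_, A, a, b, c, d, rfl⟩, rfl⟩
  have kc : ∀ E E' : ι, E' ≠ E → E'.1 ≤ Subgroup.centralizer ((⁅V, E.1⁆ : Subgroup G) : Set G) := fun E E' hne => by
    obtain ⟨A, t, e⟩ := k E
    obtain ⟨B, t', e'⟩ := k E'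
    rw [e, e']
    exact h.ea_cent_of t t' fun e2 => hne (Subtype.ext (e'.trans (e2.trans e.symm)))
  have kl : ∀ E : ι, E.1 ≤ H := fun E => by
    obtain ⟨A, t, e⟩ := k E
    rw [e]; exact h.ea_le t
  have ks : ⨆ E : ι, E.1 = H := le_antisymm (iSup_le kl) (hg _ fun A t => by
    obtain ⟨E, e⟩ := k' A t
    exact (le_sup_right.trans e.ge).trans (le_iSup (fun E : ι => E.1) E))
  have kw : ∀ E : ι, ⁅V, E.1⁆ ≤ V := fun E => H8.commutator_le_left_of_norm ((kl E).trans hHV)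
  refine ⟨?_, fun E => ?_, fun E => ?_, ks, fun o => ?_, ?_⟩
  · by_contra hcon
    exact hH1 (le_bot_iff.1 (hg _ fun A t => absurd (h.prime t) hcon))
  · obtain ⟨A, t, e⟩ := k E
    rw [e]
    exact ⟨h.ea_normal hg t, (h.ep t).nat.equiv (h.ep t).faith, (h.ep t).nat.card⟩
  · obtain ⟨A, t, e⟩ := k E
    refine disjoint_iff.2 (BG.eq_bot_mono (h.ep t).faith ?_)
    rw [← e]
    exact inf_le_inf_left _ (iSup₂_le fun E' hne => kc E E' hne)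
  · rcases o with _ | E
    · refine disjoint_iff.2 (BG.eq_bot_mono (h.comm_inf_cent le_rfl) (le_inf (inf_le_right.trans
        (iSup₂_le fun o ho => ?_)) (inf_le_left.trans (inf_le_right.trans
          (Subgroup.centralizer_le (H8.Opp_le p H))))))
      rcases o with _ | E
      · exact absurd rfl ho
      · obtain ⟨A, t, e⟩ := k E
        change ⁅V, E.1⁆ ≤ _
        rw [e, ← h.ea_comm t]
        exact Subgroup.commutator_mono le_rfl (h.ea_inf t ▸ inf_le_right)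
    · obtain ⟨A, t, e⟩ := k E
      refine disjoint_iff.2 (BG.eq_bot_mono (h.comm_inf_cent (Q := ⁅H8.Opp p H, A⁆)
        (h.ea_inf t ▸ inf_le_right)) (inf_le_inf (by rw [h.ea_comm t, ← e]; exact le_rfl)
          (iSup₂_le fun o ho => le_trans ?_ (H1.centralizer_anti (le_sup_left.trans e.ge)))))
      rcases o with _ | E'
      · exact inf_le_right.trans (Subgroup.centralizer_le (kl E))
      · exact BG.le_cent_comm.1 (kc E' E fun e => ho (by rw [e]))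
  · refine le_antisymm (sup_le inf_le_left (iSup_le kw)) ?_
    conv_lhs => rw [← h.comm_sup_cent le_rfl]
    refine sup_le (le_sup_of_le_right ((Subgroup.commutator_mono le_rfl ((H8.Opp_le p H).trans ks.ge)).trans
      (comm_iSup_le (iSup_le kw) fun E => le_iSup (fun E : ι => ⁅V, E.1⁆) E)))
      (le_sup_of_le_left (le_inf inf_le_left (BG.le_cent_comm.1 (hg _ fun A t => BG.le_cent_comm.1 ?_))))
    exact (inf_le_inf_left _ (H1.centralizer_anti (h.ea_inf t ▸ inf_le_right))).trans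
      ((h.ea_cent t).le.trans (inf_le_right.trans (H1.centralizer_anti le_sup_right)))

end Cfsg.Agent.S0617
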