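import Cfsg.Statements.S0621
import Mathlib
import Cfsg.Agent.H2.KS9

set_option autoImplicit false
open Cfsg

namespace Cfsg.Agent.S0621

open Cfsg.Agent.H2 Cfsg.Agent.H2.FM

/-- Let K be p-separable with O_p'(K) = 1, normalized by an elementary abelian q-group X for a prime q not dividing the order of K. If the Thompson factorization fails in K, then p is 2 or 3 and the fixed points of X contain a plane W of order p² and a subgroup inducing SL(2, p) on it. -/
theorem result {G : Type*} [Group G] [Finite G] {p : ℕ} [Fact p.Prime] {q : ℕ} [Fact q.Prime] (K X : Subgroup G) (hXK : X ≤ Subgroup.normalizer (K : Set G)) (hX : Cfsg.IsElementaryAbelian q X) (hq : ¬ q ∣ Nat.card K) (hsep : Cfsg.IsPSolvable p ↥K) (hO : Cfsg.pPrimeCore p ↥K = ⊥) (hnf : ¬ Cfsg.IsThompsonFactorizable p ↥K) : (p = 2 ∨ p = 3) ∧ ∃ W D : Subgroup G, W ≤ K ⊓ Subgroup.centralizer (X : Set G) ∧ D ≤ K ⊓ Subgroup.centralizer (X : Set G) ∧ Cfsg.IsElementaryAbelian p W ∧ Nat.card W = p ^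 2 ∧ D ≤ Subgroup.normalizer (W : Set G) ∧ ∃ hn : ((Subgroup.centralizer (W : Set G)).subgroupOf D).Normal, Nonempty ((↥D ⧸ (Subgroup.centralizer (W : Set G)).subgroupOf D) ≃* Matrix.SpecialLinearGroup (Fin 2) (ZMod p)) := by
  have h := fq_scc hsep hO
  obtain ⟨h1, W, D, h2, h3, h4, h5, h6⟩ := h.exists_fix (H1.IsElementaryAbelian.isPGroup' hX) (hXK.trans norm_le_scc)
    hXK hq (mt (tf_sub_iff hO).2 hnf)
  exact ⟨h1, W, D, h2.trans (inf_le_inf_right _ h.red.le), h3, H9.AE.of_le h.red.elem (h2.trans inf_le_left), h4, h5, h6⟩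

end Cfsg.Agent.S0621
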