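import Cfsg.Statements.S0629
import Cfsg.Agent.H9.Stab

set_option autoImplicit false
open Cfsg

namespace Cfsg.Agent.S0629

open Cfsg.Agent Cfsg.Agent.H9

/-- A group in which the centralizer of a Sylow p-subgroup of O_{p',p}(G) is p-solvable is p-constrained. -/
theorem result {G : Type*} [Group G] [Finite G] {p : ℕ} [Fact p.Prime] (P : Sylow p ↥(Cfsg.pPrimePCore p G)) (hsol : Cfsg.IsPSolvable p ↥(Subgroup.centralizer (((P : Subgroup ↥(Cfsg.pPrimePCore p G)).map (Cfsg.pPrimePCore p G).subtype : Subgroup G) : Set G))) : Cfsg.IsPConstrained p G := by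
  rw [constrained_iff, H8.PLay_eq_bot_iff]
  intro K hK
  set Q := (P : Subgroup ↥(Cfsg.pPrimePCore p G)).map (Cfsg.pPrimePCore p G).subtype with hQ
  have hQp : IsPGroup p Q := P.2.map _
  have hO := L.pPrimeCore_coprime p (G := G)
  have h1 : ⁅Cfsg.pPrimePCore p G, K⁆ ≤ Cfsg.pPrimeCore p G := by
    rcases hK.le_or_comm_of_norm (U := Cfsg.pPrimePCore p G) le_top
      Subgroup.le_normalizer_of_normal with h | h
    · exfalso
      have h2 := H2.pNil_iff_card.1 (H2.pNil_pPrimePCore.mono h)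
      rw [H8.resOf_eq_of_perfect hK.perfect] at h2
      exact hK.pqs.not_coprime h2
    · rwa [H8.Opp_top] at h
  have h2 : K ≤ (⊤ ⊓ Subgroup.centralizer (Q : Set G)) ⊔ Cfsg.pPrimeCore p G :=
    H8.le_centralizer_sup_of_commutator_le' hQp hO Subgroup.le_normalizer_of_normal le_top le_top (by
      rw [Subgroup.commutator_comm]
      exact (Subgroup.commutator_mono (Subgroup.map_subtype_le _) le_rfl).trans h1)
  let f := QuotientGroup.mk' (Cfsg.pPrimeCore p G)
  have h3 : K.map f ≤ (Subgroup.centralizer (Q : Set G)).map f := by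
    have := Subgroup.map_mono (f := f) h2
    rwa [Subgroup.map_sup, QuotientGroup.map_mk'_self, sup_bot_eq, top_inf_eq] at this
  have h4 : Cfsg.IsPSolvable p (K.map f) :=
    pSolv_of_le h3 (pSolv_map _ (MonoidHom.subgroupMap_surjective f _) hsol)
  have h5 : H8.PComp p (K.map f) (K.map f) := ⟨H8.SN.refl, hK.pqs.map' f (by
    rw [QuotientGroup.ker_mk']
    exact hO.coprime_dvd_left (Subgroup.card_dvd_of_le inf_le_left))⟩
  have h6 := H8.PLay_top_eq_bot_of_isPSolvable h4
  rw [H8.PLay_top] at h6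
  have h7 := h5.le_PLay
  rw [H8.PLay, h6, Subgroup.map_bot, le_bot_iff] at h7
  exact h5.pqs.ne_bot h7

end Cfsg.Agent.S0629
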