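import Cfsg.Statements.S0630
import Cfsg.Agent.H9.Stab

set_option autoImplicit false
open Cfsg

namespace Cfsg.Agent.S0630

open Cfsg.Agent Cfsg.Agent.H9

/-- p-constraint passes to and from the quotient by the largest normal subgroup of order prime to p. -/
theorem result {G : Type*} [Group G] [Finite G] {p : ℕ} [Fact p.Prime] : Cfsg.IsPConstrained p G ↔ Cfsg.IsPConstrained p (G ⧸ Cfsg.pPrimeCore p G) := by
    rw [constrained_iff, constrained_iff, ← charP_quot_iff]
    exact ⟨fun h => by
      have := H8.Fs_eq_Op_iff (X := (⊤ : Subgroup (G ⧸ Cfsg.pPrimeCore p G))) (p := p)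
      rw [H8.Op_top, top_inf_eq] at this
      have h2 := this.2 h
      rw [← H8.Op_top] at h2
      exact (H8.Fs_eq_Op_iff_PLay.1 h2).1, fun h =>
      charP_of_constrained (constrained_iff.2 h) (L.pPrimeCore_quotient_eq_bot p G)⟩

end Cfsg.Agent.S0630
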