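import Cfsg.Statements.S0631
import Cfsg.Agent.H9.Stab

set_option autoImplicit false
open Cfsg

namespace Cfsg.Agent.S0631

open Cfsg.Agent Cfsg.Agent.H9

/-- In a p-constrained group the normalizer and the centralizer of any p-subgroup are again p-constrained. -/
theorem result {G : Type*} [Group G] [Finite G] {p : ℕ} [Fact p.Prime] (hG : Cfsg.IsPConstrained p G) (P : Subgroup G) (hP : IsPGroup p P) : Cfsg.IsPConstrained p ↥(Subgroup.normalizer (P : Set G)) ∧ Cfsg.IsPConstrained p ↥(Subgroup.centralizer (P : Set G)) := by
    rw [constrained_sub_iff, constrained_sub_iff]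
    have h := (H8.constrained_centralizer (constrained_iff.1 hG) hP Subgroup.le_normalizer_of_normal).1
    have h2 := H8.PLay_normalizer_eq (X := ⊤) hP le_top
    rw [h] at h2
    rw [top_inf_eq] at h h2
    exact ⟨h2, h⟩

end Cfsg.Agent.S0631
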