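import Cfsg.Statements.S0632
import Cfsg.Agent.H9.Stab

set_option autoImplicit false
open Cfsg

namespace Cfsg.Agent.S0632

open Cfsg.Agent Cfsg.Agent.H9

/-- For a group with a nontrivial normal p-subgroup, p-stability passes to and from the quotient by the largest normal subgroup of order prime to p. -/
theorem result {G : Type*} [Group G] [Finite G] {p : ℕ} [Fact p.Prime] (hO : Cfsg.pCore p G ≠ ⊥) : Cfsg.IsPStable p G ↔ Cfsg.IsPStable p (G ⧸ Cfsg.pPrimeCore p G) := by
  rw [isPStable_iff, isPStable_iff, pStO_quot_iff]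
  refine and_congr_right fun _ => and_congr_left fun _ => iff_of_true hO fun h => hO ?_
  have h1 : (Cfsg.pCore p G).map (QuotientGroup.mk' (Cfsg.pPrimeCore p G)) ≤ Cfsg.pCore p _ :=
    L.map_pCore_le _ (QuotientGroup.mk'_surjective _)
  rw [h, le_bot_iff, Subgroup.map_eq_bot_iff] at h1
  rw [← H2.inf_ker_mk'_eq_bot (L.pCore_isPGroup p G) _ (L.pPrimeCore_coprime p), inf_eq_left.2 h1]

end Cfsg.Agent.S0632
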