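import Cfsg.Statements.S0633
import Mathlib
import Cfsg.Agent.H2.HHB2

set_option autoImplicit false
open Cfsg

namespace Cfsg.Agent.S0633

open Cfsg.Agent.H2 Cfsg.Agent.BG Subgroup

/-- Theorem B of Hall and Higman on the minimal polynomial of a p-element of order p^n in a p-solvable linear group on a nonzero vector space in characteristic p with no nontrivial normal p-subgroup: its degree is p^n, except when some p^n₀ - 1 (n₀ ≤ n) is a power of a prime q for which the Sylow q-subgroups are non-abelian, in which case the degree is at least p^(n-n₀)(p^n₀ - 1). -/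
theorem result {F : Type*} [Field F] {p : ℕ} [Fact p.Prime] [CharP F p] {V : Type*} [AddCommGroup V] [Module F V] [FiniteDimensional F V] [Nontrivial V] (H : Subgroup (V ≃ₗ[F] V)) [Finite H] (hsol : Cfsg.IsPSolvable p H) (hOp : Cfsg.pCore p H = ⊥) (x : V ≃ₗ[F] V) (hx : x ∈ H) (n : ℕ) (hn : orderOf x = p ^ n) (r : ℕ) (hr : minpoly F (x : Module.End F V) = (Polynomial.X - 1) ^ r) : r = p ^ n ∨ ∃ n₀ q m : ℕ, 1 ≤ n₀ ∧ n₀ ≤ n ∧ q.Prime ∧ 1 ≤ m ∧ p ^ n₀ - 1 = q ^ m ∧ (∀ Q : Sylow q H, ¬ IsMulCommutative Q) ∧ p ^ (n - n₀) * (p ^ n₀ - 1) ≤ r := by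
  let ρ : Representation F H V := (LinearEquiv.automorphismGroup.toLinearMapMonoidHom).comp H.subtype
  have h1 : (ρ ⟨x, hx⟩ - 1) ^ r = 0 := by
    have := minpoly.aeval F (x : Module.End F V)
    rw [hr, map_pow, map_sub, map_one, Polynomial.aeval_X] at this
    exact this
  have h2 : r ≤ p ^ n := by
    have := minpoly.dvd F (x : Module.End F V) (p := (Polynomial.X - 1) ^ p ^ n) (by
      have h3 : ρ ⟨x, hx⟩ ^ p ^ n = 1 := by
        rw [← map_pow, show (⟨x, hx⟩ : H) ^ p ^ n = 1 from Subtype.ext (hn ▸ pow_orderOf_eq_one x), map_one]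
      have := sub_one_pow_char (p := p) (ρ ⟨x, hx⟩) n
      rw [h3, sub_self] at this
      rw [map_pow, map_sub, map_one, Polynomial.aeval_X]
      exact this)
    rw [hr] at this
    exact (pow_dvd_pow_iff (Polynomial.X_sub_C_ne_zero 1) (Polynomial.not_isUnit_X_sub_C 1)).1 this
  refine h2.eq_or_lt.imp_right fun h3 => ?_
  cases n with
  | zero =>
    obtain rfl : r = 0 := by simpa using h3
    exact absurd h1 (by simp)
  | succ n =>
    obtain ⟨n₀, q, m, a1, a2, a3, a4, a5, ⟨Q, a6, a7⟩, a8⟩ := hhB ρ (eq_bot_iff.2 fun g hg =>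
      Subtype.ext (LinearEquiv.ext fun v => LinearMap.congr_fun (MonoidHom.mem_ker.1 hg) v)) hsol hOp
      (x := ⟨x, hx⟩) (by rw [← Subgroup.orderOf_coe]; exact hn) h1 h3
    refine ⟨n₀, q, m, a1, a2, a3, a4, a5, fun S hS => a7 ?_, a8⟩
    have := Fact.mk a3
    obtain ⟨T, hT⟩ := a6.exists_le_sylow
    have : IsMulCommutative (T : Subgroup H) := ⟨⟨fun a b => (Sylow.equiv T S).injective (by
      rw [map_mul, map_mul, hS.1.1])⟩⟩
    exact eq_bot_iff.2 ((Subgroup.commutator_mono hT hT).trans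
      (commutator_eq_bot_iff_le_centralizer.2 (le_centralizer _)).le)

end Cfsg.Agent.S0633
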