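import Cfsg.Statements.S0635
import Cfsg.Agent.H8.PLen

set_option autoImplicit false
open Cfsg

namespace Cfsg.Agent.S0635

open Subgroup hiding commutator_def
open Function Cfsg.Agent.Hopf Cfsg.Agent.Reg
open scoped commutatorElement Pointwise

theorem aux {p : ℕ} [hp : Fact p.Prime] (c : ℕ) : ∀ {G : Type*} [Group G] [Finite G], IsPSolvable p G →
    ∀ S : Sylow p G, (S : Subgroup G).lowerCentralSeries c = ⊥ → PLengthLE p c G := by
  induction c with
  | zero =>
    intro G _ _ _ S h
    have := S.not_dvd_index
    rw [show (S : Subgroup G) = ⊥ from h, index_bot] at this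
    exact plen_zero.2 ((Nat.Prime.coprime_iff_not_dvd hp.out).2 this).symm
  | succ c ih =>
    intro G _ _ hG S h
    have hs := QuotientGroup.mk'_surjective (pPrimePCore p G)
    refine plen_step (ih (H9.pSolv_map _ hs hG) (S.mapSurjective hs) ?_)
    rw [Sylow.coe_mapSurjective, ← Subgroup.map_lowerCentralSeries, H1.map_mk'_eq_bot_iff]
    refine fun g hg => mem_pPrimePCore hG S fun x hx => ?_
    rw [mem_bot.1 (h ▸ commutator_mem_commutator hg hx.1 : ⁅g, x⁆ ∈ (⊥ : Subgroup G))]; exact one_mem _

/-- The p-length of a p-soluble group is at most the nilpotency class of its Sylow p-subgroups. -/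
theorem result {G : Type*} [Group G] [Finite G] {p : ℕ} [Fact p.Prime] (hsol : Cfsg.IsPSolvable p G) (S : Sylow p G) : Cfsg.PLengthLE p (Group.nilpotencyClass ↥(S : Subgroup G)) G := by
  refine aux _ hsol S ?_
  have := S.2.isNilpotent
  rw [← top_subtype_lowerCentralSeries, Subgroup.lowerCentralSeries_nilpotencyClass, Subgroup.map_bot]

end Cfsg.Agent.S0635
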