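import Cfsg.Statements.S0639
import Mathlib
import Cfsg.Agent.H2.BG4

set_option autoImplicit false
open Cfsg

namespace Cfsg.Agent.S0639

open Cfsg.Agent.H2 Subgroup

/-- Huppert's criterion: for p greater than 3, a p-group whose elements of order dividing p generate a subgroup of order at most p² is metacyclic. -/
theorem result {R : Type*} [Group R] [Finite R] {p : ℕ} [Fact p.Prime] (hp : 3 < p) (hR : IsPGroup p R) (hO : Nat.card ↥(Cfsg.omegaOne p (⊤ : Subgroup R)) ≤ p ^ 2) : Cfsg.IsMetacyclic R := by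
  obtain ⟨a, -, b, -, h1, h2⟩ := isMetacyclic_iff.1
    (p2_Ohm1_metacyclic_aux hp _ R ⊤ rfl (hR.to_subgroup ⊤) hO)
  haveI : (zpowers a).Normal := normalizer_eq_top_iff.1 (top_le_iff.1 h1)
  refine ⟨zpowers a, this, inferInstance, _root_.isCyclic_iff_exists_zpowers_eq_top.2 ⟨QuotientGroup.mk' _ b, ?_⟩⟩
  have := congrArg (map (QuotientGroup.mk' (zpowers a))) h2
  rwa [Subgroup.map_sup, map_top_of_surjective _ (QuotientGroup.mk'_surjective _), (Subgroup.map_eq_bot_iff _).2
    (QuotientGroup.ker_mk' _).ge, bot_sup_eq, MonoidHom.map_zpowers] at this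

end Cfsg.Agent.S0639
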