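import Cfsg.Statements.S0640
import Mathlib
import Cfsg.Agent.H2.BG4b

set_option autoImplicit false
open Cfsg

namespace Cfsg.Agent.S0640

open Cfsg.Agent.H2 Subgroup

/-- For odd p, a prime q ≠ p dividing the order of the automorphism group of a p-group of rank at most 2 divides p² - 1 and is less than p. -/
theorem result {R : Type*} [Group R] [Finite R] {p : ℕ} [Fact p.Prime] (hp : p ≠ 2) (hR : IsPGroup p R) (hrk : Cfsg.PRankLE p 2 R) (q : ℕ) (hq : q.Prime) (hqp : q ≠ p) (hdvd : q ∣ Nat.card (MulAut R)) : q ∣ p ^ 2 - 1 ∧ q < p := by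
  have h := pi_Aut_rank2_pgroup (G := Hol R) (R := sl (MonoidHom.id (MulAut R)) ⊤)
    (A := sr (MonoidHom.id (MulAut R)) ⊤) hp (isPGroup_sl_top hR)
    ((pRankLE_congr (slTopEquiv _)).1 hrk) (le_normalizer_sl_top _) hq hqp (by
      rw [relIndex_eq_card_of_inf_eq_bot, card_sr_top]
      · exact hdvd
      · refine eq_bot_iff.2 ?_
        rintro _ ⟨⟨a, -, rfl⟩, h⟩
        have := inr_mem_centralizer_sl.1 h
        have e : a = 1 := MulEquiv.ext fun x => this x (mem_top x)
        rw [e, map_one]; exact one_mem _)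
  exact ⟨h.1, h.2.1⟩

end Cfsg.Agent.S0640
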