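import Cfsg.Statements.S0642
import Cfsg.Agent.H8.Reg

set_option autoImplicit false
open Cfsg

namespace Cfsg.Agent.S0642

open Subgroup hiding commutator_def
open Function Cfsg.Agent.Hopf Cfsg.Agent.Reg
open scoped commutatorElement

theorem aux {G : Type*} [Group G] [Finite G] (h : R1 G 2) (a b : G) (hab : closure ({a, b} : Set G) = ⊤) :
    a * b = b * a := by
  obtain ⟨c, hc, e⟩ := h.2 a b
  have hc' := Pw_mono (DD_le a b) hc
  have h1 : ⁅b, a⁆ = (a * b ^ 2) * c * (a * b ^ 2)⁻¹ := by
    have : c = (a ^ 2 * b ^ 2)⁻¹ * (a * b) ^ 2 := by rw [e]; group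
    rw [this, commutatorElement_def]; simp only [pow_two]; group
  have h2 := commutator_le_of_gen hab (N := Pw 2 (_root_.commutator G)) (h1 ▸ Normal.conj_mem inferInstance c hc' _)
  have h3 : _root_.commutator G = ⊥ := by
    by_contra h3
    refine (H1.map_frattini_lt h3).not_ge (h2.trans (Pw_le_iff.2 fun x hx => ?_))
    exact H1.pow_mem_map_frattini (h.1.to_subgroup _) hx
  have : ⁅a, b⁆ ∈ _root_.commutator G := commutator_mem_commutator (mem_top _) (mem_top _)
  rw [h3, mem_bot, commutatorElement_eq_one_iff_commute] at this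
  exact this

/-- Among finite 2-groups the regular ones are exactly the abelian ones. -/
theorem result {G : Type*} [Group G] [Finite G] (hG : IsPGroup 2 G) : Cfsg.IsRegularPGroup 2 G ↔ ∀ a b : G, a * b = b * a := by
  constructor
  · intro h a b
    have := aux ((r1_of_reg h).sub (closure ({a, b} : Set G))) ⟨a, Subgroup.subset_closure (by simp)⟩
      ⟨b, Subgroup.subset_closure (by simp)⟩ (by
        apply map_injective (closure ({a, b} : Set G)).subtype_injective
        rw [MonoidHom.map_closure, Set.image_pair, ← MonoidHom.range_eq_map, range_subtype]; rfl)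
    exact congrArg Subtype.val this
  · exact fun h => ⟨hG, fun a b n => ⟨1, one_mem _, by rw [mul_one, Commute.mul_pow (h a b)]⟩⟩

end Cfsg.Agent.S0642
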