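import Cfsg.Statements.S0657
import Cfsg.Agent.H9.Quad

set_option autoImplicit false
open Cfsg

namespace Cfsg.Agent.S0657

open Cfsg.Agent Cfsg.Agent.H9

/-- For odd p, a group that fails to be p-stable modulo its largest normal subgroup of order prime to p, and whose upper p-series does not stop there, has a section isomorphic to SL(2, p). -/
theorem result {G : Type*} [Group G] [Finite G] {p : ℕ} [Fact p.Prime] (hp : p ≠ 2) (hO : Cfsg.pPrimeCore p G < Cfsg.pPrimePCore p G) (hns : ¬ Cfsg.IsPStable p (G ⧸ Cfsg.pPrimeCore p G)) : ∃ (K L : Subgroup G) (hL : (L.subgroupOf K).Normal), K ≤ ⊤ ∧ Nonempty ((K ⧸ L.subgroupOf K) ≃* Matrix.SpecialLinearGroup (Fin 2) (ZMod p)) := by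
  refine sec_sub_iff.1 ?_
  by_contra h
  refine hns (isPStable_iff.2 ⟨(Fact.out : p.Prime).odd_of_ne_two hp, fun h0 => hO.ne ?_, PSt.pStO
    (pSt_sec_of_not_sl hp (fun h2 => h (h2.trans (H2.Sec.of_equiv Subgroup.topEquiv))) _ (H2.Sec.quot _))⟩)
  rw [Cfsg.pPrimePCore, h0, MonoidHom.comap_bot, QuotientGroup.ker_mk']

end Cfsg.Agent.S0657
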