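import Cfsg.Statements.S0658
import Cfsg.Agent.H9.Stab

set_option autoImplicit false
open Cfsg

namespace Cfsg.Agent.S0658

open Cfsg.Agent Cfsg.Agent.H9

/-- In a group of characteristic p type all of whose p-locals are p-stable (p odd), the normalizer of Z(J(P)) contains the normalizer of every nontrivial subgroup of the Sylow p-subgroup P. -/
theorem result {G : Type*} [Group G] [Finite G] {p : ℕ} [Fact p.Prime] (hp : p ≠ 2) (hloc : ∀ Q : Subgroup G, IsPGroup p Q → Q ≠ ⊥ → Cfsg.pPrimeCore p ↥(Subgroup.normalizer (Q : Set G)) = ⊥ ∧ Cfsg.IsPConstrained p ↥(Subgroup.normalizer (Q : Set G)) ∧ Cfsg.IsPStable p ↥(Subgroup.normalizer (Q : Set G))) (P : Sylow p G) (Q : Subgroup G) (hQP : Q ≤ (P : Subgroup G)) (hQ1 : Q ≠ ⊥) : Subgroup.normalizer (Q : Set G) ≤ Subgroup.normalizer (Cfsg.centerThompsonAOf ((P : Subgroup G)) : Set G) := by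
  have hP : H2.SylIn p (P : Subgroup G) ⊤ := H2.sylIn_top_iff.2 ⟨P, rfl⟩
  rw [← II_zero_eq]
  have hW := pf_ZW (p := p) (e := 0) (Or.inl rfl) false
  have loc : ∀ Q R : Subgroup G, IsPGroup p Q → Q ≠ ⊥ → H2.SylIn p R (Subgroup.normalizer (Q : Set G)) →
      Subgroup.normalizer (Q : Set G) ≤ Subgroup.normalizer (II 0 R : Set G) := by
    intro Q R hQ hQ1 hR
    obtain ⟨h0, h1, h2⟩ := hloc Q hQ hQ1
    have h := zw_opp hp (Or.inl rfl) false hR.subgroupOf_top (scl_self _ _) (isPStable_iff.1 h2).2.2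
      (constrained_iff.1 h1)
    rw [h0, bot_sup_eq, hW.subgroupOf hR.pgrp hR.le] at h
    exact (Subgroup.normal_subgroupOf_iff_le_normalizer ((II_le 0 R).trans hR.le)).1 h
  set M := Subgroup.normalizer (II 0 (P : Subgroup G) : Set G) with hM
  have hPM : (P : Subgroup G) ≤ M := Subgroup.le_normalizer.trans (normalizer_le_II 0 _)
  have key : ∀ n : ℕ, ∀ Q R : Subgroup G, IsPGroup p Q → Q ≠ ⊥ → Q ≤ M →
      H2.SylIn p R (Subgroup.normalizer (Q : Set G) ⊓ M) → Nat.card P ≤ Nat.card R + n →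
      Subgroup.normalizer (Q : Set G) ≤ M := by
    intro n
    induction n using Nat.strong_induction_on with
    | _ n ih =>
    intro Q R hQ hQ1 hQM hR hle
    obtain ⟨m, hm, hRP⟩ := (hP.mono hPM le_top).exists_le_cj hR.pgrp (hR.le.trans inf_le_right)
    have hP' := hP.cj_of_mem (Subgroup.mem_top m)
    have hP'M : H2.cj m P ≤ M := H2.cj_le_of_le hPM hm
    have hM' : Subgroup.normalizer (II 0 (H2.cj m (P : Subgroup G)) : Set G) = M := by
      rw [← cj_II, H2.cj_eq_of_mem_normalizer hm]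
    by_cases e : R = H2.cj m P
    · rw [← hM', ← e]
      exact loc Q R hQ hQ1 ((e ▸ hP').mono (hR.le.trans inf_le_left) le_top)
    have hlt : R < H2.cj m P := lt_of_le_of_ne hRP e
    have hQR : Q ≤ R := hR.normal_le hQ (le_inf Subgroup.le_normalizer hQM) (hR.le.trans inf_le_left)
    have hR1 : R ≠ ⊥ := fun h => hQ1 (le_bot_iff.1 (h ▸ hQR))
    have hZ : Subgroup.normalizer (II 0 R : Set G) ≤ M := by
      obtain ⟨R', hR', h1⟩ := H2.exists_sylIn_ge (H := Subgroup.normalizer (II 0 R : Set G) ⊓ M)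
        (hP'.pgrp.to_le (inf_le_left : H2.cj m P ⊓ Subgroup.normalizer (II 0 R : Set G) ≤ _))
        (le_inf inf_le_right (inf_le_left.trans hP'M))
      have h2 := H2.card_inf_normalizer_lt hP'.pgrp hlt (normalizer_le_II 0 R)
      have h3 := Subgroup.card_le_of_le h1
      have h4 := H2.card_lt_of_lt hlt
      rw [H2.card_cj] at h4
      exact ih (n - 1) (by omega) _ R' (hR.pgrp.to_le (II_le _ _))
        (II_ne_bot (Or.inl rfl) hR.pgrp hR1) ((II_le _ _).trans (hR.le.trans inf_le_right)) hR'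
        (by omega)
    refine (loc Q R hQ hQ1 ?_).trans hZ
    refine H2.sylIn_of_sylIn_normalizer (hR.mono (le_inf (hR.le.trans inf_le_left)
      Subgroup.le_normalizer) ?_)
    exact inf_le_inf_left _ ((normalizer_le_II 0 R).trans hZ)
  obtain ⟨R, hR⟩ := H2.exists_sylIn p (Subgroup.normalizer (Q : Set G) ⊓ M)
  exact key (Nat.card P) Q R (hP.pgrp.to_le hQP) hQ1 (hQP.trans hPM) hR (by omega)

end Cfsg.Agent.S0658
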