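import Cfsg.Statements.S0659
import Cfsg.Agent.H9.Quad

set_option autoImplicit false
open Cfsg

namespace Cfsg.Agent.S0659

open Cfsg.Agent Cfsg.Agent.H9

/-- Glauberman's normal p-complement Theorem with the abelian-version Thompson subgroup: for odd p, G has a normal p-complement whenever the normalizer of Z(J(P)) does. -/
theorem result {G : Type*} [Group G] [Finite G] {p : ℕ} [Fact p.Prime] (hp : p ≠ 2) (P : Sylow p G) (hN : Cfsg.HasNormalPComplement p ↥(Subgroup.normalizer (Cfsg.centerThompsonAOf ((P : Subgroup G)) : Set G))) : Cfsg.HasNormalPComplement p G := by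
  rw [H2.hasNPC_iff_top]
  rw [H2.hasNPC_iff, ← II_zero_eq] at hN
  exact gt_zw hp (Or.inl rfl) false (H2.sylIn_top P) (scl_self _ _) hN

end Cfsg.Agent.S0659
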