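import Cfsg.Statements.S0661
import Cfsg.Agent.H9.Stab

set_option autoImplicit false
open Cfsg

namespace Cfsg.Agent.S0661

open Cfsg.Agent Cfsg.Agent.H9

/-- If, modulo the largest normal subgroup of order prime to p, the largest normal p-subgroup contains its centralizer, then for every p-subgroup P the p'-core of N_G(P) is just O_p'(G) ∩ N_G(P). -/
theorem result {G : Type*} [Group G] [Finite G] {p : ℕ} [Fact p.Prime] (hc : Subgroup.centralizer (Cfsg.pCore p (G ⧸ Cfsg.pPrimeCore p G) : Set (G ⧸ Cfsg.pPrimeCore p G)) ≤ Cfsg.pCore p (G ⧸ Cfsg.pPrimeCore p G)) (P : Subgroup G) (hP : IsPGroup p P) : (Cfsg.pPrimeCore p ↥(Subgroup.normalizer (P : Set G))).map (Subgroup.normalizer (P : Set G)).subtype = Cfsg.pPrimeCore p G ⊓ Subgroup.normalizer (P : Set G) := by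
    have h := (H8.constrained_centralizer (charP_quot_iff.1 hc) hP Subgroup.le_normalizer_of_normal).2
    rw [← H8.Opp_normalizer_eq hP le_top, top_inf_eq, H8.Opp_top] at h
    refine le_antisymm (le_inf h (H8.Opp_le p _)) ?_
    have := H8.inf_Opp_le (p := p) (le_top : Subgroup.normalizer (P : Set G) ≤ ⊤)
    rwa [H8.Opp_top] at this

end Cfsg.Agent.S0661
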