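import Cfsg.Statements.S0662
import Cfsg.Agent.L.MaxClass

set_option autoImplicit false
open Cfsg

namespace Cfsg.Agent.S0662

open Cfsg.Agent

/-- In a p-group of maximal class of order at least p³ the normal subgroups of index at least p² are exactly the terms of the lower central series, and there are exactly p + 1 normal subgroups of index p. -/
theorem result {G : Type*} [Group G] [Finite G] {p : ℕ} [Fact p.Prime] (n : ℕ) (hG : Nat.card G = p ^ n) (hcl : Group.nilpotencyClass G = n - 1) (hn : 3 ≤ n) : (∀ (N : Subgroup G) [N.Normal] (r : ℕ), 2 ≤ r → N.index = p ^ r → N = (⊤ : Subgroup G).lowerCentralSeries (r - 1)) ∧ Nat.card {N : Subgroup G // N.Normal ∧ N.index = p} = p + 1 := by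
  have hp : p.Prime := Fact.out
  have hP : IsPGroup p G := .of_card hG
  have := hP.isNilpotent
  constructor
  · intro N _ r hr hN
    have hrn : r ≤ n := by
      have := N.index_dvd_card
      rwa [hN, hG, Nat.pow_dvd_pow_iff_le_right hp.one_lt] at this
    have h1 := L.nilpotencyClass_le_of_card p r (G ⧸ N) hN hr
    have h2 := Subgroup.lowerCentralSeries_eq_bot_iff_nilpotencyClass_le.mpr h1
    rw [← Subgroup.map_top_of_surjective _ (QuotientGroup.mk'_surjective N), ← Subgroup.map_lowerCentralSeries,
      Subgroup.map_eq_bot_iff, QuotientGroup.ker_mk'] at h2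
    refine (Subgroup.eq_of_le_of_card_ge h2 (le_of_eq ?_)).symm
    rw [L.card_lowerCentralSeries_of_maxClass hn hG hcl (by omega) (by omega)]
    have h3 := N.card_mul_index
    rw [hN, hG, show n = (n - 1 - (r - 1)) + r by omega, pow_add] at h3
    exact Nat.eq_of_mul_eq_mul_right (pow_pos hp.pos _) h3
  · have h4 := L.index_commutator_of_maxClass hn hG hcl
    have hnc : ¬ IsCyclic (G ⧸ commutator G) := fun h => by
      have : IsCyclic G := L.isCyclic_of_isCyclic_abelianization
      have := Group.IsNilpotent.nilpotencyClass_le_one_iff.mpr (inferInstance : IsMulCommutative G)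
      omega
    have hexp := (not_isCyclic_iff_exponent_eq_prime hp h4).mp hnc
    rw [← L.card_subgroups_prime_of_sq (G := G ⧸ commutator G) (fun x => hexp ▸ Monoid.pow_exponent_eq_one x) h4]
    have key : ∀ H : Subgroup (G ⧸ commutator G), Nat.card H = p ↔ H.index = p := by
      intro H
      have := H.card_mul_index
      rw [← Subgroup.index_eq_card, h4, sq] at this
      constructor
      · intro h; rw [h] at this; exact Nat.eq_of_mul_eq_mul_left hp.pos this
      · intro h; rw [h] at this; exact Nat.eq_of_mul_eq_mul_right hp.pos this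
    refine (Nat.card_congr (Equiv.ofBijective (fun H => ⟨H.1.comap (QuotientGroup.mk' _),
      L.normal_of_commutator_le (by
        conv_lhs => rw [← QuotientGroup.ker_mk' (commutator G)]
        exact Subgroup.ker_le_comap _ _), by
        rw [Subgroup.index_comap_of_surjective _ (QuotientGroup.mk'_surjective _), (key _).mp H.2]⟩) ⟨?_, ?_⟩)).symm
    · intro H K h
      exact Subtype.ext (Subgroup.comap_injective (QuotientGroup.mk'_surjective _) (congrArg Subtype.val h))
    · rintro ⟨N, h1, h2⟩
      have h3 : (QuotientGroup.mk' (commutator G)).ker ≤ N := by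
        rw [QuotientGroup.ker_mk']; exact L.commutator_le_of_index_prime (h2 ▸ hp)
      refine ⟨⟨N.map (QuotientGroup.mk' _), (key _).mpr ?_⟩, Subtype.ext (Subgroup.comap_map_eq_self h3)⟩
      rw [Subgroup.index_map_eq _ (QuotientGroup.mk'_surjective _) h3, h2]

end Cfsg.Agent.S0662
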