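import Cfsg.Statements.S0663
import Mathlib
import Cfsg.Agent.H2.Chief
import Cfsg.Agent.H1.PGrp
import Cfsg.Agent.L.Cores

set_option autoImplicit false
open Cfsg

namespace Cfsg.Agent.S0663

open Cfsg.Agent.H2 Subgroup

variable {L : Type*} [Group L] [Finite L] {p : ℕ} [hp : Fact p.Prime] {G : Subgroup L}

theorem card_comm (hG : IsPGroup p G) {N : Subgroup L} (hN : IsPGroup p N) (h : G ≤ normalizer (N : Set L)) {m : ℕ}
    (hm : Nat.card N ≤ p ^ (m + 1)) : ∃ k ≤ m, Nat.card ↥⁅N, G⁆ = p ^ k := by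
  obtain ⟨a, ha⟩ := (hN.to_le (H1.commutator_le_left_of_le_normalizer h)).exists_card_eq
  obtain ⟨b, hb⟩ := hN.exists_card_eq
  by_cases h0 : N = ⊥
  · exact ⟨0, m.zero_le, by simp [h0]⟩
  have h1 := H1.commutator_lt_of_isPGroup hN hG h h0
  have h2 : p ^ a < p ^ b := ha ▸ hb ▸ lt_of_not_ge fun e => h1.ne (eq_of_le_of_card_ge h1.le e)
  exact ⟨a, Nat.le_of_lt_succ ((Nat.pow_lt_pow_iff_right hp.out.one_lt).1 (h2.trans_le (hb ▸ hm))), ha⟩

theorem ic_succ' (N : Subgroup L) (m : ℕ) : iterCommutator N G (m + 1) = iterCommutator ⁅N, G⁆ G m := by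
  rw [add_comm, ic_add]; rfl

theorem ic_bot (hG : IsPGroup p G) (m : ℕ) : ∀ N : Subgroup L, IsPGroup p N → G ≤ normalizer (N : Set L) →
    Nat.card N ≤ p ^ m → iterCommutator N G m = ⊥ := by
  induction m with
  | zero => exact fun N _ _ h => eq_bot_of_card_le N (by simpa using h)
  | succ m ih =>
    intro N h1 h2 h3
    obtain ⟨k, h4, h5⟩ := card_comm hG h1 h2 h3
    exact ic_succ' N m ▸ ih _ (h1.to_le (H1.commutator_le_left_of_le_normalizer h2))
      (H1.le_normalizer_commutator h2 le_normalizer) (h5 ▸ Nat.pow_le_pow_right hp.out.pos h4)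

theorem comm_le_max (hG : IsPGroup p G) {N H : Subgroup L} (hN : IsPGroup p N) (h : G ≤ normalizer (N : Set L))
    (h1 : G ≤ normalizer (H : Set L)) (h2 : H < N) : ∃ M, H ≤ M ∧ M < N ∧ ⁅N, G⁆ ≤ M := by
  obtain ⟨M, a1, ⟨a2, a3⟩, a4⟩ := H1.exists_maximal_ge (fun M : Subgroup L => M < N ∧ G ≤ normalizer (M : Set L)) ⟨h2, h1⟩
  have a5 : ∀ K : Subgroup L, M < K → K ≤ N → G ≤ normalizer (K : Set L) → K = N := fun K b1 b2 b3 =>
    by_contra fun e => b1.ne' (a4 K ⟨lt_of_le_of_ne b2 e, b3⟩ b1.le)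
  obtain ⟨K, b1, b2, b3, b4⟩ := H1.exists_relIndex_prime_invariant hG hN h a3 (inf_eq_left.1 (a5 _
    (H1.lt_inf_normalizer_of_isNilpotent hN.isNilpotent a2) inf_le_left
    (H1.le_normalizer_inf h (H1.le_normalizer_normalizer a3)))) a2
  replace b4 := (Subgroup.commutator_mono le_rfl le_sup_left).trans b4
  obtain rfl := a5 K (lt_of_le_of_ne b1 (by rintro rfl; exact hp.out.ne_one (by simpa using b3.symm))) b2
    (Cfsg.Agent.L.le_normalizer_of_commutator_le (commutator_comm K G ▸ b4.trans b1))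
  exact ⟨M, a1, a2, b4⟩

theorem main (hG : IsPGroup p G) (n : ℕ) : ∀ N : Subgroup L, IsPGroup p N → G ≤ normalizer (N : Set L) →
    Nat.card N = p ^ n → iterCommutator N G (n - 1) ≠ ⊥ ∨ n = 0 → (∀ i ≤ n, Nat.card (iterCommutator N G i) = p ^ (n - i)) ∧
    ∀ H ≤ N, G ≤ normalizer (H : Set L) → ∃ i ≤ n, H = iterCommutator N G i := by
  induction n with
  | zero =>
    intro N _ _ h _
    obtain rfl := card_eq_one.1 h
    exact ⟨fun i hi => by obtain rfl := Nat.le_zero.1 hi; exact h, fun H h _ => ⟨0, le_rfl, le_bot_iff.1 h⟩⟩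
  | succ n ih =>
    intro N h1 h2 h3 h4
    obtain ⟨k, h5, h6⟩ := card_comm hG h1 h2 h3.le
    have h7 := H1.commutator_le_left_of_le_normalizer h2
    have h8 := H1.le_normalizer_commutator h2 le_normalizer
    have h9 : iterCommutator ⁅N, G⁆ G (n - 1) ≠ ⊥ ∨ n = 0 := by
      cases n with
      | zero => exact .inr rfl
      | succ n => exact .inl (ic_succ' N n ▸ h4.resolve_right (by simp))
    obtain rfl : k = n := by
      by_contra e
      exact h9.resolve_right (by omega) (ic_bot hG _ _ (h1.to_le h7) h8 (h6 ▸ Nat.pow_le_pow_right hp.out.pos (by omega)))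
    obtain ⟨a1, a2⟩ := ih _ (h1.to_le h7) h8 h6 h9
    refine ⟨fun i hi => ?_, fun H b1 b2 => ?_⟩
    · cases i with
      | zero => exact h3
      | succ i => rw [ic_succ', a1 i (by omega), Nat.add_sub_add_right]
    rcases b1.eq_or_lt with rfl | b1
    · exact ⟨0, by omega, rfl⟩
    obtain ⟨M, c1, c2, c3⟩ := comm_le_max hG h1 h2 b2 b1
    obtain ⟨j, hj⟩ := (h1.to_le c2.le).exists_card_eq
    have c4 : p ^ j < p ^ (k + 1) := hj ▸ h3 ▸ lt_of_not_ge fun e => c2.ne (eq_of_le_of_card_ge c2.le e)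
    obtain ⟨i, c5, rfl⟩ := a2 H (c1.trans (eq_of_le_of_card_ge c3 (hj ▸ h6 ▸ Nat.pow_le_pow_right hp.out.pos
      (Nat.le_of_lt_succ ((Nat.pow_lt_pow_iff_right hp.out.one_lt).1 c4)))).ge) b2
    exact ⟨i + 1, by omega, (ic_succ' N i).symm⟩

/-- A p-group acts uniserially on a p-group N of order p^n exactly when the iterated commutator chain from N has length n; in that case the chain terms are all the invariant subgroups of N and they are normal in N. -/
theorem result {L : Type*} [Group L] [Finite L] {p : ℕ} [Fact p.Prime] (N G : Subgroup L) (hN : IsPGroup p N) (hG : IsPGroup p G) (hGN : G ≤ Subgroup.normalizer (N : Set L)) (n : ℕ) (hn : Nat.card N = p ^ n) : ((∀ H : Subgroup L, H ≤ N → G ≤ Subgroup.normalizer (H : Set L) → H ≠ ⊥ → (⁅H, G⁆).relIndex H = p) ↔ Cfsg.iterCommutator N G (n - 1) ≠ ⊥ ∨ n = 0) ∧ ((∀ H : Subgroup L, H ≤ N → G ≤ Subgroup.normalizer (H : Set L) → H ≠ ⊥ → (⁅H, G⁆).relIndex H = p) → ∀ H : Subgroup L, H ≤ N → G ≤ Subgroup.normalizer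 (H : Set L) → (∃ i ≤ n, H = Cfsg.iterCommutator N G i) ∧ N ≤ Subgroup.normalizer (H : Set L)) := by
  have hp : p.Prime := Fact.out
  have h1 : (∀ H : Subgroup L, H ≤ N → G ≤ normalizer (H : Set L) → H ≠ ⊥ → (⁅H, G⁆).relIndex H = p) →
      iterCommutator N G (n - 1) ≠ ⊥ ∨ n = 0 := fun h => by
    have h2 : ∀ i ≤ n, Nat.card (iterCommutator N G i) = p ^ (n - i) ∧ (i < n → iterCommutator N G i ≠ ⊥) := fun i => by
      refine fun hi => (fun h => ⟨h, fun h' e => ?_⟩ : _ → _ ∧ _) ?_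
      · rw [e, card_bot, eq_comm, Nat.pow_eq_one] at h; exact h.elim hp.ne_one (by omega)
      induction i with
      | zero => exact hn
      | succ i ih =>
        have h3 := H1.card_mul_relIndex (H1.commutator_le_left_of_le_normalizer (le_normalizer_ic hGN i))
        rw [h _ (ic_le le_rfl hGN i) (le_normalizer_ic hGN i) (fun e => by
          have := ih (by omega)
          rw [e, card_bot, eq_comm, Nat.pow_eq_one] at this; exact this.elim hp.ne_one (by omega)),
          ih (by omega), show n - i = n - (i + 1) + 1 by omega, pow_succ] at h3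
        exact Nat.eq_of_mul_eq_mul_right hp.pos h3
    exact or_iff_not_imp_right.2 fun e => (h2 _ (by omega)).2 (by omega)
  refine ⟨⟨h1, fun h H a1 a2 a3 => ?_⟩, fun h H a1 a2 => ?_⟩
  · obtain ⟨b1, b2⟩ := main hG n N hN hGN hn h
    obtain ⟨i, b3, rfl⟩ := b2 H a1 a2
    have b4 : i < n := lt_of_le_of_ne b3 (by rintro rfl; exact a3 (card_eq_one.1 (by simpa using b1 i le_rfl)))
    have h3 := H1.card_mul_relIndex (H1.commutator_le_left_of_le_normalizer a2)
    rw [b1 i b3, show n - i = n - (i + 1) + 1 by omega, pow_succ, ← b1 (i + 1) b4] at h3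
    exact Nat.eq_of_mul_eq_mul_left Nat.card_pos h3
  · obtain ⟨b1, b2⟩ := main hG n N hN hGN hn (h1 h)
    obtain ⟨i, b3, rfl⟩ := b2 H a1 a2
    have b4 : G ⊔ N ≤ normalizer (N : Set L) := sup_le hGN le_normalizer
    have b5 := fun i => ic_mono (le_refl N) (le_sup_left : G ≤ G ⊔ N) i
    have b6 := (main (IsPGroup.to_sup_of_normal_right' hG hN hGN) n N hN b4 hn
      ((h1 h).imp_left fun h e => h (eq_bot_iff.2 (e ▸ b5 _)))).1 i b3
    exact ⟨⟨i, b3, rfl⟩, eq_of_le_of_card_ge (b5 i) (b6.trans (b1 i b3).symm).le ▸ le_sup_right.trans (le_normalizer_ic b4 i)⟩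

end Cfsg.Agent.S0663
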