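import Cfsg.Statements.S0666
import Mathlib
import Cfsg.Agent.GS.Lem2
import Cfsg.Agent.BG.Basic

set_option autoImplicit false
open Cfsg

namespace Cfsg.Agent.S0666

open Cfsg.Agent.BG Subgroup

/-- A Frobenius group acting on a nontrivial abelian group of order prime to that of its kernel, with the kernel acting without nontrivial fixed points, has a complement with a nontrivial fixed point. -/
theorem result {G : Type*} [Group G] [Finite G] (V F : Subgroup G) (hVab : IsMulCommutative V) (hV1 : V ≠ ⊥) (hFV : F ≤ Subgroup.normalizer (V : Set G)) (H : Subgroup ↥F) (hH : Cfsg.IsFrobeniusComplement H) (hcop : (Nat.card V).Coprime (Nat.card (Cfsg.frobeniusKernel H))) (hCK : V ⊓ Subgroup.centralizer (Subtype.val '' Cfsg.frobeniusKernel H : Set G) = ⊥) : V ⊓ Subgroup.centralizer ((H.map F.subtype : Subgroup G) : Set G) ≠ ⊥ := by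
  intro h
  obtain ⟨K, hK, hKR, -, hf, e, -, -⟩ := GS.exists_frobKernel hH
  have e1 : (Subtype.val '' Cfsg.frobeniusKernel H : Set G) = K.map F.subtype := by rw [e, coe_map]; rfl
  have hn := GS.le_norm_of_normal H K
  have hc : ⁅V, V⁆ = ⊥ := commutator_eq_bot_iff_le_centralizer.2 (le_centralizer V)
  rw [e1] at hCK
  rw [e] at hcop
  have := L.le_centralizer_of_frobenius (H1.map_le_normalizer_map _ hn) (hf.map F.subtype hn) V
    (Group.isSolvable_of_comm fun a b => hVab.1.1 a b)
    ((map_subtype_le _).trans hFV) ((map_subtype_le _).trans hFV) (by rw [card_map_of_injective F.subtype_injective]; exact hcop.symm)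
    (by rw [hc, card_bot]; exact Nat.coprime_one_right _) h
  exact hV1 (by rwa [inf_eq_left.2 (le_centralizer_iff.1 this)] at hCK)

end Cfsg.Agent.S0666
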