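import Cfsg.Statements.S0668
import Mathlib
import Cfsg.Agent.H7.PermMod

set_option autoImplicit false
open Cfsg

namespace Cfsg.Agent.S0668

/-- The equivariant linear maps between the permutation modules of two finite `G`-sets form a space whose dimension is the number of `G`-orbits on the product of the two sets. -/
theorem result {G : Type*} [Group G] {K : Type*} [Field K] {Ω₁ Ω₂ : Type*} [Fintype Ω₁] [Fintype Ω₂] [MulAction G Ω₁] [MulAction G Ω₂] : Module.finrank K ((Cfsg.permRep K G Ω₁).linHom (Cfsg.permRep K G Ω₂)).invariants = Nat.card (MulAction.orbitRel.Quotient G (Ω₁ × Ω₂)) := by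
  classical
  let Q := MulAction.orbitRel.Quotient G (Ω₁ × Ω₂)
  haveI : Fintype Q := Fintype.ofFinite Q
  let L : (Q → K) →ₗ[K] ((Ω₁ → K) →ₗ[K] (Ω₂ → K)) :=
    Matrix.toLin'.toLinearMap ∘ₗ
      { toFun := fun F => Matrix.of fun y x => F (Quotient.mk'' (x, y))
        map_add' := fun _ _ => rfl
        map_smul' := fun _ _ => rfl }
  have hL : ∀ F v y, L F v y = ∑ x, F (Quotient.mk'' (x, y)) * v x := fun F v y => rfl
  have hinj : Function.Injective L := by
    intro F F' h
    funext q
    induction q using Quotient.inductionOn' with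
    | h xy =>
      have := congrFun (LinearMap.congr_fun h (Pi.single xy.1 1)) xy.2
      simpa [hL, Pi.single_apply] using this
  have hq : ∀ (g : G) (x : Ω₁) (y : Ω₂), (Quotient.mk'' (g • x, g • y) : Q) =
      Quotient.mk'' (x, y) := fun g x y => Quotient.sound' ⟨g, rfl⟩
  have hr : LinearMap.range L =
      ((Cfsg.permRep K G Ω₁).linHom (Cfsg.permRep K G Ω₂)).invariants := by
    ext T
    rw [Representation.mem_invariants]
    constructor
    · rintro ⟨F, rfl⟩ g
      ext v y
      simp only [Representation.linHom_apply, LinearMap.comp_apply, H7.permRep_apply, hL, inv_inv]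
      exact Fintype.sum_equiv (MulAction.toPerm g) _ _ fun x => by
        rw [MulAction.toPerm_apply, ← hq g x, smul_inv_smul]
    · intro h
      refine ⟨Quotient.lift (fun xy => T (Pi.single xy.1 1) xy.2) ?_, ?_⟩
      · rintro _ ⟨x, y⟩ ⟨g, rfl⟩
        have := congrFun (LinearMap.congr_fun (h g⁻¹) (Pi.single x 1)) y
        simpa [Representation.linHom_apply, H7.permRep_apply, H7.permRep_single] using this
      · ext x y
        simp [hL, Pi.single_apply]
  rw [← hr, LinearMap.finrank_range_of_inj hinj, Module.finrank_pi, Nat.card_eq_fintype_card]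

end Cfsg.Agent.S0668
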