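import Cfsg.Statements.S0669
import Mathlib

set_option autoImplicit false
open Cfsg

namespace Cfsg.Agent.S0669

open MulAction in
theorem aux {G : Type*} [Group G] {Ω : Type*} [MulAction G Ω] [MulAction.IsPretransitive G Ω] (a : Ω) : Nonempty (MulAction.orbitRel.Quotient (MulAction.stabilizer G a) Ω ≃ MulAction.orbitRel.Quotient G (Ω × Ω)) := by
  refine ⟨Equiv.ofBijective (Quotient.map' (fun x => (a, x)) ?_) ⟨?_, ?_⟩⟩
  · rintro x y ⟨g, rfl⟩
    exact ⟨g, Prod.ext g.2 rfl⟩
  · intro x y
    induction x using Quotient.inductionOn'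
    induction y using Quotient.inductionOn'
    intro h
    obtain ⟨g, hg⟩ := Quotient.exact' h
    exact Quotient.sound' ⟨⟨g, congrArg Prod.fst hg⟩, congrArg Prod.snd hg⟩
  · intro x
    induction x using Quotient.inductionOn' with
    | h x =>
      obtain ⟨g, hg⟩ := exists_smul_eq G x.1 a
      exact ⟨Quotient.mk'' (g • x.2), Quotient.sound' ⟨g, Prod.ext hg rfl⟩⟩

/-- The rank of a transitive action: orbits on ordered pairs correspond to orbits of a point stabiliser. -/
theorem result {G : Type*} [Group G] {Ω : Type*} [Finite Ω] [MulAction G Ω] [MulAction.IsPretransitive G Ω] (a : Ω) : Nat.card (MulAction.orbitRel.Quotient G (Ω × Ω)) = Nat.card (MulAction.orbitRel.Quotient (MulAction.stabilizer G a) Ω) := by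
  obtain ⟨e⟩ := aux (G := G) a
  exact (Nat.card_congr e).symm

end Cfsg.Agent.S0669
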