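import Cfsg.Statements.S0670
import Mathlib
import Cfsg.Agent.H7.PermMod

set_option autoImplicit false
open Cfsg

namespace Cfsg.Agent.S0670

/-- In characteristic `p`, the permutation module of a transitive action of degree `p ^ f` has the line of constant functions as its only irreducible submodule: every non-zero subrepresentation contains it. -/
theorem result {G : Type*} [Group G] [Finite G] {K : Type*} [Field K] {p f : ℕ} [Fact p.Prime] [CharP K p] {Ω : Type*} [Fintype Ω] [MulAction G Ω] [MulAction.IsPretransitive G Ω] (hf : 1 ≤ f) (hcard : Fintype.card Ω = p ^ f) (W : Subrepresentation (Cfsg.permRep K G Ω)) (hW : W.toSubmodule ≠ ⊥) : (Cfsg.permConstants K G Ω).toSubmodule ≤ W.toSubmodule := by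
  obtain ⟨P⟩ : Nonempty (Sylow p G) := inferInstance
  haveI := H7.sylow_isPretransitive (Nat.card_eq_fintype_card.trans hcard) P
  obtain ⟨w, hw, hw0, hfix⟩ := H7.exists_fixed_vector P.2
    ((Cfsg.permRep K G Ω).comp (P : Subgroup G).subtype) W.toSubmodule
    (fun g v hv => W.apply_mem_toSubmodule _ hv) hW
  obtain ⟨a, ha⟩ := Function.ne_iff.1 hw0
  have hc : ∀ x, w x = w a := fun x => by
    obtain ⟨g, rfl⟩ := MulAction.exists_smul_eq (P : Subgroup G) a x
    have := congrFun (hfix g⁻¹) a
    change w ((g : G)⁻¹⁻¹ • a) = _ at this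
    rwa [inv_inv] at this
  intro f hf
  obtain ⟨c, hc'⟩ := H7.mem_permConstants.1 hf
  have : f = (c / w a) • w := by
    funext x
    rw [Pi.smul_apply, hc x, hc', smul_eq_mul, div_mul_cancel₀ _ ha]
  rw [this]; exact W.toSubmodule.smul_mem _ hw

end Cfsg.Agent.S0670
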