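import Cfsg.Statements.S0671
import Mathlib
import Cfsg.Agent.S0670

set_option autoImplicit false
open Cfsg

namespace Cfsg.Agent.S0671

/-- If the heart of the permutation module in characteristic `p` of a transitive action of degree `p ^ f` has no trivial composition factor, the action is doubly transitive. The hypothesis is phrased without composition series: no invariant subspaces `W < W'` between the constants and the sum-zero functions with trivial action on the quotient. -/
theorem result {G : Type*} [Group G] [Finite G] {K : Type*} [Field K] {p f : ℕ} [Fact p.Prime] [CharP K p] {Ω : Type*} [Fintype Ω] [MulAction G Ω] [MulAction.IsPretransitive G Ω] (hf : 1 ≤ f) (hcard : Fintype.card Ω = p ^ f) (h : ∀ W W' : Subrepresentation (Cfsg.permRep K G Ω), (Cfsg.permConstants K G Ω).toSubmodule ≤ W.toSubmodule → W.toSubmodule < W'.toSubmodule → W'.toSubmodule ≤ (Cfsg.permSumZero K G Ω).toSubmodule → ∃ g : G, ∃ v ∈ W'.toSubmodule, Cfsg.permRep K G Ω g v - v ∉ W.toSubmodule) : MulAction.IsMultiplyPretransitive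 G Ω 2 := by
  classical
  rw [MulAction.is_two_pretransitive_iff]
  intro a b c d hab hcd
  by_contra hcon
  let R : Ω → Ω → Prop := fun x y => ∃ g : G, g • a = x ∧ g • b = y
  have hR : ∀ (g : G) x y, R (g • x) (g • y) ↔ R x y := fun g x y =>
    ⟨fun ⟨t, h1, h2⟩ => ⟨g⁻¹ * t, by rw [mul_smul, h1, inv_smul_smul],
      by rw [mul_smul, h2, inv_smul_smul]⟩,
      fun ⟨t, h1, h2⟩ => ⟨g * t, by rw [mul_smul, h1], by rw [mul_smul, h2]⟩⟩
  let I : Ω → Ω → K := fun x y => if R x y then 1 else 0
  have hI : ∀ (g : G) x y, I (g • x) (g • y) = I x y := fun g x y => by simp only [I, hR]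
  have row : ∀ x, ∑ y, I x y = ∑ y, I a y := fun x => by
    obtain ⟨g, rfl⟩ := MulAction.exists_smul_eq G a x
    exact (Fintype.sum_equiv (MulAction.toPerm g) _ _ fun y => (hI g a y).symm).symm
  let φ : (Ω → K) →ₗ[K] (Ω → K) :=
    { toFun := fun v x => ∑ y, I x y * (v y - v x)
      map_add' := fun v w => funext fun x => by
        simp only [Pi.add_apply, ← Finset.sum_add_distrib]
        exact Finset.sum_congr rfl fun y _ => by ring
      map_smul' := fun t v => funext fun x => by
        simp only [Pi.smul_apply, smul_eq_mul, RingHom.id_apply, Finset.mul_sum]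
        exact Finset.sum_congr rfl fun y _ => by ring }
  have hφ : ∀ v x, φ v x = ∑ y, I x y * (v y - v x) := fun _ _ => rfl
  have hcomm : ∀ (g : G) v, φ (Cfsg.permRep K G Ω g v) = Cfsg.permRep K G Ω g (φ v) := by
    intro g v
    funext x
    rw [H7.permRep_apply, hφ, hφ]
    exact Fintype.sum_equiv (MulAction.toPerm g⁻¹) _ _ fun y => by
      simp only [H7.permRep_apply, MulAction.toPerm_apply, hI]
  let S := (Cfsg.permSumZero K G Ω)
  let C := (Cfsg.permConstants K G Ω)
  let U : Subrepresentation (Cfsg.permRep K G Ω) := ⟨S.toSubmodule.map φ, by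
    rintro g _ ⟨v, hv, rfl⟩
    exact ⟨_, S.apply_mem_toSubmodule g hv, hcomm g v⟩⟩
  have hcard0 : (Fintype.card Ω : K) = 0 := by
    rw [hcard, Nat.cast_pow, CharP.cast_eq_zero, zero_pow (by omega)]
  have hU : U.toSubmodule ≠ ⊥ := by
    intro h0
    -- all `I x y` with `y ≠ x` agree for a fixed `x`
    have key : ∀ x y z, y ≠ x → z ≠ x → I x y = I x z := by
      intro x y z hy hz
      have h1 : φ (Pi.single y 1 - Pi.single z 1) ∈ U.toSubmodule :=
        ⟨_, H7.mem_permSumZero.2 (by simp [Finset.sum_sub_distrib]), rfl⟩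
      rw [h0, Submodule.mem_bot] at h1
      have h2 := congrFun h1 x
      rw [hφ] at h2
      simpa [Pi.single_apply, hy.symm, hz.symm, mul_sub, Finset.sum_sub_distrib, sub_eq_zero]
        using h2
    obtain ⟨g, rfl⟩ := MulAction.exists_smul_eq G a c
    have h1 := key (g • a) (g • b) d (by simpa using hab.symm) hcd.symm
    have h2 : ¬ R (g • a) d := hcon
    have h3 : R (g • a) (g • b) := ⟨g, rfl, rfl⟩
    simp [I, h2, h3] at h1
  have hCU := S0670.result hf hcard U hU
  obtain ⟨v₀, hv₀, hv₀'⟩ := hCU (H7.mem_permConstants.2 ⟨1, fun _ => rfl⟩ :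
    (fun _ => (1 : K)) ∈ C.toSubmodule)
  have hfix : ∀ (g : G), ∀ v ∈ C.toSubmodule, Cfsg.permRep K G Ω g v = v := fun g v hv => by
    obtain ⟨t, ht⟩ := H7.mem_permConstants.1 hv
    funext x; rw [H7.permRep_apply, ht, ht]
  obtain ⟨g, v, hv, hgv⟩ := h
    ⟨S.toSubmodule ⊓ LinearMap.ker φ, fun g v hv => ⟨S.apply_mem_toSubmodule g hv.1, by
      have : φ v = 0 := hv.2
      change φ _ = 0
      rw [hcomm, this, map_zero]⟩⟩
    ⟨S.toSubmodule ⊓ C.toSubmodule.comap φ, fun g v hv => ⟨S.apply_mem_toSubmodule g hv.1, by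
      change φ _ ∈ C.toSubmodule
      rw [hcomm]; exact C.apply_mem_toSubmodule g hv.2⟩⟩
    (fun v hv => by
      obtain ⟨t, ht⟩ := H7.mem_permConstants.1 hv
      refine ⟨H7.mem_permSumZero.2 (by simp [ht, hcard0]), ?_⟩
      change φ v = 0
      funext x; simp [hφ, ht])
    (by
      refine lt_of_le_of_ne (fun v hv => ⟨hv.1, ?_⟩) fun he => ?_
      · have : φ v = 0 := hv.2
        change φ v ∈ C.toSubmodule
        rw [this]; exact zero_mem _
      · have h1 : v₀ ∈ S.toSubmodule ⊓ C.toSubmodule.comap φ := ⟨hv₀, by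
          change φ v₀ ∈ C.toSubmodule
          rw [hv₀']; exact H7.mem_permConstants.2 ⟨1, fun _ => rfl⟩⟩
        have h2 : v₀ ∈ S.toSubmodule ⊓ LinearMap.ker φ := by
          change S.toSubmodule ⊓ LinearMap.ker φ = S.toSubmodule ⊓ C.toSubmodule.comap φ at he
          rw [he]; exact h1
        have h3 : φ v₀ = 0 := h2.2
        rw [hv₀'] at h3
        exact one_ne_zero (congrFun h3 a))
    inf_le_left
  apply hgv
  refine ⟨S.toSubmodule.sub_mem (S.apply_mem_toSubmodule g hv.1) hv.1, ?_⟩
  change φ _ = 0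
  rw [map_sub, hcomm, hfix g _ hv.2, sub_self]

end Cfsg.Agent.S0671
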