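import Cfsg.Statements.S0678
import Mathlib
import Cfsg.Agent.H7.Neu3

set_option autoImplicit false
open Cfsg

namespace Cfsg.Agent.S0678

open Subgroup

/-- A non-solvable transitive permutation group on 7 points that does not contain the alternating group is a simple group of order 168. -/
theorem result {α : Type*} [Fintype α] [DecidableEq α] (hα : Fintype.card α = 7) (G : Subgroup (Equiv.Perm α)) [MulAction.IsPretransitive G α] (hG : ¬ Group.IsSolvable G) (hA : ¬ alternatingGroup α ≤ G) : Nat.card G = 168 ∧ IsSimpleGroup G := by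
  haveI : Fact (Nat.Prime 7) := ⟨by norm_num⟩
  obtain ⟨e, n, h1, h2, h3, h4, h5, h6, h7, -, h8⟩ :=
    H7.prime_degree_data (G := G) (p := 7) (Nat.card_eq_fintype_card.trans hα) hG
  have c7 := G.card_mul_index
  rw [Nat.card_perm, Nat.card_eq_fintype_card (α := α), hα] at c7
  have i2 : 2 < G.index := by
    by_contra a
    exact hA (Equiv.Perm.alternatingGroup_le_of_index_le_two (by omega))
  have ev : IsSimpleGroup G → 2 ∣ G.index := fun _ => by
    haveI : Nontrivial α := Fintype.one_lt_card_iff_nontrivial.1 (by omega)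
    exact alternatingGroup.index_eq_two (α := α) ▸ index_dvd_of_le
      (H7.le_alt_of_simple G ((by norm_num : 2 < 4).trans_le (Nat.le_of_dvd Nat.card_pos h6)))
  have e3 : Even e → 210 ∣ Nat.card G := fun a => by
    have := H7.desc_dvd_card (h8 a) (by rw [Nat.card_eq_fintype_card, hα]; norm_num)
    rwa [Nat.card_eq_fintype_card, hα] at this
  obtain ⟨m, hm⟩ := h5
  unfold Nat.ModEq at h4
  have c8 : m * G.index = 120 := by
    rw [hm] at c7; simp only [Nat.factorial] at c7; nlinarith
  have he := ((by decide +kernel : ∀ e ∈ Nat.divisors 6, e = 1 ∨ e = 2 ∨ e = 3 ∨ e = 6) e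
    (Nat.mem_divisors.2 ⟨h2, by norm_num⟩)).resolve_left h3
  have hd : m ∣ 120 := Dvd.intro _ c8
  have hm' : m ∈ Nat.divisors 120 := Nat.mem_divisors.2 ⟨hd, by norm_num⟩
  have key : ∀ m ∈ Nat.divisors 120, (2 * m % 7 = 1 → m = 4 ∨ m = 60) ∧
      (3 * m % 7 = 1 → 5 ∣ m → m = 5 ∨ m = 40) ∧ (m % 7 = 1 → 5 ∣ m → m = 15 ∨ m = 120) := by decide +kernel
  obtain ⟨k1, k2, k3⟩ := key m hm'
  rcases he with rfl | rfl | rfl
  · have := ev (h7 Nat.prime_two)
    have := e3 (by decide)
    rcases k2 (by omega) (by omega) with rfl | rfl <;> omega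
  · refine ⟨?_, h7 Nat.prime_three⟩
    rcases k1 (by omega) with rfl | rfl <;> omega
  · have := e3 (by decide)
    rcases k3 (by omega) (by omega) with rfl | rfl <;> omega

end Cfsg.Agent.S0678
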