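import Cfsg.Statements.S0680
import Mathlib
import Cfsg.Agent.H7.Sharp

set_option autoImplicit false
open Cfsg

namespace Cfsg.Agent.S0680

/-- A finite sharply doubly transitive permutation group has degree a prime power `p ^ j`; a Sylow `p`-subgroup is normal, elementary abelian and regular, and consists of the identity together with the elements without fixed points. (Frobenius' Theorem is not needed.) -/
theorem result {α : Type*} [Fintype α] [DecidableEq α] (G : Subgroup (Equiv.Perm α)) [MulAction.IsMultiplyPretransitive G α 2] (hsharp : ∀ x : Fin 2 ↪ α, MulAction.stabilizer G x = ⊥) (h2 : 2 ≤ Fintype.card α) : ∃ p j : ℕ, p.Prime ∧ 1 ≤ j ∧ Fintype.card α = p ^ j ∧ ∀ (hp : Fact p.Prime) (P : Sylow p G), (P : Subgroup G).Normal ∧ IsMulCommutative (P : Subgroup G) ∧ (∀ x ∈ (P : Subgroup G), x ^ p = 1) ∧ MulAction.IsPretransitive (P : Subgroup G) α ∧ (∀ a : α, MulAction.stabilizer (P : Subgroup G) a = ⊥) ∧ ∀ g : G, g ∈ (P : Subgroup G) ↔ g = 1 ∨ ∀ a : α, g • a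 ≠ a := by
  haveI : Nontrivial α := Fintype.one_lt_card_iff_nontrivial.1 h2
  have h2t : MulAction.IsMultiplyPretransitive G α 2 := inferInstance
  obtain ⟨K, hK, hm, hKt, hKr⟩ := H7.normal_sharp2_kernel (α := α) (⊤ : Subgroup G)
    (by
      rw [MulAction.is_two_pretransitive_iff]
      intro a b c d hab hcd
      obtain ⟨g, hg⟩ := H7.mt_two h2t hab hcd
      exact ⟨⟨g, trivial⟩, hg⟩)
    (fun a b hab g _ ha hb => H7.sharp_two hsharp hab ha hb)
  obtain ⟨p, j, hp, hj, hc, hcomm, hpow⟩ := S0695.elemAb h2t K hKt hKr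
  refine ⟨p, j, hp, hj, by rw [← hc, Nat.card_eq_fintype_card], fun hp' P => ?_⟩
  obtain ⟨a, b, hab⟩ := exists_pair_ne α
  have hKc : Nat.card K = p ^ j := (H7.card_eq_of_regular (hKr a)).trans hc
  have hKP : IsPGroup p K := IsPGroup.of_card hKc
  haveI : MulAction.IsPretransitive G α :=
    MulAction.is_one_pretransitive_iff.1 (H7.mt_le h2t Finite.one_lt_card (by norm_num))
  have hle : K ≤ P := hKP.le_sylow_of_normal P
  have hPK : (P : Subgroup G) = K := by
    refine le_antisymm (fun g hg => ?_) hle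
    refine (hm g).2 ⟨trivial, ?_⟩
    by_contra hcon
    push Not at hcon
    obtain ⟨hg1, x, hx⟩ := hcon
    obtain ⟨y, hy⟩ := exists_ne x
    have h1 := orderOf_dvd_natCard (⟨g, hx⟩ : MulAction.stabilizer G x)
    rw [← Subgroup.orderOf_coe, H7.sharp2_card_stabilizer h2t
      (fun a b hab g ha hb => H7.sharp_two hsharp hab ha hb) hy.symm, hc] at h1
    obtain ⟨k, hk⟩ := (IsPGroup.iff_orderOf.1 P.2) ⟨g, hg⟩
    rw [← Subgroup.orderOf_coe] at hk
    change orderOf g = _ at hk
    change orderOf g ∣ _ at h1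
    have hk0 : k ≠ 0 := by
      rintro rfl
      exact hg1 (orderOf_eq_one_iff.1 hk)
    have h3 : p ∣ p ^ j - 1 := (hk ▸ dvd_pow_self p hk0).trans h1
    exact hp.not_dvd_one ((Nat.dvd_sub_iff_right (Nat.one_le_pow _ _ hp.pos)
      (dvd_pow_self p (by omega))).1 h3)
  rw [hPK]
  exact ⟨hK, ⟨⟨fun x y => Subtype.ext (hcomm x x.2 y y.2)⟩⟩, hpow, hKt, hKr, fun g => by
    simp [hm]⟩

end Cfsg.Agent.S0680
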