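import Cfsg.Statements.S0681
import Mathlib

set_option autoImplicit false
open Cfsg

namespace Cfsg.Agent.S0681

open Cfsg.NearField in
theorem zero_mul' {F : Type*} [Cfsg.NearField F] (a : F) : 0 * a = 0 := by
  have := NearField.right_distrib (0 : F) 0 a
  rw [add_zero] at this
  exact left_eq_add.1 this

theorem sub_mul' {F : Type*} [Cfsg.NearField F] (a b c : F) : (a - b) * c = a * c - b * c := by
  rw [eq_sub_iff_add_eq, ← NearField.right_distrib, sub_add_cancel]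

theorem mul_ne_zero' {F : Type*} [Cfsg.NearField F] {a b : F} (ha : a ≠ 0) (hb : b ≠ 0) : a * b ≠ 0 := by
  intro h
  obtain ⟨c, hc, -⟩ := NearField.exists_inv b hb
  apply ha
  rw [← mul_one a, ← hc, ← mul_assoc, h, zero_mul']

theorem exists_perm {F : Type*} [Cfsg.NearField F] {a : F} (ha : a ≠ 0) (b : F) :
    ∃ σ : Equiv.Perm F, ∀ x, σ x = x * a + b := by
  obtain ⟨c, hc, hc'⟩ := NearField.exists_inv a ha
  exact ⟨⟨fun x => x * a + b, fun y => (y - b) * c, fun x => by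
    simp [mul_assoc, hc], fun y => by simp [mul_assoc, hc']⟩, fun _ => rfl⟩

/-- The affine maps `x ↦ x * a + b`, `a ≠ 0`, of a near-field form a sharply doubly transitive permutation group. -/
theorem result {F : Type*} [Cfsg.NearField F] : ∃ H : Subgroup (Equiv.Perm F), (∀ σ : Equiv.Perm F, σ ∈ H ↔ ∃ a b : F, a ≠ 0 ∧ ∀ x : F, σ x = x * a + b) ∧ MulAction.IsMultiplyPretransitive H F 2 ∧ ∀ x : Fin 2 ↪ F, MulAction.stabilizer H x = ⊥ := by
  refine ⟨⟨⟨⟨{σ | ∃ a b : F, a ≠ 0 ∧ ∀ x : F, σ x = x * a + b}, ?_⟩, ?_⟩, ?_⟩, fun _ => Iff.rfl, ?_, ?_⟩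
  · rintro σ τ ⟨a, b, ha, h⟩ ⟨c, d, hc, h'⟩
    refine ⟨c * a, d * a + b, mul_ne_zero' hc ha, fun x => ?_⟩
    rw [Equiv.Perm.mul_apply, h, h', NearField.right_distrib, mul_assoc, add_assoc]
  · exact ⟨1, 0, NearField.zero_ne_one.symm, fun x => by simp⟩
  · rintro σ ⟨a, b, ha, h⟩
    obtain ⟨c, hc, hc'⟩ := NearField.exists_inv a ha
    refine ⟨c, (-b) * c, fun h0 => ?_, fun x => ?_⟩
    · rw [h0, zero_mul'] at hc'; exact NearField.zero_ne_one hc'
    · rw [Equiv.Perm.inv_eq_iff_eq, h, ← NearField.right_distrib, mul_assoc, hc']; simp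
  · rw [MulAction.is_two_pretransitive_iff]
    intro x y z w hxy hzw
    obtain ⟨c, hc, hc'⟩ := NearField.exists_inv (x - y) (sub_ne_zero.2 hxy)
    have hc0 : c ≠ 0 := fun h0 => by rw [h0, zero_mul'] at hc'; exact NearField.zero_ne_one hc'
    have ha := mul_ne_zero' hc0 (sub_ne_zero.2 hzw)
    obtain ⟨σ, hσ⟩ := exists_perm ha (-(y * (c * (z - w))) + w)
    refine ⟨⟨σ, _, _, ha, hσ⟩, ?_, ?_⟩
    · change σ x = z
      rw [hσ, ← add_assoc, ← sub_eq_add_neg, ← sub_mul', ← mul_assoc, hc]; simp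
    · change σ y = w
      rw [hσ]; simp
  · intro x
    rw [eq_bot_iff]
    rintro ⟨σ, a, b, ha, h⟩ hσ
    rw [Subgroup.mem_bot]
    have h0 : σ (x 0) = x 0 := congrArg (fun e : Fin 2 ↪ F => e 0) hσ
    have h1 : σ (x 1) = x 1 := congrArg (fun e : Fin 2 ↪ F => e 1) hσ
    have hne : x 0 - x 1 ≠ 0 := sub_ne_zero.2 (x.injective.ne (by decide))
    obtain ⟨c, hc, hc'⟩ := NearField.exists_inv _ hne
    have h2 : (x 0 - x 1) * a = x 0 - x 1 := by
      rw [sub_mul']; nth_rewrite 2 [← h0, ← h1]; rw [h, h, add_sub_add_right_eq_sub]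
    have h3 : a = 1 := by rw [← one_mul a, ← hc', mul_assoc, h2]
    rw [h, h3, mul_one] at h0
    have h4 : b = 0 := add_eq_left.1 h0
    ext y
    change σ y = y
    rw [h, h3, h4]; simp

end Cfsg.Agent.S0681
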