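import Cfsg.Statements.S0682
import Mathlib
import Cfsg.Agent.H7.MultiTrans
import Cfsg.Agent.S0681

set_option autoImplicit false
open Cfsg

namespace Cfsg.Agent.S0682

/-- A finite near-field has prime-power order; its additive group is commutative of prime exponent. -/
theorem result {F : Type*} [Cfsg.NearField F] [Finite F] : ∃ p j : ℕ, p.Prime ∧ 1 ≤ j ∧ Nat.card F = p ^ j ∧ (∀ x y : F, x + y = y + x) ∧ ∀ x : F, p • x = 0 := by
  haveI : Nontrivial F := ⟨⟨0, 1, NearField.zero_ne_one⟩⟩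
  have := H7.elemAb_of_aut_transitive (N := Multiplicative F) (fun x y hx hy => by
    obtain ⟨c, hc, hc'⟩ := NearField.exists_inv (x.toAdd) hx
    have hc0 : c ≠ 0 := fun h0 => by rw [h0, S0681.zero_mul'] at hc'; exact NearField.zero_ne_one hc'
    have ha := S0681.mul_ne_zero' hc0 (show y.toAdd ≠ 0 from hy)
    obtain ⟨σ, hσ⟩ := S0681.exists_perm ha 0
    refine ⟨AddEquiv.toMultiplicative ⟨σ, fun u v => ?_⟩, ?_⟩
    · change σ (u + v) = σ u + σ v
      simp only [hσ, add_zero, NearField.right_distrib]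
    · change σ x.toAdd = y.toAdd
      rw [hσ, ← mul_assoc, hc]; simp)
  obtain ⟨p, j, hp, hj, hc, h1, h2⟩ := this
  exact ⟨p, j, hp, hj, hc, h1, h2⟩

end Cfsg.Agent.S0682
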