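import Cfsg.Statements.S0683
import Mathlib
import Cfsg.Agent.H7.Sharp

set_option autoImplicit false
open Cfsg

namespace Cfsg.Agent.S0683

/-- A finite sharply doubly transitive permutation group is the affine group of a near-field: the permuted set carries a near-field structure for which the group consists exactly of the maps `x ↦ x * a + b` with `a ≠ 0`. -/
theorem result {α : Type*} [Fintype α] [DecidableEq α] (H : Subgroup (Equiv.Perm α)) [MulAction.IsMultiplyPretransitive H α 2] (hsharp : ∀ x : Fin 2 ↪ α, MulAction.stabilizer H x = ⊥) (h2 : 2 ≤ Fintype.card α) : ∃ _ : Cfsg.NearField α, ∀ σ : Equiv.Perm α, σ ∈ H ↔ ∃ a b : α, a ≠ 0 ∧ ∀ x : α, σ x = x * a + b := by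
  haveI : Nontrivial α := Fintype.one_lt_card_iff_nontrivial.1 h2
  have h2t : MulAction.IsMultiplyPretransitive H α 2 := inferInstance
  obtain ⟨K, hK, hm, hKt, hKr⟩ := H7.normal_sharp2_kernel (α := α) (⊤ : Subgroup H)
    (by
      rw [MulAction.is_two_pretransitive_iff]
      intro a b c d hab hcd
      obtain ⟨g, hg⟩ := H7.mt_two h2t hab hcd
      exact ⟨⟨g, trivial⟩, hg⟩)
    (fun a b hab g _ ha hb => H7.sharp_two hsharp hab ha hb)
  obtain ⟨p, j, hp, hj, hc, hcomm, hpow⟩ := S0695.elemAb h2t K hKt hKr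
  obtain ⟨z, o, hzo⟩ := exists_pair_ne α
  obtain ⟨s1, s2⟩ := S0695.setup K hKr z
  have e1 : ∀ b : α, ∃ k : H, k ∈ K ∧ k • z = b := fun b => by
    obtain ⟨k, hk⟩ := hKt.exists_smul_eq z b
    exact ⟨k, k.2, hk⟩
  choose t ht htz using e1
  have e2 : ∀ a : α, ∃ h : H, a ≠ z → h • z = z ∧ h • o = a := fun a => by
    by_cases ha : a = z
    · exact ⟨1, fun h => absurd ha h⟩
    · obtain ⟨g, hg⟩ := H7.mt_two h2t hzo (Ne.symm ha)
      exact ⟨g, fun _ => hg⟩
  choose m hmz using e2
  have tu : ∀ k ∈ K, t (k • z) = k := fun k hk => s1 _ (ht _) _ hk (htz _)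
  have mu : ∀ h : H, h • z = z → m (h • o) = h := fun h hh => by
    have hne : h • o ≠ z := fun e => hzo ((smul_left_cancel_iff h).1 (hh.trans e.symm))
    have := H7.sharp_two hsharp hzo (g := h⁻¹ * m (h • o))
      (by rw [mul_smul, (hmz _ hne).1, inv_smul_eq_iff, hh])
      (by rw [mul_smul, (hmz _ hne).2, inv_smul_smul])
    exact (inv_mul_eq_one.1 this).symm
  have tadd : ∀ a b, t (t b • a) = t b * t a := fun a b => by
    conv_lhs => rw [← htz a, ← mul_smul]
    exact tu _ (K.mul_mem (ht b) (ht a))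
  have tz : t z = 1 := by simpa using tu 1 K.one_mem
  have mo : m o = 1 := by simpa using mu 1 (one_smul _ _)
  letI : Add α := ⟨fun a b => t b • a⟩
  letI : Zero α := ⟨z⟩
  letI : Neg α := ⟨fun a => (t a)⁻¹ • z⟩
  letI : One α := ⟨o⟩
  letI : Mul α := ⟨fun x a => if a = z then z else m a • x⟩
  have hadd : ∀ a b : α, a + b = t b • a := fun _ _ => rfl
  have hmul : ∀ x a : α, a ≠ z → x * a = m a • x := fun x a h => if_neg h
  have hmul0 : ∀ x : α, x * z = z := fun x => if_pos rfl
  have h0mul : ∀ x : α, z * x = z := fun x => by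
    by_cases h : x = z
    · rw [h, hmul0]
    · rw [hmul _ _ h, (hmz x h).1]
  have mm : ∀ a b : α, a ≠ z → b ≠ z → m b • a ≠ z ∧ m (m b • a) = m b * m a := fun a b ha hb => by
    refine ⟨fun e => ha ((smul_left_cancel_iff (m b)).1 (e.trans (hmz b hb).1.symm)), ?_⟩
    conv_lhs => rw [← (hmz a ha).2, ← mul_smul]
    exact mu _ (by rw [mul_smul, (hmz a ha).1, (hmz b hb).1])
  letI ag : AddGroup α := AddGroup.ofLeftAxioms
    (fun a b c => by rw [hadd, hadd, hadd, hadd, tadd, mul_smul])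
    (fun a => htz a)
    (fun a => smul_inv_smul (t a) z)
  letI mn : Monoid α :=
    { mul_assoc := fun x a b => by
        by_cases hb : b = z
        · rw [hb, hmul0, hmul0, hmul0]
        by_cases ha : a = z
        · rw [ha, hmul0, h0mul, hmul0]
        rw [hmul _ _ hb, hmul _ _ ha, hmul _ _ hb, hmul _ _ (mm a b ha hb).1, (mm a b ha hb).2,
          mul_smul]
      one_mul := fun a => by
        by_cases ha : a = z
        · rw [ha, hmul0]
        · rw [hmul _ _ ha]; exact (hmz a ha).2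
      mul_one := fun a => by
        change a * o = a
        rw [hmul _ _ hzo.symm, mo, one_smul] }
  refine ⟨{ ag, mn with
    right_distrib := fun a b c => ?_
    mul_zero := hmul0
    zero_ne_one := hzo
    exists_inv := fun a ha => ?_ }, fun σ => ⟨fun hσ => ?_, ?_⟩⟩
  · by_cases hc : c = z
    · rw [hc, hmul0, hmul0, hmul0, hadd, tz, one_smul]
    rw [hmul _ _ hc, hmul _ _ hc, hmul _ _ hc, hadd, hadd]
    have : t (m c • b) = m c * t b * (m c)⁻¹ := by
      conv_lhs => rw [← htz b, s2 _ (hmz c hc).1]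
      exact tu _ (hK.conj_mem _ (ht b) _)
    rw [this]; simp [mul_smul]
  · have hz : (m a)⁻¹ • z = z := by rw [inv_smul_eq_iff, (hmz a ha).1]
    have hne : (m a)⁻¹ • o ≠ z := fun e => hzo ((smul_left_cancel_iff _).1 (hz.trans e.symm))
    refine ⟨(m a)⁻¹ • o, ?_, ?_⟩
    · rw [hmul _ _ hne, mu _ hz, inv_smul_eq_iff]; exact (hmz a ha).2.symm
    · rw [hmul _ _ ha, smul_inv_smul]; rfl
  · let g : H := ⟨σ, hσ⟩
    have hz : ((t (g • z))⁻¹ * g) • z = z := by rw [mul_smul, inv_smul_eq_iff, htz]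
    have hne : ((t (g • z))⁻¹ * g) • o ≠ z :=
      fun e => hzo ((smul_left_cancel_iff _).1 (hz.trans e.symm))
    refine ⟨((t (g • z))⁻¹ * g) • o, g • z, hne, fun x => ?_⟩
    change σ x = t (g • z) • (x * _)
    rw [hmul _ _ hne, mu _ hz, mul_smul, smul_inv_smul]; rfl
  · rintro ⟨a, b, ha, h⟩
    have : σ = (t b * m a : H) := by
      ext x
      rw [h]
      change t b • (x * a) = (t b * m a) • x
      rw [hmul _ _ ha, mul_smul]
    rw [this]; exact (t b * m a).2

end Cfsg.Agent.S0683
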