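import Cfsg.Statements.S0684
import Cfsg.Agent.GS.Nf2

set_option autoImplicit false
open Cfsg

namespace Cfsg.Agent.S0684

open Cfsg.Agent.H1

/-- Point stabiliser of a sharply doubly transitive group not of semilinear type: a maximal normal abelian subgroup `A` of a linear group `H` that is regular on non-zero vectors and has no irreducible cyclic normal subgroup is cyclic and reducible, and the order of `A` divides `p ^ k - 1` for `k` the dimension of a minimal `A`-invariant subspace. -/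
theorem result {p : ℕ} [Fact p.Prime] {V : Type*} [AddCommGroup V] [Module (ZMod p) V] [Finite V] (H : Subgroup (V ≃ₗ[ZMod p] V)) (hreg : ∀ v w : V, v ≠ 0 → w ≠ 0 → ∃! h : H, (h : V ≃ₗ[ZMod p] V) v = w) (hI : ∀ A : Subgroup H, A.Normal → IsCyclic A → ∃ W : Submodule (ZMod p) V, W ≠ ⊥ ∧ W ≠ ⊤ ∧ ∀ a ∈ A, ∀ v ∈ W, ((a : H) : V ≃ₗ[ZMod p] V) v ∈ W) (A : Subgroup H) (hAn : A.Normal) (hAc : IsMulCommutative A) (hAmax : ∀ B : Subgroup H, B.Normal → IsMulCommutative B → A ≤ B → B = A) : IsCyclic A ∧ ∃ W : Submodule (ZMod p) V, W ≠ ⊥ ∧ W ≠ ⊤ ∧ (∀ a ∈ A, ∀ v ∈ W, ((a : H) : V ≃ₗ[ZMod p] V) v ∈ W) ∧ (∀ W' : Submodule (ZMod p) V, W' ≤ W → (∀ a ∈ A, ∀ v ∈ W', ((a : H) : V ≃ₗ[ZMod p] V) v ∈ W') → W' = ⊥ ∨ W' = W) ∧ Nat.card A ∣ p ^ Module.finrank (ZMod p) W - 1 := by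
  open Subgroup Pointwise commutatorElement Cfsg.Agent.BG Cfsg.Agent.GS in
  open Cfsg.Agent.H2 hiding card_lt_of_lt card_lt_of_ne_top isMulCommutative_of_le isPGroup_zpowers_iff mem_of_pow_mem_of_coprime inf_eq_bot_of_cop exists_maxElem_ge Sec in
  open Cfsg.Agent.H8 (Op Opp Fit SN) in
  open Cfsg.Agent.L (FPF) in focus
    haveI := finite_linearEquiv (p := p) (V := V)
    obtain ⟨W₀, w1, w2, w3⟩ : ∃ W : Submodule (ZMod p) V, W ≠ ⊥ ∧ W ≠ ⊤ ∧ ∀ a ∈ (⊥ : Subgroup H), ∀ v ∈ W, ((a : H) : V ≃ₗ[ZMod p] V) v ∈ W :=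
      hI ⊥ inferInstance inferInstance
    haveI : Nontrivial V := (Submodule.nontrivial_iff (ZMod p)).1 ⟨⟨_, _, w1⟩⟩
    have h := reg_of_unique H hreg
    have hc := h.fc.cyc_of_comm hAc
    obtain ⟨W₁, u1, u2, u3⟩ := hI A hAn hc
    obtain ⟨W, ⟨a1, a2, a3⟩, hm⟩ := (wellFounded_lt (α := Submodule (ZMod p) V)).has_min
      {W | W ≠ ⊥ ∧ W ≤ W₁ ∧ ∀ a ∈ A, ∀ v ∈ W, ((a : H) : V ≃ₗ[ZMod p] V) v ∈ W} ⟨W₁, u1, le_rfl, u3⟩
    refine ⟨hc, W, a1, fun e => u2 (top_le_iff.1 (e ▸ a2)), a3, fun W' b1 b2 => or_iff_not_imp_left.2 fun b3 => ?_, ?_⟩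
    · by_contra hne
      exact hm W' ⟨b3, b1.trans a2, b2⟩ (lt_of_le_of_ne b1 hne)
    letI : MulAction A {v : W // v ≠ 0} :=
      { smul := fun a v => ⟨⟨a.1.1 v.1, a3 _ a.2 _ v.1.2⟩, fun e => v.2 (Subtype.ext (by simpa using congrArg Subtype.val e))⟩
        one_smul := fun v => rfl
        mul_smul := fun a b v => rfl }
    classical
    haveI := Fintype.ofFinite W
    have h1 : Nat.card {v : W // v ≠ 0} = p ^ Module.finrank (ZMod p) W - 1 := by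
      have := Module.natCard_eq_pow_finrank (K := ZMod p) (V := W)
      rw [Nat.card_zmod] at this
      rw [← this]
      simp [Nat.card_eq_fintype_card, Fintype.card_subtype_compl]
    rw [← h1, Nat.card_congr (MulAction.selfEquivOrbitsQuotientProd (G := A) (X := {v : W // v ≠ 0}) fun v => eq_bot_iff.2 fun a ha =>
      Subtype.ext (h.fix v.1.1 (fun e => v.2 (Subtype.ext e)) _ (congrArg (·.1.1) ha))), Nat.card_prod]
    exact dvd_mul_left _ _

end Cfsg.Agent.S0684
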