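import Cfsg.Statements.S0685
import Cfsg.Agent.GS.Nf2

set_option autoImplicit false
open Cfsg

namespace Cfsg.Agent.S0685

open Cfsg.Agent.H1

/-- In a linear group over the prime field that is regular on non-zero vectors and has no irreducible cyclic normal subgroup, a maximal normal abelian subgroup is properly contained in its centraliser, which is non-abelian. -/
theorem result {p : ℕ} [Fact p.Prime] {V : Type*} [AddCommGroup V] [Module (ZMod p) V] [Finite V] (H : Subgroup (V ≃ₗ[ZMod p] V)) (hreg : ∀ v w : V, v ≠ 0 → w ≠ 0 → ∃! h : H, (h : V ≃ₗ[ZMod p] V) v = w) (hI : ∀ A : Subgroup H, A.Normal → IsCyclic A → ∃ W : Submodule (ZMod p) V, W ≠ ⊥ ∧ W ≠ ⊤ ∧ ∀ a ∈ A, ∀ v ∈ W, ((a : H) : V ≃ₗ[ZMod p] V) v ∈ W) (A : Subgroup H) (hAn : A.Normal) (hAc : IsMulCommutative A) (hAmax : ∀ B : Subgroup H, B.Normal → IsMulCommutative B → A ≤ B → B = A) : A < Subgroup.centralizer (A : Set H) ∧ ¬ IsMulCommutative (Subgroup.centralizer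 (A : Set H)) := by
  open Subgroup Pointwise commutatorElement Cfsg.Agent.BG Cfsg.Agent.GS in
  open Cfsg.Agent.H2 hiding card_lt_of_lt card_lt_of_ne_top isMulCommutative_of_le isPGroup_zpowers_iff mem_of_pow_mem_of_coprime inf_eq_bot_of_cop exists_maxElem_ge Sec in
  open Cfsg.Agent.H8 (Op Opp Fit SN) in
  open Cfsg.Agent.L (FPF) in focus
    haveI := finite_linearEquiv (p := p) (V := V)
    obtain ⟨W₀, w1, w2, w3⟩ : ∃ W : Submodule (ZMod p) V, W ≠ ⊥ ∧ W ≠ ⊤ ∧ ∀ a ∈ (⊥ : Subgroup H), ∀ v ∈ W, ((a : H) : V ≃ₗ[ZMod p] V) v ∈ W :=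
      hI ⊥ inferInstance inferInstance
    haveI : Nontrivial V := (Submodule.nontrivial_iff (ZMod p)).1 ⟨⟨_, _, w1⟩⟩
    have h := reg_of_unique H hreg
    obtain ⟨W₁, u1, u2, u3⟩ := hI A hAn (h.fc.cyc_of_comm hAc)
    exact h.lt_cent ⟨hAn, hAc, hAmax⟩ fun hi => (hi W₁ u3).elim u1 u2

end Cfsg.Agent.S0685
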