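import Cfsg.Statements.S0687
import Cfsg.Agent.GS.Nf2
import Cfsg.Agent.H8.Im2

set_option autoImplicit false
open Cfsg

namespace Cfsg.Agent.S0687

open Cfsg.Agent.H1

/-- In a linear group over the prime field that is regular on non-zero vectors and has no irreducible cyclic normal subgroup, a normal subgroup `N` minimal among the non-abelian normal subgroups centralising a maximal normal abelian subgroup `A` is irreducible on `V`, and its centraliser is `A`. -/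
theorem result {p : ℕ} [Fact p.Prime] {V : Type*} [AddCommGroup V] [Module (ZMod p) V] [Finite V] (H : Subgroup (V ≃ₗ[ZMod p] V)) (hreg : ∀ v w : V, v ≠ 0 → w ≠ 0 → ∃! h : H, (h : V ≃ₗ[ZMod p] V) v = w) (hI : ∀ A : Subgroup H, A.Normal → IsCyclic A → ∃ W : Submodule (ZMod p) V, W ≠ ⊥ ∧ W ≠ ⊤ ∧ ∀ a ∈ A, ∀ v ∈ W, ((a : H) : V ≃ₗ[ZMod p] V) v ∈ W) (A : Subgroup H) (hAn : A.Normal) (hAc : IsMulCommutative A) (hAmax : ∀ B : Subgroup H, B.Normal → IsMulCommutative B → A ≤ B → B = A) (N : Subgroup H) (hNn : N.Normal) (hNle : N ≤ Subgroup.centralizer (A : Set H)) (hNna : ¬ IsMulCommutative N) (hNmin : ∀ M : Subgroup H, M.Normal → M ≤ N → ¬ IsMulCommutative M → M = N) : (∀ W : Submodule (ZMod p) V, (∀ n ∈ N, ∀ v ∈ W, ((n : H) : V ≃ₗ[ZMod p] V) v ∈ W) → W = ⊥ ∨ W = ⊤) ∧ Subgroup.centralizer (N : Set H) = A := by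
  open Subgroup Pointwise commutatorElement Cfsg.Agent.BG Cfsg.Agent.GS in
  open Cfsg.Agent.H2 hiding card_lt_of_lt card_lt_of_ne_top isMulCommutative_of_le isPGroup_zpowers_iff mem_of_pow_mem_of_coprime inf_eq_bot_of_cop exists_maxElem_ge Sec in
  open Cfsg.Agent.H8 (Op Opp Fit SN) in
  open Cfsg.Agent.L (FPF) in focus
    haveI := finite_linearEquiv (p := p) (V := V)
    obtain ⟨W₀, w1, w2, w3⟩ : ∃ W : Submodule (ZMod p) V, W ≠ ⊥ ∧ W ≠ ⊤ ∧ ∀ a ∈ (⊥ : Subgroup H), ∀ v ∈ W, ((a : H) : V ≃ₗ[ZMod p] V) v ∈ W :=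
      hI ⊥ inferInstance inferInstance
    haveI : Nontrivial V := (Submodule.nontrivial_iff (ZMod p)).1 ⟨⟨_, _, w1⟩⟩
    have h := reg_of_unique H hreg
    obtain ⟨W₁, u1, u2, u3⟩ := hI A hAn (h.fc.cyc_of_comm hAc)
    have hi : ¬ Irr H.subtype A := fun hi => (hi W₁ u3).elim u1 u2
    have hA : MaxAb A := ⟨hAn, hAc, hAmax⟩
    rcases h.fc.minNA hA ⟨hNn, hNle, hNna, hNmin⟩ with ⟨⟨e⟩⟩ | ⟨⟨e⟩⟩
    · obtain ⟨-, -, -, -, a, b, -⟩ := h.q8 hA hi hNle e
      exact ⟨b, a⟩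
    · have hp := perfect_of_SL25 e
      have hs : ¬ Group.IsSolvable N := fun hs => hNna (by rw [H8.perfect_eq_bot_of_solvable hp hs]; infer_instance)
      obtain ⟨K, M, z, s⟩ := h.fc.exists_zasNS fun hG => hs inferInstance
      obtain ⟨-, a, b, c, -⟩ := h.sl25 hA hi s
      haveI := s.nK
      haveI := h.fc.zgroup_of_odd (X := M) (s.cop.coprime_dvd_right (by decide))
      have h1 : N ≤ K := H8.le_of_perfect_of_solvable (S := M) hp inferInstance le_normalizer_of_normal (c ▸ le_top)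
      obtain rfl : N = K := eq_of_le_of_card_ge h1 (by rw [s.card, Nat.card_congr e.toEquiv, card_SL25])
      exact ⟨b, a⟩

end Cfsg.Agent.S0687
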