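import Cfsg.Statements.S0688
import Cfsg.Agent.GS.Nf2

set_option autoImplicit false
open Cfsg

namespace Cfsg.Agent.S0688

open Cfsg.Agent.H1

/-- Degrees of the soluble exceptional sharply doubly transitive groups: if a solvable linear group over the prime field is regular on the non-zero vectors of `V` and has no irreducible cyclic normal subgroup, then `V` has 25, 49, 121 or 529 elements. -/
theorem result {p : ℕ} [Fact p.Prime] {V : Type*} [AddCommGroup V] [Module (ZMod p) V] [Finite V] (H : Subgroup (V ≃ₗ[ZMod p] V)) (hreg : ∀ v w : V, v ≠ 0 → w ≠ 0 → ∃! h : H, (h : V ≃ₗ[ZMod p] V) v = w) (hI : ∀ A : Subgroup H, A.Normal → IsCyclic A → ∃ W : Submodule (ZMod p) V, W ≠ ⊥ ∧ W ≠ ⊤ ∧ ∀ a ∈ A, ∀ v ∈ W, ((a : H) : V ≃ₗ[ZMod p] V) v ∈ W) (hsolv : Group.IsSolvable H) : Nat.card V = 25 ∨ Nat.card V = 49 ∨ Nat.card V = 121 ∨ Nat.card V = 529 := by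
  open Subgroup Pointwise commutatorElement Cfsg.Agent.BG Cfsg.Agent.GS in
  open Cfsg.Agent.H2 hiding card_lt_of_lt card_lt_of_ne_top isMulCommutative_of_le isPGroup_zpowers_iff mem_of_pow_mem_of_coprime inf_eq_bot_of_cop exists_maxElem_ge Sec in
  open Cfsg.Agent.H8 (Op Opp Fit SN) in
  open Cfsg.Agent.L (FPF) in focus
    haveI := finite_linearEquiv (p := p) (V := V)
    obtain ⟨W₀, w1, w2, w3⟩ : ∃ W : Submodule (ZMod p) V, W ≠ ⊥ ∧ W ≠ ⊤ ∧ ∀ a ∈ (⊥ : Subgroup H), ∀ v ∈ W, ((a : H) : V ≃ₗ[ZMod p] V) v ∈ W :=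
      hI ⊥ inferInstance inferInstance
    haveI : Nontrivial V := (Submodule.nontrivial_iff (ZMod p)).1 ⟨⟨_, _, w1⟩⟩
    have h := reg_of_unique H hreg
    obtain ⟨A, hA⟩ := exists_maxAb H
    obtain ⟨W₁, u1, u2, u3⟩ := hI A hA.nrm (h.fc.cyc_of_comm hA.comm)
    have hi : ¬ Irr H.subtype A := fun hi => (hi W₁ u3).elim u1 u2
    haveI := hA.nrm
    obtain ⟨N, -, hN⟩ := exists_minNA le_rfl (h.lt_cent hA hi).2
    haveI := hN.nrm
    rcases h.fc.minNA hA hN with ⟨⟨e⟩⟩ | ⟨⟨e⟩⟩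
    · obtain ⟨a, b, -⟩ := h.q8 hA hi hN.le e
      rcases a with rfl | rfl | rfl | rfl <;> simp [b]
    · exact absurd (by rw [H8.perfect_eq_bot_of_solvable (perfect_of_SL25 e) inferInstance]; infer_instance) hN.ncomm

end Cfsg.Agent.S0688
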