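import Cfsg.Statements.S0689
import Cfsg.Agent.GS.Nf2

set_option autoImplicit false
open Cfsg

namespace Cfsg.Agent.S0689

open Cfsg.Agent.H1

/-- The insoluble sharply doubly transitive groups: a non-solvable linear group over the prime field that is regular on the non-zero vectors of `V` occurs only for `|V| = 11², 29², 59²`, and is `SL(2,5) × C_m` with `m = 1, 7, 29` respectively. -/
theorem result {p : ℕ} [Fact p.Prime] {V : Type*} [AddCommGroup V] [Module (ZMod p) V] [Finite V] (H : Subgroup (V ≃ₗ[ZMod p] V)) (hreg : ∀ v w : V, v ≠ 0 → w ≠ 0 → ∃! h : H, (h : V ≃ₗ[ZMod p] V) v = w) (hsolv : ¬ Group.IsSolvable H) : (Nat.card V = 121 ∧ Nonempty (H ≃* Matrix.SpecialLinearGroup (Fin 2) (ZMod 5))) ∨ (Nat.card V = 841 ∧ Nonempty (H ≃* Matrix.SpecialLinearGroup (Fin 2) (ZMod 5) × Multiplicative (ZMod 7))) ∨ (Nat.card V = 3481 ∧ Nonempty (H ≃* Matrix.SpecialLinearGroup (Fin 2) (ZMod 5) × Multiplicative (ZMod 29))) := by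
  open Subgroup Pointwise commutatorElement Cfsg.Agent.BG Cfsg.Agent.GS in
  open Cfsg.Agent.H2 hiding card_lt_of_lt card_lt_of_ne_top isMulCommutative_of_le isPGroup_zpowers_iff mem_of_pow_mem_of_coprime inf_eq_bot_of_cop exists_maxElem_ge Sec in
  open Cfsg.Agent.H8 (Op Opp Fit SN) in
  open Cfsg.Agent.L (FPF) in focus
    haveI := finite_linearEquiv (p := p) (V := V)
    haveI : Nontrivial V := by
      by_contra hn
      haveI := not_nontrivial_iff_subsingleton.1 hn
      haveI : Subsingleton H := ⟨fun a b => Subtype.ext (LinearEquiv.ext fun v => Subsingleton.elim _ _)⟩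
      exact hsolv inferInstance
    have h := reg_of_unique H hreg
    obtain ⟨A, hA⟩ := exists_maxAb H
    haveI := hA.nrm
    have hi : ¬ Irr H.subtype A := fun hi => by
      obtain ⟨k, m, -, -, -, -, -, e1, e2⟩ := exists_nums h.inj h.tr hA.comm
      obtain ⟨-, a, b⟩ := e2 (e1.2 hi)
      exact hsolv (isSolvable_of_normal_of_quotient _ (isSolvable_of_isMulCommutative a) (isSolvable_of_isCyclic b))
    obtain ⟨K, M, z, s⟩ := h.fc.exists_zasNS hsolv
    obtain ⟨a, -, -, c, d⟩ := h.sl25 hA hi s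
    obtain ⟨e⟩ := s.equiv
    obtain ⟨e'⟩ := nonempty_prod_equiv c (disjoint_iff.1 (disjoint_of_coprime_natCard (by
        rw [s.card]
        exact (Nat.Coprime.coprime_dvd_right (show 120 ∣ 30 ^ 3 by decide) (s.cop.pow_right 3)).symm))) (s.cent ▸ le_sup_left)
    haveI : Fact (Nat.Prime 7) := ⟨by decide⟩
    haveI : Fact (Nat.Prime 29) := ⟨by decide⟩
    rcases d with ⟨rfl, d⟩ | ⟨rfl, d⟩ | ⟨rfl, d⟩
    · rw [card_eq_one.1 d, sup_bot_eq] at c
      exact Or.inl ⟨a, ⟨(topEquiv.symm.trans (MulEquiv.subgroupCongr c.symm)).trans e⟩⟩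
    · exact Or.inr (Or.inl ⟨a, ⟨e'.trans (e.prodCongr (mulEquivOfPrimeCardEq d (by simp)))⟩⟩)
    · exact Or.inr (Or.inr ⟨a, ⟨e'.trans (e.prodCongr (mulEquivOfPrimeCardEq d (by simp)))⟩⟩)

end Cfsg.Agent.S0689
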