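import Cfsg.Statements.S0690
import Cfsg.Agent.GS.Zas4
import Cfsg.Agent.H8.Im2

set_option autoImplicit false
open Cfsg

namespace Cfsg.Agent.S0690

open Cfsg.Agent.H1

/-- Zassenhaus: a perfect non-trivial group of fixed-point-free automorphisms of a finite group is isomorphic to `SL(2,5)`. -/
theorem result {K : Type*} [Group K] [Finite K] (G : Subgroup (MulAut K)) (hfpf : ∀ φ ∈ G, φ ≠ 1 → ∀ k : K, φ k = k → k = 1) (hperf : commutator G = ⊤) (hne : G ≠ ⊥) : Nonempty (G ≃* Matrix.SpecialLinearGroup (Fin 2) (ZMod 5)) := by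
  open Subgroup Pointwise commutatorElement Cfsg.Agent.BG Cfsg.Agent.GS in
  open Cfsg.Agent.H2 hiding card_lt_of_lt card_lt_of_ne_top isMulCommutative_of_le isPGroup_zpowers_iff mem_of_pow_mem_of_coprime inf_eq_bot_of_cop exists_maxElem_ge Sec in
  open Cfsg.Agent.H8 (Op Opp Fit SN) in
  open Cfsg.Agent.L (FPF) in focus
    haveI : Nontrivial K := by
      by_contra h
      haveI := not_nontrivial_iff_subsingleton.1 h
      exact hne (eq_bot_iff.2 fun φ _ => MulEquiv.ext fun x => Subsingleton.elim _ _)
    haveI : Finite (MulAut K) := Finite.of_injective (fun φ : MulAut K => (φ : K → K)) DFunLike.coe_injective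
    have h : FC G := FC.of_aut G.subtype fun g hg k hk => hfpf g g.2 (fun e => hg (Subtype.ext e)) k hk
    haveI := (Subgroup.nontrivial_iff_ne_bot G).2 hne
    obtain ⟨L, M, z, s⟩ := h.exists_zasNS fun hs => by
      have := H8.perfect_eq_bot_of_solvable (K := (⊤ : Subgroup G)) hperf (isSolvable_of_equiv topEquiv.symm hs)
      exact top_ne_bot this
    haveI := s.nK
    haveI := s.nM
    have h1 : L ⊔ M = ⊤ := by
      rcases s.index with e | e
      · exact index_eq_one.1 e
      · rw [eq_top_iff, ← hperf]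
        haveI : Fact (Nat.card (G ⧸ (L ⊔ M))).Prime := ⟨by change (L ⊔ M).index.Prime; rw [e]; decide⟩
        exact (Subgroup.Normal.quotient_commutative_iff_commutator_le).1 (isCyclic_of_prime_card rfl).isMulCommutative
    haveI := h.zgroup_of_odd (X := M) (s.cop.coprime_dvd_right (by decide))
    have h2 : (⊤ : Subgroup G) ≤ L := H8.le_of_perfect_of_solvable (K := ⊤) (S := M) hperf inferInstance le_normalizer_of_normal h1.ge
    obtain ⟨e⟩ := s.equiv
    exact ⟨(topEquiv.symm.trans (MulEquiv.subgroupCongr (top_le_iff.1 h2).symm)).trans e⟩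

end Cfsg.Agent.S0690
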