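import Cfsg.Statements.S0691
import Cfsg.Agent.GS.Reg2
import Cfsg.Agent.GS.Lem1

set_option autoImplicit false
open Cfsg

namespace Cfsg.Agent.S0691

open Cfsg.Agent.H1

section
open Subgroup Pointwise commutatorElement Cfsg.Agent.BG Cfsg.Agent.GS
open Cfsg.Agent.H2 hiding card_lt_of_lt card_lt_of_ne_top isMulCommutative_of_le isPGroup_zpowers_iff mem_of_pow_mem_of_coprime inf_eq_bot_of_cop exists_maxElem_ge Sec
open Cfsg.Agent.H8 (Op Opp Fit SN)
open Cfsg.Agent.L (FPF)
universe u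

def T0 : ℕ := 0x31010800c40420031010800c40420010c2100

def T1 : ℕ := 0x20820840410410841041030c30c3040000000

def TD : ℕ := 0x40821020430c30421040c30c30c20010820c0

end

/-- An exceptional sharply doubly transitive group of degree 5^2: the listed matrices generate a subgroup of GL(2,5) of order 24 acting regularly on the non-zero vectors. -/
theorem result (A : Matrix.GeneralLinearGroup (Fin 2) (ZMod 5)) (B : Matrix.GeneralLinearGroup (Fin 2) (ZMod 5)) (C : Matrix.GeneralLinearGroup (Fin 2) (ZMod 5)) (hA : (A : Matrix (Fin 2) (Fin 2) (ZMod 5)) = !![2, 0; 0, -2]) (hB : (B : Matrix (Fin 2) (Fin 2) (ZMod 5)) = !![0, -1; 1, 0]) (hC : (C : Matrix (Fin 2) (Fin 2) (ZMod 5)) = !![1, 2; 1, -2]) : Nat.card (Subgroup.closure ({A, B, C} : Set (Matrix.GeneralLinearGroup (Fin 2) (ZMod 5)))) = 24 ∧ ∀ v w : Fin 2 → ZMod 5, v ≠ 0 → w ≠ 0 → ∃! h : Subgroup.closure ({A, B, C} : Set (Matrix.GeneralLinearGroup (Fin 2) (ZMod 5))), Matrix.mulVec ((h : Matrix.GeneralLinearGroup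 (Fin 2) (ZMod 5)) : Matrix (Fin 2) (Fin 2) (ZMod 5)) v = w := by
  open Subgroup Pointwise commutatorElement Cfsg.Agent.BG Cfsg.Agent.GS in
  open Cfsg.Agent.H2 hiding card_lt_of_lt card_lt_of_ne_top isMulCommutative_of_le isPGroup_zpowers_iff mem_of_pow_mem_of_coprime inf_eq_bot_of_cop exists_maxElem_ge Sec in
  open Cfsg.Agent.H8 (Op Opp Fit SN) in
  open Cfsg.Agent.L (FPF) in focus
    haveI : Fact (1 < 5) := ⟨by decide⟩
    refine reg_of_chk (p := 5) _ [(2, 0, 0, 3), (0, 4, 1, 0), (1, 2, 1, 3)] T0 T1 TD ?_ ?_ (by decide +kernel) (by decide +kernel)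
    · rintro X (rfl | rfl | rfl)
      · exact ⟨(2, 0, 0, 3), by simp, hA.trans (by decide)⟩
      · exact ⟨(0, 4, 1, 0), by simp, hB.trans (by decide)⟩
      · exact ⟨(1, 2, 1, 3), by simp, hC.trans (by decide)⟩
    · intro q hq
      simp only [List.mem_cons, List.not_mem_nil, or_false] at hq
      rcases hq with rfl | rfl | rfl
      · exact ⟨A, by simp, hA.trans (by decide)⟩
      · exact ⟨B, by simp, hB.trans (by decide)⟩
      · exact ⟨C, by simp, hC.trans (by decide)⟩

end Cfsg.Agent.S0691
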