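import Cfsg.Statements.S0692
import Cfsg.Agent.GS.Reg2
import Cfsg.Agent.GS.Lem1

set_option autoImplicit false
open Cfsg

namespace Cfsg.Agent.S0692

open Cfsg.Agent.H1

section
open Subgroup Pointwise commutatorElement Cfsg.Agent.BG Cfsg.Agent.GS
open Cfsg.Agent.H2 hiding card_lt_of_lt card_lt_of_ne_top isMulCommutative_of_le isPGroup_zpowers_iff mem_of_pow_mem_of_coprime inf_eq_bot_of_cop exists_maxElem_ge Sec
open Cfsg.Agent.H8 (Op Opp Fit SN)
open Cfsg.Agent.L (FPF)
universe u

def T0 : ℕ := 0xa0441c51880832401c920a1460020c11072482821431060010062072411020c52892851c62000c108424a2000c51060421c62091ca0840c50010051c818904308428a2090051810c21070882431461072810011840c90881c5280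

def T1 : ℕ := 0x904014208010404a0c318304114208a1420840831830c31c72000c400410104420618504814224618214508918328614524728a1c70072000c310820814824724910124918a2881482062871c02491802820401012841c1287000

def TD : ℕ := 0x71882ca1c908510210a2c32481492c714130a18b1492c924820420c18b30310c24a1c82851873061c724828510730624814b08530920b28618a1cb24b1cc10c28328524b0c61c528808718310724828a20500120720610a2460c0

end

/-- An exceptional sharply doubly transitive group of degree 11^2: the listed matrices generate a subgroup of GL(2,11) of order 120 acting regularly on the non-zero vectors. -/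
theorem result (A : Matrix.GeneralLinearGroup (Fin 2) (ZMod 11)) (B : Matrix.GeneralLinearGroup (Fin 2) (ZMod 11)) (hA : (A : Matrix (Fin 2) (Fin 2) (ZMod 11)) = !![0, -1; 1, 0]) (hB : (B : Matrix (Fin 2) (Fin 2) (ZMod 11)) = !![2, 4; 1, -3]) : Nat.card (Subgroup.closure ({A, B} : Set (Matrix.GeneralLinearGroup (Fin 2) (ZMod 11)))) = 120 ∧ ∀ v w : Fin 2 → ZMod 11, v ≠ 0 → w ≠ 0 → ∃! h : Subgroup.closure ({A, B} : Set (Matrix.GeneralLinearGroup (Fin 2) (ZMod 11))), Matrix.mulVec ((h : Matrix.GeneralLinearGroup (Fin 2) (ZMod 11)) : Matrix (Fin 2) (Fin 2) (ZMod 11)) v = w := by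
  open Subgroup Pointwise commutatorElement Cfsg.Agent.BG Cfsg.Agent.GS in
  open Cfsg.Agent.H2 hiding card_lt_of_lt card_lt_of_ne_top isMulCommutative_of_le isPGroup_zpowers_iff mem_of_pow_mem_of_coprime inf_eq_bot_of_cop exists_maxElem_ge Sec in
  open Cfsg.Agent.H8 (Op Opp Fit SN) in
  open Cfsg.Agent.L (FPF) in focus
    haveI : Fact (1 < 11) := ⟨by decide⟩
    refine reg_of_chk (p := 11) _ [(0, 10, 1, 0), (2, 4, 1, 8)] T0 T1 TD ?_ ?_ (by decide +kernel) (by decide +kernel)
    · rintro X (rfl | rfl)
      · exact ⟨(0, 10, 1, 0), by simp, hA.trans (by decide)⟩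
      · exact ⟨(2, 4, 1, 8), by simp, hB.trans (by decide)⟩
    · intro q hq
      simp only [List.mem_cons, List.not_mem_nil, or_false] at hq
      rcases hq with rfl | rfl
      · exact ⟨A, by simp, hA.trans (by decide)⟩
      · exact ⟨B, by simp, hB.trans (by decide)⟩

end Cfsg.Agent.S0692
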