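import Cfsg.Statements.S0694
import Cfsg.Agent.GS.Basic

set_option autoImplicit false
open Cfsg

namespace Cfsg.Agent.S0694

open Cfsg.Agent.H1

section
open Subgroup Pointwise commutatorElement Cfsg.Agent.BG Cfsg.Agent.GS
open Cfsg.Agent.H2 hiding card_lt_of_lt card_lt_of_ne_top isMulCommutative_of_le isPGroup_zpowers_iff mem_of_pow_mem_of_coprime inf_eq_bot_of_cop exists_maxElem_ge Sec
open Cfsg.Agent.H8 (Op Opp Fit SN)
open Cfsg.Agent.L (FPF)
universe u

theorem up1 {x M r : ℕ} (h : x ≡ 1 [MOD M]) (hr : r ∣ M) : x ^ r ≡ 1 [MOD r * M] := by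
  have h1 : (M : ℤ) ∣ x - 1 := by simpa using h.symm.dvd
  have h2 := dvd_geom_sum₂_self ((Int.natCast_dvd_natCast.2 hr).trans h1)
  have h3 := mul_dvd_mul h2 h1
  rw [geom_sum₂_mul] at h3
  exact (Nat.modEq_iff_dvd.2 (by simpa using h3)).symm

theorem up {x M : ℕ} (h : x ≡ 1 [MOD M]) (n : ℕ) (hn : ∀ r : ℕ, r.Prime → r ∣ n → r ∣ M) (h0 : n ≠ 0) : x ^ n ≡ 1 [MOD n * M] := by
  induction n using induction_on_primes with
  | zero => exact absurd rfl h0
  | one => simpa using h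
  | prime_mul r n hr ih =>
    have := up1 (ih (fun s hs e => hn s hs (e.mul_left r)) (right_ne_zero_of_mul h0)) ((hn r hr (dvd_mul_right _ _)).mul_left n)
    rwa [← pow_mul, ← mul_assoc, mul_comm n r] at this

theorem low {x M : ℕ} (h : x ≡ 1 [MOD M]) (n : ℕ) (hn : n.Coprime x) (h0 : n ≠ 0) :
    ∃ i, 0 < i ∧ i ≤ n ∧ x ^ i ≡ 1 [MOD n * M] ∧ (i = n → ∀ r : ℕ, r.Prime → r ∣ n → r ∣ M) := by
  induction n using induction_on_primes with
  | zero => exact absurd rfl h0
  | one => exact ⟨1, one_pos, le_rfl, by simpa using h, fun _ r hr e => absurd (Nat.dvd_one.1 e) hr.ne_one⟩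
  | prime_mul r n hr ih =>
    obtain ⟨i, a, b, c, d⟩ := ih (hn.coprime_dvd_left (dvd_mul_left _ _)) (right_ne_zero_of_mul h0)
    by_cases e : r ∣ n * M
    · refine ⟨r * i, Nat.mul_pos hr.pos a, Nat.mul_le_mul_left r b, ?_, fun e2 s hs e3 => ?_⟩
      · have := up1 c e
        rwa [← pow_mul, ← mul_assoc, mul_comm i r] at this
      · have d' := d (Nat.eq_of_mul_eq_mul_left hr.pos e2)
        rcases (Nat.Prime.dvd_mul hs).1 e3 with e3 | e3
        · rw [(Nat.prime_dvd_prime_iff_eq hs hr).1 e3]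
          exact ((Nat.Prime.dvd_mul hr).1 e).elim (d' r hr) id
        · exact d' s hs e3
    · have h2 := hr.two_le
      have h3 : (r - 1) * i < r * n := Nat.mul_lt_mul_of_lt_of_le (by omega) b (by omega)
      refine ⟨(r - 1) * i, Nat.mul_pos (by omega) a, h3.le, ?_, fun e2 => absurd e2 h3.ne⟩
      rw [mul_assoc, ← Nat.modEq_and_modEq_iff_modEq_mul ((Nat.Prime.coprime_iff_not_dvd hr).2 e)]
      constructor
      · have := (Nat.ModEq.pow_totient (hn.coprime_dvd_left (dvd_mul_right _ _)).symm).pow i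
        rwa [Nat.totient_prime hr, ← pow_mul, one_pow] at this
      · have := c.pow (r - 1)
        rwa [← pow_mul, one_pow, mul_comm i] at this

theorem lte {m r i : ℕ} (hr : r.Prime) (h : r ∣ m) (h2 : r = 2 → 4 ∣ m ∨ ¬ 2 ∣ i) :
    emultiplicity (r : ℤ) (((m : ℤ) + 1) ^ i - 1 ^ i) = emultiplicity (r : ℤ) m + emultiplicity (r : ℤ) i := by
  have h3 : (r : ℤ) ∣ (m + 1) - 1 := by simpa using Int.natCast_dvd_natCast.2 h
  have h4 : ¬ (r : ℤ) ∣ m + 1 := fun e => hr.ne_one (Nat.dvd_one.1 ((Nat.dvd_add_right h).1 (Int.natCast_dvd_natCast.1 (by simpa using e))))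
  rcases hr.eq_two_or_odd' with rfl | ho
  · rcases h2 rfl with e | e
    · simpa using Int.two_pow_sub_pow' (x := m + 1) (y := 1) i (by simpa using Int.natCast_dvd_natCast.2 e) h4
    · have e' : ¬ ((2 : ℕ) : ℤ) ∣ i := fun a => e (Int.natCast_dvd_natCast.1 a)
      rw [emultiplicity_pow_sub_pow_of_prime (Nat.prime_iff_prime_int.1 hr) h3 h4 e', emultiplicity_eq_zero.2 e']
      simp
  · rw [Int.emultiplicity_pow_sub_pow hr ho h3 h4, Int.natCast_emultiplicity r i]
    simp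

end

/-- The Dickson pair condition: for a prime power `q` and `n > 1`, (every prime factor of `n` divides `q - 1`, and `4 ∣ n → 4 ∣ q - 1`) holds exactly when `q ^ n ≡ 1` modulo `n * (q - 1)` but `q ^ i` is not, for `0 < i < n`. -/
theorem result (q n : ℕ) (hq : IsPrimePow q) (hn : 1 < n) : ((∀ r : ℕ, r.Prime → r ∣ n → r ∣ q - 1) ∧ (4 ∣ n → 4 ∣ q - 1)) ↔ (q ^ n ≡ 1 [MOD n * (q - 1)] ∧ ∀ i : ℕ, 0 < i → i < n → ¬ q ^ i ≡ 1 [MOD n * (q - 1)]) := by
  open Subgroup Pointwise commutatorElement Cfsg.Agent.BG Cfsg.Agent.GS in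
  open Cfsg.Agent.H2 hiding card_lt_of_lt card_lt_of_ne_top isMulCommutative_of_le isPGroup_zpowers_iff mem_of_pow_mem_of_coprime inf_eq_bot_of_cop exists_maxElem_ge Sec in
  open Cfsg.Agent.H8 (Op Opp Fit SN) in
  open Cfsg.Agent.L (FPF) in focus
    have h2 := hq.two_le
    obtain ⟨m, rfl⟩ : ∃ m, q = m + 1 := ⟨q - 1, by omega⟩
    have h1 : m + 1 ≡ 1 [MOD m] := by simp [Nat.ModEq]
    rw [Nat.add_sub_cancel]
    refine ⟨fun ⟨a, b⟩ => ⟨up h1 n a (by omega), fun i h0 hi e => ?_⟩, fun ⟨a, b⟩ => ?_⟩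
    · refine absurd (Nat.le_of_dvd h0 ((Nat.dvd_iff_prime_pow_dvd_dvd i n).2 fun r k hr hk => ?_)) (by omega)
      rcases k with _ | k
      · simp
      have hm := a r hr ((dvd_pow_self r k.succ_ne_zero).trans hk)
      by_contra hc
      have h3 := lte (i := i) hr hm (by
        rintro rfl
        rcases k with _ | k
        · exact Or.inr (by simpa using hc)
        · exact Or.inl (b (Dvd.dvd.trans ⟨2 ^ k, by ring⟩ hk)))
      have h4 : (r : ℤ) ^ (k + 1) * m ∣ ((m : ℤ) + 1) ^ i - 1 ^ i := by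
        have := (e.of_dvd (Nat.mul_dvd_mul_right hk m)).symm.dvd
        simpa using this
      have h5 := emultiplicity_le_emultiplicity_of_dvd_right (a := (r : ℤ)) h4
      have hp := Nat.prime_iff_prime_int.1 hr
      rw [h3, emultiplicity_mul hp, emultiplicity_pow_self_of_prime hp, add_comm, ENat.add_le_add_iff_left
        (finiteMultiplicity_iff_emultiplicity_ne_top.1 ((Int.finiteMultiplicity_iff (a := r) (b := m)).2 ⟨by simpa using hr.ne_one, by omega⟩))] at h5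
      exact hc (Int.natCast_dvd_natCast.1 (by simpa using pow_dvd_of_le_emultiplicity h5))
    have hc : n.Coprime (m + 1) := by
      have := Nat.coprime_of_mul_modEq_one ((m + 1) ^ (n - 1)) (a := m + 1) (n := n) (by
        rw [← pow_succ', Nat.sub_add_cancel hn.le]; exact a.of_mul_right m)
      exact this.symm
    obtain ⟨i, c, d, e, f⟩ := low h1 n hc (by omega)
    have f := f (d.eq_or_lt.resolve_right fun h => b i c h e)
    refine ⟨f, fun ⟨k, hk⟩ => by_contra fun h4 => ?_⟩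
    obtain ⟨j, rfl⟩ := f 2 Nat.prime_two ⟨2 * k, by omega⟩
    obtain ⟨l, rfl⟩ : ∃ l, j = 2 * l + 1 := ⟨j / 2, by omega⟩
    have h5 : (2 * (2 * l + 1) + 1) ^ 2 ≡ 1 [MOD 4 * (2 * (2 * l + 1))] :=
      ((Nat.modEq_iff_dvd' (Nat.one_le_pow _ _ (by omega))).2 ⟨l + 1, Nat.sub_eq_of_eq_add (by ring)⟩).symm
    have h6 := up h5 k (fun r hr e => (f r hr (hk ▸ e.mul_left 4)).mul_left 4) (by omega)
    rw [← pow_mul, ← mul_assoc, mul_comm k 4, ← hk] at h6
    exact b _ (by omega) (by omega) h6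

end Cfsg.Agent.S0694
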