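import Cfsg.Statements.S0697
import Mathlib
import Cfsg.Agent.H7.Sharp

set_option autoImplicit false
open Cfsg

namespace Cfsg.Agent.S0697

/-- In a `k`-primitive permutation group which is not the whole symmetric group, a non-trivial non-regular normal subgroup is `k`-transitive. -/
theorem result {α : Type*} [Fintype α] [DecidableEq α] (G : Subgroup (Equiv.Perm α)) {k : ℕ} (hk : 1 ≤ k) (hkn : k ≤ Fintype.card α) (hG : MulAction.IsMultiplyPreprimitive G α k) (htop : G ≠ ⊤) (H : Subgroup G) [H.Normal] (hH : H ≠ ⊥) (hnr : ∃ a : α, MulAction.stabilizer H a ≠ ⊥) : MulAction.IsMultiplyPretransitive H α k := by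
  have hk' : k ≤ Nat.card α := by rwa [Nat.card_eq_fintype_card]
  have hnt : k + 2 ≤ Nat.card α := by
    by_contra h
    apply htop
    exact Equiv.Perm.eq_top_of_isMultiplyPretransitive
      (H7.mt_le hG.isMultiplyPretransitive hk' (show Nat.card α - 1 ≤ k by omega))
  have key : ∀ j, j ≤ k → MulAction.IsMultiplyPretransitive H α j := by
    intro j
    induction j with
    | zero => exact fun _ => MulAction.is_zero_pretransitive
    | succ j ih =>
      intro hj
      have ih' := ih (by omega)
      obtain ⟨s, -, hs⟩ := Finset.exists_subset_card_eq (s := (Finset.univ : Finset α)) (n := j)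
        (by rw [Finset.card_univ]; omega)
      have hj1 := MulAction.isMultiplyPreprimitive_of_le G α hG hj (by simpa using hkn)
      rcases H7.normal_fix_trans H (hj1.isPreprimitive_ofFixingSubgroup (s := (s : Set α))
        (by rw [Set.encard_coe_eq_coe_finsetCard, hs]; norm_cast)) with h | h
      · exfalso
        have h' : ∀ n ∈ H, (∀ x ∈ s, n • x = x) → n = 1 := fun n hn hns =>
          Subtype.ext (Equiv.ext (h n hn hns))
        obtain _ | _ | j := j
        · rw [Finset.card_eq_zero] at hs
          exact hH (eq_bot_iff.2 fun n hn => h' n hn (by simp [hs]))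
        · obtain ⟨b, rfl⟩ := Finset.card_eq_one.1 hs
          obtain ⟨a, ha⟩ := hnr
          apply ha
          rw [eq_bot_iff]
          intro n hn
          haveI := MulAction.is_one_pretransitive_iff.1 ih'
          obtain ⟨t, rfl⟩ := MulAction.exists_smul_eq H b a
          have := h' (t⁻¹ * n * t : H) (t⁻¹ * n * t).2 (fun x hx => by
            rw [Finset.mem_singleton.1 hx]; exact (H7.mem_stabilizer_smul_iff t n b).1 hn)
          have h2 : t⁻¹ * n * t = 1 := Subtype.ext this
          rwa [mul_assoc, inv_mul_eq_one, eq_comm, mul_eq_right] at h2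
        · have := H7.card_le_of_normal_sharp H hj1 (by omega) ih' s hs h'
          omega
      · exact H7.mt_succ_of ih' s hs fun a b ha hb => by
          obtain ⟨n, hn, h1, h2⟩ := h a b ha hb
          exact ⟨⟨n, hn⟩, h1, h2⟩
  exact key k le_rfl

end Cfsg.Agent.S0697
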