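import Cfsg.Statements.S0698
import Mathlib
import Cfsg.Agent.H7.Sharp

set_option autoImplicit false
open Cfsg

namespace Cfsg.Agent.S0698

/-- Jordan's Theorem on normal subgroups of multiply transitive groups: if `G` is `k`-transitive (`k > 1`) of degree greater than `k`, a non-trivial normal subgroup is `(k-1)`-transitive, except possibly for `k = 3` when it may be an elementary abelian 2-group. -/
theorem result {α : Type*} [Fintype α] [DecidableEq α] (G : Subgroup (Equiv.Perm α)) {k : ℕ} (hk : 1 < k) (hdeg : k < Fintype.card α) (hG : MulAction.IsMultiplyPretransitive G α k) (N : Subgroup G) [N.Normal] (hN : N ≠ ⊥) : MulAction.IsMultiplyPretransitive N α (k - 1) ∨ (k = 3 ∧ IsMulCommutative N ∧ ∀ n ∈ N, n ^ 2 = 1) := by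
  have hk' : k < Nat.card α := by rwa [Nat.card_eq_fintype_card]
  by_contra hcon
  rw [not_or] at hcon
  obtain ⟨k, rfl⟩ : ∃ m, k = m + 1 := ⟨k - 1, by omega⟩
  have hG' := MulAction.isMultiplyPreprimitive_of_isMultiplyPretransitive_succ G α (n := k)
    (by rw [ENat.card_eq_coe_fintype_card]; exact_mod_cast hdeg.le)
  have key : ∀ j, j ≤ k → MulAction.IsMultiplyPretransitive N α j := by
    intro j
    induction j with
    | zero => exact fun _ => MulAction.is_zero_pretransitive
    | succ j ih =>
      intro hj
      have ih' := ih (by omega)
      obtain ⟨s, -, hs⟩ := Finset.exists_subset_card_eq (s := (Finset.univ : Finset α)) (n := j)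
        (by rw [Finset.card_univ]; omega)
      have hj1 := MulAction.isMultiplyPreprimitive_of_le G α hG' hj
        (by simpa using (show k ≤ Fintype.card α by omega))
      rcases H7.normal_fix_trans N (hj1.isPreprimitive_ofFixingSubgroup (s := (s : Set α))
        (by rw [Set.encard_coe_eq_coe_finsetCard, hs]; norm_cast)) with h | h
      · exfalso
        have h' : ∀ n ∈ N, (∀ x ∈ s, n • x = x) → n = 1 := fun n hn hns =>
          Subtype.ext (Equiv.ext (h n hn hns))
        obtain _ | _ | j := j
        · rw [Finset.card_eq_zero] at hs
          exact hN (eq_bot_iff.2 fun n hn => h' n hn (by simp [hs]))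
        · obtain ⟨b, rfl⟩ := Finset.card_eq_one.1 hs
          haveI := MulAction.is_one_pretransitive_iff.1 ih'
          have hreg : ∀ a : α, MulAction.stabilizer N a = ⊥ := fun a => by
            rw [eq_bot_iff]
            intro n hn
            obtain ⟨t, rfl⟩ := MulAction.exists_smul_eq N b a
            have := h' (t⁻¹ * n * t : N) (t⁻¹ * n * t).2 (fun x hx => by
              rw [Finset.mem_singleton.1 hx]; exact (H7.mem_stabilizer_smul_iff t n b).1 hn)
            have h2 : t⁻¹ * n * t = 1 := Subtype.ext this
            rwa [mul_assoc, inv_mul_eq_one, eq_comm, mul_eq_right] at h2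
          by_cases hk2 : k = 2
          · rcases S0695.result (by omega) hj1 N inferInstance hreg with h3 | ⟨h3, h4, -⟩
            · omega
            · exact hcon.2 ⟨by omega, h3, h4⟩
          · have := S0696.result (by omega) (MulAction.isMultiplyPreprimitive_of_le G α hG'
              (show 3 ≤ k by omega) (by simpa using (show k ≤ Fintype.card α by omega))) N
              inferInstance hreg
            omega
        · have := H7.card_le_of_normal_sharp N hj1 (by omega) ih' s hs h'
          omega
      · exact H7.mt_succ_of ih' s hs fun a b ha hb => by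
          obtain ⟨n, hn, h1, h2⟩ := h a b ha hb
          exact ⟨⟨n, hn⟩, h1, h2⟩
  exact hcon.1 (key k le_rfl)

end Cfsg.Agent.S0698
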