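import Cfsg.Statements.S0705
import Mathlib
import Cfsg.Agent.H7.MultiTrans

set_option autoImplicit false
open scoped Pointwise
open Cfsg

namespace Cfsg.Agent.S0705

theorem gen {α : Type*} [Fintype α] [DecidableEq α] (G : Subgroup (Equiv.Perm α)) {k : ℕ} (hk : k < Fintype.card α) (hgen : ∀ s : Finset α, s.card = k + 1 → ∀ σ : Equiv.Perm ↥s, ∃ g ∈ G, ∀ x : ↥s, g (x : α) = σ x) (t : Finset α) (ht : t.card ≤ k + 1) (σ : Equiv.Perm α) (hσ : ∀ x, σ x ≠ x → x ∈ t) : ∃ g ∈ G, ∀ x ∈ t, g x = σ x := by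
  obtain ⟨s, hts, hs⟩ := Finset.exists_superset_card_eq ht hk
  obtain ⟨g, hg, h⟩ := hgen s hs (σ.subtypePerm fun x => by
    by_cases hx : σ x = x
    · rw [hx]
    · exact ⟨fun _ => hts (hσ x hx), fun _ => hts (hσ _ (by simpa using hx))⟩)
  exact ⟨g, hg, fun x hx => h ⟨x, hts hx⟩⟩

/-- A generously `k`-transitive permutation group (every `(k+1)`-subset has its full symmetric group induced by the setwise stabiliser) of degree greater than `k` is `k`-transitive, and for a `k`-subset the setwise and pointwise stabilisers have the same orbits outside it. -/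
theorem result {α : Type*} [Fintype α] [DecidableEq α] (G : Subgroup (Equiv.Perm α)) {k : ℕ} (hk : k < Fintype.card α) (hgen : ∀ s : Finset α, s.card = k + 1 → ∀ σ : Equiv.Perm ↥s, ∃ g ∈ G, ∀ x : ↥s, g (x : α) = σ x) : MulAction.IsMultiplyPretransitive G α k ∧ ∀ s : Finset α, s.card = k → ∀ a b : α, a ∉ s → b ∉ s → (∃ g ∈ G, g • s = s ∧ g a = b) → ∃ g ∈ G, (∀ x ∈ s, g x = x) ∧ g a = b := by
  constructor
  · rw [H7.mt_iff_fun]
    intro x y hx hy
    induction' hd : (Finset.univ.filter fun i => x i ≠ y i).card using Nat.strong_induction_on with d ih generalizing x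
    by_cases h : ∀ i, x i = y i
    · exact ⟨1, fun i => by rw [one_smul, h]⟩
    push Not at h
    obtain ⟨i, hi⟩ := h
    obtain ⟨g, hg, hgx⟩ := gen G hk hgen (insert (y i) (Finset.univ.image x))
      ((Finset.card_insert_le _ _).trans (by
        have := Finset.card_image_le (s := Finset.univ) (f := x); simpa using this))
      (Equiv.swap (x i) (y i)) (fun z hz => by
        rcases Equiv.eq_or_eq_of_swap_apply_ne_self hz with rfl | rfl <;> simp)
    obtain ⟨g', hg'⟩ := ih _ (by
      rw [← hd]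
      apply Finset.card_lt_card
      rw [Finset.ssubset_iff_of_subset]
      · exact ⟨i, by simpa using hi, by simp⟩
      · intro j hj
        simp only [Finset.mem_filter, Finset.mem_univ, true_and, Function.comp] at hj ⊢
        intro hxy
        apply hj
        have hji : j ≠ i := by rintro rfl; exact hi hxy
        rw [Equiv.swap_apply_of_ne_of_ne (hx.ne hji) (hxy ▸ hy.ne hji), hxy])
      (Equiv.swap (x i) (y i) ∘ x) ((Equiv.injective _).comp hx) rfl
    refine ⟨g' * ⟨g, hg⟩, fun j => ?_⟩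
    rw [mul_smul, ← hg' j]
    congr 1
    exact hgx _ (by simp)
  · rintro s hs a b ha hb ⟨g, hg, hgs, rfl⟩
    have hp : ∀ x, g⁻¹ x ∈ s ↔ x ∈ s := fun x => by
      nth_rewrite 2 [← hgs]; rw [← Finset.inv_smul_mem_iff]; rfl
    obtain ⟨h, hh, hhx⟩ := gen G hk hgen (insert a s) (by rw [Finset.card_insert_of_notMem ha, hs])
      (Equiv.Perm.ofSubtype (g⁻¹.subtypePerm hp)) (fun x hx => by
        by_contra hxs
        exact hx (Equiv.Perm.ofSubtype_apply_of_not_mem _ (fun h => hxs (by simp [h]))))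
    refine ⟨g * h, G.mul_mem hg hh, fun x hx => ?_, ?_⟩
    · rw [Equiv.Perm.mul_apply, hhx x (by simp [hx]), Equiv.Perm.ofSubtype_apply_of_mem _ hx]; simp
    · rw [Equiv.Perm.mul_apply, hhx a (by simp), Equiv.Perm.ofSubtype_apply_of_not_mem _ ha]

end Cfsg.Agent.S0705
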