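import Cfsg.Statements.S0706
import Mathlib
import Cfsg.Agent.H7.PermMod
import Cfsg.Agent.S0705

set_option autoImplicit false
open Cfsg

namespace Cfsg.Agent.S0706
open scoped Pointwise

/-- In a generously `k`-transitive permutation group, for a prime `p ≤ k` and a `k`-set `Γ`, there are no `p` points outside `Γ` lying in distinct orbits of the pointwise stabiliser of `Γ` all of length prime to `p` (at most `p - 1` such orbits). -/
theorem result {α : Type*} [Fintype α] [DecidableEq α] (G : Subgroup (Equiv.Perm α)) {k : ℕ} (hk : k < Fintype.card α) (hgen : ∀ s : Finset α, s.card = k + 1 → ∀ σ : Equiv.Perm ↥s, ∃ g ∈ G, ∀ x : ↥s, g (x : α) = σ x) {p : ℕ} (hp : p.Prime) (hpk : p ≤ k) (Γ : Finset α) (hΓ : Γ.card = k) (f : Fin p → α) (hf : ∀ i, f i ∉ Γ) (hdist : ∀ i j, i ≠ j → f j ∉ MulAction.orbit (fixingSubgroup G (Γ : Set α)) (f i)) : ∃ i, p ∣ Nat.card (MulAction.orbit (fixingSubgroup G (Γ : Set α)) (f i)) := by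
  by_contra hcon
  push Not at hcon
  haveI := Fact.mk hp
  obtain ⟨hk1, hk2⟩ := S0705.result G hk hgen
  obtain ⟨C, hCΓ, hC⟩ := Finset.exists_subset_card_eq (show p ≤ Γ.card by omega)
  let A := fixingSubgroup G (Γ : Set α)
  let H : Subgroup G := fixingSubgroup G ((Γ \ C : Finset α) : Set α) ⊓ MulAction.stabilizer G C
  have hH : ∀ g : G, g ∈ H ↔ (∀ x ∈ Γ \ C, g • x = x) ∧ g • C = C := fun g => by
    simp only [H, Subgroup.mem_inf, mem_fixingSubgroup_iff, MulAction.mem_stabilizer_iff,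
      Finset.mem_coe]
  have hHΓ : ∀ g ∈ H, g • Γ = Γ := fun g hg => by
    obtain ⟨h1, h2⟩ := (hH g).1 hg
    apply Finset.eq_of_subset_of_card_le _ (by rw [Finset.card_smul_finset])
    intro y hy
    obtain ⟨x, hx, rfl⟩ := Finset.mem_smul_finset.1 hy
    by_cases hxC : x ∈ C
    · exact hCΓ (h2 ▸ Finset.smul_mem_smul_finset hxC)
    · rw [h1 x (Finset.mem_sdiff.2 ⟨hx, hxC⟩)]; exact hx
  obtain ⟨x₀, hx₀⟩ : C.Nonempty := Finset.card_pos.1 (hC ▸ hp.pos)
  have horb : MulAction.orbit H x₀ = C := by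
    ext y
    constructor
    · rintro ⟨g, rfl⟩
      have := ((hH g).1 g.2).2
      change (g : G) • x₀ ∈ C
      rw [← this]; exact Finset.smul_mem_smul_finset hx₀
    · intro hy
      obtain ⟨g, hg⟩ := H7.mt_extend_eq hk1 Γ hΓ (Equiv.swap x₀ y) (Equiv.injective _).injOn
      refine ⟨⟨g, (hH g).2 ⟨fun x hx => ?_, ?_⟩⟩, ?_⟩
      · rw [Finset.mem_sdiff] at hx
        rw [hg x hx.1, Equiv.swap_apply_of_ne_of_ne]
        · rintro rfl; exact hx.2 hx₀
        · rintro rfl; exact hx.2 hy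
      · apply Finset.eq_of_subset_of_card_le _ (by rw [Finset.card_smul_finset])
        intro z hz
        obtain ⟨x, hx, rfl⟩ := Finset.mem_smul_finset.1 hz
        rw [hg x (hCΓ hx), Equiv.swap_apply_def]
        split_ifs <;> assumption
      · change g • x₀ = y
        rw [hg x₀ (hCΓ hx₀), Equiv.swap_apply_left]
  have hdvd : p * Nat.card A ∣ Nat.card H := by
    rw [← H7.card_orbit_mul_card_stabilizer (G := H) x₀, horb]
    simp only [Finset.coe_sort_coe, Nat.card_eq_fintype_card, Fintype.card_coe, hC]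
    apply Nat.mul_dvd_mul_left
    rw [← Subgroup.card_map_of_injective (K := MulAction.stabilizer H x₀) H.subtype_injective]
    apply Subgroup.card_dvd_of_le
    intro g hg
    have hg' := (mem_fixingSubgroup_iff G).1 hg
    refine ⟨⟨g, (hH g).2 ⟨fun x hx => hg' x (Finset.mem_sdiff.1 hx).1, ?_⟩⟩, hg' x₀ (hCΓ hx₀), rfl⟩
    apply Finset.eq_of_subset_of_card_le _ (by rw [Finset.card_smul_finset])
    intro z hz
    obtain ⟨x, hx, rfl⟩ := Finset.mem_smul_finset.1 hz
    rw [hg' x (hCΓ hx)]; exact hx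
  obtain ⟨Q⟩ : Nonempty (Sylow p H) := inferInstance
  have hout : ∀ i, ∀ y ∈ MulAction.orbit A (f i), y ∉ Γ := by
    rintro i _ ⟨g, rfl⟩ hy
    have := (mem_fixingSubgroup_iff G).1 (A.inv_mem g.2) _ hy
    change (g : G)⁻¹ • (g : G) • f i = (g : G) • f i at this
    rw [inv_smul_smul] at this
    change (g : G) • f i ∈ Γ at hy
    rw [← this] at hy
    exact hf i hy
  have hfix : ∀ i, ∃ y ∈ MulAction.orbit A (f i), ∀ g : (Q : Subgroup H), g • y = y := fun i =>
    H7.exists_fixed_of_isPGroup hp Q.2 _ (Set.toFinite _) (fun g y hy => by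
      have hΓg := hHΓ _ g.1.2
      have hy' := hout i y hy
      obtain ⟨t, ht, ht1, ht2⟩ := hk2 Γ hΓ y (((g : H) : G) • y) hy' (fun h => hy' (by
        rw [← hΓg] at h; exact Finset.smul_mem_smul_finset_iff _ |>.1 h))
        ⟨_, ((g : H) : G).2, hΓg, rfl⟩
      change ((g : H) : G) • y ∈ _
      rw [← ht2]
      exact MulAction.mem_orbit_of_mem_orbit (⟨⟨t, ht⟩, (mem_fixingSubgroup_iff G).2 ht1⟩ : A) hy)
      (hcon i)
  choose y hy hyfix using hfix
  have hyinj : Function.Injective y := fun i j hij => by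
    by_contra hne
    apply hdist i j hne
    have h1 := MulAction.orbit_eq_iff.2 (hy i)
    have h2 := MulAction.orbit_eq_iff.2 (hy j)
    rw [← h1, hij, h2]; exact MulAction.mem_orbit_self _
  let Γ' := (Γ \ C) ∪ Finset.univ.image y
  have hΓ' : Γ'.card = k := by
    rw [Finset.card_union_of_disjoint, Finset.card_sdiff_of_subset hCΓ,
      Finset.card_image_of_injective _ hyinj, Finset.card_univ, Fintype.card_fin]
    · omega
    · rw [Finset.disjoint_right]
      intro x hx hx'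
      obtain ⟨i, -, rfl⟩ := Finset.mem_image.1 hx
      exact hout i _ (hy i) (Finset.mem_sdiff.1 hx').1
  obtain ⟨e, he, hes⟩ := H7.exists_enum Γ hΓ
  obtain ⟨e', he', hes'⟩ := H7.exists_enum Γ' hΓ'
  obtain ⟨t, ht⟩ := H7.mt_iff_fun.1 hk1 e e' he he'
  have hQ : Nat.card (Q : Subgroup H) ∣ Nat.card A := by
    rw [← Subgroup.card_map_of_injective
      (f := (MulAut.conj t⁻¹).toMonoidHom.comp H.subtype) ((MulAut.conj t⁻¹).injective.comp H.subtype_injective)]
    apply Subgroup.card_dvd_of_le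
    rintro _ ⟨g, hg, rfl⟩
    refine (mem_fixingSubgroup_iff G).2 fun x hx => ?_
    obtain ⟨i, rfl⟩ := (hes x).1 hx
    have : (g : G) • e' i = e' i := by
      rcases Finset.mem_union.1 ((hes' _).2 ⟨i, rfl⟩) with h | h
      · exact ((hH g).1 g.2).1 _ h
      · obtain ⟨j, -, hj⟩ := Finset.mem_image.1 h
        rw [← hj]; exact hyfix j ⟨g, hg⟩
    simp [mul_smul, ht, this, inv_smul_eq_iff]
  rw [Q.card_eq_multiplicity] at hQ
  have h1 : p ^ ((Nat.card H).factorization p + 1) ∣ Nat.card H :=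
    dvd_trans (by rw [pow_succ']; exact Nat.mul_dvd_mul_left _ hQ) hdvd
  exact Nat.pow_succ_factorization_not_dvd Nat.card_pos.ne' hp h1

end Cfsg.Agent.S0706
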