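import Cfsg.Statements.S0699
import Mathlib
import Cfsg.Agent.H7.Sharp
import Cfsg.Agent.S0698
import Cfsg.Agent.S0706

set_option autoImplicit false
open Cfsg

namespace Cfsg.Agent.S0699

/-- Wagner's Theorem: a non-trivial normal subgroup of a triply transitive permutation group of odd degree at least 5 is triply transitive. -/
theorem result {α : Type*} [Fintype α] [DecidableEq α] (G : Subgroup (Equiv.Perm α)) (hodd : Odd (Fintype.card α)) (h5 : 5 ≤ Fintype.card α) (hG : MulAction.IsMultiplyPretransitive G α 3) (N : Subgroup G) [N.Normal] (hN : N ≠ ⊥) : MulAction.IsMultiplyPretransitive N α 3 := by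
  have h3 : 3 ≤ Nat.card α := by rw [Nat.card_eq_fintype_card]; omega
  have h2 : MulAction.IsMultiplyPretransitive N α 2 := by
    rcases S0698.result G (k := 3) (by norm_num) (by omega) hG N hN with h | ⟨-, -, h⟩
    · exact h
    · exfalso
      haveI := H7.mt_le hG h3 (show 2 ≤ 3 by norm_num)
      haveI : MulAction.IsPreprimitive G α := MulAction.isPreprimitive_of_is_two_pretransitive this
      have hP : IsPGroup 2 N := fun n => ⟨1, Subtype.ext (by simpa using h n n.2)⟩
      obtain ⟨a, -, ha⟩ := H7.exists_fixed_of_isPGroup Nat.prime_two hP (Set.univ : Set α)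
        Set.finite_univ (fun _ _ _ => trivial) (by
          rw [Set.ncard_univ, Nat.card_eq_fintype_card]; exact hodd.not_two_dvd_nat)
      exact hN (H7.eq_bot_of_normal_le_stabilizer (a := a) inferInstance fun n hn => ha ⟨n, hn⟩)
  obtain ⟨a, b, hab⟩ := Fintype.exists_pair_of_one_lt_card (show 1 < Fintype.card α by omega)
  have hsw : ∀ x y z : α, x ≠ y → x ≠ z → y ≠ z → ∃ n ∈ N, n • x = y ∧ n • y = x ∧ n • z = z := by
    obtain ⟨s, hsa, hsb⟩ := H7.mt_two h2 hab hab.symm
    obtain ⟨k, m, hm, hkm⟩ := Nat.exists_eq_two_pow_mul_odd (orderOf_pos s).ne'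
    have hpow : ∀ j, s ^ (2 * j + 1) • a = b ∧ s ^ (2 * j + 1) • b = a := fun j => by
      induction j with
      | zero => simpa using ⟨hsa, hsb⟩
      | succ j ih =>
        rw [show 2 * (j + 1) + 1 = 2 * j + 1 + 1 + 1 by ring, pow_succ, pow_succ, mul_smul, mul_smul,
          mul_smul, mul_smul, hsa, hsb, hsa]
        exact ih
    obtain ⟨j, rfl⟩ := hm
    obtain ⟨ta, tb⟩ := hpow j
    set t := s ^ (2 * j + 1)
    have hP : IsPGroup 2 (Subgroup.zpowers t) := by
      rintro ⟨_, i, rfl⟩
      refine ⟨k, Subtype.ext ?_⟩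
      change (t ^ i) ^ 2 ^ k = 1
      rw [← zpow_natCast, ← zpow_mul, mul_comm, zpow_mul, zpow_natCast, ← pow_mul, mul_comm, ← hkm,
        pow_orderOf_eq_one, one_zpow]
    obtain ⟨c, -, hc⟩ := H7.exists_fixed_of_isPGroup Nat.prime_two hP (Set.univ : Set α)
        Set.finite_univ (fun _ _ _ => trivial) (by
          rw [Set.ncard_univ, Nat.card_eq_fintype_card]; exact hodd.not_two_dvd_nat)
    have tc : t • c = c := hc ⟨t, Subgroup.mem_zpowers t⟩
    intro x y z hxy hxz hyz
    obtain ⟨g, rfl, rfl, rfl⟩ := H7.mt_three hG hab (c := c)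
      (by rintro rfl; exact hab (tc.symm.trans ta)) (by rintro rfl; exact hab (tb.symm.trans tc))
      hxy hxz hyz
    refine ⟨g * t * g⁻¹, Subgroup.Normal.conj_mem inferInstance _ t.2 g, ?_, ?_, ?_⟩ <;>
      simp only [mul_smul, inv_smul_smul, smul_left_cancel_iff]
    exacts [ta, tb, tc]
  let N' := N.map G.subtype
  have hgen : ∀ s : Finset α, s.card = 2 + 1 → ∀ σ : Equiv.Perm ↥s, ∃ g ∈ N', ∀ x : ↥s,
      g (x : α) = σ x := by
    intro s hs σ
    induction σ using Equiv.Perm.swap_induction_on with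
    | one => exact ⟨1, one_mem _, fun _ => rfl⟩
    | swap_mul f x y hxy ih =>
      obtain ⟨g, hg, h⟩ := ih
      obtain ⟨z, hz, hz'⟩ := Finset.exists_mem_notMem_of_card_lt_card
        (show ({x.1, y.1} : Finset α).card < s.card by
          rw [hs]; exact lt_of_le_of_lt Finset.card_le_two (by norm_num))
      simp only [Finset.mem_insert, Finset.mem_singleton, not_or] at hz'
      have hxy' : x.1 ≠ y.1 := fun h => hxy (Subtype.ext h)
      obtain ⟨n, hn, h1, h2, h3⟩ := hsw x y z hxy' (Ne.symm hz'.1) (Ne.symm hz'.2)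
      refine ⟨n * g, N'.mul_mem ⟨n, hn, rfl⟩ hg, fun u => ?_⟩
      rw [Equiv.Perm.mul_apply, h, Equiv.Perm.mul_apply]
      generalize f u = v
      have hs' : s = {x.1, y.1, z} := (Finset.eq_of_subset_of_card_le (by
        intro w hw
        simp only [Finset.mem_insert, Finset.mem_singleton] at hw
        rcases hw with rfl | rfl | rfl
        exacts [x.2, y.2, hz]) (by
          rw [hs, Finset.card_eq_three.2 ⟨_, _, _, hxy', Ne.symm hz'.1, Ne.symm hz'.2, rfl⟩])).symm
      by_cases e1 : v = x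
      · rw [e1, Equiv.swap_apply_left]; exact h1
      by_cases e2 : v = y
      · rw [e2, Equiv.swap_apply_right]; exact h2
      rw [Equiv.swap_apply_of_ne_of_ne e1 e2]
      have : v.1 ∈ ({x.1, y.1, z} : Finset α) := hs' ▸ v.2
      simp only [Finset.mem_insert, Finset.mem_singleton] at this
      rcases this with h | h | h
      · exact absurd (Subtype.ext h) e1
      · exact absurd (Subtype.ext h) e2
      · rw [h]; exact h3
  refine H7.mt_succ_of h2 {a, b} (Finset.card_pair hab) fun c d hc hd => ?_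
  by_contra hcon
  let A := fixingSubgroup N' (({a, b} : Finset α) : Set α)
  have hA : ∀ x y : α, y ∈ MulAction.orbit A x ↔ ∃ n ∈ N, (∀ z ∈ ({a, b} : Finset α), n • z = z) ∧
      n • x = y := fun x y => by
    constructor
    · rintro ⟨⟨⟨_, n, hn, rfl⟩, h⟩, rfl⟩
      exact ⟨n, hn, (mem_fixingSubgroup_iff N').1 h, rfl⟩
    · rintro ⟨n, hn, h, rfl⟩
      exact ⟨⟨⟨n, n, hn, rfl⟩, (mem_fixingSubgroup_iff N').2 h⟩, rfl⟩
  obtain ⟨i, hi⟩ := S0706.result N' (k := 2) (by omega) hgen Nat.prime_two le_rfl {a, b}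
    (Finset.card_pair hab) ![c, d] (fun i => by fin_cases i <;> assumption) (fun i j hij h => by
      obtain ⟨n, hn, h1, h2⟩ := (hA _ _).1 h
      fin_cases i <;> fin_cases j
      · exact hij rfl
      · exact hcon ⟨⟨n, hn⟩, h1, h2⟩
      · exact hcon ⟨⟨n, hn⟩⁻¹, fun z hz => inv_smul_eq_iff.2 (h1 z hz).symm,
          inv_smul_eq_iff.2 h2.symm⟩
      · exact hij rfl)
  have hi' : ![c, d] i ∉ ({a, b} : Finset α) := by fin_cases i <;> assumption
  have := H7.dvd_ncard_of_orbits (G := A) (m := 2) (({a, b} : Finset α) : Set α)ᶜ (Set.toFinite _)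
    (fun g x hx hgx => hx (by
      have := (mem_fixingSubgroup_iff N').1 g.2 _ hgx
      change (g : N') • (g : N') • x = (g : N') • x at this
      rw [smul_left_cancel_iff] at this
      change (g : N') • x ∈ _ at hgx
      rwa [this] at hgx)) (fun x hx => by
      obtain ⟨g, hg, rfl⟩ := H7.mt_fix hG h3 {a, b} (by rw [Finset.card_pair hab]; norm_num) hi' hx
      convert hi using 1
      symm
      refine Nat.card_congr ((MulAction.toPerm g).subtypeEquiv fun y => ?_)
      have hg' : ∀ z ∈ ({a, b} : Finset α), g⁻¹ • z = z := fun z hz => inv_smul_eq_iff.2 (hg z hz).symm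
      rw [hA, hA]
      constructor
      · rintro ⟨n, hn, h1, rfl⟩
        exact ⟨g * n * g⁻¹, Subgroup.Normal.conj_mem inferInstance _ hn g,
          fun z hz => by rw [mul_smul, mul_smul, hg' z hz, h1 z hz, hg z hz], by simp [mul_smul]⟩
      · rintro ⟨n, hn, h1, h2⟩
        exact ⟨g⁻¹ * n * g, Subgroup.Normal.conj_mem' inferInstance _ hn g,
          fun z hz => by rw [mul_smul, mul_smul, hg z hz, h1 z hz, hg' z hz], by
            simp [mul_smul, h2]⟩)
  rw [Set.ncard_compl, Set.ncard_coe_finset, Finset.card_pair hab, Nat.card_eq_fintype_card] at this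
  obtain ⟨r, hr⟩ := hodd
  omega

end Cfsg.Agent.S0699
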