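import Cfsg.Statements.S0700
import Mathlib
import Cfsg.Agent.H7.Normal
import Cfsg.Agent.S0721

set_option autoImplicit false
open Cfsg

namespace Cfsg.Agent.S0700

open MulAction
open scoped Pointwise

theorem prim {G α : Type*} [Group G] [MulAction G α] [Finite G] [Finite α] [Nontrivial α]
    [FaithfulSMul G α] (hG : IsMultiplyPretransitive G α 2) (N : Subgroup G) [hN : N.Normal]
    [IsPretransitive N α] (hnp : ¬ IsPreprimitive N α) :
    ∀ a b : α, a ≠ b → ∀ g ∈ N, g • a = a → g • b = b → g = 1 := by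
  let P : Set α → Prop := fun B => (∀ n ∈ N, ∀ x ∈ B, n • x ∈ B → ∀ y ∈ B, n • y ∈ B) ∧
    B.Nontrivial ∧ B ≠ Set.univ
  have hex : ∃ B, P B := by
    by_contra h
    refine hnp ⟨fun {B} hB => ?_⟩
    by_contra h'
    rw [IsTrivialBlock, not_or, Set.not_subsingleton_iff] at h'
    refine h ⟨B, fun n hn x hx hnx y hy => ?_, h'⟩
    have := hB.smul_eq_of_mem (g := (⟨n, hn⟩ : N)) hx hnx
    rw [← this]; exact Set.smul_mem_smul_set hy
  obtain ⟨B, hB, hmin⟩ := exists_minimalFor_of_wellFoundedLT P Set.ncard hex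
  have hP : ∀ g : G, P (g • B) := fun g => ⟨fun n hn x hx hnx y hy => by
    rw [Set.mem_smul_set_iff_inv_smul_mem] at *
    have := hB.1 (g⁻¹ * n * g) (hN.conj_mem' _ hn g) _ hx (by simpa [mul_smul] using hnx) _ hy
    simpa [mul_smul] using this, hB.2.1.image (MulAction.injective g), fun h => hB.2.2 (by
      rw [← inv_smul_smul g B, h, Set.smul_set_univ])⟩
  have line : ∀ x y : α, x ≠ y → ∃ g : G, x ∈ g • B ∧ y ∈ g • B := fun x y hxy => by
    obtain ⟨u, hu, v, hv, huv⟩ := hB.2.1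
    obtain ⟨g, rfl, rfl⟩ := H7.mt_two hG huv hxy
    exact ⟨g, Set.smul_mem_smul_set hu, Set.smul_mem_smul_set hv⟩
  have uniq : ∀ (g g' : G) (x y : α), x ≠ y → x ∈ g • B → y ∈ g • B → x ∈ g' • B → y ∈ g' • B →
      g • B ⊆ g' • B := fun g g' x y hxy h1 h2 h3 h4 => by
    have hI : P (g • B ∩ g' • B) := ⟨fun n hn u hu hnu v hv =>
      ⟨(hP g).1 n hn u hu.1 hnu.1 v hv.1, (hP g').1 n hn u hu.2 hnu.2 v hv.2⟩,
      ⟨x, ⟨h1, h3⟩, y, ⟨h2, h4⟩, hxy⟩, fun h => (hP g).2.2 (Set.eq_univ_of_subset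
        Set.inter_subset_left h)⟩
    have hle : (g • B ∩ g' • B).ncard ≤ B.ncard := by
      rw [← Set.ncard_smul_set g B]; exact Set.ncard_le_ncard Set.inter_subset_left
    have := hmin hI hle
    rw [← Set.ncard_smul_set g B] at this
    exact Set.inter_eq_left.1 (Set.eq_of_subset_of_ncard_le Set.inter_subset_left this)
  have A : ∀ n ∈ N, ∀ x y c : α, x ≠ y → n • x = x → n • y = y →
      (∀ g : G, x ∈ g • B → y ∈ g • B → c ∉ g • B) → n • c = c := by
    intro n hn x y c hxy hx hy h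
    obtain ⟨g₀, k1, k2⟩ := line x y hxy
    have hxc : x ≠ c := by rintro rfl; exact h g₀ k1 k2 k1
    have hyc : y ≠ c := by rintro rfl; exact h g₀ k1 k2 k2
    obtain ⟨g, h1, h2⟩ := line x c hxc
    obtain ⟨g', h3, h4⟩ := line y c hyc
    by_contra hne
    exact h g' (uniq g g' _ _ hne ((hP g).1 n hn x h1 (hx.symm ▸ h1) c h2) h2
      ((hP g').1 n hn y h3 (hy.symm ▸ h3) c h4) h4 h1) h3 h4
  intro a b hab n hn ha hb
  obtain ⟨g, h1, h2⟩ := line a b hab
  have out : ∀ d, d ∉ g • B → n • d = d := fun d hd =>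
    A n hn a b d hab ha hb fun g' k1 k2 k3 => hd (uniq g' g a b hab k1 k2 h1 h2 k3)
  obtain ⟨d, hd⟩ := (Set.ne_univ_iff_exists_notMem _).1 (hP g).2.2
  refine H7.eq_one_of_fix (α := α) fun c => ?_
  by_cases hc : c ∈ g • B
  · by_cases hca : c = a
    · rw [hca, ha]
    exact A n hn a d c (by rintro rfl; exact hd h1) ha (out d hd)
      fun g' k1 k2 k3 => hd (uniq g' g c a hca k3 k1 hc h1 k2)
  · exact out c hc

theorem card_orbit_conj {G α : Type*} [Group G] [MulAction G α] (N : Subgroup G) [hN : N.Normal]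
    {a : α} {g : G} (hg : g • a = a) (b : α) :
    Nat.card (orbit (stabilizer N a) (g • b)) = Nat.card (orbit (stabilizer N a) b) := by
  symm
  refine Nat.card_congr ((MulAction.toPerm g).subtypeEquiv fun y => ?_)
  constructor
  · rintro ⟨⟨⟨n, hn⟩, h1⟩, rfl⟩
    have h1' : n • a = a := h1
    refine ⟨⟨⟨g * n * g⁻¹, hN.conj_mem _ hn g⟩, ?_⟩, ?_⟩
    · change (g * n * g⁻¹) • a = a
      rw [mul_smul, mul_smul, inv_smul_eq_iff.2 hg.symm, h1', hg]
    · change (g * n * g⁻¹) • g • b = g • n • b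
      simp [mul_smul]
  · rintro ⟨⟨⟨n, hn⟩, h1⟩, h2⟩
    have h1' : n • a = a := h1
    have h2' : n • g • b = g • y := h2
    refine ⟨⟨⟨g⁻¹ * n * g, hN.conj_mem' _ hn g⟩, ?_⟩, ?_⟩
    · change (g⁻¹ * n * g) • a = a
      rw [mul_smul, mul_smul, hg, h1', inv_smul_eq_iff, hg]
    · change (g⁻¹ * n * g) • b = y
      simp [mul_smul, h2']

theorem main {G α : Type*} [Group G] [MulAction G α] [Finite G] [Finite α]
    [FaithfulSMul G α] (hG : IsMultiplyPretransitive G α 2) (N : Subgroup G) [hNn : N.Normal] (hN : N ≠ ⊥) (hmin : ∀ M : Subgroup G, M.Normal → M ≤ N → M = ⊥ ∨ M = N) : (IsMulCommutative N ∧ (∃ p : ℕ, p.Prime ∧ ∀ n ∈ N, n ^ p = 1) ∧ ∀ a : α, MulAction.stabilizer N a = ⊥) ∨ (IsSimpleGroup N ∧ MulAction.IsPreprimitive N α) := by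
  classical
  haveI : Nontrivial α := by
    by_contra h
    rw [not_nontrivial_iff_subsingleton] at h
    exact hN (eq_bot_iff.2 fun g _ => H7.eq_one_of_fix (α := α) fun x => Subsingleton.elim _ _)
  haveI := isPreprimitive_of_is_two_pretransitive hG
  haveI := H7.normal_trans (α := α) N hN
  by_cases hreg : ∀ a : α, stabilizer N a = ⊥
  · obtain ⟨p, j, hp, -, -, h1, h2⟩ := S0695.elemAb hG N inferInstance hreg
    exact Or.inl ⟨⟨⟨fun x y => Subtype.ext (h1 x x.2 y y.2)⟩⟩, ⟨p, hp, h2⟩, hreg⟩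
  right
  have hprim : IsPreprimitive N α := by
    by_contra hnp
    obtain ⟨K, hK, hm, hKt, hKr⟩ := H7.normal_frobenius_kernel hG N (prim hG N hnp)
    rcases hmin K hK (fun g hg => ((hm g).1 hg).1) with h | h
    · obtain ⟨a, b, hab⟩ := exists_pair_ne α
      obtain ⟨k, hk⟩ := hKt.exists_smul_eq a b
      have : k = 1 := Subtype.ext (Subgroup.mem_bot.1 (h ▸ k.2))
      rw [this, one_smul] at hk; exact hab hk
    · subst h; exact hreg hKr
  refine ⟨?_, hprim⟩
  obtain ⟨T, _, m, hT, hm, ⟨e⟩⟩ := S0721.result N hN hmin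
  obtain ⟨m, rfl⟩ : ∃ k, m = k + 1 := ⟨m - 1, by omega⟩
  rcases m with _ | m
  · exact (e.trans (MulEquiv.funUnique (Fin 1) T)).isSimpleGroup
  exfalso
  obtain ⟨t, ht⟩ := exists_ne (1 : T)
  let C : Subgroup N := ((Pi.evalMonoidHom (fun _ => T) 0).comp e.toMonoidHom).ker
  let A : Subgroup N := (e.symm.toMonoidHom.comp (MonoidHom.mulSingle (fun _ => T) 0)).range
  have hC : ∀ x, x ∈ C ↔ e x 0 = 1 := fun _ => Iff.rfl
  have hA : ∀ x, x ∈ A ↔ ∀ j, j ≠ 0 → e x j = 1 := fun x => by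
    constructor
    · rintro ⟨s, rfl⟩ j hj; simp [Pi.mulSingle_eq_of_ne hj]
    · intro h
      refine ⟨e x 0, e.injective (funext fun j => ?_)⟩
      by_cases hj : j = 0
      · subst hj; simp
      · simp [Pi.mulSingle_eq_of_ne hj, h j hj]
  haveI : A.Normal := ⟨fun n hn g => (hA _).2 fun j hj => by simp [(hA n).1 hn j hj]⟩
  have hAt := H7.normal_trans (α := α) A fun h => ht (by
    have : e.symm (Pi.mulSingle 0 t) ∈ A := ⟨t, rfl⟩
    rw [h, Subgroup.mem_bot] at this
    simpa using congrFun (congrArg e this) 0)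
  have hCt := H7.normal_trans (α := α) C fun h => ht (by
    have : e.symm (Pi.mulSingle 1 t) ∈ C := (hC _).2 (by simp)
    rw [h, Subgroup.mem_bot] at this
    simpa using congrFun (congrArg e this) 1)
  have hc : ∀ x ∈ A, ∀ y ∈ C, x * y = y * x := fun x hx y hy => e.injective (funext fun j => by
    by_cases hj : j = 0
    · subst hj; simp [(hC y).1 hy]
    · simp [(hA x).1 hx j hj])
  push Not at hreg
  obtain ⟨a, ha⟩ := hreg
  have cA := H7.card_eq_of_regular (H7.stabilizer_eq_bot_of_comm hc hCt a)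
  have cC := H7.card_eq_of_regular (H7.stabilizer_eq_bot_of_comm
    (fun n hn m hm => (hc m hm n hn).symm) hAt a)
  have hcomp : A.IsComplement' C := Subgroup.isComplement'_of_disjoint_and_mul_eq_univ (by
    rw [Subgroup.disjoint_def]
    intro x hx hx'
    refine e.injective (funext fun j => ?_)
    by_cases hj : j = 0
    · subst hj; simp [(hC x).1 hx']
    · simp [(hA x).1 hx j hj]) (Set.eq_univ_of_forall fun x =>
      ⟨e.symm (Pi.mulSingle 0 (e x 0)), ⟨_, rfl⟩, (e.symm (Pi.mulSingle 0 (e x 0)))⁻¹ * x,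
        (hC _).2 (by simp), by simp⟩)
  have h1 := hcomp.card_mul
  rw [cA, cC, H7.card_eq_card_mul_card_stabilizer (G := N) a] at h1
  have h2 := Nat.eq_of_mul_eq_mul_left Nat.card_pos h1
  apply ha
  rw [eq_bot_iff]
  intro n hn
  refine H7.eq_one_of_fix (α := α) fun b => ?_
  by_cases hb : b = a
  · rw [hb]; exact hn
  have d1 : Nat.card (orbit (stabilizer N a) b) ∣ Nat.card α := by
    rw [h2, ← H7.card_orbit_mul_card_stabilizer (G := stabilizer N a) b]; exact dvd_mul_right _ _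
  have d2 := H7.dvd_ncard_of_orbits (G := stabilizer N a) (m := Nat.card (orbit (stabilizer N a) b))
    ({a}ᶜ : Set α) (Set.toFinite _) (fun g x hx hgx => hx (by
      have h1 : g • a = a := g.2
      rw [Set.mem_singleton_iff] at hgx ⊢
      exact (smul_left_cancel_iff g).1 (hgx.trans h1.symm))) (fun x hx => by
      obtain ⟨g, h1, rfl⟩ := H7.mt_two hG (Ne.symm hb) (Ne.symm hx)
      rw [card_orbit_conj N h1])
  rw [Set.ncard_compl, Set.ncard_singleton] at d2
  have d3 := Nat.dvd_one.1 ((Nat.dvd_sub_iff_right Finite.one_lt_card.le d1).1 d2)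
  have := (Nat.card_eq_one_iff_unique.1 d3).1
  exact congrArg Subtype.val (this.elim ⟨(⟨n, hn⟩ : stabilizer N a) • b, mem_orbit _ _⟩
    ⟨b, mem_orbit_self _⟩)

/-- Burnside's Theorem on doubly transitive groups: a minimal normal subgroup of a finite doubly transitive permutation group is elementary abelian and regular, or simple and primitive. -/
theorem result {α : Type*} [Fintype α] [DecidableEq α] (G : Subgroup (Equiv.Perm α)) (hG : MulAction.IsMultiplyPretransitive G α 2) (N : Subgroup G) [N.Normal] (hN : N ≠ ⊥) (hmin : ∀ M : Subgroup G, M.Normal → M ≤ N → M = ⊥ ∨ M = N) : (IsMulCommutative N ∧ (∃ p : ℕ, p.Prime ∧ ∀ n ∈ N, n ^ p = 1) ∧ ∀ a : α, MulAction.stabilizer N a = ⊥) ∨ (IsSimpleGroup N ∧ MulAction.IsPreprimitive N α) := by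
  exact main hG N hN hmin

end Cfsg.Agent.S0700
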