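import Cfsg.Statements.S0701
import Mathlib

set_option autoImplicit false
open Cfsg

namespace Cfsg.Agent.S0701

theorem semireg {α : Type*} (G : Subgroup (Equiv.Perm α)) [MulAction.IsPretransitive G α] : ∀ c ∈ Subgroup.centralizer (G : Set (Equiv.Perm α)), ∀ a : α, c a = a → c = 1 := by
  intro c hc a ha
  ext x
  obtain ⟨g, rfl⟩ := MulAction.exists_smul_eq G a x
  have := congrArg (fun σ : Equiv.Perm α => σ a) (hc g g.2)
  simp only [Equiv.Perm.mul_apply, ha] at this
  exact this.symm

/-- The centraliser in the full symmetric group of a transitive permutation group `G` is semiregular, and it is transitive if and only if `G` is regular. -/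
theorem result {α : Type*} (G : Subgroup (Equiv.Perm α)) [MulAction.IsPretransitive G α] : (∀ c ∈ Subgroup.centralizer (G : Set (Equiv.Perm α)), ∀ a : α, c a = a → c = 1) ∧ (MulAction.IsPretransitive (Subgroup.centralizer (G : Set (Equiv.Perm α))) α ↔ ∀ a : α, MulAction.stabilizer G a = ⊥) := by
  refine ⟨semireg G, fun h a => ?_, fun h => ⟨fun a b => ?_⟩⟩
  · rw [eq_bot_iff]
    intro g hg
    rw [Subgroup.mem_bot]
    ext x
    obtain ⟨c, rfl⟩ := MulAction.exists_smul_eq (Subgroup.centralizer (G : Set (Equiv.Perm α))) a x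
    have := congrArg (fun σ : Equiv.Perm α => σ a) (c.2 g g.2)
    have hg' : (g : Equiv.Perm α) a = a := hg
    simp only [Equiv.Perm.mul_apply, hg'] at this
    exact this
  · have key : ∀ a : α, Function.Bijective (fun g : G => (g : Equiv.Perm α) a) := fun a =>
      ⟨fun g g' hgg => by
        have : g⁻¹ * g' ∈ MulAction.stabilizer G a := by
          change (g : Equiv.Perm α)⁻¹ ((g' : Equiv.Perm α) a) = a
          simp only at hgg
          rw [← hgg]; simp
        rw [h a, Subgroup.mem_bot] at this
        exact inv_mul_eq_one.1 this, fun x => MulAction.exists_smul_eq G a x⟩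
    refine ⟨⟨(Equiv.ofBijective _ (key a)).symm.trans (Equiv.ofBijective _ (key b)), ?_⟩, ?_⟩
    · intro g hg
      ext x
      obtain ⟨k, rfl⟩ := (key a).2 x
      have h1 : g ((k : Equiv.Perm α) a) = ((⟨g, hg⟩ * k : G) : Equiv.Perm α) a := rfl
      simp only [Equiv.Perm.mul_apply, Equiv.trans_apply]
      rw [h1, Equiv.ofBijective_symm_apply_apply (fun g : G => (g : Equiv.Perm α) a),
        Equiv.ofBijective_symm_apply_apply (fun g : G => (g : Equiv.Perm α) a)]
      rfl
    · change Equiv.ofBijective _ (key b) ((Equiv.ofBijective _ (key a)).symm a) = b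
      have h1 : (Equiv.ofBijective _ (key a)).symm a = 1 := by
        rw [Equiv.symm_apply_eq]; rfl
      rw [h1]; rfl

end Cfsg.Agent.S0701
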