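import Cfsg.Statements.S0702
import Mathlib
import Cfsg.Agent.S0701
import Cfsg.Agent.H7.Basic

set_option autoImplicit false
open Cfsg

namespace Cfsg.Agent.S0702

/-- For a transitive permutation group `G` on a finite set, the centraliser of `G` in the symmetric group is isomorphic to `N_G(G_ω)/G_ω`, and its orbit of `ω` is the set of fixed points of `G_ω`. -/
theorem result {α : Type*} [Finite α] (G : Subgroup (Equiv.Perm α)) [MulAction.IsPretransitive G α] (a : α) : Nonempty (Subgroup.centralizer (G : Set (Equiv.Perm α)) ≃* Subgroup.normalizer ((MulAction.stabilizer G a : Subgroup G) : Set G) ⧸ (MulAction.stabilizer G a).subgroupOf (Subgroup.normalizer ((MulAction.stabilizer G a : Subgroup G) : Set G))) ∧ MulAction.orbit (Subgroup.centralizer (G : Set (Equiv.Perm α))) a = MulAction.fixedPoints (MulAction.stabilizer G a) α := by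
  have hsec : ∀ x : α, ∃ g : G, g • a = x := fun x => MulAction.exists_smul_eq G a x
  choose sec hsec using hsec
  set N := Subgroup.normalizer ((MulAction.stabilizer G a : Subgroup G) : Set G) with hN
  have wd : ∀ (n : N) (g g' : G), g • a = g' • a → (g * (n : G)⁻¹) • a = (g' * (n : G)⁻¹) • a := by
    intro n g g' h
    have h1 : g'⁻¹ * g ∈ MulAction.stabilizer G a := by
      rw [MulAction.mem_stabilizer_iff, mul_smul, h, inv_smul_smul]
    have h2 := (Subgroup.mem_normalizer_iff.1 n.2 _).1 h1
    rw [MulAction.mem_stabilizer_iff, mul_smul, mul_smul, mul_smul, smul_eq_iff_eq_inv_smul, inv_smul_eq_iff] at h2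
    rw [mul_smul, mul_smul, h2]
  let f : N → α → α := fun n x => (sec x * (n : G)⁻¹) • a
  have hf : ∀ (n : N) (g : G), f n (g • a) = (g * (n : G)⁻¹) • a := fun n g => wd n _ _ (hsec _)
  let act : MulAction N α :=
    { smul := f
      one_smul := fun x => by change f 1 x = x; simp [f, hsec]
      mul_smul := fun n m x => by
        change f (n * m) x = f n (f m x)
        obtain ⟨g, rfl⟩ := MulAction.exists_smul_eq G a x
        rw [hf (n * m), hf m, hf n]; simp [mul_assoc] }
  let φ : N →* Equiv.Perm α := @MulAction.toPermHom N α _ act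
  have hφ : ∀ (n : N) (g : G), φ n (g • a) = (g * (n : G)⁻¹) • a := hf
  have hker : φ.ker = (MulAction.stabilizer G a).subgroupOf N := by
    ext n
    rw [MonoidHom.mem_ker, Subgroup.mem_subgroupOf, MulAction.mem_stabilizer_iff]
    constructor
    · intro h
      have := hφ n 1
      rw [h, one_smul, one_mul, eq_inv_smul_iff] at this
      exact this
    · intro h
      ext x
      rw [← hsec x, hφ, mul_smul, inv_smul_eq_iff.2 h.symm]; rfl
  have hfix : ∀ c ∈ Subgroup.centralizer (G : Set (Equiv.Perm α)), ∀ g : G, c (g • a) = g • c a := fun c hc g =>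
    (congrArg (fun σ : Equiv.Perm α => σ a) (hc g g.2)).symm
  have hnorm : ∀ g : G, (∀ h : G, h • a = a → h • g • a = g • a) → g⁻¹ ∈ N := by
    intro g hg
    apply Subgroup.mem_normalizer_fintype
    intro h hh
    rw [SetLike.mem_coe, MulAction.mem_stabilizer_iff, inv_inv, mul_smul, mul_smul, hg h hh, inv_smul_smul]
  have hrange : φ.range = Subgroup.centralizer (G : Set (Equiv.Perm α)) := by
    ext c
    constructor
    · rintro ⟨n, rfl⟩ g hg
      ext x
      rw [← hsec x]
      change (⟨g, hg⟩ : G) • φ n _ = φ n ((⟨g, hg⟩ : G) • _)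
      rw [← mul_smul, hφ, hφ, ← mul_smul, mul_assoc]
    · intro hc
      refine ⟨⟨(sec (c a))⁻¹, hnorm _ fun h hh => by rw [hsec, ← hfix c hc, hh]⟩, ?_⟩
      ext x
      rw [← hsec x, hφ, hfix c hc, inv_inv, mul_smul, hsec]
  refine ⟨⟨((MulEquiv.subgroupCongr hrange).symm.trans (QuotientGroup.quotientKerEquivRange φ).symm).trans
    (QuotientGroup.quotientMulEquivOfEq hker)⟩, ?_⟩
  ext x
  constructor
  · rintro ⟨c, rfl⟩ h
    change (h : G) • (c : Equiv.Perm α) a = (c : Equiv.Perm α) a
    rw [← hfix c c.2, h.2]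
  · intro hx
    refine ⟨⟨φ ⟨(sec x)⁻¹, hnorm _ fun h hh => by rw [hsec]; exact hx ⟨h, hh⟩⟩, hrange.le ⟨_, rfl⟩⟩, ?_⟩
    change φ _ a = x
    have := hφ ⟨(sec x)⁻¹, hnorm _ fun h hh => by rw [hsec]; exact hx ⟨h, hh⟩⟩ 1
    simpa [hsec] using this

end Cfsg.Agent.S0702
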