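import Cfsg.Statements.S0704
import Mathlib
import Cfsg.Agent.H7.Basic

set_option autoImplicit false
open Cfsg

namespace Cfsg.Agent.S0704

theorem cent {α : Type*} (G : Subgroup (Equiv.Perm α)) (M N : Subgroup G)
    (hc : ∀ m ∈ M, ∀ n ∈ N, m * n = n * m) (hMt : MulAction.IsPretransitive M α)
    (hNt : MulAction.IsPretransitive N α) :
    Subgroup.centralizer ((M.map G.subtype : Subgroup (Equiv.Perm α)) : Set (Equiv.Perm α)) =
      N.map G.subtype := by
  apply le_antisymm
  · intro σ hσ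
    by_cases hα : IsEmpty α
    · rw [Subsingleton.elim σ 1]; exact one_mem _
    obtain ⟨a⟩ := not_isEmpty_iff.1 hα
    obtain ⟨n, hn⟩ := MulAction.exists_smul_eq N a (σ a)
    refine ⟨n, n.2, ?_⟩
    ext x
    obtain ⟨m, rfl⟩ := MulAction.exists_smul_eq M a x
    have h1 := congrArg (fun t : Equiv.Perm α => t a) (hσ _ ⟨m, m.2, rfl⟩)
    have h2 := congrArg (fun t : G => t • a) (hc m m.2 n n.2)
    simp only [mul_smul] at h2
    change ((n : G) • (m : G) • a) = σ ((m : G) • a)
    rw [← h2]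
    change (m : G) • (n • a) = _
    rw [hn]; exact h1
  · rintro _ ⟨n, hn, rfl⟩ _ ⟨m, hm, rfl⟩
    exact congrArg Subtype.val (hc m hm n hn)

theorem reg {α : Type*} (G : Subgroup (Equiv.Perm α)) (M N : Subgroup G)
    (hc : ∀ m ∈ M, ∀ n ∈ N, m * n = n * m)
    (hNt : MulAction.IsPretransitive N α) (a : α) : MulAction.stabilizer M a = ⊥ := by
  rw [eq_bot_iff]
  intro m hm
  rw [Subgroup.mem_bot]
  ext x
  obtain ⟨n, rfl⟩ := MulAction.exists_smul_eq N a x
  have h2 := congrArg (fun t : G => t • a) (hc m m.2 n n.2)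
  simp only [mul_smul] at h2
  have hm' : (m : G) • a = a := hm
  rw [hm'] at h2
  exact h2

theorem comm {G : Type*} [Group G] (M L : Subgroup G) [hM : M.Normal] [hL : L.Normal]
    (hMmin : ∀ L : Subgroup G, L.Normal → L ≤ M → L = ⊥ ∨ L = M) (h : ¬ M ≤ L) :
    ∀ m ∈ M, ∀ n ∈ L, m * n = n * m := by
  intro m hm n hn
  refine Subgroup.commute_of_normal_of_disjoint M L hM hL ?_ m n hm hn
  rcases hMmin (M ⊓ L) inferInstance inf_le_left with h1 | h1
  · exact disjoint_iff.2 h1
  · exact absurd (inf_eq_left.1 h1) h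

theorem le_of_comm {α : Type*} (G : Subgroup (Equiv.Perm α)) (M N L : Subgroup G)
    (h : Subgroup.centralizer ((M.map G.subtype : Subgroup (Equiv.Perm α)) : Set (Equiv.Perm α)) =
      N.map G.subtype) (hc : ∀ m ∈ M, ∀ n ∈ L, m * n = n * m) : L ≤ N := by
  intro x hx
  have : (x : Equiv.Perm α) ∈ N.map G.subtype := by
    rw [← h]
    rintro _ ⟨m, hm, rfl⟩
    exact congrArg Subtype.val (hc m hm x hx)
  obtain ⟨y, hy, hyx⟩ := this
  rwa [← Subtype.ext hyx]

/-- Two distinct transitive minimal normal subgroups `M`, `N` of a permutation group are regular, non-abelian, isomorphic, each other's centraliser in the symmetric group, and the only minimal normal subgroups. -/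
theorem result {α : Type*} (G : Subgroup (Equiv.Perm α)) (M N : Subgroup G) [M.Normal] [N.Normal] (hM : M ≠ ⊥) (hN : N ≠ ⊥) (hMmin : ∀ L : Subgroup G, L.Normal → L ≤ M → L = ⊥ ∨ L = M) (hNmin : ∀ L : Subgroup G, L.Normal → L ≤ N → L = ⊥ ∨ L = N) (hMN : M ≠ N) (hMt : MulAction.IsPretransitive M α) (hNt : MulAction.IsPretransitive N α) : (∀ a : α, MulAction.stabilizer M a = ⊥) ∧ (∀ a : α, MulAction.stabilizer N a = ⊥) ∧ ¬ IsMulCommutative M ∧ Nonempty (M ≃* N) ∧ Subgroup.centralizer ((M.map G.subtype : Subgroup (Equiv.Perm α)) : Set (Equiv.Perm α)) = N.map G.subtype ∧ Subgroup.centralizer ((N.map G.subtype : Subgroup (Equiv.Perm α)) : Set (Equiv.Perm α)) = M.map G.subtype ∧ ∀ L : Subgroup G, L.Normal → L ≠ ⊥ → (∀ L' : Subgroup G, L'.Normal → L' ≤ L → L' = ⊥ ∨ L' = L) → L = M ∨ L = N := by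
  have hnle : ¬ M ≤ N := fun h => by
    rcases hNmin M inferInstance h with h | h
    exacts [hM h, hMN h]
  have hc := comm M N hMmin hnle
  have hc' : ∀ n ∈ N, ∀ m ∈ M, n * m = m * n := fun n hn m hm => (hc m hm n hn).symm
  have h1 := cent G M N hc hMt hNt
  have h2 := cent G N M hc' hNt hMt
  have r1 := reg G M N hc hNt
  have r2 := reg G N M hc' hMt
  refine ⟨r1, r2, fun h => hnle (le_of_comm G M N M h1 fun m hm n hn =>
    congrArg Subtype.val (h.1.1 ⟨m, hm⟩ ⟨n, hn⟩)), ?_, h1, h2, fun L hL hL0 hLmin => ?_⟩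
  · by_cases hα : IsEmpty α
    · exact absurd (eq_bot_iff.2 fun x _ => Subtype.ext (Subsingleton.elim _ _)) hM
    obtain ⟨a⟩ := not_isEmpty_iff.1 hα
    have inj : ∀ (L : Subgroup G), MulAction.stabilizer L a = ⊥ → ∀ x y : L,
        (x : G) • a = (y : G) • a → x = y := fun L hL x y h => by
      have : y⁻¹ * x ∈ MulAction.stabilizer L a := by
        change ((y : G)⁻¹ * x) • a = a
        rw [mul_smul, h, inv_smul_smul]
      rw [hL, Subgroup.mem_bot, inv_mul_eq_one] at this
      exact this.symm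
    have ex : ∀ m : M, ∃ n : N, (n : G) • a = (m : G)⁻¹ • a := fun m =>
      MulAction.exists_smul_eq N a _
    choose φ hφ using ex
    refine ⟨MulEquiv.ofBijective (MonoidHom.mk' φ fun m m' => inj N (r2 a) _ _ ?_) ⟨?_, ?_⟩⟩
    · rw [hφ, Subgroup.coe_mul, Subgroup.coe_mul, mul_smul, mul_inv_rev, mul_smul, hφ m', ← hφ m,
        ← mul_smul, ← mul_smul, hc _ (M.inv_mem m'.2) _ (φ m).2]
    · intro m m' h
      have h' : φ m = φ m' := h
      have := hφ m
      rw [h', hφ] at this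
      exact inv_injective (inj M (r1 a) m⁻¹ m'⁻¹ this.symm)
    · intro n
      obtain ⟨m, hm⟩ := MulAction.exists_smul_eq M a ((n : G) • a)
      refine ⟨m⁻¹, inj N (r2 a) _ _ ?_⟩
      change (φ m⁻¹ : G) • a = _
      rw [hφ, Subgroup.coe_inv, inv_inv]; exact hm
  · by_cases h : M ≤ L
    · exact Or.inl ((hLmin M inferInstance h).resolve_left hM).symm
    · exact Or.inr ((hNmin L hL (le_of_comm G M N L h1 (comm M L hMmin h))).resolve_left hL0)

end Cfsg.Agent.S0704
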