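import Cfsg.Statements.S0703
import Mathlib
import Cfsg.Agent.H7.Basic
import Cfsg.Agent.S0704

set_option autoImplicit false
open Cfsg

namespace Cfsg.Agent.S0703

/-- An abelian transitive minimal normal subgroup `M` of a permutation group on a finite set is self-centralising in the symmetric group, regular, elementary abelian, and is the unique minimal normal subgroup. -/
theorem result {α : Type*} [Finite α] (G : Subgroup (Equiv.Perm α)) (M : Subgroup G) [M.Normal] (hM : M ≠ ⊥) (hmin : ∀ L : Subgroup G, L.Normal → L ≤ M → L = ⊥ ∨ L = M) (hab : IsMulCommutative M) (htrans : MulAction.IsPretransitive M α) : Subgroup.centralizer ((M.map G.subtype : Subgroup (Equiv.Perm α)) : Set (Equiv.Perm α)) = M.map G.subtype ∧ (∀ a : α, MulAction.stabilizer M a = ⊥) ∧ (∃ p : ℕ, p.Prime ∧ ∀ m ∈ M, m ^ p = 1) ∧ ∀ L : Subgroup G, L.Normal → L ≠ ⊥ → (∀ L' : Subgroup G, L'.Normal → L' ≤ L → L' = ⊥ ∨ L' = L) → L = M := by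
  have hc : ∀ m ∈ M, ∀ n ∈ M, m * n = n * m := fun m hm n hn =>
    congrArg Subtype.val (hab.1.1 ⟨m, hm⟩ ⟨n, hn⟩)
  have h1 := S0704.cent G M M hc htrans htrans
  refine ⟨h1, S0704.reg G M M hc htrans, ?_, fun L hL hL0 hLmin => ?_⟩
  · haveI : Nontrivial M := (Subgroup.nontrivial_iff_ne_bot M).2 hM
    obtain ⟨p, hp, hpd⟩ := Nat.exists_prime_and_dvd (Finite.one_lt_card (α := M)).ne'
    haveI := Fact.mk hp
    obtain ⟨x, hx⟩ := exists_prime_orderOf_dvd_card' p hpd
    let L : Subgroup G :=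
      { carrier := {m | m ∈ M ∧ m ^ p = 1}
        one_mem' := ⟨M.one_mem, one_pow _⟩
        mul_mem' := fun {a b} ha hb => ⟨M.mul_mem ha.1 hb.1, by
          rw [Commute.mul_pow (hc a ha.1 b hb.1), ha.2, hb.2, one_mul]⟩
        inv_mem' := fun {a} ha => ⟨M.inv_mem ha.1, by rw [inv_pow, ha.2, inv_one]⟩ }
    have hL : L.Normal := ⟨fun n hn g => ⟨Subgroup.Normal.conj_mem inferInstance n hn.1 g, by
      rw [conj_pow, hn.2, mul_one, mul_inv_cancel]⟩⟩
    rcases hmin L hL (fun x hx => hx.1) with h | h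
    · have : (x : G) ∈ L := ⟨x.2, by rw [← hx, ← Subgroup.orderOf_coe, pow_orderOf_eq_one]⟩
      rw [h, Subgroup.mem_bot] at this
      rw [show x = 1 from Subtype.ext this, orderOf_one] at hx
      exact absurd hx.symm hp.ne_one
    · exact ⟨p, hp, fun m hm => (show m ∈ L from h.symm ▸ hm).2⟩
  · by_cases h : M ≤ L
    · exact ((hLmin M inferInstance h).resolve_left hM).symm
    · exact (hmin L hL (S0704.le_of_comm G M M L h1 (S0704.comm M L hmin h))).resolve_left hL0

end Cfsg.Agent.S0703
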