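import Cfsg.Statements.S0708
import Mathlib
import Cfsg.Agent.H7.Perm2

set_option autoImplicit false
open Cfsg

namespace Cfsg.Agent.S0708

/-- Tits' argument: a sharply 4-transitive group (no finiteness assumed) has finite degree at most 11, and at most 6 when the degree is even. -/
theorem result {G : Type*} [Group G] {Ω : Type*} [MulAction G Ω] (h4 : MulAction.IsMultiplyPretransitive G Ω 4) (hsharp : ∀ x : Fin 4 ↪ Ω, MulAction.stabilizer G x = ⊥) (hne : Nonempty (Fin 4 ↪ Ω)) : Finite Ω ∧ Nat.card Ω ≤ 11 ∧ (Even (Nat.card Ω) → Nat.card Ω ≤ 6) := by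
  classical
  obtain ⟨x⟩ := hne
  have d : ∀ i j : Fin 4, i ≠ j → x i ≠ x j := fun i j h => x.injective.ne h
  set p := x 0
  set q := x 1
  set a := x 2
  set b := x 3
  have hpq : p ≠ q := d 0 1 (by decide)
  have hpa : p ≠ a := d 0 2 (by decide)
  have hpb : p ≠ b := d 0 3 (by decide)
  have hqa : q ≠ a := d 1 2 (by decide)
  have hqb : q ≠ b := d 1 3 (by decide)
  have hab : a ≠ b := d 2 3 (by decide)
  obtain ⟨w, wp, wq, wa, wb⟩ := H7.mt_four h4 hpq hpa hpb hqa hqb hab hpq hpb hpa hqb hqa hab.symm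
  have hw : w * w = 1 := H7.sharp_four hsharp hpq hpa hpb hqa hqb hab
    (by rw [mul_smul, wp, wp]) (by rw [mul_smul, wq, wq]) (by rw [mul_smul, wa, wb])
    (by rw [mul_smul, wb, wa])
  have ww : ∀ y : Ω, w • w • y = y := fun y => by rw [← mul_smul, hw, one_smul]
  have hw1 : w ≠ 1 := fun h => hab (by rw [← wa, h, one_smul])
  let F : Set Ω := MulAction.fixedBy Ω w
  obtain ⟨r, hr⟩ : ∃ r, F ⊆ {p, q, r} := by
    by_cases h : ∃ r ∈ F, r ≠ p ∧ r ≠ q
    · obtain ⟨r, hr, hrp, hrq⟩ := h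
      refine ⟨r, fun y hy => ?_⟩
      by_contra hc
      simp only [Set.mem_insert_iff, Set.mem_singleton_iff, not_or] at hc
      exact hw1 (H7.sharp_four hsharp hpq hrp.symm (Ne.symm hc.1) hrq.symm (Ne.symm hc.2.1)
        (Ne.symm hc.2.2) wp wq hr hy)
    · refine ⟨p, fun y hy => ?_⟩
      by_contra hc
      simp only [Set.mem_insert_iff, Set.mem_singleton_iff, not_or] at hc
      exact h ⟨y, hy, hc.1, hc.2.1⟩
  have hFf : F.Finite := (Set.toFinite _).subset hr
  have hF3 : F.ncard ≤ 3 := (Set.ncard_le_ncard hr).trans (by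
    have := Finset.card_le_three (a := p) (b := q) (c := r)
    rw [← Set.ncard_coe_finset] at this; simpa using this)
  have hF2 : 2 ≤ F.ncard := by
    rw [← Set.ncard_pair hpq]
    exact Set.ncard_le_ncard (by rintro y (rfl | rfl); exacts [wp, wq]) hFf
  let C : Set Ω := {c | w • c ≠ c ∧ c ≠ a ∧ c ≠ b}
  have hC : ∀ c ∈ C, a ≠ c ∧ a ≠ w • c ∧ b ≠ c ∧ b ≠ w • c ∧ c ≠ w • c := fun c hc =>
    ⟨hc.2.1.symm, fun h => hc.2.2 (by rw [← ww c, ← h, wa]), hc.2.2.symm,
      fun h => hc.2.1 (by rw [← ww c, ← h, wb]), hc.1.symm⟩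
  obtain ⟨φ, hφ, hφi⟩ : ∃ φ : Ω → Ω × Ω, (∀ c ∈ C, φ c ∈ F.offDiag) ∧ Set.InjOn φ C := by
    rcases C.eq_empty_or_nonempty with h | ⟨c₀, hc₀⟩
    · exact ⟨fun _ => (p, p), by simp [h], by simp [h]⟩
    have ex : ∀ c, ∃ g : G, c ∈ C → g • a = a ∧ g • b = b ∧ g • c₀ = c ∧ g • w • c₀ = w • c := by
      intro c
      by_cases hc : c ∈ C
      · obtain ⟨h1, h2, h3, h4', h5⟩ := hC c hc
        obtain ⟨k1, k2, k3, k4, k5⟩ := hC c₀ hc₀
        obtain ⟨g, hg⟩ := H7.mt_four h4 hab k1 k2 k3 k4 k5 hab h1 h2 h3 h4' h5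
        exact ⟨g, fun _ => hg⟩
      · exact ⟨1, fun h => absurd h hc⟩
    choose g hg using ex
    have hcomm : ∀ c ∈ C, ∀ y : Ω, w • g c • y = g c • w • y := fun c hc y => by
      obtain ⟨k1, k2, k3, k4, k5⟩ := hC c₀ hc₀
      obtain ⟨g1, g2, g3, g4⟩ := hg c hc
      have := H7.sharp_four hsharp hab k1 k2 k3 k4 k5 (g := (g c * w)⁻¹ * (w * g c))
        (by rw [mul_smul, inv_smul_eq_iff, mul_smul, mul_smul, g1, wa, g2])
        (by rw [mul_smul, inv_smul_eq_iff, mul_smul, mul_smul, g2, wb, g1])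
        (by rw [mul_smul, inv_smul_eq_iff, mul_smul, mul_smul, g3, g4])
        (by rw [mul_smul, inv_smul_eq_iff, mul_smul, mul_smul, g4, ww, ww, g3])
      rw [← mul_smul, ← mul_smul, ← inv_mul_eq_one.1 this]
    refine ⟨fun c => (g c • p, g c • q), fun c hc => ⟨?_, ?_, by simpa using hpq⟩,
      fun c hc c' hc' h => ?_⟩
    · change w • _ = _; rw [hcomm c hc, wp]
    · change w • _ = _; rw [hcomm c hc, wq]
    · obtain ⟨g1, g2, g3, -⟩ := hg c hc
      obtain ⟨g1', g2', g3', -⟩ := hg c' hc'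
      simp only [Prod.mk.injEq] at h
      have := H7.sharp_four hsharp hpq hpa hpb hqa hqb hab (g := (g c')⁻¹ * g c)
        (by rw [mul_smul, inv_smul_eq_iff, h.1]) (by rw [mul_smul, inv_smul_eq_iff, h.2])
        (by rw [mul_smul, inv_smul_eq_iff, g1, g1']) (by rw [mul_smul, inv_smul_eq_iff, g2, g2'])
      rw [← g3, ← g3', inv_mul_eq_one.1 this]
  have hOf : F.offDiag.Finite := (hFf.prod hFf).subset (Set.offDiag_subset_prod _)
  have hCf : C.Finite := Set.Finite.of_injOn (fun c hc => hφ c hc) hφi hOf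
  have hCc : C.ncard ≤ F.ncard * F.ncard - F.ncard := by
    refine (Set.ncard_le_ncard_of_injOn φ hφ hφi hOf).trans ?_
    rw [← hFf.coe_toFinset, ← Finset.coe_offDiag, Set.ncard_coe_finset, Set.ncard_coe_finset,
      Finset.offDiag_card]
  have hU : (Set.univ : Set Ω) ⊆ F ∪ {a, b} ∪ C := fun y _ => by
    by_contra h
    simp only [Set.mem_union, Set.mem_insert_iff, Set.mem_singleton_iff, not_or] at h
    exact h.2 ⟨h.1.1, h.1.2.1, h.1.2.2⟩
  have hUf := (hFf.union (Set.toFinite {a, b})).union hCf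
  haveI : Finite Ω := Set.finite_univ_iff.1 (hUf.subset hU)
  have hn : Nat.card Ω ≤ F.ncard + 2 + C.ncard := by
    rw [← Set.ncard_univ]
    refine (Set.ncard_le_ncard hU).trans ((Set.ncard_union_le _ _).trans ?_)
    have := Set.ncard_union_le F {a, b}
    rw [Set.ncard_pair hab] at this
    omega
  have hpar : Nat.card Ω ≡ F.ncard [MOD 2] :=
    H7.card_fixedBy_modEq (n := 1) Nat.prime_two (by rw [pow_one, sq, hw])
  refine ⟨this, ?_, fun he => ?_⟩
  · interval_cases F.ncard <;> omega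
  · rw [Nat.even_iff] at he
    unfold Nat.ModEq at hpar
    interval_cases F.ncard <;> omega

end Cfsg.Agent.S0708
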