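import Cfsg.Statements.S0709
import Cfsg.Agent.L.Cores

set_option autoImplicit false
open Cfsg

namespace Cfsg.Agent.S0709

open Cfsg.Agent
open Subgroup

theorem step {Γ : Type*} [Group Γ] {A B : Subgroup Γ} (hAB : A ≤ B) {a b : Γ} (ha : a ∈ B)
    (hB : ∀ g ∈ B, g ∈ A ∨ ∃ x ∈ A, ∃ y ∈ A, g = x * a * y) (hn : ∀ g ∈ A, b * g * b⁻¹ ∈ A)
    (hb : b ^ 2 ∈ A) (hab : (a * b) ^ 3 ∈ A) :
    ∀ g ∈ B ⊔ zpowers b, g ∈ B ∨ ∃ x ∈ B, ∃ y ∈ B, g = x * b * y := by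
  have K : ∀ g ∈ B, b * g * b ∈ B ∨ ∃ x ∈ B, ∃ y ∈ B, b * g * b = x * b * y := by
    intro g hg
    rcases hB g hg with h | ⟨x, hx, y, hy, rfl⟩
    · left
      have := hAB (mul_mem (hn g h) hb)
      simpa [pow_two, mul_assoc] using this
    · right
      refine ⟨(b * x * b⁻¹) * a⁻¹ * (a * b) ^ 3 * (b ^ 2)⁻¹,
        mul_mem (mul_mem (mul_mem (hAB (hn x hx)) (inv_mem ha)) (hAB hab)) (inv_mem (hAB hb)),
        a⁻¹ * (b ^ 2)⁻¹ * (b * y * b⁻¹) * b ^ 2,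
        mul_mem (mul_mem (mul_mem (inv_mem ha) (inv_mem (hAB hb))) (hAB (hn y hy))) (hAB hb), ?_⟩
      simp [pow_succ, mul_assoc]
  let S : Subgroup Γ :=
    { carrier := {g | g ∈ B ∨ ∃ x ∈ B, ∃ y ∈ B, g = x * b * y}
      one_mem' := Or.inl (one_mem _)
      mul_mem' := by
        rintro g h (hg | ⟨x, hx, y, hy, rfl⟩) (hh | ⟨x', hx', y', hy', rfl⟩)
        · exact Or.inl (mul_mem hg hh)
        · exact Or.inr ⟨g * x', mul_mem hg hx', y', hy', by simp [mul_assoc]⟩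
        · exact Or.inr ⟨x, hx, y * h, mul_mem hy hh, by simp [mul_assoc]⟩
        · rcases K (y * x') (mul_mem hy hx') with h1 | ⟨u, hu, v, hv, h1⟩
          · left
            have := mul_mem (mul_mem hx h1) hy'
            simpa [mul_assoc] using this
          · refine Or.inr ⟨x * u, mul_mem hx hu, v * y', mul_mem hv hy', ?_⟩
            calc x * b * y * (x' * b * y') = x * (b * (y * x') * b) * y' := by simp [mul_assoc]
              _ = _ := by rw [h1]; simp [mul_assoc]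
      inv_mem' := by
        rintro g (hg | ⟨x, hx, y, hy, rfl⟩)
        · exact Or.inl (inv_mem hg)
        · exact Or.inr ⟨y⁻¹ * (b ^ 2)⁻¹, mul_mem (inv_mem hy) (inv_mem (hAB hb)), x⁻¹, inv_mem hx, by simp [pow_two, mul_assoc]⟩ }
  have : B ⊔ zpowers b ≤ S := sup_le (fun g hg => Or.inl hg) (zpowers_le.mpr (Or.inr ⟨1, one_mem _, 1, one_mem _, by simp⟩))
  exact fun g hg => this hg

def LL {Γ : Type*} [Group Γ] (A : Subgroup Γ) (s : ℕ → Γ) : ℕ → Subgroup Γ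
  | 0 => A
  | k + 1 => LL A s k ⊔ zpowers (s (k + 1))

theorem LL_mono {Γ : Type*} [Group Γ] (A : Subgroup Γ) (s : ℕ → Γ) : Monotone (LL A s) :=
  monotone_nat_of_le_succ fun _ => le_sup_left

theorem s_mem {Γ : Type*} [Group Γ] (A : Subgroup Γ) (s : ℕ → Γ) (k : ℕ) : s (k + 1) ∈ LL A s (k + 1) :=
  (le_sup_right : zpowers (s (k + 1)) ≤ LL A s k ⊔ zpowers (s (k + 1))) (mem_zpowers _)

/-- Witt's Lemma for constructing transitive extensions. Points `q 1, …, q t` (`t ≥ 2`) of a finite set are given; `G` fixes `q i` for `i ≥ 3` and is doubly transitive on the remaining points; `s 1 ∈ G` swaps `q 1, q 2`; for `2 ≤ i ≤ t-1`, `s i` swaps `q i, q (i+1)` and fixes the other `q j`; with `H` the stabiliser of `q 1, q 2` in `G`: `s i ^ 2 ∈ H`, `(s i * s (i+1)) ^ 3 ∈ H`, `(s i * s j) ^ 2 ∈ H` for `j ≥ i + 2`, and `s i` (`i ≥ 2`) normalises the stabiliser of `q 2` in `G`. Then `G` and the `s i` generate a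 `t`-transitive group whose pointwise stabiliser of the `q`'s is `H`. -/
theorem result {α : Type*} [Fintype α] [DecidableEq α] (t : ℕ) (ht : 2 ≤ t) (q : ℕ → α) (hq : ∀ i j : ℕ, 1 ≤ i → i ≤ t → 1 ≤ j → j ≤ t → q i = q j → i = j) (G : Subgroup (Equiv.Perm α)) (hfix : ∀ g ∈ G, ∀ i : ℕ, 3 ≤ i → i ≤ t → g (q i) = q i) (h2 : ∀ a b c d : α, (∀ i, 3 ≤ i → i ≤ t → a ≠ q i ∧ b ≠ q i ∧ c ≠ q i ∧ d ≠ q i) → a ≠ b → c ≠ d → ∃ g ∈ G, g a = c ∧ g b = d) (s : ℕ → Equiv.Perm α) (hs1 : s 1 ∈ G) (hs1q : s 1 (q 1) = q 2 ∧ s 1 (q 2) = q 1) (hsq : ∀ i : ℕ, 2 ≤ i → i + 1 ≤ t → s i (q i) = q (i + 1) ∧ s i (q (i + 1)) = q i ∧ ∀ j : ℕ, 1 ≤ j → j ≤ t → j ≠ i → j ≠ i + 1 → s i (q j) = q j) (H : Subgroup (Equiv.Perm α)) (hH : H = G ⊓ MulAction.stabilizer (Equiv.Perm α) (q 1) ⊓ MulAction.stabilizer (Equiv.Perm α) (q 2)) (hsq2 : ∀ i : ℕ, 1 ≤ i → i + 1 ≤ t → s i ^ 2 ∈ H) (hbraid : ∀ i : ℕ, 1 ≤ i → i + 2 ≤ t → (s i * s (i + 1))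 ^ 3 ∈ H) (hcomm : ∀ i j : ℕ, 1 ≤ i → i + 2 ≤ j → j + 1 ≤ t → (s i * s j) ^ 2 ∈ H ∧ (s j * s i) ^ 2 ∈ H) (hnorm : ∀ i : ℕ, 2 ≤ i → i + 1 ≤ t → ∀ g ∈ G ⊓ MulAction.stabilizer (Equiv.Perm α) (q 2), s i * g * (s i)⁻¹ ∈ G ⊓ MulAction.stabilizer (Equiv.Perm α) (q 2)) : MulAction.IsMultiplyPretransitive ↥(Subgroup.closure ((G : Set (Equiv.Perm α)) ∪ {x | ∃ i : ℕ, 2 ≤ i ∧ i + 1 ≤ t ∧ x = s i})) α t ∧ Subgroup.closure ((G : Set (Equiv.Perm α)) ∪ {x | ∃ i : ℕ, 2 ≤ i ∧ i + 1 ≤ t ∧ x = s i}) ⊓ fixingSubgroup (Equiv.Perm α) {x | ∃ i : ℕ, 1 ≤ i ∧ i ≤ t ∧ x = q i} = H := by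
  set G1 := G ⊓ MulAction.stabilizer (Equiv.Perm α) (q 2) with hG1
  let L := LL G1 s
  have hm : ∀ {a b : ℕ}, a ≤ b → L a ≤ L b := fun h => LL_mono G1 s h
  have hHL : ∀ k, H ≤ L k := fun k => le_trans (by rw [hH]; exact fun g hg => ⟨hg.1.1, hg.2⟩) (hm (Nat.zero_le k))
  have hL1 : L 1 ≤ G := sup_le inf_le_left (zpowers_le.mpr hs1)
  have hq' : ∀ a : ℕ, 1 ≤ a → a ≤ 2 → ∀ i, 3 ≤ i → i ≤ t → q a ≠ q i := fun a h1 h2 i h3 h4 h => by
    have := hq a i h1 (by omega) (by omega) h4 h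
    omega
  have hq12 : q 1 ≠ q 2 := fun h => by have := hq 1 2 le_rfl (by omega) (by omega) ht h; omega
  have hD1 : ∀ g ∈ G, g ∈ L 0 ∨ ∃ x ∈ L 0, ∃ y ∈ L 0, g = x * s 1 * y := fun g hg => by
    by_cases h : g (q 2) = q 2
    · exact Or.inl ⟨hg, h⟩
    obtain ⟨x, hx, hx1, hx2⟩ := h2 (q 1) (q 2) (g (q 2)) (q 2) (fun i h3 h4 =>
      ⟨hq' 1 le_rfl (by omega) i h3 h4, hq' 2 (by omega) le_rfl i h3 h4,
        fun h5 => hq' 2 (by omega) le_rfl i h3 h4 (g.injective (h5.trans (hfix g hg i h3 h4).symm)),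
        hq' 2 (by omega) le_rfl i h3 h4⟩) hq12 h
    refine Or.inr ⟨x, ⟨hx, hx2⟩, (s 1)⁻¹ * x⁻¹ * g, ⟨G.mul_mem (G.mul_mem (G.inv_mem hs1) (G.inv_mem hx)) hg, ?_⟩, by simp [mul_assoc]⟩
    show ((s 1)⁻¹ * x⁻¹ * g) (q 2) = q 2
    rw [Equiv.Perm.mul_apply, Equiv.Perm.mul_apply, ← hx1, Equiv.Perm.inv_eq_iff_eq, hs1q.2]
    simp
  have hGL : G ≤ L 1 := fun g hg => by
    rcases hD1 g hg with h | ⟨x, hx, y, hy, rfl⟩
    · exact hm (Nat.zero_le 1) h
    · exact mul_mem (mul_mem (hm (Nat.zero_le 1) hx) (s_mem G1 s 0)) (hm (Nat.zero_le 1) hy)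
  have hN : ∀ j m : ℕ, m + 2 ≤ j → j + 1 ≤ t → ∀ g ∈ L m, s j * g * (s j)⁻¹ ∈ L m := fun j m => by
    induction m with
    | zero => exact fun h1 h3 => hnorm j h1 h3
    | succ m ih =>
      intro h1 h3
      have : L (m + 1) ≤ (L (m + 1)).comap (MulAut.conj (s j)).toMonoidHom := by
        refine sup_le (fun g hg => hm (Nat.le_succ m) (ih (by omega) h3 g hg)) (zpowers_le.mpr ?_)
        have := mul_mem (mul_mem (hHL (m + 1) (hcomm (m + 1) j (by omega) h1 h3).2) (inv_mem (s_mem G1 s m)))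
          (inv_mem (hHL (m + 1) (hsq2 j (by omega) h3)))
        simpa [pow_two, mul_assoc] using this
      exact fun g hg => this hg
  have hD : ∀ k : ℕ, k + 2 ≤ t → ∀ g ∈ L (k + 1), g ∈ L k ∨ ∃ x ∈ L k, ∃ y ∈ L k, g = x * s (k + 1) * y := fun k => by
    induction k with
    | zero => exact fun _ g hg => hD1 g (hL1 hg)
    | succ k ih =>
      intro h1
      exact step (hm (Nat.le_succ k)) (s_mem G1 s k) (ih (by omega)) (hN (k + 2) k le_rfl h1)
        (hHL k (hsq2 (k + 2) (by omega) h1)) (hHL k (hbraid (k + 1) (by omega) h1))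
  have hF : ∀ k j : ℕ, k + 2 ≤ j → j ≤ t → ∀ g ∈ L k, g (q j) = q j := fun k j => by
    induction k with
    | zero =>
      intro h1 h3 g hg
      rcases Nat.eq_or_lt_of_le h1 with h4 | h4
      · subst h4; exact hg.2
      · exact hfix g hg.1 j h4 h3
    | succ k ih =>
      intro h1 h3
      have : L (k + 1) ≤ MulAction.stabilizer (Equiv.Perm α) (q j) := by
        refine sup_le (fun g hg => ih (by omega) h3 g hg) (zpowers_le.mpr ?_)
        rcases k with _ | k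
        · exact hfix _ hs1 j h1 h3
        · exact (hsq (k + 2) (by omega) (by omega)).2.2 j (by omega) h3 (by omega) (by omega)
      exact fun g hg => this hg
  have hS : ∀ k : ℕ, k + 2 ≤ t → s (k + 1) (q (k + 1)) = q (k + 2) ∧ s (k + 1) (q (k + 2)) = q (k + 1) := fun k h => by
    rcases k with _ | k
    · exact hs1q
    · exact ⟨(hsq (k + 2) (by omega) h).1, (hsq (k + 2) (by omega) h).2.1⟩
  have hC : ∀ k : ℕ, k + 2 ≤ t → ∀ g ∈ L (k + 1), g (q (k + 2)) = q (k + 2) → g ∈ L k := fun k h g hg h1 => by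
    rcases hD k h g hg with h3 | ⟨x, hx, y, hy, rfl⟩
    · exact h3
    rw [Equiv.Perm.mul_apply, Equiv.Perm.mul_apply, hF k _ le_rfl h y hy, (hS k h).2] at h1
    have := hq _ _ (by omega) (by omega) (by omega) h (x.injective (h1.trans (hF k _ le_rfl h x hx).symm))
    omega
  have hU : ∀ k : ℕ, k + 2 ≤ t → ∀ x : α, (∀ j, k + 3 ≤ j → j ≤ t → x ≠ q j) → ∃ g ∈ L (k + 1), g x = q (k + 2) := fun k => by
    induction k with
    | zero =>
      intro _ x hx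
      by_cases h : x = q 2
      · exact ⟨1, one_mem _, h⟩
      obtain ⟨g, hg, h3, -⟩ := h2 x (q 2) (q 2) (q 1) (fun i h3 h4 => ⟨hx i h3 h4, hq' 2 (by omega) le_rfl i h3 h4,
        hq' 2 (by omega) le_rfl i h3 h4, hq' 1 le_rfl (by omega) i h3 h4⟩) h hq12.symm
      exact ⟨g, hGL hg, h3⟩
    | succ k ih =>
      intro h1 x hx
      by_cases h : x = q (k + 3)
      · exact ⟨1, one_mem _, h⟩
      obtain ⟨g, hg, h3⟩ := ih (by omega) x (fun j h3 h4 => by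
        rcases Nat.eq_or_lt_of_le h3 with h5 | h5
        · subst h5; exact h
        · exact hx j h5 h4)
      refine ⟨s (k + 2) * g, mul_mem (s_mem G1 s (k + 1)) (hm (Nat.le_succ _) hg), ?_⟩
      rw [Equiv.Perm.mul_apply, h3, (hS (k + 1) h1).1]
  have hT : ∀ k : ℕ, k + 2 ≤ t → ∀ f : ℕ → α, (∀ i j, 1 ≤ i → i ≤ k + 2 → 1 ≤ j → j ≤ k + 2 → f i = f j → i = j) →
      (∀ i, 1 ≤ i → i ≤ k + 2 → ∀ j, k + 3 ≤ j → j ≤ t → f i ≠ q j) → ∃ g ∈ L (k + 1), ∀ i, 1 ≤ i → i ≤ k + 2 → g (f i) = q i := fun k => by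
    induction k with
    | zero =>
      intro _ f hf hx
      obtain ⟨g, hg, h3, h4⟩ := h2 (f 1) (f 2) (q 1) (q 2) (fun i h3 h4 => ⟨hx 1 le_rfl (by omega) i h3 h4, hx 2 (by omega) le_rfl i h3 h4,
        hq' 1 le_rfl (by omega) i h3 h4, hq' 2 (by omega) le_rfl i h3 h4⟩)
        (fun h => by have := hf 1 2 le_rfl (by omega) (by omega) le_rfl h; omega) hq12
      refine ⟨g, hGL hg, fun i h5 h6 => ?_⟩
      interval_cases i
      · exact h3
      · exact h4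
    | succ k ih =>
      intro h1 f hf hx
      obtain ⟨u, hu, h3⟩ := hU (k + 1) h1 (f (k + 3)) (hx (k + 3) (by omega) le_rfl)
      obtain ⟨g, hg, h4⟩ := ih (by omega) (fun i => u (f i))
        (fun i j a b c d h => hf i j a (by omega) c (by omega) (u.injective h)) (fun i a b j c d h => by
          rcases Nat.eq_or_lt_of_le c with h5 | h5
          · subst h5
            have := hf i (k + 3) a (by omega) (by omega) le_rfl (u.injective (h.trans h3.symm))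
            omega
          · exact hx i a (by omega) j h5 d (u.injective (h.trans (hF (k + 2) j h5 d u hu).symm)))
      refine ⟨g * u, mul_mem (hm (Nat.le_succ _) hg) hu, fun i a b => ?_⟩
      rcases Nat.eq_or_lt_of_le b with h5 | h5
      · subst h5
        rw [Equiv.Perm.mul_apply, h3]
        exact hF (k + 1) _ le_rfl h1 g hg
      · exact h4 i a (by omega)
  obtain ⟨n, rfl⟩ : ∃ n, t = n + 2 := ⟨t - 2, by omega⟩
  have hcl : Subgroup.closure ((G : Set (Equiv.Perm α)) ∪ {x | ∃ i : ℕ, 2 ≤ i ∧ i + 1 ≤ n + 2 ∧ x = s i}) = L (n + 1) := by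
    refine le_antisymm ((closure_le _).mpr ?_) ?_
    · rintro x (hx | ⟨i, a, b, rfl⟩)
      · exact hm (by omega) (hGL hx)
      · obtain ⟨i, rfl⟩ : ∃ j, i = j + 1 := ⟨i - 1, by omega⟩
        exact hm (by omega) (s_mem G1 s i)
    · have : ∀ k, k ≤ n → L (k + 1) ≤ Subgroup.closure ((G : Set (Equiv.Perm α)) ∪ {x | ∃ i : ℕ, 2 ≤ i ∧ i + 1 ≤ n + 2 ∧ x = s i}) := fun k => by
        induction k with
        | zero => exact fun _ g hg => subset_closure (Or.inl (hL1 hg))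
        | succ k ih =>
          intro h
          exact sup_le (ih (by omega)) (zpowers_le.mpr (subset_closure (Or.inr ⟨k + 2, by omega, by omega, rfl⟩)))
      exact this n le_rfl
  rw [hcl]
  refine ⟨⟨fun x y => ?_⟩, le_antisymm ?_ ?_⟩
  · have key : ∀ x : Fin (n + 2) ↪ α, ∃ g ∈ L (n + 1), ∀ i : Fin (n + 2), g (x i) = q (i + 1) := fun x => by
      obtain ⟨g, hg, h⟩ := hT n le_rfl (fun i => if h : i - 1 < n + 2 then x ⟨i - 1, h⟩ else q 1)
        (fun i j a b c d h => by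
          rw [dif_pos (by omega), dif_pos (by omega)] at h
          have := congrArg Fin.val (x.injective h)
          simp only at this
          omega) (fun i a b j c d => by omega)
      refine ⟨g, hg, fun i => ?_⟩
      have := h (i + 1) (by omega) (by omega)
      rwa [dif_pos (by omega)] at this
    obtain ⟨g, hg, h1⟩ := key x
    obtain ⟨u, hu, h3⟩ := key y
    refine ⟨⟨u⁻¹ * g, mul_mem (inv_mem hu) hg⟩, Function.Embedding.ext fun i => ?_⟩
    show (u⁻¹ * g) (x i) = y i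
    rw [Equiv.Perm.mul_apply, h1, ← h3]
    simp
  · rintro g ⟨hg, hf⟩
    have hf' : ∀ i, 1 ≤ i → i ≤ n + 2 → g (q i) = q i := fun i a b =>
      (mem_fixingSubgroup_iff _).mp hf _ ⟨i, a, b, rfl⟩
    have : ∀ k, k ≤ n + 1 → g ∈ L k → g ∈ L 0 := fun k => by
      induction k with
      | zero => exact fun _ h => h
      | succ k ih => exact fun a h => ih (by omega) (hC k (by omega) g h (hf' _ (by omega) (by omega)))
    have h0 := this _ le_rfl hg
    rw [hH]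
    exact ⟨⟨h0.1, hf' 1 le_rfl (by omega)⟩, h0.2⟩
  · intro g hg
    refine ⟨hHL _ hg, (mem_fixingSubgroup_iff _).mpr ?_⟩
    rintro _ ⟨i, a, b, rfl⟩
    rcases Nat.eq_or_lt_of_le a with h | h
    · subst h
      rw [hH] at hg
      exact hg.1.2
    · exact hF 0 i h b g (hHL 0 hg)

end Cfsg.Agent.S0709
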