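import Cfsg.Statements.S0710
import Mathlib
import Cfsg.Agent.H7.SylowPrime

set_option autoImplicit false
open Cfsg

namespace Cfsg.Agent.S0710

/-- No transitive permutation group on 13 points has order `13 * 12 * 11 * 10 * 9 * 8`. -/
theorem result {α : Type*} [Fintype α] [DecidableEq α] (hα : Fintype.card α = 13) (G : Subgroup (Equiv.Perm α)) [MulAction.IsPretransitive G α] : Nat.card G ≠ 13 * 12 * 11 * 10 * 9 * 8 := by
  intro h
  haveI : Fact (Nat.Prime 13) := ⟨by norm_num⟩
  obtain ⟨P⟩ : Nonempty (Sylow 13 G) := inferInstance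
  have hP := H7.card_sylow_of_dvd P (k := 1) (m := 95040) (by rw [h]; norm_num) (by norm_num)
  obtain ⟨x, hx, hxP⟩ := H7.exists_zpowers_of_card_prime (p := 13) (by norm_num) hP
  obtain ⟨d, hd, hN⟩ := H7.card_normalizer_of_selfCentralizing (by norm_num) hx
    (H7.centralizer_eq_zpowers_of_faithful (α := α) (by norm_num) (by rw [Nat.card_eq_fintype_card, hα]; norm_num) hx)
  have h1 := H7.card_sylow_mul_card_normalizer P
  rw [← hxP, hN, h] at h1
  have h2 := card_sylow_modEq_one 13 G
  have := Nat.le_of_dvd (by norm_num) hd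
  rw [Nat.ModEq] at h2
  interval_cases d <;> omega

end Cfsg.Agent.S0710
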