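import Cfsg.Statements.S0711
import Mathlib
import Cfsg.Agent.H7.Perm2

set_option autoImplicit false
open Cfsg

namespace Cfsg.Agent.S0711

open Equiv Equiv.Perm Finset

theorem exists_set {α : Type*} [Fintype α] [DecidableEq α] (g : Perm α) (s : ℕ)
    (hs : s ≤ g.support.card) :
    ∃ S ⊆ g.support, S.card = s ∧ (S.filter fun y => g y ∉ S).card ≤ 1 := by
  induction s with
  | zero => exact ⟨∅, empty_subset _, rfl, by simp⟩
  | succ s ih =>
    obtain ⟨S, hS, hc, hE⟩ := ih (by omega)
    by_cases h : ∃ y ∈ S, g y ∉ S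
    · obtain ⟨y, hy, hgy⟩ := h
      refine ⟨insert (g y) S, insert_subset (apply_mem_support.2 (hS hy)) hS,
        by rw [card_insert_of_notMem hgy, hc], (card_le_card ?_).trans (card_singleton (g y)).le⟩
      intro z hz
      simp only [mem_filter, mem_insert, not_or, mem_singleton] at hz ⊢
      rcases hz.1 with h | h
      · exact h
      · exact absurd (congrArg g (card_le_one.1 hE z (mem_filter.2 ⟨h, hz.2.2⟩) y
          (mem_filter.2 ⟨hy, hgy⟩))) hz.2.1
    · push Not at h
      obtain ⟨y, hy, hyS⟩ := exists_mem_notMem_of_card_lt_card (show S.card < g.support.card by omega)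
      refine ⟨insert y S, insert_subset hy hS,
        by rw [card_insert_of_notMem hyS, hc], (card_le_card ?_).trans (card_singleton y).le⟩
      intro z hz
      simp only [mem_filter, mem_insert, not_or, mem_singleton] at hz ⊢
      rcases hz.1 with h' | h'
      · exact h'
      · exact absurd (h z h') hz.2.2

theorem step {α : Type*} [Fintype α] [DecidableEq α] (g x : Perm α) (S : Finset α)
    (hS : S ⊆ g.support) (hx : ∀ y ∈ S, x y = y) (I : Finset α) (hI : I ⊆ g.support)
    (hI' : I ⊆ (x * g * x⁻¹).support) :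
    ((x * g * x⁻¹)⁻¹ * g).support.card + I.card + S.card ≤
      2 * g.support.card + (S.filter fun y => g y ∉ S).card := by
  have h1 : ((x * g * x⁻¹)⁻¹ * g).support ⊆
      (g.support ∪ (x * g * x⁻¹).support) \ (S.filter fun y => g y ∈ S) := by
    intro y hy
    rw [mem_sdiff]
    constructor
    · have := support_mul_le _ _ hy
      rw [support_inv, sup_eq_union, union_comm] at this; exact this
    · intro h
      rw [mem_filter] at h
      apply mem_support.1 hy
      have e1 : x⁻¹ y = y := by rw [Perm.inv_eq_iff_eq, hx y h.1]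
      rw [Perm.mul_apply, Perm.inv_eq_iff_eq, Perm.mul_apply, Perm.mul_apply, e1, hx _ h.2]
  have h2 := card_le_card h1
  rw [card_sdiff_of_subset ((filter_subset _ _).trans (hS.trans subset_union_left))] at h2
  have h3 := card_union_add_card_inter g.support (x * g * x⁻¹).support
  rw [card_support_conj] at h3
  have h4 := card_le_card (subset_inter hI hI')
  have h5 := card_filter_add_card_filter_not (s := S) (fun y => g y ∈ S)
  have h6 := card_le_card ((filter_subset (fun y => g y ∈ S) _).trans (hS.trans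
    (subset_union_left (s₂ := (x * g * x⁻¹).support))))
  omega

theorem mem_supp_conj {α : Type*} [Fintype α] [DecidableEq α] (g x : Perm α) {c : α}
    (hc : c ∈ g.support) : x c ∈ (x * g * x⁻¹).support := by
  rw [mem_support] at hc ⊢
  simpa using hc

theorem small {α : Type*} [Fintype α] [DecidableEq α] (G : Subgroup (Equiv.Perm α)) {k : ℕ} (hk : 3 ≤ k) (hkn : k ≤ Fintype.card α) (hG : MulAction.IsMultiplyPretransitive G α k) (m : ℕ) : ∀ (g : Equiv.Perm α), g ∈ G → g ≠ 1 → g.support.card = m → m < 2 * k - 2 → ∃ h : Equiv.Perm α, h ∈ G ∧ h ≠ 1 ∧ h.support.card ≤ 3 := by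
  have hkn' : k ≤ Nat.card α := by rwa [Nat.card_eq_fintype_card]
  induction m using Nat.strong_induction_on with
  | _ m ih =>
  intro g hg hg1 hm hlt
  by_cases h3 : m ≤ 3
  · exact ⟨g, hg, hg1, hm ▸ h3⟩
  by_cases hu : g.support = univ
  · obtain ⟨a, b, c, hab, hac, hbc⟩ := Fintype.two_lt_card_iff.1 (show 2 < Fintype.card α by omega)
    obtain ⟨t, h1, h2⟩ := H7.mt_two (H7.mt_le hG hkn' (by omega)) hab hac
    refine ih _ ?_ t t.2 (fun h => hbc ?_) rfl ?_
    · rw [← hm, hu]
      exact card_lt_card ⟨subset_univ _, fun h => mem_support.1 (h (mem_univ a)) h1⟩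
    · rw [← h2]; change b = t.1 b; rw [h]; rfl
    · refine lt_of_le_of_lt ?_ hlt
      rw [← hm, hu]; exact card_le_univ _
  obtain ⟨b₀, hb₀⟩ : ∃ b, b ∉ g.support := by
    by_contra h; push Not at h; exact hu (eq_univ_iff_forall.2 h)
  have fin : ∀ x ∈ G, x * g * x⁻¹ ≠ g → ((x * g * x⁻¹)⁻¹ * g).support.card < m →
      ∃ h : Equiv.Perm α, h ∈ G ∧ h ≠ 1 ∧ h.support.card ≤ 3 := fun x hx hne hl =>
    ih _ hl _ (G.mul_mem (G.inv_mem (G.mul_mem (G.mul_mem hx hg) (G.inv_mem hx))) hg)
      (fun h => hne (inv_mul_eq_one.1 h)) rfl (by omega)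
  obtain ⟨S, hS, hc, hE⟩ := exists_set g (min k m - 1) (by omega)
  have hSx : ∀ x : Perm α, (∀ y ∈ S, x y = y) → S ⊆ (x * g * x⁻¹).support := fun x hx y hy =>
    hx y hy ▸ mem_supp_conj g x (hS hy)
  by_cases hcase : m ≤ k ∨ (S.filter fun y => g y ∉ S).card = 0
  · obtain ⟨c, hcg, hcS⟩ := exists_mem_notMem_of_card_lt_card
      (show S.card < g.support.card by omega)
    obtain ⟨x, hx, hxc⟩ := H7.mt_fix hG hkn' S (by omega) hcS (fun h => hb₀ (hS h))
    have := step g x S hS hx S hS (hSx x hx)
    refine fin x x.2 (fun h => hb₀ ?_) (by omega)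
    rw [← h, ← hxc]; exact mem_supp_conj g x hcg
  · obtain ⟨y, hy⟩ := card_pos.1 (show 0 < (S.filter fun y => g y ∉ S).card by omega)
    rw [mem_filter] at hy
    obtain ⟨b, hbg, hbS⟩ := exists_mem_notMem_of_card_lt_card
      (show (insert (g y) S).card < g.support.card by rw [card_insert_of_notMem hy.2]; omega)
    rw [mem_insert, not_or] at hbS
    obtain ⟨x, hx, hxc⟩ := H7.mt_fix hG hkn' S (by omega) hy.2 hbS.2
    have := step g x S hS hx (insert b S) (insert_subset hbg hS) (insert_subset (by
      rw [← hxc]; exact mem_supp_conj g x (apply_mem_support.2 (hS hy.1))) (hSx x hx))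
    rw [card_insert_of_notMem hbS.2] at this
    refine fin x x.2 (fun h => hbS.1 ?_) (by omega)
    have e1 : x.1⁻¹ y = y := by rw [Perm.inv_eq_iff_eq]; exact (hx y hy.1).symm
    rw [← h, Perm.mul_apply, Perm.mul_apply, e1]; exact hxc.symm

/-- A `k`-transitive permutation group (`k ≥ 3`) with a non-identity element of support smaller than `2k - 2` contains a non-identity element of support at most 3, and therefore contains the alternating group. -/
theorem result {α : Type*} [Fintype α] [DecidableEq α] (G : Subgroup (Equiv.Perm α)) {k : ℕ} (hk : 3 ≤ k) (hkn : k ≤ Fintype.card α) (hG : MulAction.IsMultiplyPretransitive G α k) (g : Equiv.Perm α) (hg : g ∈ G) (hg1 : g ≠ 1) (hsupp : g.support.card < 2 * k - 2) : (∃ h : Equiv.Perm α, h ∈ G ∧ h ≠ 1 ∧ h.support.card ≤ 3) ∧ alternatingGroup α ≤ G := by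
  obtain ⟨h, hh, hh1, hh3⟩ := small G hk hkn hG _ g hg hg1 rfl hsupp
  refine ⟨⟨h, hh, hh1, hh3⟩, ?_⟩
  have hkn' : k ≤ Nat.card α := by rwa [Nat.card_eq_fintype_card]
  haveI := H7.mt_le hG hkn' (show 2 ≤ k by omega)
  have hp : MulAction.IsPreprimitive G α := MulAction.isPreprimitive_of_is_two_pretransitive this
  have h2 := two_le_card_support_of_ne_one hh1
  by_cases h3 : h.support.card = 3
  · exact alternatingGroup_le_of_isPreprimitive_of_isThreeCycle_mem hp
      (card_support_eq_three_iff.1 h3) hh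
  · rw [subgroup_eq_top_of_isPreprimitive_of_isSwap_mem hp h (card_support_eq_two.1 (by omega)) hh]
    exact le_top

end Cfsg.Agent.S0711
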