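import Cfsg.Statements.S0712
import Mathlib
import Cfsg.Agent.H7.MultiTrans

set_option autoImplicit false
open Cfsg

namespace Cfsg.Agent.S0712

/-- Jordan: a primitive group in which the pointwise stabiliser of a set `s` is doubly transitive on the complement of `s` (which has at least 2 points) is `(|s| + 2)`-transitive. -/
theorem result {α : Type*} [Fintype α] [DecidableEq α] (G : Subgroup (Equiv.Perm α)) (hG : MulAction.IsPreprimitive G α) (s : Set α) {m : ℕ} (hsm : s.ncard = m) (hm : m + 2 ≤ Fintype.card α) (h2 : MulAction.IsMultiplyPretransitive (fixingSubgroup G s) (SubMulAction.ofFixingSubgroup G s) 2) : MulAction.IsMultiplyPretransitive G α (m + 2) := by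
  classical
  have hs : s.toFinset.card = m := by rw [← hsm, Set.ncard_eq_toFinset_card']
  have h1 : MulAction.IsMultiplyPretransitive G α (m + 1) := by
    cases m with
    | zero => exact MulAction.is_one_pretransitive_iff.2 hG.toIsPretransitive
    | succ n =>
      exact (hG.isMultiplyPreprimitive hsm (by rw [Nat.card_eq_fintype_card]; omega)
        (MulAction.isPreprimitive_of_is_two_pretransitive h2)).isMultiplyPretransitive
  obtain ⟨c, -, hc⟩ := Finset.exists_mem_notMem_of_card_lt_card (s := s.toFinset)
      (t := Finset.univ) (by rw [hs, Finset.card_univ]; omega)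
  refine H7.mt_succ_of h1 (insert c s.toFinset) (by rw [Finset.card_insert_of_notMem hc, hs]) ?_
  intro a b ha hb
  simp only [Finset.mem_insert, Set.mem_toFinset, not_or] at ha hb hc
  obtain ⟨g, h3, h4⟩ := H7.mt_two h2 (a := ⟨c, hc⟩) (b := ⟨a, ha.2⟩) (c := ⟨c, hc⟩) (d := ⟨b, hb.2⟩)
    (fun h => ha.1 (congrArg Subtype.val h).symm) (fun h => hb.1 (congrArg Subtype.val h).symm)
  refine ⟨g, fun x hx => ?_, congrArg Subtype.val h4⟩
  rcases Finset.mem_insert.1 hx with rfl | hx
  · exact congrArg Subtype.val h3
  · exact (mem_fixingSubgroup_iff G).1 g.2 x (Set.mem_toFinset.1 hx)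

end Cfsg.Agent.S0712
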