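import Cfsg.Statements.S0714
import Mathlib
import Cfsg.Agent.H7.PermMod

set_option autoImplicit false
open Cfsg

namespace Cfsg.Agent.S0714

/-- Over any field, the permutation module of the alternating group of degree at least 5 has exactly four invariant subspaces: zero, the constant functions, the functions with coordinate sum zero, and everything. -/
theorem result {α : Type*} [Fintype α] [DecidableEq α] (hα : 5 ≤ Fintype.card α) {K : Type*} [Field K] (W : Subrepresentation (Cfsg.permRep K (alternatingGroup α) α)) : W.toSubmodule = ⊥ ∨ W = Cfsg.permConstants K (alternatingGroup α) α ∨ W = Cfsg.permSumZero K (alternatingGroup α) α ∨ W.toSubmodule = ⊤ := by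
  by_cases hc : ∀ f ∈ W.toSubmodule, ∀ a b, f a = f b
  · by_cases h0 : W.toSubmodule = ⊥
    · exact Or.inl h0
    refine Or.inr (Or.inl (Subrepresentation.toSubmodule_injective (le_antisymm ?_ ?_)))
    · intro f hf
      obtain ⟨a⟩ : Nonempty α := Fintype.card_pos_iff.1 (by omega)
      exact H7.mem_permConstants.2 ⟨f a, fun x => hc f hf x a⟩
    · obtain ⟨w, hw, hw0⟩ := Submodule.exists_mem_ne_zero_of_ne_bot h0
      obtain ⟨a, ha⟩ := Function.ne_iff.1 hw0
      intro f hf
      obtain ⟨c, hc'⟩ := H7.mem_permConstants.1 hf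
      have : f = (c / w a) • w := by
        funext x
        rw [Pi.smul_apply, hc w hw x a, hc', smul_eq_mul, div_mul_cancel₀ _ ha]
      rw [this]; exact W.toSubmodule.smul_mem _ hw
  push Not at hc
  obtain ⟨f, hf, a, b, hab⟩ := hc
  have hab' : a ≠ b := fun h => hab (h ▸ rfl)
  have ex : ∀ s : Finset α, s.card < 5 → ∃ x, x ∉ s := fun s hs => by
    by_contra h; push Not at h
    have := Finset.card_le_card (show Finset.univ ⊆ s from fun x _ => h x)
    rw [Finset.card_univ] at this; omega
  obtain ⟨c, hc⟩ := ex {a, b} (lt_of_le_of_lt Finset.card_le_two (by norm_num))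
  obtain ⟨d, hd⟩ := ex {a, b, c} (lt_of_le_of_lt Finset.card_le_three (by norm_num))
  obtain ⟨e, he⟩ := ex {a, b, c, d} (lt_of_le_of_lt Finset.card_le_four (by norm_num))
  simp only [Finset.mem_insert, Finset.mem_singleton, not_or] at hc hd he
  obtain ⟨hca, hcb⟩ := hc
  obtain ⟨hda, hdb, hdc⟩ := hd
  obtain ⟨hea, heb, hec, hed⟩ := he
  let σ : alternatingGroup α := ⟨Equiv.swap b c * Equiv.swap a c, by
    simp [Equiv.Perm.mem_alternatingGroup, Equiv.Perm.sign_swap, Ne.symm hcb, Ne.symm hca]⟩
  let τ : alternatingGroup α := ⟨Equiv.swap a e * Equiv.swap a d, by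
    simp [Equiv.Perm.mem_alternatingGroup, Equiv.Perm.sign_swap, Ne.symm hea, Ne.symm hda]⟩
  let v := f - Cfsg.permRep K _ α σ⁻¹ f
  have hv : v ∈ W.toSubmodule := W.toSubmodule.sub_mem hf (W.apply_mem_toSubmodule _ hf)
  have hw := W.toSubmodule.smul_mem (f a - f b)⁻¹
    (W.toSubmodule.sub_mem hv (W.apply_mem_toSubmodule τ⁻¹ hv))
  have key : (f a - f b)⁻¹ • (v - Cfsg.permRep K _ α τ⁻¹ v) = Pi.single a 1 - Pi.single e 1 := by
    have hne := sub_ne_zero.2 hab
    have hv0 : ∀ x, x ≠ a → x ≠ b → x ≠ c → v x = 0 := fun x h1 h2 h3 => by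
      change f x - f (Equiv.swap b c (Equiv.swap a c x)) = 0
      rw [Equiv.swap_apply_of_ne_of_ne h1 h3, Equiv.swap_apply_of_ne_of_ne h2 h3, sub_self]
    have hva : v a = f a - f b := by
      change f a - f (Equiv.swap b c (Equiv.swap a c a)) = _
      rw [Equiv.swap_apply_left, Equiv.swap_apply_right]
    funext x
    change (f a - f b)⁻¹ * (v x - v (Equiv.swap a e (Equiv.swap a d x))) =
      (Pi.single a 1 : α → K) x - (Pi.single e 1 : α → K) x
    by_cases h1 : x = a
    · rw [h1, Equiv.swap_apply_left, Equiv.swap_apply_of_ne_of_ne hda (Ne.symm hed),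
        hv0 d hda hdb hdc, hva]
      simp [hne, Ne.symm hea]
    by_cases h2 : x = e
    · rw [h2, Equiv.swap_apply_of_ne_of_ne hea hed, Equiv.swap_apply_right, hv0 e hea heb hec, hva]
      simp [hea]; field_simp; ring
    by_cases h3 : x = d
    · rw [h3, Equiv.swap_apply_right, Equiv.swap_apply_left, hv0 e hea heb hec, hv0 d hda hdb hdc]
      simp [hda, Ne.symm hed]
    · rw [Equiv.swap_apply_of_ne_of_ne h1 h3, Equiv.swap_apply_of_ne_of_ne h1 h2]
      simp [h1, h2]
  rw [key] at hw
  haveI := alternatingGroup.isMultiplyPretransitive α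
  have h2 : MulAction.IsMultiplyPretransitive (alternatingGroup α) α 2 :=
    MulAction.isMultiplyPretransitive_of_le (n := Nat.card α - 2)
      (by rw [Nat.card_eq_fintype_card]; omega) (Nat.sub_le _ _)
  have hle : ∀ g : α → K, ∑ x, g x = 0 → g ∈ W.toSubmodule := fun g hg =>
    H7.sumZero_le _ (fun x y hxy => by
      obtain ⟨t, rfl, rfl⟩ := H7.mt_two h2 (Ne.symm hea) hxy
      have := W.apply_mem_toSubmodule t hw
      rwa [map_sub, H7.permRep_single, H7.permRep_single] at this) hg
  by_cases hs : ∀ g ∈ W.toSubmodule, ∑ x, g x = 0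
  · exact Or.inr (Or.inr (Or.inl (Subrepresentation.toSubmodule_injective (le_antisymm hs hle))))
  · push Not at hs
    obtain ⟨g, hg, hg0⟩ := hs
    exact Or.inr (Or.inr (Or.inr (H7.eq_top_of_sumZero_le _ hle hg hg0)))

end Cfsg.Agent.S0714
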