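import Cfsg.Statements.S0715
import Mathlib
import Cfsg.Agent.H7.PC

set_option autoImplicit false
open Cfsg

namespace Cfsg.Agent.S0715

open Cfsg H3 H7 MulAction Finset

/-- If a natural number `f` divides the degree of every non-principal irreducible constituent of the permutation character of a transitive group, then `f` divides every non-trivial subdegree. -/
theorem result {G : Type*} [Group G] [Fintype G] {Ω : Type*} [Fintype Ω] [MulAction G Ω] [MulAction.IsPretransitive G Ω] (f : ℕ) (hf : ∀ χ : G → ℂ, Cfsg.IsIrrCharacter G χ → χ ≠ (fun _ => 1) → Cfsg.classInner (fun g : G => (Nat.card (MulAction.fixedBy Ω g) : ℂ)) χ ≠ 0 → ∃ m : ℕ, χ 1 = (f : ℂ) * m) (a b : Ω) (hab : b ≠ a) : f ∣ Nat.card (MulAction.orbit (MulAction.stabilizer G a) b) := by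
  classical
  have hc := adj_comm (orb_smul (G := G) a b)
  have h0 := (trF_class hc).apply_eq_sum_irr 1
  rw [trF_orb_one hab, ← add_sum_erase _ _ (mem_univ (oneI G))] at h0
  have : ∀ χ : IrrCharacter G, ∃ c : ℂ, IsIntegral ℤ c ∧ (χ ≠ oneI G →
      classInner (trF (permRep ℂ G Ω) (adj (Orb G a b))) χ * (χ : G → ℂ) 1 = f * c) := fun χ => by
    by_cases h : classInner (permRep ℂ G Ω).character χ = 0
    · exact ⟨0, isIntegral_zero, fun _ => by rw [trF_inner_zero hc χ.2 h]; simp⟩
    by_cases e : χ = oneI G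
    · exact ⟨0, isIntegral_zero, fun h => absurd e h⟩
    obtain ⟨m, hm⟩ := hf χ χ.2 (fun h => e (Subtype.ext h)) (char_permRep (G := G) (Ω := Ω) ▸ h)
    exact ⟨_, (trF_inner_int hc χ.2 (adj_int _)).mul (isIntegral_natCast m), fun _ => by
      rw [hm]; ring⟩
  choose c h1 h2 using this
  rw [sum_congr rfl fun χ hχ => h2 χ (mem_erase.1 hχ).1, ← mul_sum] at h0
  change 0 = classInner _ (fun _ => 1) * 1 + _ at h0
  rw [inner_trF_orb, mul_one] at h0
  rcases Nat.eq_zero_or_pos f with rfl | hf0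
  · simp only [Nat.cast_zero, zero_mul, add_zero] at h0
    rw [Nat.cast_eq_zero.1 h0.symm]
  · refine nat_dvd_of_isIntegral_div hf0.ne' ?_
    rw [eq_neg_of_add_eq_zero_left h0.symm, neg_div, mul_div_cancel_left₀ _ (by exact_mod_cast hf0.ne')]
    exact (IsIntegral.sum _ fun χ _ => h1 χ).neg

end Cfsg.Agent.S0715
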