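import Cfsg.Statements.S0716
import Mathlib
import Cfsg.Agent.H7.PC
import Cfsg.Agent.S0715

set_option autoImplicit false
open Cfsg

namespace Cfsg.Agent.S0716

open Cfsg H3 H7 MulAction Finset

/-- (a) If all non-principal irreducible constituents of the permutation character of a transitive group have the same degree `f`, the character is multiplicity-free and all non-trivial subdegrees equal `f`. (b) A transitive group of rank at most 5 has multiplicity-free permutation character. -/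
theorem result {G : Type*} [Group G] [Fintype G] {Ω : Type*} [Fintype Ω] [MulAction G Ω] [MulAction.IsPretransitive G Ω] (a : Ω) : ((f : ℕ) → (∀ χ : G → ℂ, Cfsg.IsIrrCharacter G χ → χ ≠ (fun _ => 1) → Cfsg.classInner (fun g : G => (Nat.card (MulAction.fixedBy Ω g) : ℂ)) χ ≠ 0 → χ 1 = f) → (∀ χ : G → ℂ, Cfsg.IsIrrCharacter G χ → Cfsg.classInner (fun g : G => (Nat.card (MulAction.fixedBy Ω g) : ℂ)) χ = 0 ∨ Cfsg.classInner (fun g : G => (Nat.card (MulAction.fixedBy Ω g) : ℂ)) χ = 1) ∧ ∀ b : Ω, b ≠ a → Nat.card (MulAction.orbit (MulAction.stabilizer G a) b) = f) ∧ (Nat.card (MulAction.orbitRel.Quotient (MulAction.stabilizer G a) Ω) ≤ 5 → ∀ χ : G → ℂ, Cfsg.IsIrrCharacter G χ → Cfsg.classInner (fun g : G => (Nat.card (MulAction.fixedBy Ω g) : ℂ)) χ = 0 ∨ Cfsg.classInner (fun g : G => (Nat.card (MulAction.fixedBy Ω g) : ℂ)) χ = 1) := by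
  classical
  haveI : Nonempty Ω := ⟨a⟩
  have hπ : IsCharacter G fun g : G => (Nat.card (fixedBy Ω g) : ℂ) :=
    char_permRep (G := G) (Ω := Ω) ▸ isCharacter_character _
  obtain ⟨c, hc, -⟩ := hπ.exists_nat_coeffs
  have c1 : c (oneI G) = 1 := by exact_mod_cast (hc _).symm.trans inner_fixedBy_oneI
  letI := Fintype.ofFinite (orbitRel.Quotient (stabilizer G a) Ω)
  have hr : Nat.card (orbitRel.Quotient (stabilizer G a) Ω) = 1 + ∑ χ ∈ univ.erase (oneI G), c χ ^ 2 := by
    have := hπ.isGen.inner_self_eq_sum_sq (fun χ => c χ) (by simpa using hc)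
    rw [inner_perm_self a, ← add_sum_erase _ _ (mem_univ (oneI G)), c1] at this
    exact_mod_cast this
  have A : ∀ f : ℕ, (∀ χ : G → ℂ, IsIrrCharacter G χ → χ ≠ (fun _ => 1) →
      classInner (fun g : G => (Nat.card (fixedBy Ω g) : ℂ)) χ ≠ 0 → χ 1 = f) →
      (∀ χ : G → ℂ, IsIrrCharacter G χ →
        classInner (fun g : G => (Nat.card (fixedBy Ω g) : ℂ)) χ = 0 ∨
        classInner (fun g : G => (Nat.card (fixedBy Ω g) : ℂ)) χ = 1) ∧
      ∀ b : Ω, b ≠ a → Nat.card (orbit (stabilizer G a) b) = f := fun f hf => by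
    have hn : Nat.card Ω = 1 + f * ∑ χ ∈ univ.erase (oneI G), c χ := by
      have := hπ.isClassFunction.apply_eq_sum_irr 1
      rw [← add_sum_erase _ _ (mem_univ (oneI G)), sum_congr rfl fun χ hχ =>
        show _ = (f : ℂ) * c χ from by
          by_cases h : c χ = 0
          · rw [hc, h]; simp
          · rw [hf χ χ.2 (fun e => (mem_erase.1 hχ).1 (Subtype.ext e)) (by rw [hc]; exact_mod_cast h), hc,
              mul_comm], hc, c1, ← mul_sum] at this
      simp only [fixedBy_one_eq_univ, Nat.card_univ, oneI] at this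
      exact_mod_cast this
    have hk : ∀ q ∈ univ.erase (⟦a⟧ : orbitRel.Quotient (stabilizer G a) Ω), f ≤ Nat.card (orbitRel.Quotient.orbit q) := by
      intro q hq
      induction q using Quotient.inductionOn with | h b => ?_
      haveI : Nonempty (orbit (stabilizer G a) b) := ⟨⟨b, mem_orbit_self b⟩⟩
      exact Nat.le_of_dvd (Nat.card_pos (α := orbit (stabilizer G a) b)) (S0715.result f (fun χ h1 h2 h3 => ⟨1, by rw [hf χ h1 h2 h3]; simp⟩) a b
        fun e => (mem_erase.1 hq).1 (e ▸ rfl))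
    have hs : Nat.card Ω = 1 + ∑ q ∈ univ.erase (⟦a⟧ : orbitRel.Quotient (stabilizer G a) Ω),
        Nat.card (orbitRel.Quotient.orbit q) := by
      rw [Nat.card_congr (selfEquivSigmaOrbits' (stabilizer G a) Ω), Nat.card_sigma,
        ← add_sum_erase _ _ (mem_univ ⟦a⟧)]
      congr 1
      exact Nat.card_eq_one_iff_exists.2 ⟨⟨a, mem_orbit_self a⟩, fun ⟨_, k, h⟩ => Subtype.ext (h.symm.trans k.2)⟩
    have h1 := sum_le_sum hk
    rw [sum_const, card_erase_of_mem (mem_univ _), card_univ, ← Nat.card_eq_fintype_card, hr, smul_eq_mul,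
      Nat.add_sub_cancel_left] at h1
    have h2 : ∀ χ ∈ univ.erase (oneI G), f * c χ ≤ f * c χ ^ 2 := fun χ _ =>
      Nat.mul_le_mul_left _ (Nat.le_self_pow two_ne_zero _)
    have h3 := sum_le_sum h2
    simp only [← mul_sum] at h3
    refine ⟨fun χ hχ => ?_, fun b hb => ?_⟩
    · by_cases e : χ = fun _ => 1
      · exact Or.inr (e ▸ inner_fixedBy_oneI)
      by_contra hh
      rw [not_or] at hh
      have f0 : f ≠ 0 := fun e0 => hχ.apply_one_ne_zero (by rw [hf χ hχ e hh.1, e0]; simp)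
      have := (sum_eq_sum_iff_of_le h2).1 (by simp only [← mul_sum]; rw [mul_comm] at h1; omega) ⟨χ, hχ⟩
        (mem_erase.2 ⟨fun h => e (congrArg Subtype.val h), mem_univ _⟩)
      rw [hc ⟨χ, hχ⟩, Nat.cast_eq_zero, Nat.cast_eq_one] at hh
      have h4 := Nat.eq_of_mul_eq_mul_left (Nat.pos_of_ne_zero f0) this
      exact hh.2 (Nat.eq_of_mul_eq_mul_left (Nat.pos_of_ne_zero hh.1) (by rw [mul_one, ← sq, ← h4]))
    · refine ((sum_eq_sum_iff_of_le hk).1 ?_ ⟦b⟧ (mem_erase.2 ⟨fun e => ?_, mem_univ _⟩)).symm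
      · rw [sum_const, card_erase_of_mem (mem_univ _), card_univ, ← Nat.card_eq_fintype_card, hr, smul_eq_mul,
          Nat.add_sub_cancel_left]
        rw [mul_comm] at h1 ⊢; omega
      · obtain ⟨k, h⟩ := Quotient.exact e
        exact hb (h.symm.trans k.2)
  refine ⟨A, fun h5 χ hχ => ?_⟩
  by_contra hh
  rw [hc ⟨χ, hχ⟩, Nat.cast_eq_zero, Nat.cast_eq_one] at hh
  have m : (⟨χ, hχ⟩ : IrrCharacter G) ∈ univ.erase (oneI G) :=
    mem_erase.2 ⟨fun e => hh (Or.inr (e ▸ c1)), mem_univ _⟩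
  rw [hr, ← add_sum_erase _ _ m] at h5
  have h6 : 2 ^ 2 ≤ c ⟨χ, hχ⟩ ^ 2 := Nat.pow_le_pow_left (by omega) 2
  refine hh ?_
  rw [← Nat.cast_eq_zero (R := ℂ), ← Nat.cast_eq_one (R := ℂ), ← hc]
  refine (A (charDegree χ) fun ψ hψ h1 h2 => ?_).1 χ hχ
  by_cases e : ψ = χ
  · rw [e, hχ.cast_charDegree]
  · have := sum_eq_zero_iff.1 (Nat.le_zero.1 (Nat.le_of_add_le_add_left (a := 1 + c ⟨χ, hχ⟩ ^ 2)
      ((Nat.add_assoc _ _ _).le.trans (h5.trans (by omega))))) ⟨ψ, hψ⟩
      (mem_erase.2 ⟨fun h => e (congrArg Subtype.val h), mem_erase.2 ⟨fun h => h1 (congrArg Subtype.val h),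
        mem_univ _⟩⟩)
    rw [hc ⟨ψ, hψ⟩, pow_eq_zero_iff two_ne_zero |>.1 this] at h2
    exact absurd Nat.cast_zero h2

end Cfsg.Agent.S0716
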