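import Cfsg.Statements.S0717
import Mathlib
import Cfsg.Agent.H7.PC

set_option autoImplicit false
open Cfsg

namespace Cfsg.Agent.S0717

open Cfsg H3 H7 MulAction Finset LinearMap Matrix
open scoped ComplexConjugate

/-- All suborbits of a transitive group are self-paired (every pair of points is interchanged by some group element) if and only if the permutation character is multiplicity-free and each of its irreducible constituents is real-valued. -/
theorem result {G : Type*} [Group G] [Fintype G] {Ω : Type*} [Fintype Ω] [MulAction G Ω] [MulAction.IsPretransitive G Ω] : (∀ a b : Ω, ∃ g : G, g • a = b ∧ g • b = a) ↔ ∀ χ : G → ℂ, Cfsg.IsIrrCharacter G χ → Cfsg.classInner (fun g : G => (Nat.card (MulAction.fixedBy Ω g) : ℂ)) χ ≠ 0 → Cfsg.classInner (fun g : G => (Nat.card (MulAction.fixedBy Ω g) : ℂ)) χ = 1 ∧ ∀ g : G, (starRingEnd ℂ) (χ g) = χ g := by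
  classical
  rw [← char_permRep]
  set ρ := permRep ℂ G Ω with hρ
  have h1 : ∀ g, (toMatrix' (ρ g))ᵀ = toMatrix' (ρ g⁻¹) := fun g => by
    ext x y
    simp [ρ, toMatrix'_apply, permRep_apply, Pi.single_apply, inv_smul_eq_iff, eq_inv_smul_iff, eq_comm]
  have h2 : ∀ χ, IsIrrCharacter G χ →
      (toMatrix' (isoE ρ χ))ᵀ = toMatrix' (isoE ρ fun g => conj (χ g)) := fun χ hχ => by
    simp only [isoE, map_smul, map_sum, transpose_smul, transpose_sum, h1, hχ.isCharacter.conj_apply_one]
    congr 1
    exact Fintype.sum_equiv (Equiv.inv G) _ _ fun g => by simp [hχ.apply_inv]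
  refine ⟨fun h => ?_, fun h a b => ?_⟩
  · have h3 : ∀ T : Module.End ℂ (Ω → ℂ), (∀ g, Commute T (ρ g)) → (toMatrix' T)ᵀ = toMatrix' T := by
      intro T hT
      ext x y
      obtain ⟨g, rfl, e⟩ := h x y
      have := congr_fun (LinearMap.congr_fun (hT g).eq (Pi.single x 1)) x
      simp only [Module.End.mul_apply, ρ, permRep_apply] at this
      rw [transpose_apply, toMatrix'_apply, toMatrix'_apply, ← eq_inv_smul_iff.2 e] at *
      rw [← this]
      refine congr_fun (congrArg T (funext fun z => ?_)) x
      simp [permRep_apply, Pi.single_apply, inv_smul_eq_iff]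
    have mf := (mf_iff_comm (ρ := ρ)).2 fun S T hS hT => toMatrix'.injective (by
      rw [← h3 _ fun g => (hS g).mul_left (hT g), toMatrix'_mul, transpose_mul, h3 S hS, h3 T hT,
        toMatrix'_mul])
    intro χ hχ h0
    have e1 := (mf χ hχ).resolve_left h0
    refine ⟨e1, fun g => ?_⟩
    have e : isoE ρ χ = isoE ρ fun g => conj (χ g) :=
      toMatrix'.injective ((h3 _ (isoE_comm' hχ.isClassFunction)).symm.trans (h2 χ hχ))
    have e2 : ∀ y, χ y = classInner ρ.character (fun g => conj (χ g)) * conj (χ y) := fun y => by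
      rw [← trF_isoE hχ.conj, ← e, trF_isoE hχ, e1, one_mul]
    rcases mf _ hχ.conj with e3 | e3
    · exact absurd (by rw [e2, e3, zero_mul]) hχ.apply_one_ne_zero
    · rw [e3] at e2
      exact ((e2 g).trans (one_mul _)).symm
  · obtain ⟨c, -, c0, e⟩ := exists_sum_isoE (adj_comm (orb_smul (G := G) a b)) fun χ hχ =>
      or_iff_not_imp_left.2 fun h0 => (h χ hχ h0).1
    have h4 : (toMatrix' (adj (Orb G a b)))ᵀ = toMatrix' (adj (Orb G a b)) := by
      rw [e]
      simp only [map_smul, map_sum, transpose_smul, transpose_sum]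
      refine sum_congr rfl fun χ _ => ?_
      by_cases h0 : classInner ρ.character χ = 0
      · simp [c0 χ h0]
      · rw [h2 χ χ.2, funext (h χ χ.2 h0).2]
    have := congr_fun (congr_fun h4 a) b
    simp only [adj, toMatrix'_toLin', transpose_apply, of_apply] at this
    rw [if_pos ⟨1, one_smul _ _, one_smul _ _⟩] at this
    by_contra hh
    rw [if_neg (show ¬ Orb G a b a b from hh)] at this
    exact one_ne_zero this

end Cfsg.Agent.S0717
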