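import Cfsg.Statements.S0719
import Mathlib
import Cfsg.Agent.H7.PC
import Cfsg.Agent.H7.MultiTrans
import Cfsg.Agent.S0717

set_option autoImplicit false
open Cfsg

namespace Cfsg.Agent.S0719

open Cfsg H3 H7 MulAction Finset
open scoped ComplexConjugate

theorem arith {u k l : ℕ} {r s : ℤ} (hu : 0 < u) (hk : 2 ≤ k) (hl : 2 ≤ l) (h : k + l = 2 * u + 1)
    (h1 : k + u * r + (u + 1) * s = 0) (h2 : k ^ 2 + u * r ^ 2 + (u + 1) * s ^ 2 = 2 * (u + 1) * k) :
    ∃ a : ℕ, u + 1 = 2 * a ^ 2 + 2 * a + 1 ∧ (k = a * (2 * a + 1) ∨ k = (a + 1) * (2 * a + 1)) := by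
  obtain ⟨t, rfl⟩ : ∃ t, s = -t - r := ⟨-s - r, by ring⟩
  obtain rfl : r = k - (u + 1) * t := by linarith
  have h3 : 2 * ((k : ℤ) - u * t) ^ 2 + u * t ^ 2 = 2 * k :=
    mul_left_cancel₀ (show (u : ℤ) + 1 ≠ 0 by positivity) (by linear_combination h2)
  have hu' : (0 : ℤ) < u := by exact_mod_cast hu
  have hk' : (2 : ℤ) ≤ k := by exact_mod_cast hk
  have hl' : (k : ℤ) < 2 * u := by omega
  have h4 : t ^ 2 < 4 := lt_of_mul_lt_mul_left (a := (u : ℤ)) (by nlinarith [sq_nonneg ((k : ℤ) - u * t)]) hu'.le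
  have h5 : -2 < t ∧ t < 2 := abs_lt.1 (by nlinarith [sq_abs t, abs_nonneg t])
  obtain rfl | rfl | rfl : t = -1 ∨ t = 0 ∨ t = 1 := by omega
  · nlinarith
  · nlinarith
  · rcases le_or_gt u k with h6 | h6
    · obtain ⟨d, rfl⟩ := Nat.exists_eq_add_of_le h6
      rcases d with _ | d
      · push_cast at h3; nlinarith
      · push_cast at h3
        refine ⟨d, ?_, Or.inr ?_⟩ <;> zify <;> nlinarith
    · obtain ⟨d, rfl⟩ := Nat.exists_eq_add_of_le h6.le
      push_cast at h3
      refine ⟨d, ?_, Or.inl ?_⟩ <;> zify <;> nlinarith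

/-- Groups of Wielandt type: if a primitive group of degree `2m` has rank 3 and permutation character `1 + χ₁ + χ₂` with irreducible `χ₁, χ₂` of degrees `m - 1` and `m`, then `m = 2a² + 2a + 1` for some positive integer `a` and the two non-trivial subdegrees are `a(2a+1)` and `(a+1)(2a+1)`. -/
theorem result {G : Type*} [Group G] [Fintype G] {Ω : Type*} [Fintype Ω] [MulAction G Ω] (hprim : MulAction.IsPreprimitive G Ω) {m : ℕ} (hm : Fintype.card Ω = 2 * m) (a₀ : Ω) (hrank : Nat.card (MulAction.orbitRel.Quotient (MulAction.stabilizer G a₀) Ω) = 3) (χ₁ χ₂ : G → ℂ) (h₁ : Cfsg.IsIrrCharacter G χ₁) (h₂ : Cfsg.IsIrrCharacter G χ₂) (hπ : (fun g : G => (Nat.card (MulAction.fixedBy Ω g) : ℂ)) = fun g => 1 + χ₁ g + χ₂ g) (hd₁ : χ₁ 1 = (m : ℂ) - 1) (hd₂ : χ₂ 1 = m) : ∃ a : ℕ, 0 < a ∧ m = 2 * a ^ 2 + 2 * a + 1 ∧ ∀ b : Ω, b ≠ a₀ → Nat.card (MulAction.orbit (MulAction.stabilizer G a₀) b) = a * (2 * a + 1) ∨ Nat.card (MulAction.orbit (MulAction.stabilizer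 G a₀) b) = (a + 1) * (2 * a + 1) := by
  classical
  haveI : Nonempty Ω := ⟨a₀⟩
  set ρ := permRep ℂ G Ω
  have i1 : classInner ρ.character (fun _ => 1) = 1 := char_permRep (G := G) (Ω := Ω) ▸ inner_fixedBy_oneI
  rw [← char_permRep] at hπ
  have hi : ∀ ψ, classInner ρ.character ψ = classInner (fun _ => 1) ψ + classInner χ₁ ψ + classInner χ₂ ψ :=
    fun ψ => by rw [hπ, ← classInner_add_left, ← classInner_add_left]; rfl
  have o := isIrrCharacter_one (G := G)
  have n12 : χ₁ ≠ χ₂ := fun e => by rw [e, hd₂] at hd₁; exact one_ne_zero (sub_eq_self.1 hd₁.symm)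
  obtain ⟨n1, n2⟩ : χ₁ ≠ (fun _ => 1) ∧ χ₂ ≠ fun _ => 1 := by
    rw [hi, o.inner_self, add_assoc, add_eq_left] at i1
    obtain ⟨x, hx⟩ := h₁.isCharacter.exists_nat_inner o.isCharacter
    obtain ⟨y, hy⟩ := h₂.isCharacter.exists_nat_inner o.isCharacter
    rw [hx, hy, ← Nat.cast_add, Nat.cast_eq_zero, add_eq_zero] at i1
    rw [i1.1] at hx; rw [i1.2] at hy
    constructor <;> rintro rfl
    · rw [o.inner_self] at hx; simp at hx
    · rw [o.inner_self] at hy; simp at hy
  have i2 : classInner ρ.character χ₁ = 1 := by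
    rw [hi, o.inner_of_ne h₁ n1.symm, h₁.inner_self, h₂.inner_of_ne h₁ n12.symm]; simp
  have i3 : classInner ρ.character χ₂ = 1 := by
    rw [hi, o.inner_of_ne h₂ n2.symm, h₂.inner_self, h₁.inner_of_ne h₂ n12]; simp
  have con : ∀ ψ, IsIrrCharacter G ψ → classInner ρ.character ψ ≠ 0 →
      ψ = (fun _ => 1) ∨ ψ = χ₁ ∨ ψ = χ₂ := fun ψ hψ h => by
    by_contra hh
    simp only [not_or, ← ne_eq] at hh
    rw [hi, o.inner_of_ne hψ hh.1.symm, h₁.inner_of_ne hψ hh.2.1.symm, h₂.inner_of_ne hψ hh.2.2.symm] at h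
    simp at h
  have gal : ∀ (σ : ℂ →+* ℂ) ψ, IsIrrCharacter G ψ → classInner ρ.character ψ = 1 →
      (fun g => σ (ψ g)) = ψ := fun σ ψ hψ h => by
    have h0 := classInner_galois ρ.character hψ.isGen σ
    rw [h, map_one, show (fun g => σ (ρ.character g)) = ρ.character by simp [ρ, char_permRep]] at h0
    have h1 : ∀ {ψ : G → ℂ}, (fun g => σ (ψ g)) = (fun _ => 1) → ψ = fun _ => 1 := fun e =>
      funext fun g => σ.injective ((congr_fun e g).trans (map_one σ).symm)
    rcases con ψ hψ (h.trans_ne one_ne_zero) with rfl | rfl | rfl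
    · simp
    · rcases con _ (hψ.galois σ) (h0.trans_ne one_ne_zero) with e | e | e
      · exact absurd (h1 e) n1
      · exact e
      · have := congr_fun e 1
        simp [hd₁, hd₂] at this
    · rcases con _ (hψ.galois σ) (h0.trans_ne one_ne_zero) with e | e | e
      · exact absurd (h1 e) n2
      · have := congr_fun e 1
        simp only [hd₁, hd₂, map_natCast] at this
        exact absurd (sub_eq_self.1 this.symm) one_ne_zero
      · exact e
  have sym := (S0717.result (G := G) (Ω := Ω)).2 fun ψ hψ h => by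
    rw [← char_permRep] at h ⊢
    have : classInner ρ.character ψ = 1 := by rcases con ψ hψ h with rfl | rfl | rfl <;> assumption
    exact ⟨this, congr_fun (gal _ ψ hψ this)⟩
  have tr : ∀ T, (∀ g, Commute T (ρ g)) → trF ρ T 1 = classInner (trF ρ T) (fun _ => 1) +
      (m - 1) * classInner (trF ρ T) χ₁ + m * classInner (trF ρ T) χ₂ := fun T hT => by
    rw [(trF_class hT).apply_eq_sum_irr 1, ← sum_subset (subset_univ {⟨_, o⟩, ⟨_, h₁⟩, ⟨_, h₂⟩})
      fun ψ _ hψ => by
        rw [trF_inner_zero hT ψ.2 (by_contra fun h => hψ (by simpa [Subtype.ext_iff] using con _ ψ.2 h)),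
          zero_mul], sum_insert (by simp [n1.symm, n2.symm]), sum_pair (by simpa using n12)]
    simp only [hd₁, hd₂]; ring
  obtain ⟨u, hu, e⟩ := h₁.exists_pos_degree
  obtain rfl : m = u + 1 := by rw [e, eq_sub_iff_add_eq] at hd₁; exact_mod_cast hd₁.symm
  letI := Fintype.ofFinite (orbitRel.Quotient (stabilizer G a₀) Ω)
  have ne : ∀ b ≠ a₀, (⟦b⟧ : orbitRel.Quotient (stabilizer G a₀) Ω) ≠ ⟦a₀⟧ := fun b hb e => by
    obtain ⟨k, h⟩ := Quotient.exact e
    exact hb (h.symm.trans k.2)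
  have hs : ∀ b ≠ a₀, ∃ c ≠ a₀, Nat.card (orbit (stabilizer G a₀) b) +
      Nat.card (orbit (stabilizer G a₀) c) = 2 * u + 1 := fun b hb => by
    have m := mem_erase.2 ⟨ne b hb, mem_univ _⟩
    obtain ⟨q, hq⟩ := card_eq_one.1 (show #((univ.erase (⟦a₀⟧ : orbitRel.Quotient (stabilizer G a₀) Ω)).erase
      ⟦b⟧) = 1 by rw [card_erase_of_mem m, card_erase_of_mem (mem_univ _), card_univ,
        ← Nat.card_eq_fintype_card, hrank])
    induction q using Quotient.inductionOn with | h c => ?_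
    rw [← Nat.card_eq_fintype_card, Nat.card_congr (selfEquivSigmaOrbits' (stabilizer G a₀) Ω), Nat.card_sigma,
      ← add_sum_erase _ _ (mem_univ ⟦a₀⟧), ← add_sum_erase _ _ m, hq, sum_singleton,
      show Nat.card (orbitRel.Quotient.orbit (⟦a₀⟧ : orbitRel.Quotient (stabilizer G a₀) Ω)) = 1 from
      Nat.card_eq_one_iff_exists.2 ⟨⟨a₀, mem_orbit_self a₀⟩, fun ⟨_, k, h⟩ => Subtype.ext (h.symm.trans k.2)⟩] at hm
    refine ⟨c, fun e => ?_, by change 1 + (Nat.card (orbit _ b) + Nat.card (orbit _ c)) = _ at hm; omega⟩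
    exact (mem_erase.1 (mem_erase.1 (hq ▸ mem_singleton_self _)).2).1 (e ▸ rfl)
  have h2 : ∀ b ≠ a₀, 2 ≤ Nat.card (orbit (stabilizer G a₀) b) := fun b hb => by
    by_contra hh
    haveI : Nontrivial Ω := ⟨⟨_, _, hb⟩⟩
    haveI := (Finite.card_le_one_iff_subsingleton (α := orbit (stabilizer G a₀) b)).1 (by omega)
    have e : stabilizer G b = stabilizer G a₀ := by_contra fun hne => stabilizer_ne_top b
      ((IsPreprimitive.isCoatom_stabilizer_of_isPreprimitive G a₀).2 _ (lt_of_le_of_ne (fun g hg =>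
        congrArg Subtype.val (Subsingleton.elim (⟨_, mem_orbit b (⟨g, hg⟩ : stabilizer G a₀)⟩ :
          orbit (stabilizer G a₀) b) ⟨b, mem_orbit_self b⟩)) (Ne.symm hne)))
    rcases prim_block (G := G) {y : Ω | stabilizer G y = stabilizer G a₀} fun g x hx hg y hy => by
      rw [Set.mem_setOf_eq, stabilizer_smul_eq_stabilizer_map_conj] at hg ⊢
      rw [show stabilizer G y = stabilizer G x from Eq.trans hy (Eq.symm hx), hg] with h | h
    · exact hb (h e rfl)
    · have : ∀ c, Nat.card (orbit (stabilizer G a₀) c) = 1 := fun c =>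
        Nat.card_eq_one_iff_exists.2 ⟨⟨c, mem_orbit_self c⟩, fun ⟨_, k, hk⟩ => Subtype.ext (hk.symm.trans
          (show (k : G) ∈ stabilizer G c from
            (show stabilizer G c = stabilizer G a₀ from h.ge (Set.mem_univ c)).ge k.2))⟩
      obtain ⟨c, -, e⟩ := hs b hb
      rw [this, this] at e
      omega
  have key : ∀ b ≠ a₀, ∃ a : ℕ, u + 1 = 2 * a ^ 2 + 2 * a + 1 ∧ (Nat.card (orbit (stabilizer G a₀) b) =
      a * (2 * a + 1) ∨ Nat.card (orbit (stabilizer G a₀) b) = (a + 1) * (2 * a + 1)) := fun b hb => by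
    obtain ⟨c, hc, e⟩ := hs b hb
    have hc' := adj_comm (orb_smul (G := G) a₀ b)
    have int : ∀ ψ, IsIrrCharacter G ψ → classInner ρ.character ψ = 1 →
        ∃ n : ℤ, classInner (trF ρ (adj (Orb G a₀ b))) ψ = n := fun ψ hψ h =>
      exists_int_of_fixed (trF_inner_int hc' hψ (adj_int _)) fun σ => by
        have := classInner_galois (trF ρ (adj (Orb G a₀ b))) hψ.isGen (σ : ℂ →+* ℂ)
        rw [gal _ ψ hψ h] at this
        refine this.symm.trans (congrArg (classInner · ψ) (funext fun g => ?_))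
        simp [ρ, trF_adj]
    obtain ⟨r, hr⟩ := int _ h₁ i2
    obtain ⟨s, hs⟩ := int _ h₂ i3
    have t1 := tr _ hc'
    have t2 := tr _ fun g => (hc' g).pow_left 2
    rw [trF_inner_sq hc' o i1, trF_inner_sq hc' h₁ i2, trF_inner_sq hc' h₂ i3] at t2
    rw [inner_trF_orb, hr, hs] at t1 t2
    rw [trF_orb_one hb] at t1
    have t3 : trF ρ (adj (Orb G a₀ b) ^ 2) 1 = 2 * (u + 1) * Nat.card (orbit (stabilizer G a₀) b) := by
      have sy : ∀ x y, Orb G a₀ b x y → Orb G a₀ b y x := fun x y h => by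
        obtain ⟨g, e1, e2⟩ := sym x y
        rwa [← orb_smul a₀ b g, e1, e2] at h
      rw [trF, map_one, one_mul, trace_fun, sum_congr rfl fun x _ =>
        show _ = (Nat.card (orbit (stabilizer G a₀) b) : ℂ) from ?_, sum_const, card_univ, hm]
      · simp
      rw [← card_orb a₀ b x, Nat.card_eq_fintype_card, Fintype.card_subtype, card_filter, Nat.cast_sum, sq,
        Module.End.mul_apply, adj_apply]
      refine sum_congr rfl fun y _ => ?_
      rw [adj_apply, sum_eq_single x (fun z _ h => by simp [h]) (by simp)]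
      by_cases h : Orb G a₀ b y x
      · simp [h, sy _ _ h]
      · simp [h]
    rw [t3] at t2
    refine arith (r := r) (s := s) hu (h2 b hb) (h2 c hc) e ?_ ?_
    · exact_mod_cast (by push_cast at t1 ⊢; linear_combination -t1 :
        ((Nat.card (orbit (stabilizer G a₀) b) : ℂ) + u * r + (u + 1) * s = 0))
    · exact_mod_cast (by push_cast at t2 ⊢; linear_combination -t2 :
        ((Nat.card (orbit (stabilizer G a₀) b) : ℂ) ^ 2 + u * r ^ 2 + (u + 1) * s ^ 2 =
          2 * (u + 1) * Nat.card (orbit (stabilizer G a₀) b)))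
  haveI : Nontrivial Ω := Fintype.one_lt_card_iff_nontrivial.1 (by omega)
  obtain ⟨b, hb⟩ := exists_ne a₀
  obtain ⟨a, h, -⟩ := key b hb
  refine ⟨a, Nat.pos_of_ne_zero (by rintro rfl; omega), h, fun c hc => ?_⟩
  obtain ⟨a', h', h3⟩ := key c hc
  obtain rfl : a = a' := by nlinarith
  exact h3

end Cfsg.Agent.S0719
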