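import Cfsg.Statements.S0720
import Mathlib
import Cfsg.Agent.H7.W2p

set_option autoImplicit false
open Cfsg

namespace Cfsg.Agent.S0720

open MulAction

/-- Wielandt's Theorem on primitive groups of degree `2p`: such a group is doubly transitive, or it has rank 3, `p = 2a² + 2a + 1`, and subdegrees `a(2a+1)` and `(a+1)(2a+1)`. -/
theorem result {α : Type*} [Fintype α] [DecidableEq α] {p : ℕ} (hp : p.Prime) (hα : Fintype.card α = 2 * p) (G : Subgroup (Equiv.Perm α)) (hG : MulAction.IsPreprimitive G α) (a₀ : α) : MulAction.IsMultiplyPretransitive G α 2 ∨ (Nat.card (MulAction.orbitRel.Quotient (MulAction.stabilizer G a₀) α) = 3 ∧ ∃ a : ℕ, 0 < a ∧ p = 2 * a ^ 2 + 2 * a + 1 ∧ ∀ b : α, b ≠ a₀ → Nat.card (MulAction.orbit (MulAction.stabilizer G a₀) b) = a * (2 * a + 1) ∨ Nat.card (MulAction.orbit (MulAction.stabilizer G a₀) b) = (a + 1) * (2 * a + 1)) := by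
  haveI := Fact.mk hp
  refine or_iff_not_imp_left.2 fun h2 => ?_
  obtain ⟨n, hn, hn', σ, h3, h4⟩ := H7.wielandt hα h2
  have h5 : ∀ b b', b ≠ a₀ → (b' ∈ orbit (stabilizer G a₀) b ↔ b' ≠ a₀ ∧ σ a₀ b' = σ a₀ b) := by
    intro b b' hb
    constructor
    · rintro ⟨⟨g, hg⟩, rfl⟩
      have : g • b ≠ a₀ := fun e => hb (MulAction.injective g (e.trans hg.symm))
      exact ⟨this, ((h3 _ _ _ _ hb.symm this.symm).1 ⟨g, hg, rfl⟩).symm⟩
    · rintro ⟨h, e⟩
      obtain ⟨g, a, b⟩ := (h3 _ _ _ _ hb.symm h.symm).2 e.symm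
      exact ⟨⟨g, a⟩, b⟩
  refine ⟨?_, n, hn, hn', fun b hb => ?_⟩
  · rw [show (3 : ℕ) = Nat.card (Option Bool) by simp]
    refine H7.card_quot_eq _ (fun b => if b = a₀ then none else some (σ a₀ b)) ?_ fun a b => ?_
    · rintro (_ | _ | _)
      · exact ⟨a₀, by simp⟩
      · obtain ⟨b, hb⟩ := Finset.card_pos.1 (lt_of_lt_of_eq (by positivity) (h4 a₀).2.symm)
        exact ⟨b, by simpa using hb⟩
      · obtain ⟨b, hb⟩ := Finset.card_pos.1 (lt_of_lt_of_eq (by positivity) (h4 a₀).1.symm)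
        exact ⟨b, by simpa using hb⟩
    · rw [orbitRel_apply]
      by_cases hb : b = a₀
      · subst hb
        exact ⟨by rintro ⟨⟨g, hg⟩, rfl⟩; simpa using hg, fun e => by
          rw [show a = b by simpa using e]; exact mem_orbit_self _⟩
      · rw [h5 _ _ hb]
        by_cases ha : a = a₀ <;> simp [ha, hb]
  · rw [Nat.card_coe_set_eq, show orbit (stabilizer G a₀) b =
      (Finset.univ.filter fun b' => b' ≠ a₀ ∧ σ a₀ b' = σ a₀ b : Finset α) by ext; simp [h5 _ _ hb],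
      Set.ncard_coe_finset]
    cases σ a₀ b
    · exact Or.inr (h4 a₀).2
    · exact Or.inl (h4 a₀).1

end Cfsg.Agent.S0720
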