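import Cfsg.Statements.S0722
import Mathlib
import Cfsg.Agent.H7.Basic

set_option autoImplicit false
open Cfsg

namespace Cfsg.Agent.S0722

/-- In a primitive group `H`, with `N` a minimal normal subgroup and `K` a point stabiliser, `K ⊓ N` is maximal among proper `K`-invariant subgroups of `N`. -/
theorem result {α : Type*} [Finite α] (H : Subgroup (Equiv.Perm α)) [MulAction.IsPreprimitive H α] (N : Subgroup H) [N.Normal] (hN : N ≠ ⊥) (hmin : ∀ M : Subgroup H, M.Normal → M ≤ N → M = ⊥ ∨ M = N) (a : α) (X : Subgroup H) (hX : X ≤ N) (hKX : MulAction.stabilizer H a ⊓ N ≤ X) (hinv : MulAction.stabilizer H a ≤ Subgroup.normalizer (X : Set H)) : X = MulAction.stabilizer H a ⊓ N ∨ X = N := by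
  haveI : Nontrivial α := by
    by_contra h
    rw [not_nontrivial_iff_subsingleton] at h
    exact hN (Subsingleton.elim _ _)
  have hco := MulAction.IsPreprimitive.isCoatom_stabilizer_of_isPreprimitive H a
  by_cases h : X ≤ MulAction.stabilizer H a
  · exact Or.inl (le_antisymm (le_inf h hX) hKX)
  · have h1 : MulAction.stabilizer H a ⊔ X = ⊤ := hco.2 _ (left_lt_sup.2 h)
    have h2 : X.Normal := Subgroup.normalizer_eq_top_iff.1
      (eq_top_iff.2 (h1 ▸ sup_le hinv Subgroup.le_normalizer))
    rcases hmin X h2 hX with rfl | h3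
    · exact absurd bot_le h
    · exact Or.inr h3

end Cfsg.Agent.S0722
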