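import Cfsg.Statements.S0724
import Mathlib
import Cfsg.Agent.H7.Basic

set_option autoImplicit false
open Cfsg

namespace Cfsg.Agent.S0724

/-- Blichfeldt's Theorem: if a finite set `L` of natural numbers contains the number of fixed points of every non-identity element of a permutation group `G` of degree `n`, then the order of `G` divides `∏ (n - l)` over `l ∈ L`. -/
theorem result {α : Type*} [Fintype α] [DecidableEq α] (G : Subgroup (Equiv.Perm α)) (L : Finset ℕ) (hL : ∀ g ∈ G, g ≠ 1 → Nat.card (MulAction.fixedBy α g) ∈ L) : Nat.card G ∣ ∏ l ∈ L, (Fintype.card α - l) := by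
  classical
  by_cases hl : ∃ l ∈ L, Fintype.card α ≤ l
  · obtain ⟨l, hl, hl'⟩ := hl
    rw [Finset.prod_eq_zero hl (by omega)]; exact dvd_zero _
  push Not at hl
  have h1 : ∀ k : ℕ, (Nat.card G : ℤ) ∣ ∑ g : G, (Nat.card (MulAction.fixedBy α g) : ℤ) ^ k := by
    intro k
    have := H7.sum_card_fixedBy (G := G) (Ω := Fin k → α)
    have h2 : ∀ g : G, Nat.card (MulAction.fixedBy (Fin k → α) g) = Nat.card (MulAction.fixedBy α g) ^ k := by
      intro g
      have e : MulAction.fixedBy (Fin k → α) g ≃ (Fin k → MulAction.fixedBy α g) :=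
        (Equiv.subtypeEquivRight fun f => by simp [funext_iff]).trans
          (Equiv.subtypePiEquivPi (p := fun _ x => x ∈ MulAction.fixedBy α g))
      rw [Nat.card_congr e, Nat.card_fun]; simp
    simp only [h2] at this
    exact_mod_cast Dvd.intro_left _ this.symm
  have h2 : ∀ P : Polynomial ℤ, (Nat.card G : ℤ) ∣ ∑ g : G, P.eval (Nat.card (MulAction.fixedBy α g) : ℤ) := by
    intro P
    simp only [Polynomial.eval_eq_sum_range]
    rw [Finset.sum_comm]
    refine Finset.dvd_sum fun i _ => ?_
    rw [← Finset.mul_sum]; exact (h1 i).mul_left _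
  have h3 := h2 (∏ l ∈ L, (Polynomial.X - Polynomial.C (l : ℤ)))
  rw [Finset.sum_eq_single (1 : G)] at h3
  · simp only [Polynomial.eval_prod, Polynomial.eval_sub, Polynomial.eval_X, Polynomial.eval_C,
      MulAction.fixedBy_one_eq_univ, Nat.card_coe_set_eq, Set.ncard_univ, Nat.card_eq_fintype_card (α := α)] at h3
    rw [← Int.natCast_dvd_natCast, Nat.cast_prod]
    rwa [Finset.prod_congr rfl fun l hl' => Nat.cast_sub (hl l hl').le]
  · intro g _ hg
    rw [Polynomial.eval_prod]
    exact Finset.prod_eq_zero (hL g g.2 (fun h => hg (Subtype.ext h))) (by simp; exact sub_self _)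
  · simp

end Cfsg.Agent.S0724
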