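import Cfsg.Statements.S0727
import Mathlib
import Cfsg.Agent.H7.Zass3

set_option autoImplicit false
open Cfsg

namespace Cfsg.Agent.S0727

/-- A sharply triply transitive permutation group of degree `2^f + 1` is isomorphic to the projective general linear group of degree 2 over the field with `2^f` elements. -/
theorem result {α : Type*} [Fintype α] [DecidableEq α] {f : ℕ} (hf : 1 ≤ f) (hα : Fintype.card α = 2 ^ f + 1) (G : Subgroup (Equiv.Perm α)) (h3 : MulAction.IsMultiplyPretransitive G α 3) (hsharp : ∀ x : Fin 3 ↪ α, MulAction.stabilizer G x = ⊥) : ∃ (F : Type) (_ : Field F) (_ : Fintype F), Fintype.card F = 2 ^ f ∧ Nonempty (G ≃* Matrix.ProjGenLinGroup (Fin 2) F) := by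
  have hn : Nat.card α = 2 ^ f + 1 := by rw [Nat.card_eq_fintype_card, hα]
  have h2 : 2 ≤ 2 ^ f := Nat.le_self_pow (by omega) 2
  have z := H7.z3_of_sharp h3 (by omega) hsharp
  obtain ⟨a, b, hab⟩ := Fintype.exists_pair_of_one_lt_card (show 1 < Fintype.card α by omega)
  haveI : Fintype (GaloisField 2 f) := Fintype.ofFinite _
  have hK : Fintype.card (GaloisField 2 f) = 2 ^ f := by
    rw [← Nat.card_eq_fintype_card, GaloisField.card 2 f (by omega)]
  exact ⟨GaloisField 2 f, _, _, hK, (z.pgl_odd_degree hab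
    (hn ▸ (Nat.even_pow.2 ⟨even_two, by omega⟩).add_one) (H7.card_St_of_three h3 hab) _
    (by rw [hK, hn])).1⟩

end Cfsg.Agent.S0727
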