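import Cfsg.Statements.S0728
import Mathlib
import Cfsg.Agent.H7.MultiTrans

set_option autoImplicit false
open Cfsg

namespace Cfsg.Agent.S0728

theorem conj3 {G α : Type*} [Group G] [MulAction G α] (h3 : MulAction.IsMultiplyPretransitive G α 3) (hsharp : ∀ x : Fin 3 ↪ α, MulAction.stabilizer G x = ⊥) {x y : G} (hx : x ^ 3 = 1) (hy : y ^ 3 = 1) {u v : α} (hu : x • u ≠ u) (hv : y • v ≠ v) : ∃ g : G, g • u = v ∧ g * x = y * g := by
  have key : ∀ (x : G) (u : α), x ^ 3 = 1 → x • u ≠ u → x • x • x • u = u ∧ u ≠ x • x • u ∧ x • u ≠ x • x • u := by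
    intro x u hx hu
    have h1 : x • x • x • u = u := by rw [← mul_smul, ← mul_smul, ← pow_three', hx, one_smul]
    refine ⟨h1, fun h => hu ?_, fun h => hu ((smul_left_cancel_iff x).1 h).symm⟩
    nth_rewrite 1 [h]; exact h1
  obtain ⟨a1, a2, a3⟩ := key x u hx hu
  obtain ⟨b1, b2, b3⟩ := key y v hy hv
  obtain ⟨g, g1, g2, g3⟩ := H7.mt_three h3 hu.symm a2 a3 hv.symm b2 b3
  refine ⟨g, g1, ?_⟩
  rw [← inv_mul_eq_one]
  refine H7.sharp_three hsharp hu.symm a2 a3 ?_ ?_ ?_
  · simp only [mul_smul, inv_smul_eq_iff, g1, g2]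
  · simp only [mul_smul, inv_smul_eq_iff, g3, g2]
  · simp only [mul_smul, inv_smul_eq_iff, g1, g3, a1, b1]

/-- In a sharply triply transitive group of even degree at least 6 (degree `q + 1`, `q` odd), a two-point stabiliser has at most one subgroup of order 3. -/
theorem result {α : Type*} [Fintype α] [DecidableEq α] (heven : Even (Fintype.card α)) (h6 : 6 ≤ Fintype.card α) (G : Subgroup (Equiv.Perm α)) (h3 : MulAction.IsMultiplyPretransitive G α 3) (hsharp : ∀ x : Fin 3 ↪ α, MulAction.stabilizer G x = ⊥) {a b : α} (hab : a ≠ b) (A B : Subgroup G) (hA : A ≤ MulAction.stabilizer G a ⊓ MulAction.stabilizer G b) (hB : B ≤ MulAction.stabilizer G a ⊓ MulAction.stabilizer G b) (hA3 : Nat.card A = 3) (hB3 : Nat.card B = 3) : A = B := by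
  haveI : Fact (Nat.Prime 3) := ⟨Nat.prime_three⟩
  obtain ⟨x, hx⟩ := exists_prime_orderOf_dvd_card' (G := A) 3 (by rw [hA3])
  obtain ⟨y, hy⟩ := exists_prime_orderOf_dvd_card' (G := B) 3 (by rw [hB3])
  have gen : ∀ (A : Subgroup G) (x : A), Nat.card A = 3 → orderOf x = 3 → A = Subgroup.zpowers (x : G) := by
    intro A x hA hx
    symm
    apply Subgroup.eq_of_le_of_card_ge (by simpa using x.2)
    rw [Nat.card_zpowers, Subgroup.orderOf_coe, hx, hA]
  rw [gen A x hA3 hx, gen B y hB3 hy]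
  have hxa : (x : G) • a = a := (hA x.2).1
  have hxb : (x : G) • b = b := (hA x.2).2
  have hya : (y : G) • a = a := (hB y.2).1
  have hyb : (y : G) • b = b := (hB y.2).2
  rw [← Subgroup.orderOf_coe] at hx hy
  generalize (x : G) = x at *
  generalize (y : G) = y at *
  have hfix : ∀ z : G, orderOf z = 3 → z • a = a → z • b = b → ∀ c, z • c = c → c = a ∨ c = b := by
    intro z hz h1 h2 c hc
    by_contra hcon
    push Not at hcon
    rw [H7.sharp_three hsharp hab hcon.1.symm hcon.2.symm h1 h2 hc] at hz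
    simp at hz
  obtain ⟨u, -, hu⟩ := Finset.exists_mem_notMem_of_card_lt_card (s := {a, b})
      (t := Finset.univ) (by rw [Finset.card_pair hab, Finset.card_univ]; omega)
  simp only [Finset.mem_insert, Finset.mem_singleton] at hu
  have key : ∀ z : G, orderOf z = 3 → z • a = a → z • b = b → z = x ∨ ∃ g : G, g • u = u ∧ g • a = b ∧ g • b = a ∧ g * x = z * g := by
    intro z hz h1 h2
    obtain ⟨g, hg, hgx⟩ := conj3 h3 hsharp (hx ▸ pow_orderOf_eq_one x) (hz ▸ pow_orderOf_eq_one z)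
      (fun h => hu (hfix x hx hxa hxb u h)) (fun h => hu (hfix z hz h1 h2 u h))
    have ha' := hfix z hz h1 h2 (g • a) (by rw [← mul_smul, ← hgx, mul_smul, hxa])
    have hb' := hfix z hz h1 h2 (g • b) (by rw [← mul_smul, ← hgx, mul_smul, hxb])
    push Not at hu
    rcases ha' with ha' | ha' <;> rcases hb' with hb' | hb'
    · exact absurd ((smul_left_cancel_iff g).1 (ha'.trans hb'.symm)) hab
    · left
      rw [H7.sharp_three hsharp hab hu.1.symm hu.2.symm ha' hb' hg] at hgx
      simpa using hgx.symm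
    · exact Or.inr ⟨g, hg, ha', hb', hgx⟩
    · exact absurd ((smul_left_cancel_iff g).1 (ha'.trans hb'.symm)) hab
  rcases key y hy hya hyb with rfl | ⟨g, g1, g2, g3, g4⟩
  · rfl
  rcases key y⁻¹ (by simpa using hy) (inv_smul_eq_iff.2 hya.symm) (inv_smul_eq_iff.2 hyb.symm) with rfl | ⟨k, k1, k2, k3, k4⟩
  · simp
  push Not at hu
  have : k⁻¹ * g = 1 := H7.sharp_three hsharp hab hu.1.symm hu.2.symm
    (by rw [mul_smul, g2, inv_smul_eq_iff, k2]) (by rw [mul_smul, g3, inv_smul_eq_iff, k3])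
    (by rw [mul_smul, g1, inv_smul_eq_iff, k1])
  rw [inv_mul_eq_one] at this
  rw [this, g4, mul_left_inj, eq_inv_iff_mul_eq_one, ← pow_two] at k4
  have := orderOf_dvd_of_pow_eq_one k4
  rw [hy] at this; norm_num at this

end Cfsg.Agent.S0728
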