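import Cfsg.Statements.S0730
import Mathlib
import Cfsg.Agent.H7.Sh3

set_option autoImplicit false
open Cfsg

namespace Cfsg.Agent.S0730

open Cfsg.Agent.H7

/-- A sharply triply transitive group of degree `p^f + 1`, `p` an odd prime and `f` odd, is isomorphic to the projective general linear group of degree 2 over the field with `p^f` elements (for even `f` there is a second, twisted, group). -/
theorem result {α : Type*} [Fintype α] [DecidableEq α] {p f : ℕ} (hp : p.Prime) (hp2 : p ≠ 2) (hfo : Odd f) (hα : Fintype.card α = p ^ f + 1) (G : Subgroup (Equiv.Perm α)) (h3 : MulAction.IsMultiplyPretransitive G α 3) (hsharp : ∀ x : Fin 3 ↪ α, MulAction.stabilizer G x = ⊥) : ∃ (F : Type) (_ : Field F) (_ : Fintype F), Fintype.card F = p ^ f ∧ Nonempty (G ≃* Matrix.ProjGenLinGroup (Fin 2) F) := by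
  rw [← Nat.card_eq_fintype_card] at hα
  have h1 : 3 ≤ p ^ f := (show 3 ≤ p by have := hp.two_le; omega).trans (Nat.le_self_pow hfo.pos.ne' p)
  have z := z3_of_sharp h3 (by omega) hsharp
  obtain ⟨a, b, -, hab, -⟩ := exists_three (Ω := α) (by omega)
  obtain ⟨K, i1, i2, h2, h4⟩ := exists_field_card hp hfo.pos
  refine ⟨K, i1, i2, h2, z.pgl_of_odd hab (by omega) (card_St_of_three h3 hab)
    (hα ▸ (hp.odd_of_ne_two hp2).pow.add_one) K (by rw [h2, hα]) fun φ hφ => ?_⟩
  haveI := Fact.mk hp
  haveI : CharP K p := ringChar.of_eq h4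
  letI := ZMod.algebra K p
  let ψ : K ≃ₐ[ZMod p] K := AlgEquiv.ofRingEquiv (f := φ) fun x =>
    DFunLike.congr_fun (RingHom.ext_zmod ((φ : K →+* K).comp (algebraMap (ZMod p) K)) (algebraMap _ _)) x
  have h5 : Module.finrank (ZMod p) K = f := by
    have := Module.card_eq_pow_finrank (K := ZMod p) (V := K)
    rw [ZMod.card, h2] at this
    exact (Nat.pow_right_injective hp.two_le this).symm
  have h6 : orderOf ψ ∣ f := h5 ▸ IsGalois.card_aut_eq_finrank (ZMod p) K ▸ orderOf_dvd_natCard ψ
  have h7 : ψ = 1 := eq_one_of_sq (hfo.of_dvd_nat h6) (AlgEquiv.ext hφ)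
  exact fun x => DFunLike.congr_fun h7 x

end Cfsg.Agent.S0730
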