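import Cfsg.Statements.S0732
import Mathlib
import Cfsg.Agent.H7.Reg
import Cfsg.Agent.H7.Zass6

set_option autoImplicit false
open Cfsg

namespace Cfsg.Agent.S0732

open Cfsg.Agent.H7 MulAction Subgroup

/-- A transitive permutation group on `p + 1` points (`p` prime) of order `(p+1) p d` with `d < p` is isomorphic to `PGL(2,p)` with `d = p - 1`, or to `PSL(2,p)` with `2d = p - 1`, or else `p + 1 = 2^q` for a prime `q`, `d = 1` or `d = q`, and the group is permutation-isomorphic to a group of semi-affine maps `x ↦ a φ(x) + b` of the field with `2^q` elements. -/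
theorem result {α : Type*} [Fintype α] [DecidableEq α] {p d : ℕ} (hp : p.Prime) (hα : Fintype.card α = p + 1) (G : Subgroup (Equiv.Perm α)) [MulAction.IsPretransitive G α] (hG : Nat.card G = (p + 1) * p * d) (hd : d < p) : (d = p - 1 ∧ Nonempty (G ≃* Matrix.ProjGenLinGroup (Fin 2) (ZMod p))) ∨ (2 * d = p - 1 ∧ Nonempty (G ≃* Matrix.ProjectiveSpecialLinearGroup (Fin 2) (ZMod p))) ∨ (∃ q : ℕ, q.Prime ∧ p + 1 = 2 ^ q ∧ (d = 1 ∨ d = q) ∧ ∃ e : α ≃ GaloisField 2 q, ∀ g : G, (e.symm.trans (((g : Equiv.Perm α)).trans e)) ∈ Cfsg.semiaffineGroup (GaloisField 2 q)) := by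
  haveI := Fact.mk hp
  have hΩ : Nat.card α = p + 1 := by rw [Nat.card_eq_fintype_card, hα]
  have hk := exists_ker_succ_prime hp hΩ hG hd
  have z : Z3 G α := z3_of_ker_prime hp hk
  have h2 := hp.two_le
  obtain ⟨a, b, c, hab, -, -⟩ := exists_three (Ω := α) (by omega)
  obtain ⟨P, k, hP⟩ := hk a
  have hPc : ∀ x ∈ P, ∀ y ∈ P, x * y = y * x := fun x hx y hy => by
    haveI := isCyclic_of_prime_card hP
    letI := IsCyclic.commGroup (α := P)
    exact congrArg Subtype.val (mul_comm (⟨x, hx⟩ : P) ⟨y, hy⟩)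
  have hS : Nat.card (St G a b) = d := by
    have := z.card_eq hab
    rw [hG, hΩ, mul_assoc, Nat.add_sub_cancel] at this
    exact (Nat.eq_of_mul_eq_mul_left hp.pos (Nat.eq_of_mul_eq_mul_left (Nat.succ_pos p) this)).symm
  have hZ : Fintype.card (ZMod p) + 1 = Nat.card α := by rw [ZMod.card, hΩ]
  rcases hp.eq_two_or_odd' with rfl | hodd
  · have : d ≠ 0 := hS ▸ Nat.card_pos.ne'
    exact Or.inl ⟨by omega, (z.pgl_odd_degree hab (hΩ ▸ (by decide)) (by omega) _ hZ).1⟩
  have he : Even (Nat.card α) := hΩ ▸ hodd.add_one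
  by_cases hreg : ∃ N : Subgroup G, N.Normal ∧ IsPretransitive N α ∧ ∀ a : α, stabilizer N a = ⊥
  · obtain ⟨N, hN, ht, hr⟩ := hreg
    have hc := reg_card ht hr a
    obtain ⟨⟨n, hn⟩, ho⟩ := exists_prime_orderOf_dvd_card' (G := N) 2 (hc ▸ he.two_dvd)
    rw [← orderOf_coe] at ho
    change orderOf n = 2 at ho
    have hsq := reg_sq z.two hr a hn (fun e => by rw [e, orderOf_one] at ho; omega)
      (by rw [← sq, ← ho, pow_orderOf_eq_one])
    obtain ⟨q, hq⟩ := IsPGroup.iff_card.1 (pgroup_of_sq hsq)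
    have hpq : p + 1 = 2 ^ q := by omega
    have hqp : q.Prime := by
      have : (mersenne q).Prime := by rwa [mersenne, ← hpq, Nat.add_sub_cancel]
      exact this.of_mersenne
    letI := Fintype.ofFinite (GaloisField 2 q)
    have hK : Fintype.card (GaloisField 2 q) = 2 ^ q := by
      rw [← Nat.card_eq_fintype_card, GaloisField.card 2 q hqp.ne_zero]
    obtain ⟨e, e0, e1, he⟩ := reg_semiaffine ht hr (comm_of_sq hsq) hab k hPc (GaloisField 2 q)
      (by omega)
    refine Or.inr (Or.inr ⟨q, hqp, hpq, ?_, e.symm, fun g => ?_⟩)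
    · have := card_St_dvd_of_semiaffine e he
      rw [e0, e1, hS, H4.card_ringAut hK] at this
      exact (Nat.dvd_prime hqp).1 this
    · obtain ⟨u, v, φ, hu, h⟩ := he g
      exact ⟨Units.mk0 u hu, v, φ, fun x => (Equiv.symm_apply_eq e).2 (h x)⟩
  have hZa : IsZassenhausGroup G α := by
    refine ⟨inferInstance, z.two, z.three, ?_, fun N hN ht => ?_⟩
    · by_contra h
      push Not at h
      haveI : Nontrivial α := ⟨⟨a, b, hab⟩⟩
      obtain ⟨K, hK, h1, ht⟩ := frobenius_kernel (G := G) (Ω := α) fun a b hab g ha hb => by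
        by_contra hg; exact h g hg a b hab ha hb
      refine hreg ⟨K, hK, ht, fun x => eq_bot_iff.2 fun g hg => Subtype.ext ?_⟩
      exact ((h1 g).1 g.2).resolve_right fun h' => h' x hg
    · by_contra h
      push Not at h
      exact hreg ⟨N, hN, ht, h⟩
  rcases zass_large hZa hab k hPc with h | ⟨h, K, _, _, -, hK, ⟨e⟩⟩
  · exact Or.inl ⟨by omega, z.pgl_of_odd hab (by omega) h he _ hZ fun φ _ x =>
      DFunLike.congr_fun (Subsingleton.elim (φ : ZMod p →+* ZMod p) (RingHom.id _)) x⟩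
  · exact Or.inr (Or.inl ⟨by omega, ⟨e.trans (H4.psl_congr_card (by omega)).some⟩⟩)

end Cfsg.Agent.S0732
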