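import Cfsg.Statements.S0733
import Mathlib
import Cfsg.Agent.H7.MultiTrans

set_option autoImplicit false
open Cfsg

namespace Cfsg.Agent.S0733

/-- A permutation group of affine type — generated by the translations of a finite vector space `V` over `ZMod p` together with a group `G₀` of linear automorphisms — is primitive on `V` if and only if `G₀` is irreducible on `V`. -/
theorem result {p : ℕ} [Fact p.Prime] {V : Type*} [AddCommGroup V] [Module (ZMod p) V] [Finite V] [Nontrivial V] (G₀ : Subgroup (V ≃ₗ[ZMod p] V)) (G : Subgroup (Equiv.Perm V)) (hG : ∀ σ : Equiv.Perm V, σ ∈ G ↔ ∃ g ∈ G₀, ∃ b : V, ∀ x : V, σ x = (g : V ≃ₗ[ZMod p] V) x + b) : MulAction.IsPreprimitive G V ↔ ∀ W : Submodule (ZMod p) V, (∀ g ∈ G₀, ∀ v ∈ W, (g : V ≃ₗ[ZMod p] V) v ∈ W) → W = ⊥ ∨ W = ⊤ := by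
  have htr : ∀ b : V, ∃ g : G, ∀ x, g • x = x + b := fun b =>
    ⟨⟨Equiv.addRight b, (hG _).2 ⟨1, G₀.one_mem, b, fun x => rfl⟩⟩, fun x => rfl⟩
  constructor
  · intro hp W hW
    rcases H7.prim_block (G := G) (W : Set V) (by
      rintro ⟨σ, hσ⟩ x hx hgx y hy
      obtain ⟨g, hg, b, h⟩ := (hG σ).1 hσ
      change σ _ ∈ W at hgx ⊢
      rw [h] at hgx ⊢
      exact W.add_mem (hW g hg y hy) ((W.add_mem_iff_right (hW g hg x hx)).1 hgx)) with h | h
    · left; rw [eq_bot_iff]; intro x hx; exact h hx W.zero_mem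
    · right; exact SetLike.coe_injective h
  · intro h
    haveI : MulAction.IsPretransitive G V := ⟨fun x y => by
      obtain ⟨g, hg⟩ := htr (y - x); exact ⟨g, by rw [hg]; simp⟩⟩
    refine MulAction.IsPreprimitive.of_isTrivialBlock_base (0 : V) fun {B} h0 hB => ?_
    rw [MulAction.isBlock_iff_smul_eq_of_mem] at hB
    let A : AddSubgroup V :=
      { carrier := B
        zero_mem' := h0
        add_mem' := fun {x y} hx hy => by
          obtain ⟨g, hg⟩ := htr y
          rw [← hB h0 (g := g) (by rw [hg]; simpa using hy), ← hg]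
          exact Set.smul_mem_smul_set hx
        neg_mem' := fun {x} hx => by
          obtain ⟨g, hg⟩ := htr (-x)
          rw [← hB hx (g := g) (by rw [hg]; simpa using h0), ← zero_add (-x), ← hg]
          exact Set.smul_mem_smul_set h0 }
    rcases h (AddSubgroup.toZModSubmodule p A) (by
      intro g hg v hv
      let σ : G := ⟨g.toEquiv, (hG _).2 ⟨g, hg, 0, fun x => by simp⟩⟩
      change g v ∈ B
      rw [← hB h0 (g := σ) (by change g 0 ∈ B; simpa using h0)]
      exact Set.smul_mem_smul_set (a := σ) hv) with h1 | h1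
    · left
      intro x hx y hy
      have hx' : x ∈ AddSubgroup.toZModSubmodule p A := hx
      have hy' : y ∈ AddSubgroup.toZModSubmodule p A := hy
      rw [h1, Submodule.mem_bot] at hx' hy'
      rw [hx', hy']
    · right
      exact Set.eq_univ_of_forall fun x => (h1 ▸ Submodule.mem_top : x ∈ AddSubgroup.toZModSubmodule p A)

end Cfsg.Agent.S0733
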