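import Cfsg.Statements.S0734
import Mathlib

set_option autoImplicit false
open Cfsg

namespace Cfsg.Agent.S0734

/-- Higman's criterion for primitivity: a transitive action on a finite set is primitive if and only if every non-trivial orbital graph (edges = images of a fixed pair of distinct points) is connected. -/
theorem result {G : Type*} [Group G] {Ω : Type*} [Finite Ω] [MulAction G Ω] [MulAction.IsPretransitive G Ω] [Nontrivial Ω] : MulAction.IsPreprimitive G Ω ↔ ∀ a b : Ω, a ≠ b → (SimpleGraph.fromRel fun x y : Ω => ∃ g : G, g • a = x ∧ g • b = y).Connected := by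
  constructor
  · intro hp a b hab
    rw [SimpleGraph.connected_iff_exists_forall_reachable]
    set Γ := SimpleGraph.fromRel fun x y : Ω => ∃ g : G, g • a = x ∧ g • b = y with hΓ
    have hadj : ∀ (g : G) x y, Γ.Adj x y → Γ.Adj (g • x) (g • y) := by
      intro g x y h
      rw [hΓ, SimpleGraph.fromRel_adj] at h ⊢
      refine ⟨by simpa using h.1, ?_⟩
      rcases h.2 with ⟨k, rfl, rfl⟩ | ⟨k, rfl, rfl⟩
      · exact Or.inl ⟨g * k, mul_smul _ _ _, mul_smul _ _ _⟩
      · exact Or.inr ⟨g * k, mul_smul _ _ _, mul_smul _ _ _⟩
    have hreach : ∀ (g : G) x y, Γ.Reachable x y → Γ.Reachable (g • x) (g • y) := by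
      intro g x y h
      exact h.map (⟨fun z => g • z, fun {u v} h => hadj g u v h⟩ : Γ →g Γ)
    have hB : MulAction.IsBlock G {x | Γ.Reachable a x} := by
      rw [MulAction.isBlock_iff_smul_eq_of_mem]
      intro g x hx hgx
      ext y
      rw [Set.mem_smul_set_iff_inv_smul_mem]
      constructor
      · intro h
        have := hreach g _ _ (hx.symm.trans h)
        rw [smul_inv_smul] at this
        exact hgx.trans this
      · intro h
        have := hreach g⁻¹ _ _ (hgx.symm.trans h)
        rw [inv_smul_smul] at this
        exact hx.trans this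
    rcases hB.subsingleton_or_eq_univ with h | h
    · exfalso
      refine hab (h (SimpleGraph.Reachable.refl a) (SimpleGraph.Adj.reachable ?_))
      rw [hΓ, SimpleGraph.fromRel_adj]
      exact ⟨hab, Or.inl ⟨1, one_smul _ _, one_smul _ _⟩⟩
    · exact ⟨a, fun y => (h ▸ Set.mem_univ y : y ∈ {x | Γ.Reachable a x})⟩
  · intro h
    refine ⟨fun {B} hB => ?_⟩
    rcases B.subsingleton_or_nontrivial with hs | ⟨a, ha, b, hb, hab⟩
    · exact Or.inl hs
    · right
      have key : ∀ x y, (SimpleGraph.fromRel fun x y : Ω => ∃ g : G, g • a = x ∧ g • b = y).Reachable x y → x ∈ B → y ∈ B := by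
        rintro x y ⟨w⟩
        induction w with
        | nil => exact id
        | cons hadj _ ih =>
          intro hx
          apply ih
          rw [SimpleGraph.fromRel_adj] at hadj
          rcases hadj.2 with ⟨k, rfl, rfl⟩ | ⟨k, rfl, rfl⟩
          · rw [← MulAction.isBlock_iff_smul_eq_of_mem.1 hB ha hx]; exact Set.smul_mem_smul_set hb
          · rw [← MulAction.isBlock_iff_smul_eq_of_mem.1 hB hb hx]; exact Set.smul_mem_smul_set ha
      exact Set.eq_univ_of_forall fun y => key a y ((h a b hab).preconnected a y) ha

end Cfsg.Agent.S0734
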