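import Cfsg.Statements.S0735
import Mathlib
import Cfsg.Agent.H7.Perm2

set_option autoImplicit false
open Cfsg

namespace Cfsg.Agent.S0735

theorem two_trans {G α : Type*} [Group G] [Finite G] [MulAction G α] [FaithfulSMul G α] [DecidableEq α] (h2 : MulAction.IsPretransitive G (Set.powersetCard α 2)) (he : Even (Nat.card G)) : MulAction.IsMultiplyPretransitive G α 2 := by
  obtain ⟨t, ht⟩ := exists_prime_orderOf_dvd_card' (G := G) 2 he.two_dvd
  have ht1 : t ≠ 1 := by rintro rfl; simp at ht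
  obtain ⟨u, hu⟩ : ∃ u : α, t • u ≠ u := by
    by_contra h
    push Not at h
    exact ht1 (FaithfulSMul.eq_of_smul_eq_smul (α := α) fun x => by rw [h, one_smul])
  have htt : t • t • u = u := by rw [← mul_smul, ← pow_two, ← ht, pow_orderOf_eq_one, one_smul]
  have key : ∀ a b : α, a ≠ b → ∃ g : G, g • a = u ∧ g • b = t • u := by
    intro a b hab
    obtain ⟨g, hg | hg⟩ := H7.homog_two h2 hab hu.symm
    · exact ⟨g, hg⟩
    · exact ⟨t * g, by rw [mul_smul, hg.1, htt], by rw [mul_smul, hg.2]⟩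
  rw [MulAction.is_two_pretransitive_iff]
  intro a b c d hab hcd
  obtain ⟨g, g1, g2⟩ := key a b hab
  obtain ⟨k, k1, k2⟩ := key c d hcd
  exact ⟨k⁻¹ * g, by rw [mul_smul, g1, inv_smul_eq_iff, k1], by rw [mul_smul, g2, inv_smul_eq_iff, k2]⟩

theorem prim {G α : Type*} [Group G] [MulAction G α] [Fintype α] [DecidableEq α] (h2 : MulAction.IsPretransitive G (Set.powersetCard α 2)) (hα : 3 ≤ Fintype.card α) : MulAction.IsPreprimitive G α := by
  haveI : MulAction.IsPretransitive G α := ⟨fun a b => by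
    by_cases hab : a = b
    · exact ⟨1, by rw [one_smul, hab]⟩
    obtain ⟨c, -, hc⟩ := Finset.exists_mem_notMem_of_card_lt_card (s := {a, b})
      (t := Finset.univ) (by rw [Finset.card_pair hab, Finset.card_univ]; omega)
    simp only [Finset.mem_insert, Finset.mem_singleton, not_or] at hc
    obtain ⟨g, hg | hg⟩ := H7.homog_two h2 hab (Ne.symm hc.1)
    · obtain ⟨k, hk | hk⟩ := H7.homog_two h2 hab (Ne.symm hc.2)
      · exact ⟨k, hk.1⟩
      · exact ⟨g⁻¹ * k, by rw [mul_smul, hk.1, inv_smul_eq_iff, hg.2]⟩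
    · exact ⟨g⁻¹, by rw [inv_smul_eq_iff, hg.2]⟩⟩
  refine ⟨fun {B} hB => ?_⟩
  rcases B.subsingleton_or_nontrivial with h | ⟨x, hx, y, hy, hxy⟩
  · exact Or.inl h
  right
  refine Set.eq_univ_of_forall fun z => ?_
  by_cases hz : x = z
  · exact hz ▸ hx
  rw [MulAction.isBlock_iff_smul_eq_of_mem] at hB
  obtain ⟨g, hg | hg⟩ := H7.homog_two h2 hxy hz
  · rw [← hB hx (g := g) (hg.1.symm ▸ hx), ← hg.2]; exact Set.smul_mem_smul_set hy
  · rw [← hB hy (g := g) (hg.2.symm ▸ hx), ← hg.1]; exact Set.smul_mem_smul_set hx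

/-- A 2-homogeneous permutation group (transitive on 2-subsets) of even order is doubly transitive; a non-trivial 2-homogeneous group is primitive. -/
theorem result {α : Type*} [Fintype α] [DecidableEq α] (G : Subgroup (Equiv.Perm α)) (h2 : MulAction.IsPretransitive G (Set.powersetCard α 2)) (hα : 3 ≤ Fintype.card α) : (Even (Nat.card G) → MulAction.IsMultiplyPretransitive G α 2) ∧ (G ≠ ⊥ → MulAction.IsPreprimitive G α) := by
  exact ⟨two_trans h2, fun _ => prim h2 hα⟩

end Cfsg.Agent.S0735
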