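import Cfsg.Statements.S0736
import Mathlib
import Cfsg.Agent.H7.Perm2

set_option autoImplicit false
open Cfsg

namespace Cfsg.Agent.S0736

open Finset
open scoped Pointwise

theorem choose_coprime {p : ℕ} (hp : p.Prime) (a k : ℕ) :
    (p ^ a * k + (p ^ a - 1)).choose (p ^ a - 1) ≡ 1 [MOD p] := by
  haveI := Fact.mk hp
  induction a with
  | zero => simp; rfl
  | succ a ih =>
    refine Choose.choose_modEq_choose_mod_mul_choose_div_nat.trans ?_
    obtain ⟨u, hu⟩ : ∃ u, p ^ a = u + 1 := ⟨p ^ a - 1, by have := pow_pos hp.pos a; omega⟩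
    obtain ⟨r, rfl⟩ : ∃ r, p = r + 1 := ⟨p - 1, by have := hp.pos; omega⟩
    have e1 : (r + 1) ^ (a + 1) - 1 = r + (r + 1) * u := by
      rw [pow_succ, hu]; ring_nf; omega
    have e2 : (r + 1) ^ (a + 1) * k + ((r + 1) ^ (a + 1) - 1) = r + (r + 1) * ((u + 1) * k + u) := by
      rw [e1, pow_succ, hu]; ring
    rw [e2, e1, Nat.add_mul_mod_self_left, Nat.add_mul_mod_self_left,
      Nat.add_mul_div_left _ _ hp.pos, Nat.add_mul_div_left _ _ hp.pos, Nat.choose_self,
      Nat.div_eq_of_lt (Nat.lt_succ_self r), zero_add, zero_add, one_mul]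
    rw [hu] at ih
    exact ih

/-- A `k`-homogeneous permutation group of degree `n`, `k ≥ 2`, with `k + q - 1 ≤ n` for every prime power `q` dividing `k`, is `(k-1)`-homogeneous. -/
theorem result {α : Type*} [Fintype α] [DecidableEq α] (G : Subgroup (Equiv.Perm α)) {k : ℕ} (hk : 2 ≤ k) (hG : MulAction.IsPretransitive G (Set.powersetCard α k)) (hq : ∀ q : ℕ, IsPrimePow q → q ∣ k → k + q - 1 ≤ Fintype.card α) : MulAction.IsPretransitive G (Set.powersetCard α (k - 1)) := by
  classical
  obtain ⟨k, rfl⟩ : ∃ m, k = m + 1 := ⟨k - 1, by omega⟩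
  replace hG := (H7.homog_iff (G := G)).1 ⟨hG.1⟩
  refine ⟨((H7.homog_iff (G := G) (k := k)).2 ?_).1⟩
  intro s t hs ht
  have hkn : k + 1 ≤ Fintype.card α := by
    obtain ⟨p, hp, hpd⟩ := Nat.exists_prime_and_dvd (show k + 1 ≠ 1 by omega)
    have := hq p hp.isPrimePow hpd
    have := hp.pos
    omega
  let T : Finset α → Prop := fun A => ∃ g : G, g • s = A
  have hT : ∀ A, T A → A.card = k := by
    rintro _ ⟨g, rfl⟩; rw [card_smul_finset, hs]
  let c : Finset α → ℕ := fun D => (D.powerset.filter T).card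
  have hc : ∀ (g : G) D, c (g • D) = c D := fun g D => by
    symm
    refine card_bij (fun A _ => g • A) (fun A hA => ?_) (fun A _ B _ h => smul_left_cancel g h)
      fun B hB => ⟨g⁻¹ • B, ?_, smul_inv_smul _ _⟩
    · rw [mem_filter, mem_powerset] at hA ⊢
      obtain ⟨h, u, rfl⟩ := hA
      exact ⟨smul_finset_subset_smul_finset h, g * u, mul_smul _ _ _⟩
    · rw [mem_filter, mem_powerset] at hB ⊢
      obtain ⟨h, u, rfl⟩ := hB
      exact ⟨by simpa using smul_finset_subset_smul_finset (a := g⁻¹) h, g⁻¹ * u, mul_smul _ _ _⟩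
  obtain ⟨D₀, hsD, hD₀⟩ := exists_superset_card_eq (s := s) (n := k + 1) (by omega) hkn
  have hm : ∀ D, D.card = k + 1 → c D = c D₀ := fun D hD => by
    obtain ⟨g, rfl⟩ := hG D₀ D hD₀ hD; exact hc g D₀
  have hdvd : k + 1 ∣ c D₀ := by
    rw [Nat.dvd_iff_prime_pow_dvd_dvd]
    intro p a hp hpa
    rcases a with _ | a
    · simp
    obtain ⟨S, -, hS⟩ := exists_subset_card_eq (s := (univ : Finset α)) (n := k + p ^ (a + 1))
      (by have := hq _ ((hp.isPrimePow).pow (Nat.add_one_ne_zero a)) hpa; rw [card_univ]; omega)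
    have h1 : ∑ D ∈ S.powersetCard (k + 1), c D = c S * p ^ (a + 1) := by
      have := sum_card_bipartiteAbove_eq_sum_card_bipartiteBelow
        (s := S.powersetCard (k + 1)) (t := S.powerset.filter T) (fun D A => A ⊆ D)
      rw [← smul_eq_mul, ← sum_const]
      convert this using 1
      · refine sum_congr rfl fun D hD => congrArg card ?_
        ext A
        simp only [bipartiteAbove, mem_filter, mem_powerset]
        exact ⟨fun h => ⟨⟨h.1.trans (mem_powersetCard.1 hD).1, h.2⟩, h.1⟩, fun h => ⟨h.2, h.1.2⟩⟩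
      · refine sum_congr rfl fun A hA => ?_
        rw [mem_filter, mem_powerset] at hA
        have : p ^ (a + 1) = (S \ A).card := by rw [card_sdiff_of_subset hA.1, hS, hT A hA.2]; omega
        rw [this]
        refine card_bij (fun x _ => insert x A) (fun x hx => ?_) (fun x hx y hy h => ?_) fun D hD => ?_
        · rw [mem_sdiff] at hx
          simp only [bipartiteBelow, mem_filter, mem_powersetCard]
          exact ⟨⟨insert_subset hx.1 hA.1, by rw [card_insert_of_notMem hx.2, hT A hA.2]⟩,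
            subset_insert _ _⟩
        · exact (insert_inj (mem_sdiff.1 hx).2).1 h
        · simp only [bipartiteBelow, mem_filter, mem_powersetCard] at hD
          obtain ⟨x, hx, rfl⟩ := exists_eq_insert_iff.2 ⟨hD.2, by rw [hD.1.2, hT A hA.2]⟩
          exact ⟨x, mem_sdiff.2 ⟨hD.1.1 (mem_insert_self _ _), hx⟩, rfl⟩
    rw [sum_congr rfl (fun D hD => hm D (mem_powersetCard.1 hD).2), sum_const, card_powersetCard,
      hS, smul_eq_mul] at h1
    obtain ⟨l, hl⟩ := hpa
    have hpos := pow_pos hp.pos (a + 1)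
    have h2 := choose_coprime hp (a + 1) l
    rw [← hl, show k + 1 + (p ^ (a + 1) - 1) = k + p ^ (a + 1) by omega,
      ← Nat.choose_symm (by omega), show k + p ^ (a + 1) - (p ^ (a + 1) - 1) = k + 1 by omega] at h2
    have h3 : (p ^ (a + 1)).Coprime ((k + p ^ (a + 1)).choose (k + 1)) :=
      Nat.Coprime.pow_left _ ((Nat.Prime.coprime_iff_not_dvd hp).2 fun h =>
        hp.not_dvd_one ((Nat.ModEq.dvd_iff h2 dvd_rfl).1 h))
    exact h3.dvd_of_dvd_mul_left (h1 ▸ dvd_mul_left _ _)
  have hpos : 0 < c D₀ := card_pos.2 ⟨s, mem_filter.2 ⟨mem_powerset.2 hsD, 1, one_smul _ _⟩⟩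
  obtain ⟨D, htD, hD⟩ := exists_superset_card_eq (s := t) (n := k + 1) (by omega) hkn
  have hle := Nat.le_of_dvd hpos hdvd
  rw [← hm D hD] at hle
  have : D.powerset.filter T = D.powersetCard k := eq_of_subset_of_card_le (fun A hA => by
    rw [mem_filter, mem_powerset] at hA
    exact mem_powersetCard.2 ⟨hA.1, hT A hA.2⟩) (by
      rw [card_powersetCard, hD, Nat.choose_succ_self_right]; exact hle)
  exact (mem_filter.1 (this ▸ mem_powersetCard.2 ⟨htD, ht⟩ : t ∈ D.powerset.filter T)).2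

end Cfsg.Agent.S0736
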