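import Cfsg.Statements.S0739
import Mathlib
import Cfsg.Agent.H7.Zass3

set_option autoImplicit false
open Cfsg

namespace Cfsg.Agent.S0739

/-- In a finite Zassenhaus group whose two-point stabiliser `H = G_{a,b}` has odd order `d`, and which has no normal `q`-complement for any prime `q ∣ d`, `H` is cyclic, `C_G(H) = H`, and every element swapping `a` and `b` inverts each element of `H`. -/
theorem result {G Ω : Type*} [Group G] [Finite G] [MulAction G Ω] [Fintype Ω] (hZ : Cfsg.IsZassenhausGroup G Ω) {a b : Ω} (hab : a ≠ b) (hodd : Odd (Nat.card ↥(MulAction.stabilizer G a ⊓ MulAction.stabilizer G b))) (hnil : ∀ q : ℕ, q.Prime → q ∣ Nat.card ↥(MulAction.stabilizer G a ⊓ MulAction.stabilizer G b) → ¬ ∃ N : Subgroup G, N.Normal ∧ N.index = q ^ (Nat.card G).factorization q) : IsCyclic ↥(MulAction.stabilizer G a ⊓ MulAction.stabilizer G b) ∧ Subgroup.centralizer ((MulAction.stabilizer G a ⊓ MulAction.stabilizer G b : Subgroup G) : Set G) = MulAction.stabilizer G a ⊓ MulAction.stabilizer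 G b ∧ ∀ s : G, s • a = b → s • b = a → ∀ h ∈ MulAction.stabilizer G a ⊓ MulAction.stabilizer G b, s * h * s⁻¹ = h⁻¹ := by
  have z := H7.zass_z3 hZ
  obtain ⟨h1, h2⟩ := z.cyclic_of_odd (H7.zass_three_le hZ) hab hodd hnil
  refine ⟨h1, le_antisymm (fun g hg => ?_) fun g hg x hx => ?_, h2⟩
  · obtain ⟨⟨y, hy⟩, hy1⟩ := Subgroup.ne_bot_iff_exists_ne_one.1 (H7.zass_St_ne_bot hZ hab)
    have hy1' : y ≠ 1 := fun e => hy1 (Subtype.ext e)
    rcases H7.mem_Pair_of_conj z hab hy hy1' (g := g) (by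
      rw [mul_assoc, hg y hy]; simpa using hy) with h | h
    · exact h
    · exfalso
      have := h2 g h.1 h.2 y hy
      rw [← hg y hy, mul_inv_cancel_right, eq_inv_iff_mul_eq_one, ← sq] at this
      have h3 : orderOf (⟨y, hy⟩ : H7.St G a b) = 2 := orderOf_eq_prime (Subtype.ext this) hy1
      exact hodd.not_two_dvd_nat (h3 ▸ orderOf_dvd_natCard _)
  · letI := IsCyclic.commGroup (α := H7.St G a b)
    exact congrArg Subtype.val (mul_comm (⟨x, hx⟩ : H7.St G a b) ⟨g, hg⟩)

end Cfsg.Agent.S0739
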