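import Cfsg.Statements.S0742
import Mathlib
import Cfsg.Agent.H7.Zass3

set_option autoImplicit false
open Cfsg

namespace Cfsg.Agent.S0742

/-- A finite Zassenhaus group of degree `n + 1` with two-point stabilisers of even order `d` satisfying `2d ≤ n - 1` has `n = p^f` for an odd prime `p` and is isomorphic to `PSL(2, p^f)`. -/
theorem result {G Ω : Type*} [Group G] [Finite G] [MulAction G Ω] [Fintype Ω] (hZ : Cfsg.IsZassenhausGroup G Ω) {a b : Ω} (hab : a ≠ b) (heven : Even (Nat.card ↥(MulAction.stabilizer G a ⊓ MulAction.stabilizer G b))) (hd : 2 * Nat.card ↥(MulAction.stabilizer G a ⊓ MulAction.stabilizer G b) ≤ Fintype.card Ω - 2) : ∃ (p f : ℕ) (K : Type) (_ : Field K) (_ : Fintype K), p.Prime ∧ p ≠ 2 ∧ Fintype.card K = p ^ f ∧ Fintype.card Ω = p ^ f + 1 ∧ Nonempty (G ≃* Matrix.ProjectiveSpecialLinearGroup (Fin 2) K) := by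
  have z := H7.zass_z3 hZ
  have h3 := H7.zass_three_le hZ
  obtain ⟨F, k⟩ := z.exists_ker h3 a
  rw [← Nat.card_eq_fintype_card] at hd ⊢
  have hl := z.large_of_even hab heven
  obtain ⟨p, f, hp, hf, -, h2⟩ := k.elementary z hab.symm h3 hl
  haveI := Fact.mk hp
  haveI : Fintype (GaloisField p f) := Fintype.ofFinite _
  have hK : Fintype.card (GaloisField p f) = p ^ f := by
    rw [← Nat.card_eq_fintype_card, GaloisField.card p f (by omega)]
  refine ⟨p, f, GaloisField p f, _, _, hp, ?_, hK, h2, z.psl_even hab heven hd _ (by rw [hK, h2])⟩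
  rintro rfl
  have : Even (2 ^ f) := Nat.even_pow.2 ⟨even_two, by omega⟩
  rw [Nat.even_iff] at this
  have h4 : 2 * Nat.card (H7.St G a b) = Nat.card Ω - 2 := le_antisymm hd hl
  omega

end Cfsg.Agent.S0742
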