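import Cfsg.Statements.S0743
import Mathlib
import Cfsg.Agent.H7.Perm2

set_option autoImplicit false
open Cfsg

namespace Cfsg.Agent.S0743

theorem gleason {G α : Type*} [Group G] [MulAction G α] [Fintype α] {p k : ℕ} (hp : p.Prime) (hk : 1 ≤ k) (hkn : k < Fintype.card α) (h : ∀ s : Finset α, s.card = k → ∃ P : Subgroup G, IsPGroup p P ∧ MulAction.fixedPoints P α = (s : Set α)) : MulAction.IsMultiplyPretransitive G α k := by
  classical
  obtain ⟨k, rfl⟩ : ∃ j, k = j + 1 := ⟨k - 1, by omega⟩
  refine H7.mt_of_fix_all k hkn fun s hs a b ha hb => ?_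
  by_contra hcon
  let O : Set α := {y | ∃ g : G, (∀ x ∈ s, g • x = x) ∧ g • a = y}
  have key : ∀ c, c ∉ s → O.ncard ≡ (O ∩ {c}).ncard [MOD p] := by
    intro c hc
    obtain ⟨P, hP, hfix⟩ := h (insert c s) (by rw [Finset.card_insert_of_notMem hc, hs])
    have hf : ∀ g : P, ∀ x ∈ s, (g : G) • x = x := fun g x hx =>
      (show x ∈ MulAction.fixedPoints P α by rw [hfix]; simp [hx]) g
    have := H7.ncard_modEq_of_isPGroup hp hP O (Set.toFinite _) (by
      rintro g _ ⟨k, hk, rfl⟩
      exact ⟨g * k, fun x hx => by rw [mul_smul, hk x hx, hf g x hx], mul_smul _ _ _⟩)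
    rw [hfix] at this
    convert this using 2
    ext y
    simp only [Set.mem_inter_iff, Set.mem_singleton_iff, Finset.coe_insert, Set.mem_insert_iff, Finset.mem_coe]
    refine ⟨fun h => ⟨h.1, Or.inl h.2⟩, fun h => ⟨h.1, h.2.resolve_right fun hy => ?_⟩⟩
    obtain ⟨g, hg, rfl⟩ := h.1
    have := hg _ hy
    rw [smul_left_cancel_iff] at this
    exact ha (this ▸ hy)
  have h1 := key a ha
  have h2 := key b hb
  rw [Set.inter_eq_right.2 (by rintro _ rfl; exact ⟨1, by simp, by simp⟩), Set.ncard_singleton] at h1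
  rw [Set.inter_singleton_eq_empty.2 (show b ∉ O from hcon), Set.ncard_empty] at h2
  have := (h1.symm.trans h2)
  rw [Nat.modEq_zero_iff_dvd, Nat.dvd_one] at this
  exact hp.one_lt.ne' this

/-- Gleason's Lemma: let `p` be a prime and `1 ≤ k < n`; if every `k`-subset of the `n` points is exactly the fixed-point set of some `p`-subgroup of `G`, then `G` is `k`-transitive. -/
theorem result {α : Type*} [Fintype α] [DecidableEq α] (G : Subgroup (Equiv.Perm α)) {p k : ℕ} (hp : p.Prime) (hk : 1 ≤ k) (hkn : k < Fintype.card α) (h : ∀ s : Finset α, s.card = k → ∃ P : Subgroup G, IsPGroup p P ∧ MulAction.fixedPoints P α = (s : Set α)) : MulAction.IsMultiplyPretransitive G α k := by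
  exact gleason hp hk hkn h

end Cfsg.Agent.S0743
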