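import Cfsg.Statements.S0744
import Mathlib
import Cfsg.Agent.S0743
import Cfsg.Agent.H7.SylowPrime

set_option autoImplicit false
open Cfsg

namespace Cfsg.Agent.S0744

/-- If for some `k > 1` the pointwise stabilisers of all `(k-1)`-subsets have the same order `> 1` and those of all `k`-subsets have the same order, then the group is `(k-1)`-transitive. -/
theorem result {α : Type*} [Fintype α] [DecidableEq α] (G : Subgroup (Equiv.Perm α)) {k : ℕ} (hk : 1 < k) (hkn : k ≤ Fintype.card α) (l m : ℕ) (hl : 1 < l) (hkm1 : ∀ s : Finset α, s.card = k - 1 → Nat.card (fixingSubgroup G (s : Set α)) = l) (hkm : ∀ s : Finset α, s.card = k → Nat.card (fixingSubgroup G (s : Set α)) = m) : MulAction.IsMultiplyPretransitive G α (k - 1) := by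
  classical
  -- l = m * orbit length
  obtain ⟨s0, -, hs0⟩ := Finset.exists_subset_card_eq (s := (Finset.univ : Finset α)) (n := k - 1)
      (by rw [Finset.card_univ]; omega)
  have hle : ∀ (s : Finset α) (x : α), fixingSubgroup G ((insert x s : Finset α) : Set α) ≤ fixingSubgroup G (s : Set α) :=
    fun s x => fixingSubgroup_antitone _ _ (by simp)
  have hins : ∀ (s : Finset α), s.card = k - 1 → ∀ x ∉ s, Nat.card (fixingSubgroup G ((insert x s : Finset α) : Set α)) = m :=
    fun s hs x hx => hkm _ (by rw [Finset.card_insert_of_notMem hx]; omega)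
  obtain ⟨c, -, hc⟩ := Finset.exists_mem_notMem_of_card_lt_card (s := s0) (t := Finset.univ)
    (by rw [Finset.card_univ]; omega)
  have hdvd : m ∣ l := by rw [← hins s0 hs0 c hc, ← hkm1 s0 hs0]; exact Subgroup.card_dvd_of_le (hle _ _)
  obtain ⟨d, hd⟩ := hdvd
  have hd1 : d ≠ 1 := by
    rintro rfl
    have : fixingSubgroup G (s0 : Set α) = ⊥ := by
      rw [eq_bot_iff]
      intro g hg
      rw [Subgroup.mem_bot]
      ext x
      by_cases hx : x ∈ s0
      · exact (mem_fixingSubgroup_iff G).1 hg x hx
      · rw [← Subgroup.eq_of_le_of_card_ge (hle s0 x) (by rw [hins s0 hs0 x hx, hkm1 s0 hs0, hd, mul_one])] at hg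
        exact (mem_fixingSubgroup_iff G).1 hg x (by simp)
    have h1 := hkm1 s0 hs0
    rw [this, Subgroup.card_bot] at h1; omega
  obtain ⟨p, hp, hpd⟩ := Nat.exists_prime_and_dvd hd1
  haveI := Fact.mk hp
  refine S0743.gleason hp (by omega) (by omega) fun s hs => ?_
  obtain ⟨P⟩ : Nonempty (Sylow p (fixingSubgroup G (s : Set α))) := inferInstance
  refine ⟨P.1.map (fixingSubgroup G (s : Set α)).subtype, P.2.map _, ?_⟩
  ext x
  constructor
  · intro hx
    by_contra hxs
    have h1 : (P : Subgroup _) ≤ (fixingSubgroup G ((insert x s : Finset α) : Set α)).subgroupOf (fixingSubgroup G (s : Set α)) := by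
      intro g hg
      rw [Subgroup.mem_subgroupOf, mem_fixingSubgroup_iff]
      intro y hy
      rcases Finset.mem_insert.1 hy with rfl | hy
      · exact hx ⟨g, g, hg, rfl⟩
      · exact (mem_fixingSubgroup_iff G).1 g.2 y hy
    apply P.not_dvd_index
    refine hpd.trans (Dvd.dvd.trans ?_ (Subgroup.index_dvd_of_le h1))
    have h2 := Subgroup.card_mul_index ((fixingSubgroup G ((insert x s : Finset α) : Set α)).subgroupOf (fixingSubgroup G (s : Set α)))
    rw [Nat.card_congr (Subgroup.subgroupOfEquivOfLe (hle s x)).toEquiv, hins s hs x hxs, hkm1 s hs, hd] at h2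
    rw [Nat.eq_of_mul_eq_mul_left (Nat.pos_of_ne_zero (by rintro rfl; omega)) h2]
  · rintro hx ⟨_, g, -, rfl⟩
    exact (mem_fixingSubgroup_iff G).1 g.2 x hx

end Cfsg.Agent.S0744
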