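import Cfsg.Statements.S0752
import Cfsg.Agent.H4.Basis

set_option autoImplicit false
open Cfsg

namespace Cfsg.Agent.S0752

/-- Classification of alternating forms: for an alternating bilinear form B on a finite-dimensional space over any field there is a basis indexed by (Fin m ⊕ Fin m) ⊕ Fin k such that B (e_i, f_j) = δ_ij, the e's are pairwise orthogonal, the f's are pairwise orthogonal, and the last k basis vectors are orthogonal to everything (they span the radical). -/
theorem result {F V : Type*} [Field F] [AddCommGroup V] [Module F V] [FiniteDimensional F V] (B : LinearMap.BilinForm F V) (hA : B.IsAlt) : ∃ (m k : ℕ) (b : Module.Basis ((Fin m ⊕ Fin m) ⊕ Fin k) F V), (∀ i j : Fin m, B (b (Sum.inl (Sum.inl i))) (b (Sum.inl (Sum.inr j))) = if i = j then 1 else 0) ∧ (∀ i j : Fin m, B (b (Sum.inl (Sum.inl i))) (b (Sum.inl (Sum.inl j))) = 0) ∧ (∀ i j : Fin m, B (b (Sum.inl (Sum.inr i))) (b (Sum.inl (Sum.inr j))) = 0) ∧ (∀ (j : Fin k) (v : V), B (b (Sum.inr j)) v = 0) :=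 by
  open Cfsg.Agent.H4 Module in
  let f := CForm.ofAlt B hA
  obtain ⟨U, hU⟩ := (f.perp ⊤).exists_isCompl
  have hnd : (f.res U).Nondeg := by
    rw [CForm.res_nondeg_iff, eq_bot_iff, ← hU.symm.inf_eq_bot]
    refine le_inf inf_le_left fun x hx => ?_
    rw [CForm.mem_perp]
    intro y _
    obtain ⟨r, u, rfl⟩ := exists_add_of_isCompl hU y
    rw [f.B_add_right, f.B_zero_symm (f.mem_perp.1 r.2 x trivial), f.mem_perp.1 hx.2 u u.2, add_zero]
  obtain ⟨c, -, c2, c3, c4⟩ := hnd.exists_hyp_basis hnd.symp_finrank rfl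
  obtain ⟨d, d1, d2⟩ := CForm.exists_basis_sum hU.symm c (finBasis F (f.perp ⊤))
  refine ⟨_, _, d, fun i j => ?_, fun i j => ?_, fun i j => ?_, fun j v => ?_⟩
  · rw [d1, d1]; exact c2 i j
  · rw [d1, d1]; exact c3 i j
  · rw [d1, d1]; exact c4 i j
  · rw [d2]; exact f.mem_perp.1 (finBasis F (f.perp ⊤) j).2 v trivial

end Cfsg.Agent.S0752
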