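import Cfsg.Statements.S0753
import Cfsg.Agent.H4.FormCons

set_option autoImplicit false
open Cfsg

namespace Cfsg.Agent.S0753

/-- If σ is a ring endomorphism of the field F other than the identity and B is a σ-sesquilinear conjugate-symmetric form with B v v = 0 for every v, then B = 0. -/
theorem result {F V : Type*} [Field F] [AddCommGroup V] [Module F V] (σ : F →+* F) (hσ : σ ≠ RingHom.id F) (B : V →ₛₗ[σ] V →ₗ[F] F) (hS : B.IsSymm) (h0 : ∀ v : V, B v v = 0) : B = 0 := by
  ext x y
  simp only [LinearMap.zero_apply]
  by_contra hne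
  apply hσ
  have key : ∀ a : F, σ a * B x y + σ (σ a * B x y) = 0 := by
    intro a
    have h := h0 (a • x + y)
    simp only [map_add, LinearMap.add_apply, h0, LinearMap.map_smulₛₗ, LinearMap.smul_apply, smul_eq_mul,
      RingHom.id_apply, mul_zero, zero_add, add_zero] at h
    have h2 := hS.eq (a • x) y
    simp only [LinearMap.map_smulₛₗ, LinearMap.smul_apply, smul_eq_mul, RingHom.id_apply] at h2
    rw [h2]; linear_combination h
  have h1 := key 1
  simp only [map_one, one_mul] at h1
  have hσσ : ∀ a : F, σ (σ a) = a := by
    intro a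
    have h2 := hS.eq (a • x) y
    simp only [LinearMap.map_smulₛₗ, LinearMap.smul_apply, smul_eq_mul, RingHom.id_apply, map_mul] at h2
    rw [hS.eq x y] at h2
    have : B y x ≠ 0 := by rw [← hS.eq x y]; simpa using hne
    exact mul_right_cancel₀ this h2
  ext a
  have h2 := key a
  rw [map_mul, hσσ] at h2
  simp only [RingHom.id_apply]
  apply mul_right_cancel₀ hne
  linear_combination h2 - a * h1

end Cfsg.Agent.S0753
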