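import Cfsg.Statements.S0757
import Cfsg.Agent.H4.Basis

set_option autoImplicit false
open Cfsg

namespace Cfsg.Agent.S0757

open Cfsg.Agent.H4 Module in
theorem gram_wss {F : Type*} [Field F] {n : ℕ} (w : Fin n → F) :
    (Matrix.of fun i j => (CForm.ofQuad (QuadraticMap.weightedSumSquares F w)).B (Pi.basisFun F _ i)
      (Pi.basisFun F _ j)).det = 2 ^ n * ∏ i, w i := by
  have : (Matrix.of fun i j => (CForm.ofQuad (QuadraticMap.weightedSumSquares F w)).B
      (Pi.basisFun F _ i) (Pi.basisFun F _ j)) = Matrix.diagonal fun i => 2 * w i := by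
    ext i j
    simp only [Matrix.of_apply, CForm.ofQuad_B, QuadraticMap.polar,
      QuadraticMap.weightedSumSquares_apply, ← Finset.sum_sub_distrib, Pi.basisFun_apply,
      Pi.add_apply, smul_eq_mul]
    rw [Finset.sum_eq_single i]
    · by_cases h : i = j
      · subst h; simp; ring
      · simp [h, Pi.single_apply]
    · intro k _ hk
      simp [Pi.single_apply, hk]
    · simp
  rw [this, Matrix.det_diagonal, Finset.prod_mul_distrib]
  simp

/-- The two diagonal forms Σ x_i^2 and Σ_(i<n) x_i^2 + α x_n^2 on F^(n+1), with α a non-square and 2 ≠ 0 in F, are inequivalent quadratic forms (so over a finite field of odd order there are exactly two classes of non-singular symmetric bilinear forms in each dimension). -/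
theorem result {F : Type*} [Field F] (h2 : (2 : F) ≠ 0) (n : ℕ) (α : F) (hα : ¬ IsSquare α) : ¬ (QuadraticMap.weightedSumSquares F (fun _ : Fin (n + 1) => (1 : F))).Equivalent (QuadraticMap.weightedSumSquares F (fun i : Fin (n + 1) => if i = Fin.last n then α else (1 : F))) := by
  open Cfsg.Agent.H4 Module in
  rintro ⟨e⟩
  have h : CForm.Isom (CForm.ofQuad (QuadraticMap.weightedSumSquares F (fun _ : Fin (n + 1) => (1 : F))))
      (CForm.ofQuad (QuadraticMap.weightedSumSquares F
        (fun i : Fin (n + 1) => if i = Fin.last n then α else (1 : F)))) :=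
    ⟨e.toLinearEquiv, fun x y => by
      simp only [CForm.ofQuad_B, QuadraticMap.polar, ← map_add]
      erw [e.map_app, e.map_app, e.map_app], fun x => e.map_app x⟩
  have := h.isSquare_mul_disc (2 ^ (n + 1))
  rw [← CForm.isSquare_mul_gram (Pi.basisFun F _), ← CForm.isSquare_mul_gram (Pi.basisFun F _),
    gram_wss, gram_wss, ← mul_assoc, ← mul_assoc, isSquare_mul_self_mul (pow_ne_zero _ h2),
    isSquare_mul_self_mul (pow_ne_zero _ h2)] at this
  simp [hα] at this

end Cfsg.Agent.S0757
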