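import Cfsg.Statements.S0759
import Cfsg.Agent.H4.Basis
import Cfsg.Agent.S0757

set_option autoImplicit false
open Cfsg

namespace Cfsg.Agent.S0759

/-- Type of the orthonormal form: over a finite field of odd order q and for m ≥ 1, the quadratic form Σ_(i<2m) x_i² on F^(2m) admits an m-dimensional subspace on which it vanishes identically if and only if it is not the case that q ≡ 3 (mod 4) and m is odd. -/
theorem result {F : Type*} [Field F] [Fintype F] (h2 : (2 : F) ≠ 0) (m : ℕ) (hm : 1 ≤ m) : (∃ W : Submodule F (Fin (2 * m) → F), Module.finrank F W = m ∧ ∀ w ∈ W, ∑ i, w i ^ 2 = 0) ↔ ¬ (Fintype.card F % 4 = 3 ∧ Odd m) := by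
  open Cfsg.Agent.H4 Module in
  let f := CForm.ofQuad (QuadraticMap.weightedSumSquares F (fun _ : Fin (2 * m) => (1 : F)))
  have hg := Cfsg.Agent.S0757.gram_wss (fun _ : Fin (2 * m) => (1 : F))
  have hf : f.Nondeg := CForm.nondeg_of_gram (Pi.basisFun F _) (by rw [hg]; simp [h2])
  have hQ : ∀ w, f.Q w = ∑ i, w i ^ 2 := fun w => by
    simp [f, QuadraticMap.weightedSumSquares_apply, pow_two]
  have h1 := hf.wi_ge_of_two_mul (m := m) (by simp)
  rw [hf.plus_iff_disc h2 (by simp), ← CForm.isSquare_mul_gram (Pi.basisFun F _), hg] at h1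
  simp only [CForm.orth_TS_iff, hQ, and_comm] at h1
  rw [← h1]
  simp only [Finset.prod_const_one, mul_one]
  rw [mul_comm, pow_mul', isSquare_sq_mul (pow_ne_zero _ h2),
    isSquare_neg_one_pow_iff (odd_of_two_ne_zero h2)]
  obtain ⟨k, hk⟩ := odd_of_two_ne_zero h2
  rcases (by omega : Fintype.card F % 4 = 1 ∨ Fintype.card F % 4 = 3) with h | h
  · simp [Nat.pow_mod, h]
  · rw [Nat.pow_mod, h]
    rcases Nat.even_or_odd' m with ⟨j, rfl | rfl⟩
    · simp [pow_mul, Nat.pow_mod]
    · simp [pow_succ, pow_mul, Nat.pow_mod, Nat.mul_mod]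

end Cfsg.Agent.S0759
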