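import Cfsg.Statements.S0763
import Cfsg.Agent.H4.Basis

set_option autoImplicit false
open Cfsg

namespace Cfsg.Agent.S0763

/-- Binary quadratic forms in characteristic two over a finite field: if Q is a quadratic form on a 2-dimensional space whose polar form is non-degenerate, then either there are vectors v, w with Q v = Q w = 0 and polar value 1 (Q is xy in these coordinates), or there are v, w and μ with Q v = 1, Q w = μ, polar value 1 and x² + x + μ without roots in F (Q is x² + xy + μy²). -/
theorem result {F V : Type*} [Field F] [Finite F] [CharP F 2] [AddCommGroup V] [Module F V] (Q : QuadraticForm F V) (h2 : Module.finrank F V = 2) (hQ : (QuadraticMap.polarBilin Q).Nondegenerate) : (∃ v w : V, LinearIndependent F ![v, w] ∧ Q v = 0 ∧ Q w = 0 ∧ QuadraticMap.polar Q v w = 1) ∨ (∃ (v w : V) (μ : F), LinearIndependent F ![v, w] ∧ (∀ x : F, x ^ 2 + x + μ ≠ 0) ∧ Q v = 1 ∧ Q w = μ ∧ QuadraticMap.polar Q v w = 1) := by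
  open Cfsg.Agent.H4 Module in
  have : FiniteDimensional F V := Module.finite_of_finrank_eq_succ h2
  let f := CForm.ofQuad Q
  have hf : f.Nondeg := CForm.ofQuad_nondeg hQ
  by_cases hw : f.wi = 1
  · obtain ⟨b, h1, h3, -, -⟩ := hf.exists_hyp_basis (m := 1) h2 hw
    refine Or.inl ⟨b (.inl 0), b (.inr 0), ?_, h1 _, h1 _, h3 0 0⟩
    exact CForm.linearIndependent_pair (f := f) (h1 _) (by rw [h3]; simp)
  · obtain ⟨ζ, hζ⟩ := exists_irr_quadratic (F := F)
    obtain ⟨c, c1, c2⟩ := (hf.isom_minusF (m := 0) h2 hw (aniso_of_irr hζ)).exists_basis (Pi.basisFun F _)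
    refine Or.inr ⟨c (.inr 0), c (.inr 1), ζ, ?_, hζ, ?_, ?_, ?_⟩
    · have := c.linearIndependent.comp (fun i : Fin 2 => Sum.inr i) Sum.inr_injective
      convert this using 1
      ext i; fin_cases i <;> rfl
    · simpa [f, minusF_Q, quadFormMinus] using c2 (.inr 0)
    · simpa [f, minusF_Q, quadFormMinus] using c2 (.inr 1)
    · simpa [f, minusF_B, polar_minus] using c1 (.inr 0) (.inr 1)

end Cfsg.Agent.S0763
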