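import Cfsg.Statements.S0766
import Cfsg.Agent.H4.Symp
import Cfsg.Agent.S0765

set_option autoImplicit false
open Cfsg

namespace Cfsg.Agent.S0766

/-- The subgroup generated by the symplectic transvections acts transitively on ordered pairs (u, v) with f(u, v) = 1. -/
theorem result {F : Type*} [Field F] (m : ℕ) (u v u' v' : Fin m ⊕ Fin m → F) (h : Cfsg.sympForm m F u v = 1) (h' : Cfsg.sympForm m F u' v' = 1) : ∃ A ∈ Subgroup.closure {A : Matrix.symplecticGroup (Fin m) F | ∃ (w : Fin m ⊕ Fin m → F) (c : F), (A : Matrix (Fin m ⊕ Fin m) (Fin m ⊕ Fin m) F) = Cfsg.sympTransvection m w c}, (A : Matrix (Fin m ⊕ Fin m) (Fin m ⊕ Fin m) F).mulVec u = u' ∧ (A : Matrix (Fin m ⊕ Fin m) (Fin m ⊕ Fin m) F).mulVec v = v' := by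
  open Cfsg.Agent.H4 in
  rw [Cfsg.Agent.S0765.result]
  have hli := CForm.linearIndependent_pair (f := spF F m) (e := u) (e' := v) rfl
    (by rw [spF_B, h]; exact one_ne_zero)
  have hli' := CForm.linearIndependent_pair (f := spF F m) (e := u') (e' := v') rfl
    (by rw [spF_B, h']; exact one_ne_zero)
  obtain ⟨g, hg, hg'⟩ := (spF_nondeg (F := F) m).witt' (Fintype.linearCombination F ![u, v])
    (Fintype.linearCombination F ![u', v']) hli.fintypeLinearCombination_injective
    hli'.fintypeLinearCombination_injective (fun x y => by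
      have h1 : (spF F m).B u v = 1 := h
      have h2 : (spF F m).B u' v' = 1 := h'
      simp only [Fintype.linearCombination_apply, Fin.sum_univ_two, Matrix.cons_val_zero,
        Matrix.cons_val_one, CForm.B_add_left, CForm.B_add_right, CForm.B_smul_left,
        CForm.B_smul_right, CForm.symp_B_self, CForm.symp_skew _ u v, CForm.symp_skew _ u' v', h1, h2])
      (fun _ => rfl)
  obtain ⟨A, hA⟩ := (spEquiv F m).surjective ⟨g, hg⟩
  refine ⟨A, trivial, ?_, ?_⟩
  · rw [← spEquiv_apply, hA]
    simpa using hg' (Pi.single 0 1)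
  · rw [← spEquiv_apply, hA]
    simpa using hg' (Pi.single 1 1)

end Cfsg.Agent.S0766
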