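import Cfsg.Statements.S0768
import Cfsg.Agent.H4.Symp

set_option autoImplicit false
open scoped LinearAlgebra.Projectivization
open Cfsg

namespace Cfsg.Agent.S0768

/-- Primitivity: for m ≥ 1 and F finite, the symplectic group of the form sympForm (as a subgroup of the general linear group) acts primitively on the projective space of F^(2m). -/
theorem result {F : Type*} [Field F] [Finite F] (m : ℕ) (hm : 1 ≤ m) : MulAction.IsPreprimitive ↥(Cfsg.spGL m F) (ℙ F (Fin m ⊕ Fin m → F)) := by
  open Cfsg.Agent.H4 in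
  have : Nonempty (Fin m) := ⟨⟨0, hm⟩⟩
  have htr : MulAction.IsPretransitive (spGL m F) (ℙ F (Fin m ⊕ Fin m → F)) := by
    refine ⟨fun x y => ?_⟩
    induction x using Projectivization.ind with | h x hx => ?_
    induction y using Projectivization.ind with | h y hy => ?_
    obtain ⟨g, hg, rfl⟩ := (spF_nondeg (F := F) m).witt_vec hx hy rfl
    obtain ⟨g, rfl⟩ := glE.surjective g
    exact ⟨⟨g, mem_spGL.2 hg⟩, rfl⟩
  have hnt : Nontrivial (ℙ F (Fin m ⊕ Fin m → F)) := by
    refine ⟨Projectivization.mk F (Pi.single (.inl ⟨0, hm⟩) 1) (by simp),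
      Projectivization.mk F (Pi.single (.inr ⟨0, hm⟩) 1) (by simp), fun h => ?_⟩
    obtain ⟨a, ha⟩ := (Projectivization.mk_eq_mk_iff' _ _ _ _ _).1 h
    simpa using congrFun ha (.inl ⟨0, hm⟩)
  obtain ⟨v, hv⟩ := exists_ne (0 : Fin m ⊕ Fin m → F)
  rw [← MulAction.isCoatom_stabilizer_iff_preprimitive _ (Projectivization.mk F v hv)]
  have h1 := (spF_nondeg (F := F) m).isMaximalIn_E_stab (CForm.symp_thick _)
    (CForm.TS_span_singleton (u := v) rfl) (by simpa using hv) (CForm.symp_thick _)
  rw [(spF_nondeg m).symp_E_eq] at h1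
  have h2 : Geo.IsMaximalIn (spGL m F) (Geo.subspaceStabilizer (Submodule.span F {v}) ⊓ spGL m F) := by
    refine isMaximalIn_of_glE (fun g => mem_spGL) (fun g => ?_) h1
    exact and_congr Iff.rfl mem_spGL
  have h3 : MulAction.stabilizer (spGL m F) (Projectivization.mk F v hv) =
      (Geo.subspaceStabilizer (Submodule.span F {v}) ⊓ spGL m F).subgroupOf (spGL m F) := by
    ext g
    rw [MulAction.mem_stabilizer_iff, Subgroup.mem_subgroupOf, Subgroup.mem_inf,
      mem_subspaceStabilizer, mem_stab_iff_map, Submodule.map_span, Set.image_singleton,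
      ← Projectivization.submodule_injective.eq_iff]
    simp only [SetLike.coe_mem, and_true]
    rfl
  rw [h3]
  refine ⟨fun h => h2.1.ne (le_antisymm inf_le_right (Subgroup.subgroupOf_eq_top.1 h)), fun M hM => ?_⟩
  rcases h2.2 (M.map (spGL m F).subtype) (fun g hg => ⟨⟨g, hg.2⟩, hM.le hg, rfl⟩)
    (Subgroup.map_subtype_le _) with h | h
  · exfalso
    apply hM.ne
    rw [← h, Subgroup.subgroupOf, Subgroup.comap_map_eq_self_of_injective (Subgroup.subtype_injective _)]
  · rw [← Subgroup.map_subtype_inj, h, ← MonoidHom.range_eq_map, Subgroup.range_subtype]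

end Cfsg.Agent.S0768
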