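import Cfsg.Statements.S0770
import Cfsg.Agent.H4.GLa

set_option autoImplicit false
open Cfsg

namespace Cfsg.Agent.S0770

/-- For a field with at least 3 elements, an invertible matrix normalises the subgroup of invertible diagonal matrices of GL_n if and only if it is monomial (exactly one non-zero entry in each row). -/
theorem result {F : Type*} [Field F] (hF : ∃ a : F, a ≠ 0 ∧ a ≠ 1) (n : ℕ) (g : Matrix.GeneralLinearGroup (Fin n) F) : g ∈ Subgroup.normalizer ((Units.map (Matrix.diagonalRingHom (Fin n) F).toMonoidHom).range : Subgroup (Matrix.GeneralLinearGroup (Fin n) F)) ↔ ∀ i : Fin n, ∃! j : Fin n, (g : Matrix (Fin n) (Fin n) F) i j ≠ 0 := by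
  open Cfsg.Agent.H4 Module Matrix in
  classical
  obtain ⟨a, ha0, ha1⟩ := hF
  have mem : ∀ t : GL (Fin n) F, t ∈ (Units.map (diagonalRingHom (Fin n) F).toMonoidHom).range ↔
      ∃ d : Fin n → F, (t : Matrix (Fin n) (Fin n) F) = diagonal d := fun t => by
    refine ⟨fun ⟨u, hu⟩ => ⟨u, by rw [← hu]; rfl⟩, fun ⟨d, hd⟩ => ?_⟩
    have h := t.det_ne_zero
    rw [hd, det_diagonal, Finset.prod_ne_zero_iff] at h
    exact ⟨⟨d, fun i => (d i)⁻¹, funext fun i => mul_inv_cancel₀ (h i (by simp)),
      funext fun i => inv_mul_cancel₀ (h i (by simp))⟩, Units.ext hd.symm⟩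
  have row : ∀ i, ∃ j, (g : Matrix (Fin n) (Fin n) F) i j ≠ 0 := fun i => by
    by_contra! h
    exact g.det_ne_zero (det_eq_zero_of_row_eq_zero i h)
  have col : ∀ j, ∃ i, (g : Matrix (Fin n) (Fin n) F) i j ≠ 0 := fun j => by
    by_contra! h
    exact g.det_ne_zero (det_eq_zero_of_column_eq_zero j h)
  have conj : ∀ (t : GL (Fin n) F) (d : Fin n → F),
      ((g * t * g⁻¹ : GL (Fin n) F) : Matrix (Fin n) (Fin n) F) = diagonal d ↔
      (g : Matrix (Fin n) (Fin n) F) * t = diagonal d * g := fun t d => by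
    constructor
    · intro h; rw [← h]; simp [Matrix.mul_assoc]
    · intro h; simp [h, Matrix.mul_assoc]
  constructor
  · intro h i
    obtain ⟨j, hj⟩ := row i
    refine ⟨j, hj, fun k hk => by_contra fun hkj => ?_⟩
    let t : GL (Fin n) F := GeneralLinearGroup.mkOfDetNeZero (diagonal (Function.update 1 j a)) (by
      rw [det_diagonal, Finset.prod_ne_zero_iff]
      intro l _
      by_cases hl : l = j <;> simp [hl, ha0])
    obtain ⟨d, hd⟩ := (mem _).1 ((Subgroup.mem_normalizer_iff.1 h t).1 ((mem _).2 ⟨_, rfl⟩))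
    rw [conj] at hd
    have h1 := congrFun (congrFun hd i) j
    have h2 := congrFun (congrFun hd i) k
    simp only [t, GeneralLinearGroup.val_mkOfDetNeZero, mul_diagonal, diagonal_mul,
      Function.update_self, Function.update_of_ne hkj, Pi.one_apply] at h1 h2
    rw [mul_comm (d i)] at h1 h2
    exact ha1 ((mul_left_cancel₀ hj h1).trans (mul_left_cancel₀ hk h2).symm)
  · intro h
    choose σ h1 h2 using h
    have hs : Function.Surjective σ := fun j => (col j).imp fun i hi => (h2 i j hi).symm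
    let e := Equiv.ofBijective σ hs.bijective_of_finite
    have key : ∀ d : Fin n → F, (g : Matrix (Fin n) (Fin n) F) * diagonal d =
        diagonal (d ∘ σ) * g := fun d => by
      ext i j
      rw [mul_diagonal, diagonal_mul]
      by_cases hij : (g : Matrix (Fin n) (Fin n) F) i j = 0
      · simp [hij]
      · rw [h2 i j hij, mul_comm]; rfl
    refine Subgroup.mem_normalizer_iff.2 fun t => ?_
    rw [mem, mem]
    refine ⟨fun ⟨d, hd⟩ => ⟨d ∘ σ, (conj _ _).2 (hd ▸ key d)⟩, fun ⟨d, hd⟩ => ⟨d ∘ e.symm, ?_⟩⟩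
    rw [conj] at hd
    have := key (d ∘ e.symm)
    rw [show (d ∘ e.symm) ∘ σ = d from funext fun i => congrArg d (e.symm_apply_apply i), ← hd] at this
    exact (Units.mul_right_inj g).1 this.symm

end Cfsg.Agent.S0770
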