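import Cfsg.Statements.S0771
import Cfsg.Agent.H4.GLa

set_option autoImplicit false
open Cfsg

namespace Cfsg.Agent.S0771

/-- Maximal parabolic of GL_n(q): the stabiliser of the coordinate subspace spanned by the first k basis vectors has order q^(k(n-k)) · |GL_k(q)| · |GL_(n-k)(q)| (unipotent radical of order q^(k(n-k)) and Levi complement GL_k × GL_(n-k)). -/
theorem result {F : Type*} [Field F] [Fintype F] {q : ℕ} (hF : Fintype.card F = q) (n k : ℕ) (hk : k ≤ n) : Nat.card ↥(Cfsg.stabilizing (Cfsg.glToMat (Fin n) F) {v : Fin n → F | ∀ i : Fin n, k ≤ (i : ℕ) → v i = 0}) = q ^ (k * (n - k)) * (∏ i : Fin k, (q ^ k - q ^ (i : ℕ))) * ∏ i : Fin (n - k), (q ^ (n - k) - q ^ (i : ℕ)) := by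
  open Cfsg.Agent.H4 Module in
  subst hF
  refine (Nat.card_congr (subCongr (glE (F := F) (ι := Fin n))
    (L := stab (crd F fun i : Fin n => k ≤ (i : ℕ))) (fun g => Iff.rfl)).toEquiv).trans ?_
  exact card_stab _ (finrank_crd_le hk) (d := n - k) (by simp; omega)

end Cfsg.Agent.S0771
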