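import Cfsg.Statements.S0773
import Cfsg.Agent.H4.GLa

set_option autoImplicit false
open Cfsg

namespace Cfsg.Agent.S0773

/-- The stabilisers in GL_n(F), F finite, of the coordinate subspaces of dimensions k and n − k are isomorphic groups, but when 2k ≠ n (and 0 < k < n) no element of GL_n conjugates one onto the other. -/
theorem result {F : Type*} [Field F] [Finite F] (n k : ℕ) (hk0 : 0 < k) (hkn : k < n) (h2 : 2 * k ≠ n) : Nonempty (↥(Cfsg.stabilizing (Cfsg.glToMat (Fin n) F) {v : Fin n → F | ∀ i : Fin n, k ≤ (i : ℕ) → v i = 0}) ≃* ↥(Cfsg.stabilizing (Cfsg.glToMat (Fin n) F) {v : Fin n → F | ∀ i : Fin n, n - k ≤ (i : ℕ) → v i = 0})) ∧ ∀ g : Matrix.GeneralLinearGroup (Fin n) F, (Cfsg.stabilizing (Cfsg.glToMat (Fin n) F) {v : Fin n → F | ∀ i : Fin n, k ≤ (i : ℕ) → v i = 0}).map (MulAut.conj g).toMonoidHom ≠ Cfsg.stabilizing (Cfsg.glToMat (Fin n) F) {v : Fin n → F | ∀ i : Fin n, n - k ≤ (i : ℕ) → v i = 0} := by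
  open Cfsg.Agent.H4 Module Matrix in
  classical
  constructor
  · let r : GL (Fin n) F ≃* GL (Fin n) F := Units.mapEquiv (reindexAlgEquiv F F Fin.revPerm).toMulEquiv
    let t : GL (Fin n) F ≃* GL (Fin n) F := MonoidHom.toMulEquiv invT invT
      (MonoidHom.ext invT_invT) (MonoidHom.ext invT_invT)
    refine ⟨subCongr (t.trans r) fun g => ?_⟩
    change glE g ∈ stab (crd F fun i : Fin n => k ≤ (i : ℕ)) ↔
      glE (r (invT g)) ∈ stab (crd F fun i : Fin n => n - k ≤ (i : ℕ))
    rw [← inv_mem_iff, ← map_inv, glE_mem_stab_crd, glE_mem_stab_crd]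
    refine ⟨fun h i j hi hj => ?_, fun h i j hi hj => ?_⟩
    · exact h j.rev i.rev (by simp at hj ⊢; omega) (by simp at hi ⊢; omega)
    · have := h j.rev i.rev (by simp at hj ⊢; omega) (by simp at hi ⊢; omega)
      change (g⁻¹ : GL (Fin n) F) i.rev.rev j.rev.rev = 0 at this
      simpa using this
  · intro g h
    set W := crd F fun i : Fin n => k ≤ (i : ℕ)
    set W' := crd F fun i : Fin n => n - k ≤ (i : ℕ)
    have hW : finrank F W = k := finrank_crd_le hkn.le
    have hW' : finrank F W' = n - k := finrank_crd_le (by omega)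
    have hU : finrank F (W.map (glE g : (Fin n → F) →ₗ[F] (Fin n → F))) = k := by
      rw [LinearEquiv.finrank_map_eq, hW]
    have key : stab (W.map (glE g : (Fin n → F) →ₗ[F] (Fin n → F))) = stab W' := by
      ext x
      obtain ⟨x, rfl⟩ := glE.surjective x
      have h1 := SetLike.ext_iff.1 h x
      rw [Subgroup.mem_map_equiv] at h1
      rw [mem_stab_map, ← map_inv, ← map_mul, ← map_mul]
      exact h1
    have := eq_of_stab_eq key (fun e => by rw [e] at hU; simp at hU; omega)
      (fun e => by rw [e] at hW'; simp at hW'; omega)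
    rw [this, hW'] at hU
    omega

end Cfsg.Agent.S0773
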