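import Cfsg.Statements.S0774
import Cfsg.Agent.H4.GLa
import Cfsg.Agent.H4.Bridge2

set_option autoImplicit false
open Cfsg

namespace Cfsg.Agent.S0774

/-- Borel subgroup of the symplectic group: the elements of Sp_2m(q) stabilising each of the totally isotropic coordinate subspaces ⟨e_0, ..., e_k⟩ (k < m) form a subgroup of order q^(m²) (q − 1)^m. -/
theorem result {F : Type*} [Field F] [Fintype F] {q : ℕ} (hF : Fintype.card F = q) (m : ℕ) : Nat.card ↥(⨅ k : Fin m, Cfsg.stabilizing (Cfsg.spToMat m F) {v : Fin m ⊕ Fin m → F | (∀ i : Fin m, (k : ℕ) < (i : ℕ) → v (Sum.inl i) = 0) ∧ ∀ i : Fin m, v (Sum.inr i) = 0}) = q ^ (m ^ 2) * (q - 1) ^ m := by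
  open H4 Module in
  subst hF
  let e : (Fin m → F) ≃ₗ[F] inlSub F m :=
    { toFun v := ⟨Sum.elim v 0, mem_inlSub.2 fun _ => rfl⟩
      invFun v := v.1 ∘ Sum.inl
      map_add' _ _ := Subtype.ext (by ext (_ | _) <;> simp)
      map_smul' _ _ := Subtype.ext (by ext (_ | _) <;> simp)
      left_inv _ := rfl
      right_inv v := Subtype.ext (by ext (_ | i); exacts [rfl, (mem_inlSub.1 v.2 i).symm]) }
  let C : Fin m → Submodule F (Fin m ⊕ Fin m → F) := fun k => crd F (Sum.elim (fun i => (k : ℕ) < i) fun _ => True)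
  let L : Subgroup (inlSub F m ≃ₗ[F] inlSub F m) := ⨅ k, stab ((C k).comap (inlSub F m).subtype)
  have hL : Nat.card L = _ := (Nat.card_congr ((glE.trans (conjE e)).toEquiv.subtypeEquiv fun g => by
    have : ∀ k, (C k).comap (inlSub F m).subtype = (crd F fun i : Fin m => (k : ℕ) < i).map (e : _ →ₗ[F] _) := fun k => by
      ext v; obtain ⟨v, rfl⟩ := e.surjective v
      rw [Submodule.mem_map_equiv, e.symm_apply_apply]
      exact ⟨fun h i a => h (.inl i) a, fun h => by rintro (i | i) a; exacts [h i a, rfl]⟩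
    simp only [L, Subgroup.mem_iInf, this]
    exact ⟨fun h k => (conjE_mem_stab e).2 ((glE_mem_stab_crd _ g).2 fun i j a b => h i j (by omega)),
      fun h i j a => (glE_mem_stab_crd _ g).1 ((conjE_mem_stab e).1 (h j)) i j a (by simp)⟩)).symm.trans
    (card_tri m (fun i j => j < i) (.inr fun _ _ => Iff.rfl))
  have hC : ∀ k, C k ≤ inlSub F m := fun k v hv => mem_inlSub.2 fun i => hv (.inr i) trivial
  rw [Nat.card_congr (subEquiv (spEquiv F m) (L := (⨅ k, stab (C k)) ⊓ (spF F m).iso) inf_le_right fun g => by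
      simp [Subgroup.mem_iInf, stabilizing, mem_stab, C, mem_crd, spToMat, -Pi.zero_apply]).toEquiv,
    CForm.card_stab_TS (spF_nondeg m) (spF_TS_inlSub m) L (S := (⨅ k, stab (C k)) ⊓ (spF F m).iso) fun g => ⟨fun h =>
      ⟨h.2, mem_stab_iff_le.2 fun v hv => ?_, Subgroup.mem_iInf.2 fun k v => Subgroup.mem_iInf.1 h.1 k v⟩,
      fun ⟨a, b, c⟩ => ⟨Subgroup.mem_iInf.2 fun k => mem_stab_iff_le.2 fun v hv =>
        (Subgroup.mem_iInf.1 c k ⟨v, hC k hv⟩).1 hv, a⟩⟩,
    CForm.card_fix_TS (fun n => Fintype.card F ^ ((n / 2) ^ 2) *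
      ∏ i ∈ Finset.range (n / 2), (Fintype.card F ^ (2 * (i + 1)) - 1))
      (fun V _ _ _ f hf => hf.symp_card_iso (by have := hf.symp_finrank; omega)) 0 m _ _
      (spF_nondeg m) _ (spF_TS_inlSub m) (finrank_inlSub m) (by simp; omega), hL, FType.κ_symp,
      show m ^ 2 = m * (m - 1) / 2 + (m.choose 2 + m) by
        rw [Nat.choose_two_right]
        have := Nat.two_mul_div_two_of_even (Nat.even_mul_pred_self m)
        rcases m with _ | m <;> simp at this ⊢; nlinarith]
  · simp; ring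
  rcases m with _ | m
  · exact mem_inlSub.2 fun i => i.elim0
  · exact hC _ ((Subgroup.mem_iInf.1 h.1 (Fin.last m) v).1 (by
      rintro (i | i) hi
      exacts [absurd hi (by simp; omega), mem_inlSub.1 hv i]))

end Cfsg.Agent.S0774
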