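import Cfsg.Statements.S0775
import Cfsg.Agent.H4.Bridge2

set_option autoImplicit false
open Cfsg

namespace Cfsg.Agent.S0775

/-- Maximal parabolics of the symplectic group: if W is a k-dimensional subspace of F^(2m) on which the symplectic form vanishes identically, its stabiliser in Sp_2m(q) has order q^(k(k+1)/2 + 2k(m−k)) · |Sp_(2m−2k)(q)| · |GL_k(q)|. -/
theorem result {F : Type*} [Field F] [Fintype F] {q : ℕ} (hF : Fintype.card F = q) (m k : ℕ) (hk : k ≤ m) (W : Submodule F (Fin m ⊕ Fin m → F)) (hWk : Module.finrank F W = k) (hW : ∀ u ∈ W, ∀ v ∈ W, Cfsg.sympForm m F u v = 0) : Nat.card ↥(Cfsg.stabilizing (Cfsg.spToMat m F) (W : Set (Fin m ⊕ Fin m → F))) = q ^ (k * (k + 1) / 2 + 2 * k * (m - k)) * (q ^ ((m - k) ^ 2) * ∏ i ∈ Finset.range (m - k), (q ^ (2 * (i + 1)) - 1)) * ∏ i : Fin k, (q ^ k - q ^ (i : ℕ)) := by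
  open Cfsg.Agent.H4 in
  subst hF
  have hTS : (spF F m).TS W := CForm.symp_TS_iff.2 hW
  rw [Nat.card_congr (subEquiv (spEquiv F m) (L := stab W ⊓ (spF F m).iso) inf_le_right
    (fun g => ⟨fun h => ⟨h, (spEquiv F m g).2⟩, fun h => h.1⟩)).toEquiv,
    CForm.card_stab_TS (spF_nondeg m) hTS ⊤ (S := stab W ⊓ (spF F m).iso) (fun g => ⟨fun h => ⟨h.2, h.1, trivial⟩,
      fun h => ⟨h.2.1, h.1⟩⟩),
    CForm.card_fix_TS (fun n => Fintype.card F ^ ((n / 2) ^ 2) *
      ∏ i ∈ Finset.range (n / 2), (Fintype.card F ^ (2 * (i + 1)) - 1))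
      (fun V _ _ _ f hf => hf.symp_card_iso (by have := hf.symp_finrank; omega)) (2 * (m - k)) k _ _
      (spF_nondeg m) W hTS hWk (by simp; omega), Subgroup.card_top, card_linearEquiv hWk,
    FType.κ_symp, Nat.mul_div_cancel_left _ two_pos,
    show k * (k + 1) / 2 = k + k.choose 2 by
      have := Nat.choose_succ_succ' k 1
      rw [Nat.choose_one_right, Nat.choose_two_right] at this
      rw [mul_comm, ← this]; rfl]
  ring

end Cfsg.Agent.S0775
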