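import Cfsg.Statements.S0776
import Cfsg.Agent.H4.Bridge2

set_option autoImplicit false
open Cfsg

namespace Cfsg.Agent.S0776

/-- If W ≤ F^(2m) is a 2k-dimensional subspace on which the symplectic form is non-degenerate, then the stabiliser of W in Sp_2m(F) is isomorphic to Sp_2k(F) × Sp_(2m−2k)(F). -/
theorem result {F : Type*} [Field F] (m k : ℕ) (hk : k ≤ m) (W : Submodule F (Fin m ⊕ Fin m → F)) (hWk : Module.finrank F W = 2 * k) (hW : ∀ u ∈ W, (∀ v ∈ W, Cfsg.sympForm m F u v = 0) → u = 0) : Nonempty (↥(Cfsg.stabilizing (Cfsg.spToMat m F) (W : Set (Fin m ⊕ Fin m → F))) ≃* Matrix.symplecticGroup (Fin k) F × Matrix.symplecticGroup (Fin (m - k)) F) := by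
  open Cfsg.Agent.H4 in
  have hf := spF_nondeg (F := F) m
  have hU : W ⊓ (spF F m).perp W = ⊥ := eq_bot_iff.2 fun x hx => hW x hx.1 hx.2
  have h1 := hf.finrank_perp W
  obtain ⟨e1⟩ := (CForm.Nondeg.symp_isom (((spF F m).res_nondeg_iff).2 hU) (spF_nondeg k)
    (by simp [hWk, two_mul])).nonempty_iso
  obtain ⟨e2⟩ := (CForm.Nondeg.symp_isom (hf.res_perp hU) (spF_nondeg (m - k))
    (by simp at h1 ⊢; omega)).nonempty_iso
  exact ⟨(subEquiv (spEquiv F m) (L := stab W ⊓ (spF F m).iso) inf_le_right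
    (fun g => ⟨fun h => ⟨h, (spEquiv F m g).2⟩, fun h => h.1⟩)).trans ((hf.stabEquiv hU).symm.trans
      ((e1.trans (spEquiv F k).symm).prodCongr (e2.trans (spEquiv F (m - k)).symm)))⟩

end Cfsg.Agent.S0776
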