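import Cfsg.Statements.S0777
import Cfsg.Agent.H4.GLa
import Cfsg.Agent.H4.Bridge2

set_option autoImplicit false
open Cfsg

namespace Cfsg.Agent.S0777

open Matrix Equiv

theorem card_cent (m : ℕ) : Nat.card (Subgroup.centralizer {Equiv.sumComm (Fin m) (Fin m)} :
    Subgroup (Perm (Fin m ⊕ Fin m))) = 2 ^ m * m.factorial := by
  have h1 : Perm.support (Equiv.sumComm (Fin m) (Fin m)) = Finset.univ := by
    ext (i | i) <;> simp
  have h2 := Perm.sum_cycleType (Equiv.sumComm (Fin m) (Fin m))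
  have h3 := Perm.cycleType_of_pow_prime_eq_one (σ := Equiv.sumComm (Fin m) (Fin m)) (p := 2) (by
    ext (i | i) <;> simp [sq])
  rw [h1, h3] at h2
  simp only [Multiset.sum_replicate, smul_eq_mul, Finset.card_univ, Fintype.card_sum, Fintype.card_fin] at h2
  rw [Perm.nat_card_centralizer, h3, show (Perm.cycleType (Equiv.sumComm (Fin m) (Fin m))).card = m by omega]
  rcases m with _ | m
  · simp
  · rw [Multiset.toFinset_replicate, if_neg m.succ_ne_zero]; simp [-Multiset.replicate_succ]; omega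

variable {F : Type*} [Field F] {m : ℕ}

theorem J_ne {a b : Fin m ⊕ Fin m} : J (Fin m) F a b ≠ 0 ↔ b = a.swap := by
  rcases a with a | a <;> rcases b with b | b <;> simp [J, one_apply, eq_comm]

theorem J_sq (a : Fin m ⊕ Fin m) : J (Fin m) F a a.swap * J (Fin m) F a a.swap = 1 := by
  rcases a with a | a <;> simp [J]

theorem J_skew (a : Fin m ⊕ Fin m) : J (Fin m) F a.swap a = - J (Fin m) F a a.swap := by
  rcases a with a | a <;> simp [J]

/-- monomial matrices -/
def mon (π : Fin m ⊕ Fin m → Fin m ⊕ Fin m) (c : Fin m ⊕ Fin m → F) : Matrix (Fin m ⊕ Fin m) (Fin m ⊕ Fin m) F :=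
  of fun a b => if a = π b then c b else 0

theorem mon_sp {π} {c : Fin m ⊕ Fin m → F} : mon π c ∈ symplecticGroup (Fin m) F ↔
    ∀ a b, c a * J (Fin m) F (π a) (π b) * c b = J (Fin m) F a b := by
  simp [SymplecticGroup.mem_iff', ← Matrix.ext_iff, mul_apply, mon, -Fintype.sum_sum_type, -Sum.forall]

theorem mon_single (π) (c : Fin m ⊕ Fin m → F) (b) : mon π c *ᵥ Pi.single b 1 = c b • Pi.single (π b) 1 := by
  ext a; simp [mon, Pi.single_apply]

/-- Weyl group of type C_m: for q ≥ 4 the diagonal matrices of Sp_2m(q) form a torus T ≅ (C_(q−1))^m (the elements stabilising every coordinate axis), and the normaliser of T in Sp_2m(q) has order 2^m · m! · (q − 1)^m. -/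
theorem result {F : Type*} [Field F] [Fintype F] {q : ℕ} (hF : Fintype.card F = q) (hq : 4 ≤ q) (m : ℕ) : Nat.card ↥(Subgroup.normalizer (⨅ i : Fin m ⊕ Fin m, Cfsg.stabilizing (Cfsg.spToMat m F) ((Submodule.span F {(Pi.single i (1 : F) : Fin m ⊕ Fin m → F)} : Submodule F (Fin m ⊕ Fin m → F)) : Set (Fin m ⊕ Fin m → F)) : Set (Matrix.symplecticGroup (Fin m) F))) = 2 ^ m * Nat.factorial m * (q - 1) ^ m := by
  classical
  subst hF
  set T := ⨅ i : Fin m ⊕ Fin m, stabilizing (spToMat m F) ((Submodule.span F {(Pi.single i (1 : F) : Fin m ⊕ Fin m → F)} :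
    Submodule F (Fin m ⊕ Fin m → F)) : Set (Fin m ⊕ Fin m → F))
  rw [Set.iInf_eq_iInter, ← Subgroup.coe_iInf]
  change Nat.card (Subgroup.normalizer (T : Set (symplecticGroup (Fin m) F))) = _
  have hT : ∀ t, t ∈ T ↔ ∀ a, ∃ c : F, c • Pi.single a 1 = t.1 *ᵥ Pi.single a 1 := fun t => by
    refine Subgroup.mem_iInf.trans (forall_congr' fun a => ?_)
    refine (H4.mem_stab_iff_le (g := (H4.spEquiv F m t).1)).trans ⟨fun h => Submodule.mem_span_singleton.1
      (h _ (Submodule.mem_span_singleton_self _)), fun ⟨c, hc⟩ v hv => ?_⟩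
    obtain ⟨k, rfl⟩ := Submodule.mem_span_singleton.1 hv
    rw [map_smul, H4.spEquiv_apply, ← hc]
    exact Submodule.smul_mem _ _ (Submodule.smul_mem _ _ (Submodule.mem_span_singleton_self _))
  let cf (π : Perm (Fin m ⊕ Fin m)) (d : Fin m → Fˣ) : Fin m ⊕ Fin m → F :=
    Sum.elim (fun i => d i) fun i => -(d i)⁻¹ * J (Fin m) F (π (.inl i)) (π (.inl i)).swap
  have c0 : ∀ π d a, cf π d a ≠ 0 := by rintro π d (a | a) <;> simp [cf, J_ne.2 rfl]
  have sp : ∀ π ∈ (Subgroup.centralizer {Equiv.sumComm (Fin m) (Fin m)} : Subgroup (Perm _)), ∀ d,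
      mon π (cf π d) ∈ symplecticGroup (Fin m) F := fun π h d => mon_sp.2 fun a b => by
    have h' : ∀ a, π a.swap = (π a).swap := fun a => congr($(Subgroup.mem_centralizer_singleton_iff.1 h) a)
    by_cases e : b = a.swap
    · subst e
      rcases a with a | a
      · rw [h']; simp only [cf, Sum.swap_inl, Sum.elim_inl, Sum.elim_inr]
        linear_combination (norm := (simp [J]; try field_simp; try ring)) -J_sq (F := F) (π (.inl a))
      · rw [show π (.inr a) = _ from h' (.inl a), Sum.swap_inr, J_skew]; simp only [cf, Sum.elim_inl, Sum.elim_inr]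
        linear_combination (norm := (simp [J]; try field_simp; try ring)) J_sq (F := F) (π (.inl a))
    · rw [not_not.1 (mt J_ne.1 e), not_not.1 (mt J_ne.1 fun e' => e (π.injective (e'.trans (h' a).symm)))]; simp
  rw [← card_cent, show (Fintype.card F - 1) ^ m = Nat.card (Fin m → Fˣ) by simp [Fintype.card_units], ← Nat.card_prod]
  refine (Nat.card_eq_of_bijective (fun x => ⟨⟨_, sp x.1.1 x.1.2 x.2⟩, Subgroup.mem_normalizer_fintype fun t ht =>
    (hT _).2 fun a => by
      obtain ⟨b, rfl⟩ := x.1.1.surjective a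
      obtain ⟨c, hc⟩ := (hT t).1 ht b
      refine ⟨c, smul_right_injective _ (c0 x.1.1 x.2 b) ?_⟩
      dsimp only
      rw [← mulVec_smul, smul_comm, ← mon_single, ← mulVec_smul, hc, mulVec_mulVec, mulVec_mulVec]
      exact congr(($(inv_mul_cancel_right ((⟨_, sp x.1.1 x.1.2 x.2⟩ : symplecticGroup (Fin m) F) * t) _)).1 *ᵥ _).symm⟩)
    ⟨fun x y h => ?_, fun ⟨A, hA⟩ => ?_⟩).symm
  · have h1 : ∀ a b, mon x.1.1 (cf x.1.1 x.2) a b = mon y.1.1 (cf y.1.1 y.2) a b := fun a b => congr(($h).1.1 a b)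
    have h2 : ∀ b, x.1.1 b = y.1.1 b := fun b => by_contra fun e => c0 _ _ b (by simpa [mon, e] using h1 (x.1.1 b) b)
    exact Prod.ext (Subtype.ext (Equiv.ext h2)) (funext fun i => Units.ext (by
      simpa [mon, h2, cf] using h1 (x.1.1 (.inl i)) (.inl i)))
  obtain ⟨x, x0, x1⟩ : ∃ x : Fˣ, x ≠ 1 ∧ x ≠ x⁻¹ := by
    obtain ⟨x, hx⟩ : ∃ x : F, x ∉ ({0, 1, -1} : Finset F) := by
      by_contra! e
      have := (Finset.card_le_card (s := Finset.univ) fun x _ => e x).trans Finset.card_le_three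
      simp at this; omega
    simp only [Finset.mem_insert, Finset.mem_singleton, not_or] at hx
    exact ⟨Units.mk0 x hx.1, by simpa [Units.ext_iff] using hx.2.1, fun e => by
      have : x * x = 1 := by simpa using congr(($(eq_inv_iff_mul_eq_one.1 e)).1)
      grind⟩
  have col : ∀ b, ∃ a, A.1 a b ≠ 0 ∧ ∀ a', a' ≠ a → A.1 a' b = 0 := fun b => by
    obtain ⟨a, ha⟩ : ∃ a, A.1 a b ≠ 0 := by
      by_contra! e; exact (SymplecticGroup.symplectic_det A.2).ne_zero (det_eq_zero_of_column_eq_zero b e)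
    refine ⟨a, ha, fun a' h => by_contra fun ha' => ?_⟩
    let d : Fin m → Fˣ := Function.update 1 (a.elim id id) x
    obtain ⟨c, hc⟩ := (hT _).1 ((Subgroup.mem_normalizer_iff''.1 hA ⟨_, sp 1 (one_mem _) d⟩).1 ((hT _).2 fun a =>
      ⟨_, (mon_single (1 : Perm (Fin m ⊕ Fin m)) _ a).symm⟩)) b
    have : ∀ a, A.1 a b ≠ 0 → c = cf 1 d a := fun a ha => mul_left_cancel₀ ha (by
      have := congr((A.1 *ᵥ $hc) a)
      rw [mulVec_mulVec, ← Submonoid.coe_mul, mul_assoc, mul_inv_cancel_left, Submonoid.coe_mul, ← mulVec_mulVec] at this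
      change _ = (mon id (cf 1 d) *ᵥ _) a at this
      simpa [mon, mulVec, dotProduct, Pi.single_apply, mul_comm, -Fintype.sum_sum_type] using this)
    have := (this a ha).symm.trans (this a' ha')
    have x2 : (x : F) ≠ 1 := by simpa using x0
    have x3 : (x : F) ≠ (x : F)⁻¹ := fun e => x1 (Units.ext (by simpa using e))
    rcases a with a | a <;> rcases a' with a' | a' <;> by_cases e : a' = a <;>
      simp [cf, d, J, e, x2, x3, x3.symm] at this h
  choose π h1 h2 using col
  have hA' : A.1 = mon π fun b => A.1 (π b) b := by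
    ext a b; by_cases e : a = π b <;> simp [mon, e, h2]
  have h3 := mon_sp.1 (hA' ▸ A.2)
  have h4 : ∀ a b, π b = (π a).swap ↔ b = a.swap := fun a b => by
    rw [← J_ne (F := F), ← J_ne (F := F), ← h3 a b]; simp [h1]
  let σ : Perm _ := Equiv.ofBijective π (Finite.injective_iff_bijective.1 fun a b e => by
    simpa using congrArg Sum.swap ((h4 b a.swap).1 (e ▸ (h4 _ _).2 rfl)))
  refine ⟨(⟨σ, Subgroup.mem_centralizer_singleton_iff.2 (Equiv.ext fun a => (h4 _ _).2 rfl)⟩,
    fun i => Units.mk0 _ (h1 (.inl i))), Subtype.ext (Subtype.ext (Eq.trans ?_ hA'.symm))⟩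
  refine congrArg (mon π) (funext ?_)
  rintro (i | i)
  · rfl
  · have := h3 (.inl i) (.inr i)
    have e := J_sq (F := F) (π (.inl i))
    have e' := h1 (.inl i)
    rw [← (h4 (.inl i) (.inr i)).2 rfl] at e
    simp only [cf, σ, Sum.elim_inr, Equiv.ofBijective_apply, ← (h4 (.inl i) (.inr i)).2 rfl, Units.val_inv_eq_inv_val,
      Units.val_mk0]
    rw [show J (Fin m) F (.inl i) (.inr i) = -1 by simp [J]] at this
    field_simp
    linear_combination (-J (Fin m) F (π (.inl i)) (π (.inr i))) * this + (A.1 (π (.inl i)) (.inl i) * A.1 (π (.inr i)) (.inr i)) * e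

end Cfsg.Agent.S0777
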