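import Cfsg.Statements.S0778
import Cfsg.Agent.H4.GLa

set_option autoImplicit false
open Cfsg

namespace Cfsg.Agent.S0778

/-- The elements of Sp_2m(F) stabilising both W = ⟨e_1..e_m⟩ and U = ⟨f_1..f_m⟩ form a subgroup isomorphic to GL_m(F) (block-diagonal matrices diag(X, X^(−ᵀ)) up to the sign convention of J), for m ≥ 1 or m = 0 alike. -/
theorem result {F : Type*} [Field F] (m : ℕ) : Nonempty (↥(Cfsg.stabilizing (Cfsg.spToMat m F) {v : Fin m ⊕ Fin m → F | ∀ i : Fin m, v (Sum.inr i) = 0} ⊓ Cfsg.stabilizing (Cfsg.spToMat m F) {v : Fin m ⊕ Fin m → F | ∀ i : Fin m, v (Sum.inl i) = 0}) ≃* Matrix.GeneralLinearGroup (Fin m) F) := by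
  open Cfsg.Agent.H4 Module Matrix in
  let φ : GL (Fin m) F →* Matrix.symplecticGroup (Fin m) F :=
    ((Units.coeHom _).comp lev).codRestrict (Matrix.symplecticGroup (Fin m) F)
      fun g => mem_symplecticGroup_iff.2 (lev_mem_spF g).1
  have hφ : Function.Injective φ := fun a b h => lev_injective (Units.ext (congrArg Subtype.val h))
  refine ⟨(MulEquiv.subgroupCongr ?_).trans (MonoidHom.ofInjective hφ).symm⟩
  ext A
  constructor
  · rintro ⟨h1, h2⟩
    have z1 : ∀ i j, A.1 (Sum.inr i) (Sum.inl j) = 0 := fun i j => by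
      simpa [spToMat] using (h1 (Pi.single (.inl j) 1)).1 (fun l => by simp) i
    have z2 : ∀ i j, A.1 (Sum.inl i) (Sum.inr j) = 0 := fun i j => by
      simpa [spToMat] using (h2 (Pi.single (.inr j) 1)).1 (fun l => by simp) i
    have hA : A.1 = fromBlocks A.1.toBlocks₁₁ 0 0 A.1.toBlocks₂₂ := by
      ext (i | i) (j | j) <;> simp [z1, z2, toBlocks₁₁, toBlocks₂₂]
    have h := SymplecticGroup.mem_iff.1 A.2
    rw [hA, J, fromBlocks_transpose, fromBlocks_multiply, fromBlocks_multiply] at h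
    have h3 : A.1.toBlocks₁₁ * A.1.toBlocks₂₂ᵀ = 1 := by simpa using congrArg toBlocks₁₂ h
    refine ⟨⟨_, _, h3, mul_eq_one_comm.1 h3⟩, Subtype.ext ?_⟩
    refine Eq.trans ?_ hA.symm
    simp [φ, Matrix.inv_eq_right_inv h3]
  · rintro ⟨g, rfl⟩
    have h1 := (glE_mem_stab_crd (fun i : Fin m ⊕ Fin m => i.isRight) (lev g)).2 (by
      rintro (i | i) (j | j) <;> simp)
    have h2 := (glE_mem_stab_crd (fun i : Fin m ⊕ Fin m => i.isLeft) (lev g)).2 (by
      rintro (i | i) (j | j) <;> simp)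
    exact ⟨fun v => by simpa [mem_crd, φ, spToMat] using h1 v,
      fun v => by simpa [mem_crd, φ, spToMat] using h2 v⟩

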