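import Cfsg.Statements.S0782
import Cfsg.Agent.H4.Bridge2

set_option autoImplicit false
open Cfsg

namespace Cfsg.Agent.S0782

/-- Maximal parabolics of SU_n(q): if W is a k-dimensional subspace of F^n (n ≥ 1, |F| = q²) on which the Hermitian form vanishes, then (q + 1) times the order of its stabiliser in SU_n(q) equals q^(k(2n−3k)) · |GL_k(q²)| · |GU_(n−2k)(q)|, where |GU_m(q)| = q^(m(m−1)/2) Π_(i=1..m) (q^i − (−1)^i). -/
theorem result {F : Type*} [Field F] [Fintype F] {q : ℕ} (hF : Fintype.card F = q ^ 2) (n k : ℕ) (hn : 1 ≤ n) (hk : 2 * k ≤ n) (W : Submodule F (Fin n → F)) (hWk : Module.finrank F W = k) (hW : ∀ u ∈ W, ∀ v ∈ W, Cfsg.hermForm n F q u v = 0) : (q + 1) * Nat.card ↥((Cfsg.stabilizing (Cfsg.slToMat n F) (W : Set (Fin n → F))).subgroupOf (Cfsg.SU n F q)) = q ^ (k * (2 * n - 3 * k)) * (∏ i : Fin k, ((q ^ 2) ^ k - (q ^ 2) ^ (i : ℕ))) * (q ^ ((n - 2 * k) * ((n - 2 * k) - 1) / 2) * ∏ i ∈ Finset.range (n - 2 * k), (if Even i then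 q ^ (i + 1) + 1 else q ^ (i + 1) - 1)) := by
  open Cfsg.Agent.H4 in
  have hf := unF_nondeg hF n
  have hTS : (unF hF n).TS W := CForm.unit_TS_iff.2 hW
  have hdet : ∀ a : Fˣ, (a : F) * (unT hF).σ a = 1 →
      ∃ g ∈ stab W ⊓ (unF hF n).iso, LinearEquiv.det g = a := by
    intro a ha
    rcases k with _ | k
    · have : Nonempty (Fin n) := ⟨⟨0, hn⟩⟩
      obtain ⟨g, hg, h⟩ := hf.unit_exists_det (frobq_ne hF) ha
      rw [Submodule.finrank_eq_zero] at hWk
      exact ⟨g, ⟨fun v => by simp [hWk], hg⟩, h⟩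
    obtain ⟨H, u, hH, hu, huH, hHk, rfl⟩ := CForm.exists_hyperplane_of_finrank hWk
    have hQ := hTS.1 u hu
    obtain ⟨w, hw, hQw, hB⟩ := hf.exists_partner hQ huH ((unF hF n).perp_anti hH (hTS.le_perp hu))
    have hu0 : u ≠ 0 := by rintro rfl; exact huH (zero_mem _)
    obtain ⟨t, ht⟩ := exists_trace_eq (frobq_ne hF) (frobq_frobq hF) (map_one _)
    have hp : (unF hF n).Q (t • u + (1 : F) • w) = 1 := by
      rw [CForm.unit_Q_pair hQ hQw hB, map_one, mul_one, ht]
    have hok := CForm.unit_tvOk hp ha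
    have hmem : t • u + (1 : F) • w ∈ Submodule.span F {u, w} :=
      add_mem (Submodule.smul_mem _ _ (Submodule.subset_span (by simp)))
        (Submodule.smul_mem _ _ (Submodule.subset_span (by simp)))
    have huu : u ∈ Submodule.span F {u, w} := Submodule.subset_span (by simp)
    obtain ⟨e, -, he, he1, c, hc, he2⟩ := (CForm.unit_thick (f := unF hF n) (frobq_ne hF) _).exists_E_map
      (CForm.pair_nondeg hQ hQw (by rw [hB]; exact one_ne_zero)) (S := ⊤) (fun _ _ _ _ _ _ => trivial)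
      (e₁ := (unF hF n).tv (t • u + (1 : F) • w) (a - 1) u)
      (by rw [hok.apply]; exact add_mem huu (Submodule.smul_mem _ _ hmem)) huu
      (by simpa using hu0) hu0 ((CForm.iso_Q hok.mem_iso u).trans hQ) hQ
    refine ⟨e * (unF hF n).tv (t • u + (1 : F) • w) (a - 1), ⟨mem_stab_iff_le.2 fun x hx => ?_,
      mul_mem (CForm.E_le_iso he) hok.mem_iso⟩, ?_⟩
    · obtain ⟨y, hy, z, hz, rfl⟩ := Submodule.mem_sup.1 hx
      obtain ⟨b, rfl⟩ := Submodule.mem_span_singleton.1 hz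
      have hy' : y ∈ (unF hF n).perp (Submodule.span F {u, w}) :=
        (unF hF n).mem_perp_pair.2 ⟨hTS.2 y (hH hy) u hu, (unF hF n).mem_perp'.1 hw y hy⟩
      rw [map_add, map_smul, LinearEquiv.mul_apply, LinearEquiv.mul_apply, he2,
        CForm.tv_fix _ (hy' _ hmem), he1 y hy']
      exact add_mem (hH hy) (Submodule.smul_mem _ _ (Submodule.smul_mem _ _ hu))
    · rw [map_mul, CForm.E_le_ker_det he, one_mul]
      exact Units.ext (CForm.det_unit_tv hp ha)
  rw [Nat.card_congr (subEquiv (suEquiv hF n)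
    (L := (stab W ⊓ (unF hF n).iso) ⊓ LinearEquiv.det.ker) (inf_le_inf_right _ inf_le_right)
    (fun g => ⟨fun h => ⟨⟨h, (suEquiv hF n g).2.1⟩, (suEquiv hF n g).2.2⟩, fun h => h.1.1⟩)).toEquiv,
    ← hf.unT_card_iso_eq hF inf_le_right hdet,
    CForm.card_stab_TS hf hTS ⊤ (S := stab W ⊓ (unF hF n).iso)
      (fun g => ⟨fun h => ⟨h.2, h.1, trivial⟩, fun h => ⟨h.2.1, h.1⟩⟩),
    CForm.card_fix_TS (fun n => q ^ (n * (n - 1) / 2) *
      ∏ i ∈ Finset.range n, (if Even i then q ^ (i + 1) + 1 else q ^ (i + 1) - 1))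
      (fun V _ _ _ f hf => hf.unit_card_iso hF rfl) (n - 2 * k) k _ _
      hf W hTS hWk (by simp; omega), Subgroup.card_top, card_linearEquiv hWk, κ_unT, hF]
  have : k * (2 * n - 3 * k) = 2 * (k * (n - 2 * k) + k.choose 2) + k := by
    obtain ⟨d, rfl⟩ := Nat.exists_eq_add_of_le hk
    have h3 : ∀ k : ℕ, 2 * k.choose 2 + k = k * k := by
      intro k
      induction k with
      | zero => simp
      | succ k ih => rw [Nat.choose_succ_succ' k 1, Nat.choose_one_right]; linear_combination ih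
    rw [show 2 * (2 * k + d) - 3 * k = k + 2 * d by omega, Nat.add_sub_cancel_left]
    linarith [h3 k]
  rw [this]
  ring

end Cfsg.Agent.S0782
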