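import Cfsg.Statements.S0783
import Cfsg.Agent.H4.Bridge2

set_option autoImplicit false
open Cfsg

namespace Cfsg.Agent.S0783

/-- PGU_n(q)/PSU_n(q) is cyclic of order (n, q+1): for n ≥ 2 and |F| = q² there is a surjective homomorphism from GU_n(q) onto the cyclic group of order gcd(n, q + 1) whose kernel is generated by the determinant-one elements together with the centre. -/
theorem result {F : Type*} [Field F] [Fintype F] {q : ℕ} (hF : Fintype.card F = q ^ 2) (n : ℕ) (hn : 2 ≤ n) : ∃ φ : ↥(Cfsg.GU n F q) →* Multiplicative (ZMod (Nat.gcd n (q + 1))), Function.Surjective φ ∧ φ.ker = (Matrix.GeneralLinearGroup.det : Matrix.GeneralLinearGroup (Fin n) F →* Fˣ).ker.subgroupOf (Cfsg.GU n F q) ⊔ Subgroup.center ↥(Cfsg.GU n F q) := by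
  open Cfsg.Agent.H4 in
  have hf := unF_nondeg hF n
  have : Nonempty (Fin n) := ⟨⟨0, by omega⟩⟩
  obtain ⟨φ, hφ, hker⟩ := exists_hom_zmod_gcd (C := rootsOfUnity (q + 1) F) n
  rw [← CForm.card_rootsOfUnity_succ hF]
  let d : GU n F q →* rootsOfUnity (q + 1) F :=
    (Matrix.GeneralLinearGroup.det.comp (GU n F q).subtype).codRestrict _ fun g => by
      rw [CForm.mem_rootsOfUnity_succ hF]
      have := hf.det_norm ((mem_GU hF).1 g.2)
      rwa [det_glE] at this
  have hd : Function.Surjective d := by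
    rintro ⟨a, ha⟩
    obtain ⟨g, hg, h⟩ := hf.unit_exists_det (frobq_ne hF) ((CForm.mem_rootsOfUnity_succ hF).1 ha)
    obtain ⟨g, rfl⟩ := glE.surjective g
    exact ⟨⟨g, (mem_GU hF).2 hg⟩, Subtype.ext ((det_glE g).symm.trans h)⟩
  have hcen : ∀ g : GU n F q, g ∈ Subgroup.center (GU n F q) ↔ ∃ a : F, ∀ x, glE (g : GL (Fin n) F) x = a • x := by
    intro g
    obtain ⟨u, hu0, hu⟩ := CForm.not_aniso.1
      (CForm.Nondeg.unT_not_aniso hF (f := unF hF n) (by simpa using hn))
    rw [← mem_center_equiv (guEquiv hF n)]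
    constructor
    · intro h
      exact hf.scalar_of_comm (CForm.unit_thick (frobq_ne hF) _) hu0 hu (guEquiv hF n g).2 fun x hx =>
        (congrArg Subtype.val (Subgroup.mem_center_iff.1 h ⟨x, CForm.E_le_iso hx⟩)).symm
    · rintro ⟨a, ha⟩
      rw [Subgroup.mem_center_iff]
      intro k
      ext1; ext1 x
      change (k : (Fin n → F) ≃ₗ[F] _) (glE (g : GL (Fin n) F) x) = glE (g : GL (Fin n) F) _
      rw [ha, ha, map_smul]; rfl
  refine ⟨φ.comp d, hφ.comp hd, le_antisymm (fun g hg => ?_) (sup_le (fun g hg => ?_) fun g hg => ?_)⟩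
  · rw [← MonoidHom.comap_ker, hker] at hg
    obtain ⟨⟨a, ha⟩, h⟩ := hg
    have hs := CForm.scal_mem_iso (f := unF hF n) ((CForm.mem_rootsOfUnity_succ hF).1 ha)
    obtain ⟨z, hz⟩ := (guEquiv hF n).surjective ⟨_, hs⟩
    have hz' : glE (z : GL (Fin n) F) = CForm.scal _ a := congrArg Subtype.val hz
    rw [← inv_mul_cancel_right g z]
    refine Subgroup.mul_mem_sup ?_ ((hcen z).2 ⟨a, fun x => by rw [hz']; rfl⟩)
    have h1 : d z = d g := by
      rw [← h]
      apply Subtype.ext
      change Matrix.GeneralLinearGroup.det (z : GL (Fin n) F) = _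
      rw [← det_glE, hz', det_scal]
      simp
    have h2 : d (g * z⁻¹) = 1 := by rw [map_mul, map_inv, h1, mul_inv_cancel]
    exact congrArg Subtype.val h2
  · rw [MonoidHom.mem_ker, MonoidHom.comp_apply, show d g = 1 from Subtype.ext hg, map_one]
  · obtain ⟨a, ha⟩ := (hcen g).1 hg
    obtain ⟨u, hu⟩ := exists_ne (0 : Fin n → F)
    have ha0 : a ≠ 0 := by
      rintro rfl
      exact hu ((glE (g : GL (Fin n) F)).injective (by rw [ha]; simp))
    have e : glE (g : GL (Fin n) F) = CForm.scal _ (Units.mk0 a ha0) := LinearEquiv.ext ha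
    rw [← MonoidHom.comap_ker, hker]
    refine ⟨⟨Units.mk0 a ha0, (CForm.mem_rootsOfUnity_succ hF).2
      (CForm.iso_scalar_norm hf ((mem_GU hF).1 g.2) ha hu)⟩, Subtype.ext ?_⟩
    change Units.mk0 a ha0 ^ n = Matrix.GeneralLinearGroup.det (g : GL (Fin n) F)
    rw [← det_glE, e, det_scal]
    simp

end Cfsg.Agent.S0783
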