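import Cfsg.Statements.S0784
import Cfsg.Agent.H4.Symp

set_option autoImplicit false
open Cfsg

namespace Cfsg.Agent.S0784

/-- Reflections: if Q(v) ≠ 0 then the matrix R = 1 − Q(v)⁻¹ · v f(v, ·)ᵀ preserves Q, maps v to −v, fixes each x with f(v, x) = 0, and has determinant −1 (in characteristic two, −1 = 1 and R is the orthogonal transvection of v). -/
theorem result {F : Type*} [Field F] {n : ℕ} (Q : QuadraticForm F (Fin n → F)) (v : Fin n → F) (hv : Q v ≠ 0) : (∀ x, Q ((Cfsg.reflectionMatrix ⇑Q v).mulVec x) = Q x) ∧ (Cfsg.reflectionMatrix ⇑Q v).mulVec v = -v ∧ (∀ x, QuadraticMap.polar ⇑Q v x = 0 → (Cfsg.reflectionMatrix ⇑Q v).mulVec x = x) ∧ (Cfsg.reflectionMatrix ⇑Q v).det = -1 := by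
  open Cfsg.Agent.H4 in
  have hok : (CForm.ofQuad Q).TvOk v (-(Q v)⁻¹) := by
    simp only [CForm.TvOk, FType.orth_τ, FType.orth_σ, CForm.ofQuad_Q]; field_simp; ring
  have happ : ∀ x, (reflectionMatrix Q v).mulVec x = (CForm.ofQuad Q).tv v (-(Q v)⁻¹) x := fun x => by
    rw [hok.apply]
    refine (reflectionMatrix_mulVec (CForm.ofQuad Q) v x).trans ?_
    simp [sub_eq_add_neg]
  have hvv : (CForm.ofQuad Q).B v v = 2 * Q v := CForm.orth_B_self _ v
  refine ⟨fun x => ?_, ?_, fun x hx => ?_, ?_⟩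
  · rw [happ]; exact CForm.iso_Q hok.mem_iso x
  · rw [happ, hok.apply, hvv]
    have : -(Q v)⁻¹ * (2 * Q v) = -2 := by field_simp
    rw [this]; module
  · rw [happ]; exact CForm.tv_fix _ ((CForm.ofQuad Q).B_zero_symm hx)
  · have := CForm.det_tv hok.ne
    rw [LinearEquiv.coe_det, show (((CForm.ofQuad Q).tv v (-(Q v)⁻¹) : _ ≃ₗ[F] _) : (Fin n → F) →ₗ[F] (Fin n → F)) =
      Matrix.toLin' (reflectionMatrix Q v) from LinearMap.ext fun x => (happ x).symm,
      LinearMap.det_toLin', hvv] at this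
    rw [this]; field_simp; ring

end Cfsg.Agent.S0784
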