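import Cfsg.Statements.S0785
import Cfsg.Agent.H4.Symp
import Cfsg.Agent.S0784

set_option autoImplicit false
open Cfsg

namespace Cfsg.Agent.S0785

/-- det(I) = {±1}: for a quadratic form on F^n whose polar form is non-degenerate, every element of the isometry group has determinant 1 or −1, and as soon as Q takes a non-zero value some isometry has determinant −1. -/
theorem result {F : Type*} [Field F] {n : ℕ} (Q : QuadraticForm F (Fin n → F)) (hQ : (QuadraticMap.polarBilin Q).Nondegenerate) : (∀ g : ↥(Cfsg.isometryGroup F ⇑Q), ((g : Matrix.GeneralLinearGroup (Fin n) F) : Matrix (Fin n) (Fin n) F).det = 1 ∨ ((g : Matrix.GeneralLinearGroup (Fin n) F) : Matrix (Fin n) (Fin n) F).det = -1) ∧ ((∃ v, Q v ≠ 0) → ∃ g : ↥(Cfsg.isometryGroup F ⇑Q), ((g : Matrix.GeneralLinearGroup (Fin n) F) : Matrix (Fin n) (Fin n) F).det = -1) := by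
  open Cfsg.Agent.H4 in
  refine ⟨fun g => ?_, fun ⟨v, hv⟩ => ?_⟩
  · set A : Matrix (Fin n) (Fin n) F := ((g : Matrix.GeneralLinearGroup (Fin n) F) : Matrix (Fin n) (Fin n) F)
    set G := LinearMap.BilinForm.toMatrix' (QuadraticMap.polarBilin Q)
    have hG : G.det ≠ 0 := LinearMap.BilinForm.nondegenerate_toMatrix'_iff.2 hQ |>.det_ne_zero
    have hiso := (mem_isometryGroup (f := CForm.ofQuad Q)).1 g.2
    have : A.transpose * G * A = G := by
      rw [← LinearMap.toMatrix'_toLin' A, ← LinearMap.BilinForm.toMatrix'_comp]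
      congr 1
      refine LinearMap.ext fun x => LinearMap.ext fun y => ?_
      exact CForm.iso_B hiso x y
    have h2 := congrArg Matrix.det this
    rw [Matrix.det_mul, Matrix.det_mul, Matrix.det_transpose] at h2
    apply mul_self_eq_one_iff.1
    apply mul_right_cancel₀ hG
    linear_combination h2
  · obtain ⟨h1, -, -, h4⟩ := Cfsg.Agent.S0784.result Q v hv
    exact ⟨⟨Matrix.GeneralLinearGroup.mkOfDetNeZero (reflectionMatrix Q v) (by rw [h4]; simp), fun x _ => h1 x⟩, h4⟩

end Cfsg.Agent.S0785
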