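import Cfsg.Statements.S0792
import Cfsg.Agent.H4.Orth2

set_option autoImplicit false
open Cfsg

namespace Cfsg.Agent.S0792

/-- For q odd and Q with non-degenerate polar form on F^n, the determinant-one isometries form the subgroup generated by all products r_u r_v of two reflections (Q(u), Q(v) ≠ 0). -/
theorem result {F : Type*} [Field F] [Fintype F] (h2 : (2 : F) ≠ 0) {n : ℕ} (Q : QuadraticForm F (Fin n → F)) (hQ : (QuadraticMap.polarBilin Q).Nondegenerate) : Cfsg.specialIsometryGroup F ⇑Q = Subgroup.closure {g : ↥(Cfsg.isometryGroup F ⇑Q) | ∃ u v : Fin n → F, Q u ≠ 0 ∧ Q v ≠ 0 ∧ ((g : Matrix.GeneralLinearGroup (Fin n) F) : Matrix (Fin n) (Fin n) F) = Cfsg.reflectionMatrix ⇑Q u * Cfsg.reflectionMatrix ⇑Q v} := by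
  open Cfsg.Agent.H4 in
  have hf := CForm.ofQuad_nondeg hQ
  ext g
  refine (mem_specialIsometryGroup (f := CForm.ofQuad Q)).trans (Iff.trans ?_
    (mem_closure_equiv (isomEquiv (CForm.ofQuad Q)) (t := {x | ∃ u v, Q u ≠ 0 ∧ Q v ≠ 0 ∧
    x = (CForm.ofQuad Q).rfx u * (CForm.ofQuad Q).rfx v})
    (by rintro _ ⟨u, v, -, -, rfl⟩; exact mul_mem (CForm.rfx_mem_iso u) (CForm.rfx_mem_iso v))
    (fun x => exists₂_congr fun u v => and_congr_right fun hu => and_congr_right fun hv =>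
      eq_reflectionMatrix_mul_iff (f := CForm.ofQuad Q)) g).symm)
  refine ⟨fun h => ?_, fun h => ?_⟩
  · refine hf.orth_siso_le h2 (fun u v hu hv => ?_) h
    exact Subgroup.subset_closure ⟨u, v, hu, hv, rfl⟩
  · refine (Subgroup.closure_le _).2 ?_ h
    rintro _ ⟨u, v, hu, hv, rfl⟩
    exact ⟨mul_mem (CForm.rfx_mem_iso u) (CForm.rfx_mem_iso v), by
      simp [CForm.det_rfx (f := CForm.ofQuad Q) hu, CForm.det_rfx (f := CForm.ofQuad Q) hv]⟩

end Cfsg.Agent.S0792
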