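import Cfsg.Statements.S0793
import Cfsg.Agent.H4.Symp

set_option autoImplicit false
open Cfsg

namespace Cfsg.Agent.S0793

/-- Root elements: if Q(u) = Q(v) = 0 and f(u, v) = 0 (f the polar form), then for every c the Siegel matrix T_(u,v)(c) preserves Q, fixes u and v, and T(c) T(d) = T(c + d). -/
theorem result {F : Type*} [Field F] {n : ℕ} (Q : QuadraticForm F (Fin n → F)) (u v : Fin n → F) (hu : Q u = 0) (hv : Q v = 0) (huv : QuadraticMap.polar ⇑Q u v = 0) : (∀ c x, Q ((Cfsg.siegelMatrix ⇑Q u v c).mulVec x) = Q x) ∧ (∀ c, (Cfsg.siegelMatrix ⇑Q u v c).mulVec u = u ∧ (Cfsg.siegelMatrix ⇑Q u v c).mulVec v = v) ∧ ∀ c d, Cfsg.siegelMatrix ⇑Q u v c * Cfsg.siegelMatrix ⇑Q u v d = Cfsg.siegelMatrix ⇑Q u v (c + d) := by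
  open Cfsg.Agent.H4 in
  have huv' : (CForm.ofQuad Q).B u v = 0 := huv
  have hvu : (CForm.ofQuad Q).B v u = 0 := (CForm.ofQuad Q).B_zero_symm huv'
  have huu : (CForm.ofQuad Q).B u u = 0 := (CForm.ofQuad Q).B_self_of_Q hu
  have hvv : (CForm.ofQuad Q).B v v = 0 := (CForm.ofQuad Q).B_self_of_Q hv
  have hok : ∀ c : F, (CForm.ofQuad Q).EichOk u (-c • v) 0 := fun c =>
    ⟨hu, by rw [CForm.B_smul_left, hvu, mul_zero], ((CForm.ofQuad Q).Q_smul_of_Q hv _).symm⟩
  have happ : ∀ c x, (siegelMatrix Q u v c).mulVec x = (CForm.ofQuad Q).eich u (-c • v) 0 x :=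
    fun c x => by
      rw [(hok c).apply]
      refine (siegelMatrix_mulVec (CForm.ofQuad Q) u v x c).trans ?_
      simp only [CForm.B_smul_right, FType.orth_σ, FType.orth_ε]
      module
  refine ⟨fun c x => ?_, fun c => ⟨?_, ?_⟩, fun c d => matrix_ext_mulVec fun x => ?_⟩
  · rw [happ]; exact CForm.iso_Q (hok c).mem_iso x
  · rw [happ]; exact (hok c).apply_self
  · rw [happ]; exact CForm.eich_fix _ hvu (by rw [CForm.B_smul_right, hvv, mul_zero])
  · rw [← Matrix.mulVec_mulVec, happ, happ, happ, ← LinearEquiv.mul_apply,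
      CForm.eich_mul huu (hok c).hv (hok d).hv]
    simp only [CForm.B_smul_left, CForm.B_smul_right, hvv, mul_zero, add_zero, neg_add, add_smul]

end Cfsg.Agent.S0793
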