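import Cfsg.Statements.S0794
import Cfsg.Agent.H4.Orth2

set_option autoImplicit false
open Cfsg

namespace Cfsg.Agent.S0794

/-- For q odd, n ≥ 5 and Q with non-degenerate polar form: an isometry whose matrix is a Siegel transformation T_(u,v)(c) (u, v singular and orthogonal) is a commutator in the isometry group, so lies in Ω. -/
theorem result {F : Type*} [Field F] [Fintype F] (h2 : (2 : F) ≠ 0) {n : ℕ} (hn : 5 ≤ n) (Q : QuadraticForm F (Fin n → F)) (hQ : (QuadraticMap.polarBilin Q).Nondegenerate) (u v : Fin n → F) (hu : Q u = 0) (hv : Q v = 0) (huv : QuadraticMap.polar ⇑Q u v = 0) (c : F) (g : ↥(Cfsg.isometryGroup F ⇑Q)) (hg : ((g : Matrix.GeneralLinearGroup (Fin n) F) : Matrix (Fin n) (Fin n) F) = Cfsg.siegelMatrix ⇑Q u v c) : g ∈ commutatorSet ↥(Cfsg.isometryGroup F ⇑Q) ∧ g ∈ Cfsg.Omega F ⇑Q := by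
  open Cfsg.Agent.H4 in
  open scoped commutatorElement in
  have hf := CForm.ofQuad_nondeg hQ
  have h1 := (eq_siegelMatrix_iff (f := CForm.ofQuad Q) hu hv huv c).1 hg
  obtain ⟨a, ha, b, hb, e⟩ := hf.orth_siegel_commutator (by simpa) (u := u) (v := -c • v) hu
    ((CForm.ofQuad Q).Q_smul_of_Q hv _)
    (by rw [CForm.B_smul_left, (CForm.ofQuad Q).B_zero_symm huv, mul_zero])
  have key : g ∈ commutatorSet ↥(Cfsg.isometryGroup F ⇑Q) := by
    obtain ⟨φ, hφ⟩ : ∃ φ : isometryGroup F ⇑Q ≃* (CForm.ofQuad Q).iso,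
      ∀ g, (φ g : (Fin n → F) ≃ₗ[F] _) = glE g := ⟨isomEquiv (CForm.ofQuad Q), fun _ => rfl⟩
    refine ⟨φ.symm ⟨a, CForm.E_le_iso ha⟩, φ.symm ⟨b, CForm.E_le_iso hb⟩, φ.injective ?_⟩
    rw [map_commutatorElement, MulEquiv.apply_symm_apply, MulEquiv.apply_symm_apply]
    exact Subtype.ext (e.symm.trans (h1.symm.trans (hφ g).symm))
  obtain ⟨x, y, rfl⟩ := key
  exact ⟨⟨x, y, rfl⟩, Subgroup.commutator_mem_commutator trivial trivial⟩

end Cfsg.Agent.S0794
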