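import Cfsg.Statements.S0795
import Cfsg.Agent.H4.Orth2

set_option autoImplicit false
open Cfsg

namespace Cfsg.Agent.S0795

/-- Generation of Ω by root elements: for q odd, n ≥ 5 and Q with non-degenerate polar form on F^n, the commutator subgroup of the isometry group equals the subgroup generated by the isometries whose matrices are Siegel transformations T_(u,v)(c) with u, v singular and orthogonal. -/
theorem result {F : Type*} [Field F] [Fintype F] (h2 : (2 : F) ≠ 0) {n : ℕ} (hn : 5 ≤ n) (Q : QuadraticForm F (Fin n → F)) (hQ : (QuadraticMap.polarBilin Q).Nondegenerate) : Cfsg.Omega F ⇑Q = Subgroup.closure {g : ↥(Cfsg.isometryGroup F ⇑Q) | ∃ (u v : Fin n → F) (c : F), Q u = 0 ∧ Q v = 0 ∧ QuadraticMap.polar ⇑Q u v = 0 ∧ ((g : Matrix.GeneralLinearGroup (Fin n) F) : Matrix (Fin n) (Fin n) F) = Cfsg.siegelMatrix ⇑Q u v c} := by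
  open Cfsg.Agent.H4 in
  have hf := CForm.ofQuad_nondeg hQ
  have hok : ∀ u v (c : F), Q u = 0 → Q v = 0 → (CForm.ofQuad Q).B u v = 0 →
      (CForm.ofQuad Q).EichOk u (-c • v) 0 := fun u v c hu hv huv =>
    ⟨hu, by rw [CForm.B_smul_left, (CForm.ofQuad Q).B_zero_symm huv, mul_zero],
      ((CForm.ofQuad Q).Q_smul_of_Q hv _).symm⟩
  ext g
  refine (mem_Omega (f := CForm.ofQuad Q)).trans (Iff.trans ?_
    (mem_closure_equiv (isomEquiv (CForm.ofQuad Q)) (t := {x | ∃ u v, ∃ c : F, Q u = 0 ∧ Q v = 0 ∧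
    (CForm.ofQuad Q).B u v = 0 ∧ x = (CForm.ofQuad Q).eich u (-c • v) 0})
    (by rintro _ ⟨u, v, c, hu, hv, huv, rfl⟩; exact (hok u v c hu hv huv).mem_iso)
    (fun x => exists₃_congr fun u v c => and_congr_right fun hu => and_congr_right fun hv =>
      and_congr_right fun huv => eq_siegelMatrix_iff (f := CForm.ofQuad Q) hu hv huv c) g).symm)
  rw [hf.orth_commutator_eq_E' (by simpa)]
  refine ⟨fun h => ?_, fun h => ?_⟩
  · refine hf.orth_E_le_of_sing (hf.orth_wi_two (by simpa)) (fun u v hu hv h => ?_) h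
    exact Subgroup.subset_closure ⟨u, v, -1, hu, hv, (CForm.ofQuad Q).B_zero_symm h, by simp⟩
  · refine (Subgroup.closure_le _).2 ?_ h
    rintro _ ⟨u, v, c, hu, hv, huv, rfl⟩
    exact (hok u v c hu hv huv).mem_E

end Cfsg.Agent.S0795
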