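import Cfsg.Statements.S0796
import Cfsg.Agent.GS.Misc1

set_option autoImplicit false
open Cfsg

namespace Cfsg.Agent.S0796

open Cfsg.Agent.H1

/-- If G is finite and acts faithfully and primitively on X, H is the stabiliser of a point, A is a normal subgroup of H whose normal closure in G is G, then for every non-trivial normal subgroup K of G the quotient G ⧸ K is isomorphic to A ⧸ B for some normal subgroup B of A. -/
theorem result {G X : Type*} [Group G] [Finite G] [MulAction G X] [FaithfulSMul G X] (hprim : MulAction.IsPreprimitive G X) (x : X) (A : Subgroup G) (hA : A ≤ MulAction.stabilizer G x) (hAn : (A.subgroupOf (MulAction.stabilizer G x)).Normal) (hgen : Subgroup.normalClosure (A : Set G) = ⊤) (K : Subgroup G) [K.Normal] (hK : K ≠ ⊥) : ∃ (B : Subgroup A) (_ : B.Normal), Nonempty (G ⧸ K ≃* A ⧸ B) := by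
  open Subgroup Pointwise commutatorElement Cfsg.Agent.BG Cfsg.Agent.GS in
  open Cfsg.Agent.H2 hiding card_lt_of_lt card_lt_of_ne_top isMulCommutative_of_le isPGroup_zpowers_iff mem_of_pow_mem_of_coprime inf_eq_bot_of_cop exists_maxElem_ge Sec in
  open Cfsg.Agent.H8 (Op Opp Fit SN) in
  open Cfsg.Agent.L (FPF) in focus
    have t : MulAction.IsPretransitive K X := hprim.isQuasiPreprimitive.isPretransitive_of_normal fun h => hK (eq_bot_iff.2 fun k hk =>
      eq_of_smul_eq_smul (α := X) fun y => by simpa using (h.ge (Set.mem_univ y)) ⟨k, hk⟩)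
    let φ := (QuotientGroup.mk' K).comp A.subtype
    have n : (A ⊔ K).Normal := normalizer_eq_top_iff.1 (eq_top_iff.2 fun g _ => by
      obtain ⟨k, hk⟩ := t.exists_smul_eq (g • x) x
      have : (k * g : G) ∈ 𝒩 (A ⊔ K) := normalizer_inf_normalizer_le_normalizer_sup _ _
        ⟨(normal_subgroupOf_iff_le_normalizer hA).1 hAn (by rwa [MulAction.mem_stabilizer_iff, mul_smul]), by simp [normalizer_eq_top]⟩
      exact (mul_mem_cancel_left (le_normalizer (mem_sup_right k.2))).1 this)
    refine ⟨φ.ker, inferInstance, ⟨(QuotientGroup.quotientKerEquivOfSurjective φ fun g => ?_).symm⟩⟩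
    obtain ⟨g, rfl⟩ := QuotientGroup.mk_surjective g
    obtain ⟨a, ha, k, hk, rfl⟩ := mem_sup_of_normal_right.1 (normalClosure_le_normal (N := A ⊔ K) (le_sup_left (a := A)) (hgen.ge (mem_top g)))
    exact ⟨⟨a, ha⟩, by simp [φ, hk]⟩

end Cfsg.Agent.S0796
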