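import Cfsg.Statements.S0798
import Cfsg.Agent.H4.Orth2

set_option autoImplicit false
open Cfsg

namespace Cfsg.Agent.S0798

/-- For q odd, n ≥ 2 even, Q with non-degenerate polar form (n, |F|) ≠ (4, 3), and a fixed c ≠ 0: the subgroup of the isometry group generated by the reflections r_v with Q(v) ∈ c·(F^×)² has index 2. -/
theorem result {F : Type*} [Field F] [Fintype F] (h2 : (2 : F) ≠ 0) {n : ℕ} (hn : 2 ≤ n) (heven : Even n) (Q : QuadraticForm F (Fin n → F)) (hQ : (QuadraticMap.polarBilin Q).Nondegenerate) (h43 : ¬ (n = 4 ∧ Fintype.card F = 3)) (c : F) (hc : c ≠ 0) : (Subgroup.closure {g : ↥(Cfsg.isometryGroup F ⇑Q) | ∃ (v : Fin n → F) (t : F), t ≠ 0 ∧ Q v = c * t ^ 2 ∧ ((g : Matrix.GeneralLinearGroup (Fin n) F) : Matrix (Fin n) (Fin n) F) = Cfsg.reflectionMatrix ⇑Q v}).index = 2 := by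
  open Cfsg.Agent.H4 in
  have hf := CForm.ofQuad_nondeg hQ
  have h3 := Nat.odd_iff.1 (odd_of_two_ne_zero h2)
  have h4 := Fintype.one_lt_card (α := F)
  have h5 := Nat.even_iff.1 heven
  refine Eq.trans ?_ (hf.orth_relIndex_class h2 (by simp; omega) hc)
  exact index_eq_relIndex_of_equiv (isomEquiv (CForm.ofQuad Q)) fun g => mem_closure_equiv _
    (by rintro _ ⟨v, t, -, -, rfl⟩; exact CForm.rfx_mem_iso v)
    (fun x => exists₂_congr fun u v => and_congr_right fun hu => and_congr_right fun hv =>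
      eq_reflectionMatrix_iff (f := CForm.ofQuad Q)) g

end Cfsg.Agent.S0798
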