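import Cfsg.Statements.S0799
import Cfsg.Agent.H4.Dick4

set_option autoImplicit false
open Cfsg

namespace Cfsg.Agent.S0799

/-- Dickson's classification of the subgroups of PSL_2(q), q a power of the prime p, d = gcd(2, q − 1): every subgroup H is (a) cyclic or dihedral with k dividing (q+1)/d or (q−1)/d (cyclic of order k, or dihedral of order 2k), (b) isomorphic to a subgroup of the normaliser of a Sylow p-subgroup, (c) isomorphic to A_4, S_4 or A_5, or (d) isomorphic to PSL_2(K) or PGL_2(K) for a finite field K with |K|^m = q. -/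
theorem result {F : Type*} [Field F] [Fintype F] {q : ℕ} (hF : Fintype.card F = q) (p : ℕ) [Fact p.Prime] [CharP F p] (H : Subgroup (Matrix.ProjectiveSpecialLinearGroup (Fin 2) F)) : (∃ k : ℕ, (k ∣ (q + 1) / Nat.gcd 2 (q - 1) ∨ k ∣ (q - 1) / Nat.gcd 2 (q - 1)) ∧ ((IsCyclic H ∧ Nat.card H = k) ∨ Nonempty (H ≃* DihedralGroup k))) ∨ (∃ (P : Sylow p (Matrix.ProjectiveSpecialLinearGroup (Fin 2) F)) (K : Subgroup (Matrix.ProjectiveSpecialLinearGroup (Fin 2) F)), K ≤ Subgroup.normalizer ((P : Subgroup (Matrix.ProjectiveSpecialLinearGroup (Fin 2) F)) : Set (Matrix.ProjectiveSpecialLinearGroup (Fin 2) F)) ∧ Nonempty (H ≃* K)) ∨ Nonempty (H ≃* alternatingGroup (Fin 4)) ∨ Nonempty (H ≃* Equiv.Perm (Fin 4)) ∨ Nonempty (H ≃* alternatingGroup (Fin 5)) ∨ (∃ (K : Type) (_ : Field K) (_ : Fintype K) (m : ℕ), Fintype.card K ^ m = q ∧ (Nonempty (H ≃* Matrix.ProjectiveSpecialLinearGroup (Fin 2) K) ∨ Nonempty (H ≃* Matrix.ProjGenLinGroup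 (Fin 2) K))) := by
  open Cfsg.Agent.H4 in
  subst hF
  let e := H.equivMapOfInjective _ (Matrix.ProjectiveSpecialLinearGroup.toPGL_injective (n := Fin 2) (R := F))
  set H' := H.map (Matrix.ProjectiveSpecialLinearGroup.toPGL (n := Fin 2) (R := F)) with hH'
  have hL : H' ≤ LL F := range_toPGL (K := F) ▸ Subgroup.map_le_range _ _
  rcases dickson p H' with ⟨x, hx, h⟩ | ⟨x, y, ht, h⟩ | ⟨-, ⟨⟨h⟩⟩ | ⟨⟨h⟩⟩ | ⟨⟨h⟩⟩⟩ | ⟨-, ⟨h⟩⟩ | ⟨K, g, h⟩
  · right; left
    have hU : (dactS F p).U x ≠ ⊥ := by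
      obtain ⟨⟨u, hu⟩, h1⟩ := Subgroup.ne_bot_iff_exists_ne_one.1 (U_rat_ne_bot (p := p) hx)
      obtain ⟨v, rfl⟩ := (range_toPGL (K := F)).symm ▸ U_le_LL x hu
      refine Subgroup.ne_bot_iff_exists_ne_one.2 ⟨⟨v, hu.1, ?_⟩, fun e => h1 (Subtype.ext ?_)⟩
      · apply Matrix.ProjectiveSpecialLinearGroup.toPGL_injective
        rw [map_pow, hu.2, map_one]
      · have : v = 1 := congrArg Subtype.val e
        simp [this]
    obtain ⟨P, hP⟩ := (dactS F p).exists_sylow hU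
    refine ⟨P, H, ?_, ⟨MulEquiv.refl _⟩⟩
    rw [hP, (dactS F p).normalizer_U hU]
    exact fun g hg => h _ (Subgroup.mem_map_of_mem _ hg)
  · left
    have hd : Nat.card (St H' x) ∣ Nat.card ↥(St (LL F) x ⊓ St (LL F) y) :=
      Subgroup.card_dvd_of_le fun g hg => ⟨⟨hL hg.1, hg.2⟩, hL hg.1, fix_of_mem_PS ht.1 (h hg.1) hg.2⟩
    refine ⟨Nat.card (St H' x), ?_, ?_⟩
    · have hpos : 0 < Nat.gcd 2 (Fintype.card F - 1) := Nat.gcd_pos_of_pos_left _ two_pos
      rcases ht.card_torus (p := p) le_rfl with ⟨-, -, e⟩ | ⟨-, -, e⟩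
      · right
        rw [index_LL] at e
        rwa [Nat.div_eq_of_eq_mul_right hpos e.symm]
      · left
        rw [index_LL] at e
        rwa [Nat.div_eq_of_eq_mul_right hpos e.symm]
    · rcases (dact F p).cyc_or_dih ht.1 h with ⟨h1, h2⟩ | ⟨⟨h1⟩⟩
      · exact Or.inl ⟨isCyclic_of_surjective _ e.symm.surjective, by rw [h2, Nat.card_congr e.toEquiv]⟩
      · exact Or.inr ⟨e.trans h1⟩
  · exact Or.inr (Or.inr (Or.inl ⟨e.trans h⟩))
  · exact Or.inr (Or.inr (Or.inr (Or.inl ⟨e.trans h⟩)))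
  · exact Or.inr (Or.inr (Or.inr (Or.inr (Or.inl ⟨e.trans h⟩))))
  · exact Or.inr (Or.inr (Or.inr (Or.inr (Or.inl ⟨e.trans h⟩))))
  · right; right; right; right; right
    obtain ⟨K0, _, _, -, ⟨i⟩⟩ := exists_field0 K
    obtain ⟨m, -, hm⟩ := exists_card_eq_pow (K.subtype.comp i.toRingHom)
    refine ⟨K0, inferInstance, inferInstance, m, hm.symm, ?_⟩
    rcases h.2 with h | ⟨-, h⟩
    · obtain ⟨j⟩ := pgl_congr i
      exact Or.inr ⟨e.trans ((MulEquiv.subgroupCongr h).trans ((cjgEquiv _ _).symm.trans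
        ((pkEquiv _).symm.trans j.symm)))⟩
    · obtain ⟨j⟩ := psl_congr i
      exact Or.inl ⟨e.trans ((MulEquiv.subgroupCongr h).trans ((cjgEquiv _ _).symm.trans
        ((lkEquiv _).symm.trans j.symm)))⟩

end Cfsg.Agent.S0799
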