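import Cfsg.Statements.S0800
import Cfsg.Agent.H4.Dick4

set_option autoImplicit false
open Cfsg

namespace Cfsg.Agent.S0800

/-- Tori of SL_2(q): if g ∈ SL_2(q) has order coprime to the characteristic p, then the order of g divides q − 1 or q + 1. -/
theorem result {F : Type*} [Field F] [Fintype F] {q : ℕ} (hF : Fintype.card F = q) (p : ℕ) [Fact p.Prime] [CharP F p] (g : Matrix.SpecialLinearGroup (Fin 2) F) (hg : Nat.Coprime (orderOf g) p) : orderOf g ∣ q - 1 ∨ orderOf g ∣ q + 1 := by
  open Cfsg.Agent.H4 in
  subst hF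
  have key : ∀ n : ℕ, Matrix.SpecialLinearGroup.toPGL g ^ n = 1 → orderOf g ∣ (LL F).index * n := by
    intro n hn
    rw [← map_pow, toPGL_eq_one_iff] at hn
    apply orderOf_dvd_of_pow_eq_one
    rw [pow_mul']
    rcases hn with e | e
    · rw [e, one_pow]
    · rw [e]
      rcases Nat.even_or_odd (Fintype.card F) with h | h
      · have h2 := even_card_iff.1 h
        have : (-1 : Matrix.SpecialLinearGroup (Fin 2) F) = 1 := by
          rw [neg_one_sm, sm_eq_one]
          exact ⟨by linear_combination -h2, rfl, rfl, by linear_combination -h2⟩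
        rw [this, one_pow]
      · rw [index_LL_odd h]; simp
  rcases orderOf_cases (p := p) le_rfl (show Matrix.SpecialLinearGroup.toPGL g ∈ LL F from ⟨g, rfl⟩) with h | h | h
  · left
    refine (hg.dvd_of_dvd_mul_right (key p h)).trans ?_
    rw [index_LL]; exact Nat.gcd_dvd_right _ _
  · exact Or.inl ((key _ (pow_orderOf_eq_one _)).trans h)
  · exact Or.inr ((key _ (pow_orderOf_eq_one _)).trans h)

end Cfsg.Agent.S0800
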