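import Cfsg.Statements.S0802
import Cfsg.Agent.H4.Dick6

set_option autoImplicit false
open Cfsg

namespace Cfsg.Agent.S0802

/-- PSL_2(p^n) has a subgroup isomorphic to A_4 if and only if it is not the case that p = 2 and n is odd. -/
theorem result {F : Type*} [Field F] [Fintype F] (p n : ℕ) [Fact p.Prime] [CharP F p] (hF : Fintype.card F = p ^ n) : (∃ H : Subgroup (Matrix.ProjectiveSpecialLinearGroup (Fin 2) F), Nonempty (H ≃* alternatingGroup (Fin 4))) ↔ ¬ (p = 2 ∧ Odd n) := by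
  open Cfsg.Agent.H4 in
  rw [exists_psl_iff]
  constructor
  · rintro ⟨H, -, ⟨e⟩⟩ ⟨rfl, k, rfl⟩
    obtain ⟨a, b, h, -, -, hle, -⟩ := exists_KP_of_A4 e
    obtain ⟨x, hx⟩ := (dact F 2).fix a
    have ha : a ∈ (dact F 2).U x := ⟨hx, by rw [sq, h.a2]⟩
    have h1 := (dact F 2).normalizer_le_stab (K := V4 a b)
      (fun e => h.a1 (Subgroup.mem_bot.1 (e ▸ left_mem_V4 a b)))
      (V4_le ha ((dact F 2).mem_U_of_comm h.a1 ha h.comm))
    have h2 := Subgroup.card_dvd_of_le (show H ≤ St ⊤ x from le_inf le_top (hle.trans h1))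
    have h3 := card_St_rat (Γ := ⊤) le_top (rat_of_U ha h.a1)
    rw [Subgroup.index_top, one_mul] at h3
    rw [h3, card_of_A4 e, hF] at h2
    have h4 : 2 ^ (2 * k + 1) % 3 = 2 := by
      rw [pow_succ, pow_mul, Nat.mul_mod, Nat.pow_mod]; simp
    generalize 2 ^ (2 * k + 1) = N at h2 h4
    rcases (Nat.Prime.dvd_mul Nat.prime_three).1 (Dvd.dvd.trans (by norm_num) h2) with h | h <;> omega
  · intro h
    by_cases hp : p = 2
    · subst hp
      obtain ⟨m, hm⟩ : Even n := Nat.not_odd_iff_even.1 fun e => h ⟨rfl, e⟩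
      have h0 : m ≠ 0 := by
        rintro rfl
        have := Fintype.one_lt_card (α := F)
        rw [hF, hm] at this; simp at this
      obtain ⟨H, hH, ⟨e⟩⟩ := exists_A5_LL (F := F) (Dvd.dvd.mul_left (by
        rw [hF, hm, ← pow_mul, show (m + m) * 2 = 4 * m by ring, pow_mul]
        exact Dvd.dvd.trans (by norm_num) (Nat.sub_one_dvd_pow_sub_one (2 ^ 4) m)) _)
      obtain ⟨A, hA, h⟩ := exists_A4_le_A5 e
      exact ⟨A, hA.trans hH, h⟩
    · exact exists_A4_LL (two_ne_zero_of_char hp)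

end Cfsg.Agent.S0802
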