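import Cfsg.Statements.S0803
import Cfsg.Agent.H4.Dick6

set_option autoImplicit false
open Cfsg

namespace Cfsg.Agent.S0803

/-- PSL_2(q) has a subgroup isomorphic to S_4 iff q² ≡ 1 (mod 16). -/
theorem result {F : Type*} [Field F] [Fintype F] {q : ℕ} (hF : Fintype.card F = q) : (∃ H : Subgroup (Matrix.ProjectiveSpecialLinearGroup (Fin 2) F), Nonempty (H ≃* Equiv.Perm (Fin 4))) ↔ q ^ 2 % 16 = 1 := by
  open Cfsg.Agent.H4 in
  subst hF
  rw [exists_psl_iff]
  have h1 : Fintype.card F ^ 2 % 16 = 1 ↔ Fintype.card F % 8 = 1 ∨ Fintype.card F % 8 = 7 := by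
    rw [Nat.pow_mod, ← Nat.mod_mod_of_dvd (Fintype.card F) (by norm_num : 8 ∣ 16)]
    have := Nat.mod_lt (Fintype.card F) (by norm_num : 0 < 16)
    generalize Fintype.card F % 16 = r at this
    interval_cases r <;> simp
  rw [h1]
  exact ⟨fun ⟨H, h, ⟨e⟩⟩ => (S4_le_LL_iff' e).1 h, exists_S4_LL⟩

end Cfsg.Agent.S0803
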