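import Cfsg.Statements.S0805
import Cfsg.Agent.H4.Dick6

set_option autoImplicit false
open Cfsg

namespace Cfsg.Agent.S0805

/-- Subfield subgroups: let F be a finite field of odd order q and K a finite field with |K|^m = q, m ≥ 1. Then PSL_2(F) has a subgroup isomorphic to PSL_2(K), and has a subgroup isomorphic to PGL_2(K) if and only if m is even. -/
theorem result {F K : Type*} [Field F] [Fintype F] [Field K] [Fintype K] {q : ℕ} (hF : Fintype.card F = q) (hodd : Odd q) (m : ℕ) (hm : 1 ≤ m) (hK : Fintype.card K ^ m = q) : (∃ H : Subgroup (Matrix.ProjectiveSpecialLinearGroup (Fin 2) F), Nonempty (H ≃* Matrix.ProjectiveSpecialLinearGroup (Fin 2) K)) ∧ ((∃ H : Subgroup (Matrix.ProjectiveSpecialLinearGroup (Fin 2) F), Nonempty (H ≃* Matrix.ProjGenLinGroup (Fin 2) K)) ↔ Even m) := by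
  open Cfsg.Agent.H4 in
  subst hF
  obtain ⟨f⟩ := exists_ringHom_of_card hK.symm
  have ho : Odd (Fintype.card K) := by
    rw [← hK] at hodd
    exact (Nat.odd_pow_iff (by omega)).1 hodd
  rw [exists_psl_iff, exists_psl_iff]
  refine ⟨⟨_, LK_le_LL f, ⟨(lkEquiv f).symm⟩⟩, ?_, fun h => ⟨_, (PK_le_LL_iff_even f hK.symm ho).2 h, ⟨(pkEquiv f).symm⟩⟩⟩
  rintro ⟨H, hH, ⟨e⟩⟩
  obtain ⟨k, hk⟩ := Subgroup.card_dvd_of_le hH
  have h1 := two_mul_card_LL hodd
  have h2 : 1 < Fintype.card K ^ 2 := Nat.one_lt_pow two_ne_zero Fintype.one_lt_card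
  have h3 := Nat.mul_div_cancel' (Nat.sub_one_dvd_pow_sub_one (Fintype.card K ^ 2) m)
  rw [← Nat.geomSum_eq h2, ← pow_mul, mul_comm 2 m, pow_mul, hK] at h3
  rw [hk, Nat.card_congr e.toEquiv, card_PGL2, ← h3] at h1
  have h4 : 2 * (Fintype.card K * k) = Fintype.card F * ∑ i ∈ Finset.range m, (Fintype.card K ^ 2) ^ i :=
    Nat.eq_of_mul_eq_mul_left (show 0 < Fintype.card K ^ 2 - 1 by omega) (by linarith)
  rw [← sum_geom_parity (ho.pow (n := 2))]
  exact (Nat.even_mul.1 (h4 ▸ even_two_mul _)).resolve_left (Nat.not_even_iff_odd.2 hodd)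

end Cfsg.Agent.S0805
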