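import Cfsg.Statements.S0806
import Cfsg.Agent.H4.Dick9

set_option autoImplicit false
open Cfsg

namespace Cfsg.Agent.S0806

theorem num {q q0 r n i : ℕ} (h2 : 2 < q0) (hr : 2 ≤ r) (hq : q = q0 ^ r) (h9 : q ≠ 9)
    (hn : n ≤ q0 * (q0 ^ 2 - 1)) (h : q * (q ^ 2 - 1) ≤ 2 * (n * i)) : q + 1 ≤ i := by
  by_contra hc
  have h1 : q0 ^ 2 ≤ q := hq ▸ Nat.pow_le_pow_right (by omega) hr
  have h3 : n * i ≤ q0 * (q0 ^ 2 - 1) * q := by gcongr; omega
  have h4 : q0 ^ 2 - 1 ≤ q - 1 := by omega
  have h5 : q0 * (q0 ^ 2 - 1) * q ≤ q0 * (q - 1) * q := by gcongr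
  rw [Cfsg.Agent.H4.sq_sub_one_eq] at h
  have h6 : 9 ≤ q := by nlinarith
  have h7 : (q + 1) * (q * (q - 1)) ≤ 2 * q0 * (q * (q - 1)) := by nlinarith
  have h8 := Nat.le_of_mul_le_mul_right h7 (Nat.mul_pos (by omega) (by omega))
  nlinarith

/-- Minimal index (Galois): if q ∉ {2, 3, 5, 7, 9, 11} then every proper subgroup of PSL_2(q) has index ≥ q + 1, and some subgroup has index exactly q + 1. -/
theorem result {F : Type*} [Field F] [Fintype F] {q : ℕ} (hF : Fintype.card F = q) (hq : q ∉ ({2, 3, 5, 7, 9, 11} : Finset ℕ)) : (∀ H : Subgroup (Matrix.ProjectiveSpecialLinearGroup (Fin 2) F), H ≠ ⊤ → q + 1 ≤ H.index) ∧ ∃ H : Subgroup (Matrix.ProjectiveSpecialLinearGroup (Fin 2) F), H.index = q + 1 := by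
  open Cfsg.Agent.H4 in
  subst hF
  simp only [Finset.mem_insert, Finset.mem_singleton, not_or] at hq
  obtain ⟨p, _, _⟩ := exists_char F
  have h0 := Fintype.one_lt_card (α := F)
  have h1 := pgl_index_mul_card (LL F)
  have hi := index_le_two (le_refl (LL F))
  have hp : 0 < Fintype.card F * (Fintype.card F - 1) := Nat.mul_pos (by omega) (by omega)
  have key : ∀ (H : Subgroup (Matrix.ProjectiveSpecialLinearGroup (Fin 2) F)) (x : Pt F), Rat x →
      im H = St (LL F) x → H.index = Fintype.card F + 1 := by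
    intro H x hx h
    refine Nat.eq_of_mul_eq_mul_right hp ?_
    rw [← h1, ← card_St_rat le_rfl hx, ← h, card_im, ← card_PSL_eq, ← H.index_mul_card]; ring
  constructor
  · intro H hH
    obtain ⟨M, hM, hle⟩ := (eq_top_or_exists_le_coatom H).resolve_left hH
    refine le_trans ?_ (Nat.le_of_dvd (Nat.pos_of_ne_zero Subgroup.index_ne_zero_of_finite)
      (Subgroup.index_dvd_of_le hle))
    have hM' := (isCoatom_iff_im M).1 hM
    have h3 := M.card_mul_index
    rw [card_PSL_eq, ← card_im] at h3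
    rw [← h3] at h1
    rcases covBy_cases p le_rfl (by omega) hM' hM'.lt.not_ge with ⟨x, hx, h⟩ | ⟨x, y, ht, h⟩ | h |
      ⟨K, _, _, f, r, g, hr, hq', hK, h⟩
    · exact (key M x hx h).ge
    · rw [h, ht.card_normalizer (p := p) le_rfl, mul_assoc 2, mul_left_comm, ← mul_assoc _ _ M.index] at h1
      by_cases hx : Rat x
      · rw [ht.card_rat le_rfl hx] at h1
        have : 2 * M.index = (Fintype.card F + 1) * Fintype.card F :=
          Nat.eq_of_mul_eq_mul_left (show 0 < Fintype.card F - 1 by omega) (by linarith)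
        nlinarith
      · rw [ht.card_qd le_rfl hx] at h1
        have : 2 * M.index = Fintype.card F * (Fintype.card F - 1) :=
          Nat.eq_of_mul_eq_mul_left (show 0 < Fintype.card F + 1 by omega) (by linarith)
        obtain ⟨k, hk⟩ : ∃ k, Fintype.card F = k + 4 := ⟨Fintype.card F - 4, by omega⟩
        rw [hk] at this ⊢
        rw [show k + 4 - 1 = k + 3 from rfl] at this
        nlinarith
    · have h4 : Odd (Fintype.card F) := odd_card_iff.2 (two_ne_zero_of_char h.ne_two)
      have h5 := Nat.odd_iff.1 h4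
      have h6 := h.card
      obtain ⟨k, hk⟩ : ∃ k, Fintype.card F = k + 13 := ⟨Fintype.card F - 13, by omega⟩
      rw [index_LL_odd h4, hk, show k + 13 - 1 = k + 12 from rfl] at h1
      rw [hk]
      by_contra hc
      have h7 : Nat.card (im M) * M.index ≤ 60 * (k + 13) := by gcongr <;> omega
      have h8 : (k + 13) * ((k + 14) * (k + 12)) ≤ (k + 13) * 120 := by linarith
      have := Nat.le_of_mul_le_mul_left h8 (by omega)
      nlinarith
    · refine num hK hr.two_le hq' hq.2.2.2.2.1 (n := Nat.card (im M)) ?_ ?_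
      · rw [h, card_cjg, ← card_PK f]; exact Subgroup.card_le_of_le inf_le_right
      · rw [sq_sub_one_eq, mul_left_comm, ← h1]
        gcongr; omega
  · obtain ⟨H, hH⟩ := exists_im (St_le (LL F) (pt OnePoint.infty : Pt F))
    exact ⟨H, key H _ (rat_pt _) hH⟩

end Cfsg.Agent.S0806
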