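import Cfsg.Statements.S0807
import Cfsg.Agent.H4.Dick9

set_option autoImplicit false
open Cfsg

namespace Cfsg.Agent.S0807

/-- For q odd, twelve times the number of Klein four-subgroups of PSL_2(q) equals the order of PSL_2(q). -/
theorem result {F : Type*} [Field F] [Fintype F] {q : ℕ} (hF : Fintype.card F = q) (hodd : Odd q) : 12 * Nat.card {V : Subgroup (Matrix.ProjectiveSpecialLinearGroup (Fin 2) F) // IsKleinFour V} = Nat.card (Matrix.ProjectiveSpecialLinearGroup (Fin 2) F) := by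
  open Cfsg.Agent.H4 Pointwise in
  subst hF
  have h2 : (2 : F) ≠ 0 := odd_card_iff.1 hodd
  obtain ⟨a, b, hk, ha, hb⟩ := exists_KP_LL h2
  let G := Matrix.ProjGenLinGroup (Fin 2) F
  have e1 : {V : Subgroup (Matrix.ProjectiveSpecialLinearGroup (Fin 2) F) // IsKleinFour V} ≃
      MulAction.orbit (ConjAct G) (V4 a b) := by
    refine Equiv.ofBijective (fun V => ⟨im V.1, ?_⟩) ⟨fun V W h => Subtype.ext (im_inj.1 (congrArg Subtype.val h)), ?_⟩
    · obtain ⟨u, v, h, e⟩ := exists_KP (isKleinFour_congr (imEquiv V.1) V.2)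
      obtain ⟨g, rfl, rfl⟩ := hk.exists_conj h2 ha hb h (im_le _ (e.ge (left_mem_V4 _ _)))
        (im_le _ (e.ge (right_mem_V4 _ _)))
      exact ⟨ConjAct.toConjAct g, by rw [e, ← cjg_V4]; rfl⟩
    · rintro ⟨_, g, rfl⟩
      obtain ⟨V, hV⟩ := exists_im (cjg_le_of le_rfl (V4_le ha hb) (ConjAct.ofConjAct g))
      exact ⟨⟨V, isKleinFour_congr ((cjgEquiv _ _).trans ((MulEquiv.subgroupCongr hV.symm).trans (imEquiv V).symm))
        hk.isKleinFour⟩, Subtype.ext hV⟩
  have h3 := Nat.card_congr (MulAction.orbitProdStabilizerEquivGroup (ConjAct G) (V4 a b))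
  have h4 : Nat.card (MulAction.stabilizer (ConjAct G) (V4 a b)) = 24 := by
    rw [← hk.card_normalizer h2 ha hb]
    exact Nat.card_congr (Equiv.subtypeEquiv ConjAct.ofConjAct.toEquiv fun g => mem_normalizer_iff_cjg.symm)
  rw [Nat.card_prod, h4] at h3
  have h5 := two_mul_card_LL hodd
  rw [← card_PGL2] at h5
  change _ = Nat.card G at h3 h5
  rw [Nat.card_congr e1, card_PSL_eq]
  omega

end Cfsg.Agent.S0807
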