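import Cfsg.Statements.S0808
import Cfsg.Agent.H4.Dick9

set_option autoImplicit false
open Cfsg

namespace Cfsg.Agent.S0808

/-- Conjugacy classes of four-groups in PSL_2(q), q odd: if q ≡ 3 or 5 (mod 8) all Klein four-subgroups are conjugate; if q ≡ 1 or 7 (mod 8) there are two Klein four-subgroups which are not conjugate, and every Klein four-subgroup is conjugate to one of them. -/
theorem result {F : Type*} [Field F] [Fintype F] {q : ℕ} (hF : Fintype.card F = q) (hodd : Odd q) : ((q % 8 = 3 ∨ q % 8 = 5) → ∀ V W : Subgroup (Matrix.ProjectiveSpecialLinearGroup (Fin 2) F), IsKleinFour V → IsKleinFour W → ∃ g : Matrix.ProjectiveSpecialLinearGroup (Fin 2) F, W = V.map (MulAut.conj g).toMonoidHom) ∧ ((q % 8 = 1 ∨ q % 8 = 7) → ∃ V₁ V₂ : Subgroup (Matrix.ProjectiveSpecialLinearGroup (Fin 2) F), IsKleinFour V₁ ∧ IsKleinFour V₂ ∧ (¬ ∃ g : Matrix.ProjectiveSpecialLinearGroup (Fin 2) F, V₂ = V₁.map (MulAut.conj g).toMonoidHom) ∧ ∀ W :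 Subgroup (Matrix.ProjectiveSpecialLinearGroup (Fin 2) F), IsKleinFour W → (∃ g : Matrix.ProjectiveSpecialLinearGroup (Fin 2) F, W = V₁.map (MulAut.conj g).toMonoidHom) ∨ (∃ g : Matrix.ProjectiveSpecialLinearGroup (Fin 2) F, W = V₂.map (MulAut.conj g).toMonoidHom)) := by
  open Cfsg.Agent.H4 in
  subst hF
  have h2 : (2 : F) ≠ 0 := odd_card_iff.1 hodd
  have key : ∀ V W : Subgroup (Matrix.ProjectiveSpecialLinearGroup (Fin 2) F), IsKleinFour V → IsKleinFour W →
      ∃ g, im W = cjg g (im V) := by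
    intro V W hV hW
    obtain ⟨a, b, h, e⟩ := exists_KP (isKleinFour_congr (imEquiv V) hV)
    obtain ⟨u, v, h', e'⟩ := exists_KP (isKleinFour_congr (imEquiv W) hW)
    obtain ⟨g, rfl, rfl⟩ := h.exists_conj h2 (im_le _ (e.ge (left_mem_V4 _ _))) (im_le _ (e.ge (right_mem_V4 _ _)))
      h' (im_le _ (e'.ge (left_mem_V4 _ _))) (im_le _ (e'.ge (right_mem_V4 _ _)))
    exact ⟨g, by rw [e', e, cjg_V4]⟩
  have key2 : ∀ (V W : Subgroup (Matrix.ProjectiveSpecialLinearGroup (Fin 2) F)) g, g ∈ LL F →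
      im W = cjg g (im V) → ∃ g : Matrix.ProjectiveSpecialLinearGroup (Fin 2) F,
        W = V.map (MulAut.conj g).toMonoidHom := by
    intro V W g hg h
    obtain ⟨g, rfl⟩ := exists_psl hg
    exact ⟨g, im_inj.1 (h.trans (im_cjg g V).symm)⟩
  have key3 : ∀ V : Subgroup (Matrix.ProjectiveSpecialLinearGroup (Fin 2) F), IsKleinFour V →
      (Subgroup.normalizer (im V : Set (Matrix.ProjGenLinGroup (Fin 2) F)) ≤ LL F ↔
        (Fintype.card F % 8 = 1 ∨ Fintype.card F % 8 = 7)) := by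
    intro V hV
    obtain ⟨a, b, h, e⟩ := exists_KP (isKleinFour_congr (imEquiv V) hV)
    obtain ⟨i⟩ := h.normalizer_equiv h2 (im_le _ (e.ge (left_mem_V4 _ _))) (im_le _ (e.ge (right_mem_V4 _ _)))
    rw [e, S4_le_LL_iff' i]
  have hi : ∀ {a b}, a * b ∈ LL F ↔ (a ∈ LL F ↔ b ∈ LL F) := Subgroup.mul_mem_iff_of_index_two (index_LL_odd hodd)
  constructor
  · intro h V W hV hW
    obtain ⟨g, hg⟩ := key V W hV hW
    by_cases h1 : g ∈ LL F
    · exact key2 V W g h1 hg
    · obtain ⟨n, hn, hn'⟩ := SetLike.not_le_iff_exists.1 ((key3 V hV).not.2 (by omega))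
      exact key2 V W (g * n) (hi.2 (iff_of_false h1 hn')) (by rw [← cjg_cjg, mem_normalizer_iff_cjg.1 hn, hg])
  · intro h
    obtain ⟨a, b, hk, ha, hb⟩ := exists_KP_LL h2
    obtain ⟨V, hV⟩ := exists_im (V4_le ha hb)
    have hV' : IsKleinFour V := isKleinFour_congr (imEquiv V).symm (hV ▸ hk.isKleinFour)
    obtain ⟨t, ht⟩ : ∃ t, t ∉ LL F := by
      by_contra hc
      push Not at hc
      have := index_LL_odd hodd
      rw [(Subgroup.eq_top_iff' _).2 hc, Subgroup.index_top] at this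
      omega
    obtain ⟨W, hW⟩ := exists_im (cjg_le_of le_rfl (im_le V) t)
    refine ⟨V, W, hV', isKleinFour_congr ((imEquiv V).trans ((cjgEquiv _ _).trans
      ((MulEquiv.subgroupCongr hW.symm).trans (imEquiv W).symm))) hV', ?_, fun X hX => ?_⟩
    · rintro ⟨g, rfl⟩
      have h3 := (im_cjg g V).symm.trans hW
      rw [← cjg_inj (g := t⁻¹), cjg_inv_cjg, cjg_cjg, ← mem_normalizer_iff_cjg] at h3
      exact ht (inv_mem_iff.1 ((hi.1 ((key3 V hV').2 h h3)).2 (psl_mem_LL g)))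
    · obtain ⟨g, hg⟩ := key V X hV' hX
      by_cases h1 : g ∈ LL F
      · exact Or.inl (key2 V X g h1 hg)
      · exact Or.inr (key2 W X (g * t⁻¹) (hi.2 (iff_of_false h1 (inv_mem_iff.not.2 ht)))
          (by rw [hW, cjg_cjg, inv_mul_cancel_right, hg]))

end Cfsg.Agent.S0808
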