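import Cfsg.Statements.S0809
import Cfsg.Agent.H4.Dick9

set_option autoImplicit false
open Cfsg

namespace Cfsg.Agent.S0809

/-- In SL_2(q), q odd: any two subgroups of order 4 are conjugate, and the normaliser of a subgroup of order 4 has order 2(q − 1) if q ≡ 1 (mod 4) and 2(q + 1) if q ≡ 3 (mod 4); consequently all involutions of PSL_2(q) are conjugate. -/
theorem result {F : Type*} [Field F] [Fintype F] {q : ℕ} (hF : Fintype.card F = q) (hodd : Odd q) (A : Subgroup (Matrix.SpecialLinearGroup (Fin 2) F)) (hA : Nat.card A = 4) : (∀ B : Subgroup (Matrix.SpecialLinearGroup (Fin 2) F), Nat.card B = 4 → ∃ g : Matrix.SpecialLinearGroup (Fin 2) F, B = A.map (MulAut.conj g).toMonoidHom) ∧ (q % 4 = 1 → Nat.card ↥(Subgroup.normalizer (A : Set (Matrix.SpecialLinearGroup (Fin 2) F))) = 2 * (q - 1)) ∧ (q % 4 = 3 → Nat.card ↥(Subgroup.normalizer (A : Set (Matrix.SpecialLinearGroup (Fin 2) F))) = 2 * (q + 1)) ∧ (∀ x y : Matrix.ProjectiveSpecialLinearGroup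 (Fin 2) F, orderOf x = 2 → orderOf y = 2 → IsConj x y) := by
  open Cfsg.Agent.H4 in
  subst hF
  have h2 : (2 : F) ≠ 0 := odd_card_iff.1 hodd
  have h4 : (0 : F) ^ 2 ≠ 4 := fun e => mul_ne_zero h2 h2 (by linear_combination -e)
  have key : ∀ B : Subgroup (Matrix.SpecialLinearGroup (Fin 2) F), Nat.card B = 4 →
      ∃ b, tr b = 0 ∧ B = Subgroup.zpowers b := by
    intro B hB
    have hc : IsCyclic B := by
      by_contra hc
      obtain ⟨a, b, hk, -⟩ := exists_KP (isKleinFour_of_card hB hc)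
      exact hk.ab ((((sq_eq_one_iff_SL h2).1 (by rw [sq, hk.a2])).resolve_left hk.a1).trans
        (((sq_eq_one_iff_SL h2).1 (by rw [sq, hk.b2])).resolve_left hk.b1).symm)
    obtain ⟨b, rfl⟩ := (Subgroup.isCyclic_iff_exists_zpowers_eq_top _).1 hc
    rw [Nat.card_zpowers] at hB
    exact ⟨b, (sq_eq_neg_one_iff h2).1 (eq_neg_one_of_orderOf h2 (by rw [orderOf_pow, hB]; rfl)), rfl⟩
  obtain ⟨a, ha, rfl⟩ := key A hA
  obtain ⟨x, y, ht, hT⟩ := exists_TS_of_tr (g := a) (by rwa [ha])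
  have h1 := ht.normalizer_eq (Subgroup.zpowers_le.2 hT) (Subgroup.mem_zpowers a)
    (toPGL_ne_one_of_tr (by rwa [ha]))
  have h3 := Subgroup.card_dvd_of_le (Subgroup.zpowers_le.2 hT)
  have h0 := Fintype.card_pos (α := F)
  rw [hA] at h3
  refine ⟨fun B hB => ?_, fun h => ?_, fun h => ?_, fun u v hu hv => ?_⟩
  · obtain ⟨b, hb, rfl⟩ := key B hB
    obtain ⟨g, rfl⟩ := isConj_iff.1 (isConj_of_tr (x := a) (y := b) (by rwa [ha]) (ha.trans hb.symm))
    exact ⟨g, by rw [MonoidHom.map_zpowers]; rfl⟩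
  · rw [h1, ht.card_NS, ht.card_TS_rat (by_contra fun hx => by rw [ht.card_TS_qd hx] at h3; omega)]
  · rw [h1, ht.card_NS, ht.card_TS_qd (fun hx => by rw [ht.card_TS_rat hx] at h3; omega)]
  · have key2 : ∀ u : Matrix.SpecialLinearGroup (Fin 2) F,
        orderOf (u : Matrix.ProjectiveSpecialLinearGroup (Fin 2) F) = 2 → tr u = 0 := fun u hu => by
      rw [← orderOf_psl] at hu
      have := (pow_two_eq_one_iff (g := Matrix.SpecialLinearGroup.toPGL u) (fun e => by
        rw [show Matrix.ProjectiveSpecialLinearGroup.toPGL (u : Matrix.ProjectiveSpecialLinearGroup (Fin 2) F) = 1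
          from e, orderOf_one] at hu; omega)).1 (orderOf_dvd_iff_pow_eq_one.1 hu.dvd)
      rwa [tau_toPGL', pow_eq_zero_iff two_ne_zero] at this
    obtain ⟨u, rfl⟩ := QuotientGroup.mk_surjective u
    obtain ⟨v, rfl⟩ := QuotientGroup.mk_surjective v
    exact (QuotientGroup.mk' _).map_isConj (isConj_of_tr (by rwa [key2 u hu]) ((key2 u hu).trans (key2 v hv).symm))

end Cfsg.Agent.S0809
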