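import Cfsg.Statements.S0810
import Mathlib
import Cfsg.Agent.H7.Solv2

set_option autoImplicit false
open Cfsg

namespace Cfsg.Agent.S0810

open Cfsg.Agent.H4 Cfsg.Agent.H7 Subgroup Matrix
open scoped MatrixGroups

/-- PSL_2(q) is minimal simple iff q is 2^r (r prime), 3^r (r an odd prime), a prime greater than 5 congruent to 2 or 3 mod 5, or 5. -/
theorem result {F : Type*} [Field F] [Fintype F] {q : ℕ} (hF : Fintype.card F = q) : Cfsg.IsMinimalSimple (Matrix.ProjectiveSpecialLinearGroup (Fin 2) F) ↔ ((∃ r : ℕ, r.Prime ∧ q = 2 ^ r) ∨ (∃ r : ℕ, r.Prime ∧ r ≠ 2 ∧ q = 3 ^ r) ∨ (q.Prime ∧ 5 < q ∧ (q % 5 = 2 ∨ q % 5 = 3)) ∨ q = 5) := by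
  subst hF
  change _ ↔ MinQ _
  constructor
  · rintro ⟨hs, hc, h⟩
    have hns : ¬ Group.IsSolvable PSL(2, F) := fun h' =>
      hc ⟨⟨IsSimpleGroup.comm_iff_isSolvable.2 h'⟩⟩
    have h' : ∀ H ≤ LL F, H ≠ LL F → Group.IsSolvable H := fun H hH hne => by
      obtain ⟨H, rfl⟩ := exists_im hH
      exact solv_congr (imEquiv H) (h H fun e => hne (by rw [e, im_top]))
    have h4 : 4 ≤ Fintype.card F := by
      by_contra h4
      have h1 : 1 < Fintype.card F := Fintype.one_lt_card
      have h2 := card_PSL_two (F := F)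
      apply hns
      rcases (by omega : Fintype.card F = 2 ∨ Fintype.card F = 3) with e | e <;> rw [e] at h2 <;>
        norm_num at h2
      · exact solv_of_dvd (by rw [h2]; norm_num)
      · exact solv_of_dvd (by rw [show Nat.card PSL(2, F) = 12 by omega]; norm_num)
    have hA5 : 5 < Fintype.card F → ¬ 5 ∣ Fintype.card F * (Fintype.card F ^ 2 - 1) := fun h5 hd => by
      obtain ⟨H, hH, ⟨e⟩⟩ := exists_A5_LL hd
      refine not_solv_A5 (solv_congr e (h' H hH fun e' => ?_))
      have := sixty_lt_card_LL h5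
      rw [← e', card_of_A5 e] at this
      omega
    obtain ⟨p, hp, _⟩ := exists_char F
    obtain ⟨⟨f, hf0⟩, -, hf⟩ := FiniteField.card F p
    simp only [PNat.mk_coe] at hf
    by_cases hf1 : f = 1
    · subst hf1
      rw [pow_one] at hf
      have hq : (Fintype.card F).Prime := hf ▸ hp.out
      right; right
      by_cases h5 : Fintype.card F = 5
      · exact Or.inr h5
      · have h6 : 5 < Fintype.card F := by
          by_contra h6
          rw [show Fintype.card F = 4 by omega] at hq
          norm_num at hq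
        refine Or.inl ⟨hq, h6, ?_⟩
        have h7 := hA5 h6
        generalize Fintype.card F = q at *
        by_contra h8
        apply h7
        rcases (by omega : q % 5 = 0 ∨ q % 5 = 1 ∨ q % 5 = 4) with e | e | e
        · exact Dvd.dvd.mul_right (Nat.dvd_of_mod_eq_zero e) _
        · have : q ^ 2 % 5 = 1 := by simp [pow_two, Nat.mul_mod, e]
          exact Dvd.dvd.mul_left (by omega) _
        · have : q ^ 2 % 5 = 1 := by simp [pow_two, Nat.mul_mod, e]
          exact Dvd.dvd.mul_left (by omega) _
    · obtain ⟨r, hr, m, rfl⟩ := Nat.exists_prime_and_dvd hf1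
      have hm : m ≠ 0 := by rintro rfl; simp at hf0
      obtain ⟨K, _, _, hK, ⟨φ⟩⟩ := exists_subfield_of_pow (K := ZMod p) (F := F) (m := m) (r := r)
        (by rw [ZMod.card, hf, mul_comm]) hm
      rw [ZMod.card] at hK
      have hp2 := hp.out.two_le
      have h3 : Fintype.card K ≤ 3 := by
        by_contra h3
        refine not_solv_psl (F := K) (by omega) (solv_congr (lkEquiv φ).symm (h' _ (LK_le_LL φ) fun e => ?_))
        have hsurj := surj_of_le_PK (f := φ) (g := 1) (by rw [cjg_one, ← e]; exact LK_le_PK φ)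
        have h5 := Fintype.card_le_of_surjective _ hsurj
        rw [hf, hK, Nat.pow_le_pow_iff_right hp.out.one_lt] at h5
        have := hr.two_le
        have : 2 * m ≤ r * m := Nat.mul_le_mul_right _ this
        omega
      rw [hK] at h3
      have hm1 : m = 1 := by
        by_contra hm1
        have : 2 ^ 2 ≤ p ^ m := (Nat.pow_le_pow_left hp2 2).trans (Nat.pow_le_pow_right (by omega) (by omega))
        omega
      subst hm1
      rw [mul_one] at hf
      rw [pow_one] at h3
      rcases (by omega : p = 2 ∨ p = 3) with rfl | rfl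
      · exact Or.inl ⟨r, hr, hf⟩
      · refine Or.inr (Or.inl ⟨r, hr, ?_, hf⟩)
        rintro rfl
        exact hA5 (by omega) (by rw [hf]; norm_num)
  · intro h
    refine ⟨PSL_simple 2 le_rfl fun _ => h.four_le, fun hc => psl_not_comm hc.is_comm.comm, fun H hH => ?_⟩
    refine solv_congr (imEquiv H).symm (h.solv fun hL => hH ?_)
    rw [← im_inj, im_top]
    exact le_antisymm (im_le H) hL

end Cfsg.Agent.S0810
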