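import Cfsg.Statements.S0812
import Cfsg.Agent.H4.Dick7

set_option autoImplicit false
open Cfsg

namespace Cfsg.Agent.S0812

/-- For q ∉ {2, 3, 5, 7, 9, 11}, PSL_2(q) has a maximal subgroup isomorphic to the dihedral group of order 2(q − 1)/d, d = gcd(2, q − 1). -/
theorem result {F : Type*} [Field F] [Fintype F] {q : ℕ} (hF : Fintype.card F = q) (hq : q ∉ ({2, 3, 5, 7, 9, 11} : Finset ℕ)) : ∃ H : Subgroup (Matrix.ProjectiveSpecialLinearGroup (Fin 2) F), IsCoatom H ∧ Nonempty (H ≃* DihedralGroup ((q - 1) / Nat.gcd 2 (q - 1))) := by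
  open Cfsg.Agent.H4 in
  subst hF
  simp only [Finset.mem_insert, Finset.mem_singleton, not_or] at hq
  obtain ⟨p, _, _⟩ := exists_char F
  obtain ⟨x, y, h, hx⟩ := exists_tp_rat (F := F)
  have h0 := Fintype.one_lt_card (α := F)
  have h1 := h.card_rat (le_refl (LL F)) hx
  obtain ⟨e⟩ := h.equiv_dihedral (p := p) (le_refl (LL F))
  rw [index_LL] at h1
  rw [Nat.div_eq_of_eq_mul_right (Nat.gcd_pos_of_pos_left _ two_pos) h1.symm]
  refine exists_psl_max ?_ e
  rcases Nat.even_or_odd (Fintype.card F) with he | ho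
  · exact h.covBy_even he (by omega)
  rw [gcd_two_odd ho] at h1
  exact h.covBy_six le_rfl (by omega) (by omega)

end Cfsg.Agent.S0812
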