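import Cfsg.Statements.S1058
import Cfsg.Agent.H5.Rp4
import Cfsg.Agent.S0247
import Cfsg.Agent.S1060

set_option autoImplicit false
open Cfsg

namespace Cfsg.Agent.S1058

/-- B₂(2) ≅ S₆. -/
theorem result {F : Type*} [Field F] [Fintype F] (hF : Fintype.card F = 2) :
    Nonempty (↥(Cfsg.Lie.chevB2.group F) ≃* Equiv.Perm (Fin 6)) := by
  obtain ⟨e⟩ := S0247.result hF
  obtain ⟨φ, hφ⟩ := H5.surj_psp (F := F)
  have h1 := S1060.result hF
  norm_num at h1
  have h2 : Subgroup.center (Equiv.Perm (Fin 6)) = ⊥ := by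
    rw [eq_bot_iff]
    intro g hg
    rw [Subgroup.mem_bot]
    ext1 a
    by_contra hne
    rw [Equiv.Perm.one_apply] at hne
    obtain ⟨c, hc1, hc2⟩ : ∃ c, c ≠ a ∧ c ≠ g a := (by decide : ∀ a b : Fin 6, ∃ c, c ≠ a ∧ c ≠ b) a (g a)
    have := congrArg (· a) (Subgroup.mem_center_iff.1 hg (Equiv.swap (g a) c))
    simp only [Equiv.Perm.mul_apply, Equiv.swap_apply_left] at this
    rw [Equiv.swap_apply_of_ne_of_ne (Ne.symm hne) hc1.symm] at this
    exact hc2 this
  let e' : PSp 2 F ≃* Equiv.Perm (Fin 6) := (H4.quotCenterEquiv e).trans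
    ((QuotientGroup.quotientMulEquivOfEq h2).trans QuotientGroup.quotientBot)
  have h3 : Function.Surjective (e'.toMonoidHom.comp φ) := e'.surjective.comp hφ
  haveI : Finite ↥(Cfsg.Lie.chevB2.group F) := Nat.finite_of_card_ne_zero (by rw [h1]; norm_num)
  exact ⟨MulEquiv.ofBijective _ (h3.bijective_of_nat_card_le (by rw [h1, Nat.card_perm]; simp [Nat.factorial]))⟩

end Cfsg.Agent.S1058
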