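import Cfsg.Statements.S2600
import Cfsg.Agent.H5.OutB
import Cfsg.Agent.H5.Rp4
import Cfsg.Agent.S1058
import Cfsg.Agent.S0247

set_option autoImplicit false
open Cfsg

namespace Cfsg.Agent.S2600

/-- Outer automorphism group of PSp_4(q) for q = 2^f even: it is cyclic of order 2f, generated by the class of the exceptional (graph-field) automorphism whose square is the Frobenius field automorphism. -/
theorem result {F : Type*} [Field F] [Fintype F] {f : ℕ} (hf : 1 ≤ f) (hF : Fintype.card F = 2 ^ f) : IsCyclic (Cfsg.Out (Cfsg.PSp 2 F)) ∧ Nat.card (Cfsg.Out (Cfsg.PSp 2 F)) = 2 * f := by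
  obtain ⟨e⟩ : Nonempty (↥(Cfsg.Lie.chevB2.group F) ≃* Cfsg.PSp 2 F) := by
    by_cases h : ∃ a : F, a ≠ 0 ∧ a ≠ 1
    · exact H5.pspB2 h
    classical
    push Not at h
    have : (Finset.univ : Finset F) ⊆ {0, 1} := fun s _ => by
      by_cases h' : s = 0 <;> simp [h', h s]
    have h1 := (Finset.card_le_card this).trans Finset.card_le_two
    rw [Finset.card_univ] at h1
    have h2 : Fintype.card F = 2 := le_antisymm h1 Fintype.one_lt_card
    obtain ⟨φ, hφ⟩ := H5.surj_psp (F := F)
    obtain ⟨e⟩ := S1058.result h2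
    obtain ⟨e'⟩ := S0247.result h2
    have h3 : Subgroup.center (Equiv.Perm (Fin 6)) = ⊥ := by
      rw [eq_bot_iff]
      intro g hg
      rw [Subgroup.mem_bot]
      ext1 a
      by_contra hne
      rw [Equiv.Perm.one_apply] at hne
      obtain ⟨c, hc1, hc2⟩ : ∃ c, c ≠ a ∧ c ≠ g a := (by decide : ∀ a b : Fin 6, ∃ c, c ≠ a ∧ c ≠ b) a (g a)
      have := congrArg (· a) (Subgroup.mem_center_iff.1 hg (Equiv.swap (g a) c))
      simp only [Equiv.Perm.mul_apply, Equiv.swap_apply_left] at this
      rw [Equiv.swap_apply_of_ne_of_ne (Ne.symm hne) hc1.symm] at this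
      exact hc2 this
    exact ⟨e.trans ((H4.quotCenterEquiv e').trans
      ((QuotientGroup.quotientMulEquivOfEq h3).trans QuotientGroup.quotientBot)).symm⟩
  obtain ⟨h1, h2⟩ := H5.outB2 hf hF
  exact ⟨isCyclic_of_surjective (H5.outCongr e) (H5.outCongr e).surjective, by rw [← h2, Nat.card_congr (H5.outCongr e).toEquiv]⟩

end Cfsg.Agent.S2600
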