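import Cfsg.Statements.S0814
import Cfsg.Agent.H4.Lang5
import Cfsg.Agent.S2600

set_option autoImplicit false
open Cfsg

namespace Cfsg.Agent.S0814

/-- |Aut(PSp_2m(q))| = gcd(2, q−1) · f · |PSp_2m(q)| for q = p^f, m ≥ 2, (m, q) ≠ (2, 2), with an extra factor 2 exactly when m = 2 and p = 2. -/
theorem result {F : Type*} [Field F] [Fintype F] (p f : ℕ) [Fact p.Prime] (hf : 1 ≤ f) (hF : Fintype.card F = p ^ f) (m : ℕ) (hm : 2 ≤ m) (h22 : m = 2 → 3 ≤ p ^ f) : Nat.card (MulAut (Cfsg.PSp m F)) = (if m = 2 ∧ p = 2 then 2 else 1) * Nat.gcd 2 (p ^ f - 1) * f * Nat.card (Cfsg.PSp m F) := by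
  open Cfsg.Agent.H4 Module Gam in
  refine (card_aut_eq ((spF_good2 hm).conj_injective (spC hm))).trans (congrArg₂ _ ?_ rfl)
  have hg2 : p = 2 → Nat.gcd 2 (p ^ f - 1) = 1 := by
    rintro rfl
    obtain ⟨k, rfl⟩ : ∃ k, f = k + 1 := ⟨f - 1, by omega⟩
    have := Nat.one_le_two_pow (n := k)
    exact (Nat.coprime_two_left.2 ⟨2 ^ k - 1, by omega⟩)
  have hp : p ≠ 2 → (2 : F) ≠ 0 := fun hp =>
    two_ne_zero_of_odd (hF ▸ ((Fact.out : p.Prime).odd_of_ne_two hp).pow)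
  split_ifs with h
  · obtain ⟨rfl, rfl⟩ := h
    rw [hg2 rfl, mul_one]
    exact (S2600.result hf hF).2
  have : Nonempty (Fin m) := ⟨⟨0, by omega⟩⟩
  have hn := spF_nondeg (F := F) m
  obtain ⟨r, h1, h2⟩ := (spM F hm).exists_rho (spM_surj hm fun h2 => hp fun h3 => h ⟨h2, h3⟩)
  rw [card_eq_card_ker_mul_of_surjective r ((spM F hm).rho_surj (fld_mem_spF m) h1), h2, card_ringAut hF, one_mul, mul_comm]
  congr 1
  by_cases h3 : p = 2
  · rw [hg2 h3, Subgroup.card_eq_one, MonoidHom.range_eq_bot_iff]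
    subst h3
    have h2 : (2 : F) = 0 := by
      have := FiniteField.cast_card_eq_zero F
      rw [hF] at this
      exact pow_eq_zero_iff (n := f) (by omega) |>.1 (by exact_mod_cast this)
    exact MonoidHom.ext fun g => (spκ_eq_one hm).2 (sqc_eq_one.2 (isSquare_of_two_eq_zero h2 _))
  · obtain ⟨e⟩ := equiv_of_range _ (sqc.comp hn.muH) ((sqc_surj (hp h3)).comp fun c =>
      let ⟨g, h1, h2⟩ := symp_exists_mu hn c; ⟨⟨g, h1⟩, h2⟩) (fun g => spκ_eq_one hm) rfl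
    have hodd : Odd (p ^ f) := ((Fact.out : p.Prime).odd_of_ne_two h3).pow
    rw [Nat.gcd_eq_left (Nat.Odd.sub_odd hodd odd_one).two_dvd]
    exact (Nat.card_congr e.toEquiv).trans (by simp)

end Cfsg.Agent.S0814
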