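import Cfsg.Statements.S2603
import Cfsg.Agent.H4.Aut9

set_option autoImplicit false
open Cfsg

namespace Cfsg.Agent.S2603

/-- Structure of the outer automorphism group of PSU_n(q), n ≥ 3, (n, q) ≠ (3, 2), q = p^f, realised over the field with q² elements: it has a normal cyclic subgroup of order gcd(n, q + 1) (diagonal automorphisms) with cyclic quotient of order 2f (generated by the Frobenius field automorphism of the field with q² elements, whose f-th power is the graph automorphism). -/
theorem result {K : Type*} [Field K] [Fintype K] {p f q n : ℕ} [Fact p.Prime] (hf : 1 ≤ f) (hq : q = p ^ f) (hK : Fintype.card K = q ^ 2) (hn : 3 ≤ n) (h32 : ¬ (n = 3 ∧ q = 2)) : ∃ φ : Cfsg.Out (Cfsg.PSU n K q) →* Multiplicative (ZMod (2 * f)), Function.Surjective φ ∧ IsCyclic φ.ker ∧ Nat.card φ.ker = Nat.gcd n (q + 1) := by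
  open Cfsg.Agent.H4 Module in
  obtain ⟨r, h1, h2⟩ := (suM hK hn h32).exists_rho (suM_surj hK hn h32)
  obtain ⟨e⟩ := nonempty_ringAut_equiv (p := p) (f := 2 * f) (by rw [hK, hq, ← pow_mul, mul_comm])
  refine ⟨e.toMonoidHom.comp r, e.surjective.comp ((suM hK hn h32).rho_surj (fld_mem_unF hK n) h1), ?_⟩
  rw [MonoidHom.ker_comp_of_injective _ _ e.injective, h2]
  exact suκ_range hK hn h32

end Cfsg.Agent.S2603
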