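import Cfsg.Statements.S2604
import Cfsg.Agent.H4.Aut13

set_option autoImplicit false
open Cfsg

namespace Cfsg.Agent.S2604

/-- Outer automorphism group of the simple orthogonal group Ω_(2m+1)(q), m ≥ 3, q = p^f odd: it is the direct product of a group of order 2 (diagonal automorphisms, from SO) and a cyclic group of order f (field automorphisms). -/
theorem result {F : Type*} [Field F] [Fintype F] {p f m : ℕ} [Fact p.Prime] (hf : 1 ≤ f) (hF : Fintype.card F = p ^ f) (hp : p ≠ 2) (hm : 3 ≤ m) : Nonempty (Cfsg.Out (Cfsg.POmega F (Cfsg.quadFormOdd m F)) ≃* Multiplicative (ZMod 2 × ZMod f)) := by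
  open Cfsg.Agent.H4 Module in
  have hodd : Odd (Fintype.card F) := hF ▸ ((Fact.out : p.Prime).odd_of_ne_two hp).pow
  have h2 := two_ne_zero_of_odd hodd
  have hn := oddF_nondeg (F := F) h2 m
  have h7 : 7 ≤ Fintype.card (Unit ⊕ (Fin m ⊕ Fin m)) := by simp; omega
  have ho : Odd (finrank F (Unit ⊕ (Fin m ⊕ Fin m) → F)) := ⟨m, by simp; omega⟩
  have h5 : 5 ≤ finrank F (Unit ⊕ (Fin m ⊕ Fin m) → F) := by simp; omega
  obtain ⟨e⟩ := hn.out_of_sq h5 (omM hn h7) (fun g hg => hn.mu_sq_of_odd ho hg)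
    (omM_surj hn h7 fun h => by simp at h; omega) ⟨_, fld_mem_oddF m (frob F)⟩ mem_zpowers_frob
    (by rw [mu_fld_oddF h2, map_one]) (Subtype.ext (fld_pow_card _))
  obtain ⟨e1⟩ := hn.oI_range_odd h5 (omM hn h7) h2 ho
  obtain ⟨e2⟩ := nonempty_units_equiv
  obtain ⟨e3⟩ := nonempty_ringAut_equiv hF
  exact ⟨e.trans (((e1.trans e2).prodCongr e3).trans (MulEquiv.prodMultiplicative _ _).symm)⟩

end Cfsg.Agent.S2604
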