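import Cfsg.Statements.S2607
import Cfsg.Agent.H5.OutD
import Cfsg.Agent.H5.Rp2
import Cfsg.Agent.H4.Aut13

set_option autoImplicit false
open Cfsg

namespace Cfsg.Agent.S2607

/-- Outer automorphism group of PΩ⁺_2m(q), q = 2^f: for m ≥ 5 it is the direct product of a group of order 2 (graph automorphism, an orthogonal transvection) and a cyclic group of order f (field automorphisms); for m = 4 triality enlarges it to S_3 × C_f. -/
theorem result {F : Type*} [Field F] [Fintype F] {f m : ℕ} (hf : 1 ≤ f) (hF : Fintype.card F = 2 ^ f) (hm : 4 ≤ m) : if m = 4 then Nonempty (Cfsg.Out (Cfsg.POmega F (Cfsg.quadFormPlus m F)) ≃* Equiv.Perm (Fin 3) × Multiplicative (ZMod f)) else Nonempty (Cfsg.Out (Cfsg.POmega F (Cfsg.quadFormPlus m F)) ≃* Multiplicative (ZMod 2 × ZMod f)) := by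
  open Cfsg.Agent.H4 Module in
  have h2 : (2 : F) = 0 := by
    have := FiniteField.cast_card_eq_zero F
    rw [hF] at this
    exact pow_eq_zero_iff (n := f) (by omega) |>.1 (by exact_mod_cast this)
  have : Fact (Nat.Prime 2) := ⟨Nat.prime_two⟩
  obtain ⟨e3⟩ := nonempty_ringAut_equiv hF
  split_ifs with h4
  · subst h4
    obtain ⟨e⟩ := H5.pomegaD4 (F := F)
    obtain ⟨e1⟩ := H5.OutD.prod F
    obtain ⟨e2⟩ := H5.OutD.K_two F h2
    exact ⟨(H5.outCongr e).symm.trans (e1.trans (e2.prodCongr e3))⟩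
  · have hn := plusF_nondeg (F := F) m
    have h7 : 7 ≤ Fintype.card (Fin m ⊕ Fin m) := by simp; omega
    have h5 : 5 ≤ finrank F (Fin m ⊕ Fin m → F) := by simp; omega
    obtain ⟨e⟩ := hn.out_of_sq h5 (omM hn h7) (fun g hg => isSquare_of_two_eq_zero h2 _)
      (omM_surj hn h7 fun h => by simp at h; omega) ⟨_, fld_mem_plusF m (frob F)⟩ mem_zpowers_frob
      (by rw [mu_fld_plusF (by omega), map_one]) (Subtype.ext (fld_pow_card _))
    obtain ⟨e1⟩ := hn.oI_range_two h5 (omM hn h7) h2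
    obtain ⟨e2⟩ := nonempty_units_equiv
    exact ⟨e.trans (((e1.trans e2).prodCongr e3).trans (MulEquiv.prodMultiplicative _ _).symm)⟩

end Cfsg.Agent.S2607
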