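import Cfsg.Statements.S2608
import Cfsg.Agent.H5.OutD
import Cfsg.Agent.H5.Rp2
import Cfsg.Agent.H4.Aut13

set_option autoImplicit false
open Cfsg

namespace Cfsg.Agent.S2608

/-- Outer automorphism group of PΩ⁺_2m(q), q = p^f odd: for m = 4 it is S_4 × C_f (triality); for m ≥ 5 it is C_2 × C_2 × C_f when q ≡ 3 (mod 4) and m is odd, and D_8 × C_f otherwise. -/
theorem result {F : Type*} [Field F] [Fintype F] {p f m : ℕ} [Fact p.Prime] (hf : 1 ≤ f) (hF : Fintype.card F = p ^ f) (hp : p ≠ 2) (hm : 4 ≤ m) : if m = 4 then Nonempty (Cfsg.Out (Cfsg.POmega F (Cfsg.quadFormPlus m F)) ≃* Equiv.Perm (Fin 4) × Multiplicative (ZMod f)) else if p ^ f % 4 = 3 ∧ Odd m then Nonempty (Cfsg.Out (Cfsg.POmega F (Cfsg.quadFormPlus m F)) ≃* Multiplicative (ZMod 2 × ZMod 2 × ZMod f)) else Nonempty (Cfsg.Out (Cfsg.POmega F (Cfsg.quadFormPlus m F)) ≃* DihedralGroup 4 × Multiplicative (ZMod f)) := by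
  open Cfsg.Agent.H4 Module in
  have hodd : Odd (Fintype.card F) := hF ▸ ((Fact.out : p.Prime).odd_of_ne_two hp).pow
  have h2 := two_ne_zero_of_odd hodd
  obtain ⟨e3⟩ := nonempty_ringAut_equiv hF
  by_cases h4 : m = 4
  · rw [if_pos h4]
    subst h4
    obtain ⟨e⟩ := H5.pomegaD4 (F := F)
    obtain ⟨e1⟩ := H5.OutD.prod F
    obtain ⟨e2⟩ := H5.OutD.K_odd F h2
    exact ⟨(H5.outCongr e).symm.trans (e1.trans (e2.prodCongr e3))⟩
  rw [if_neg h4]
  have hn := plusF_nondeg (F := F) m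
  have h7 : 7 ≤ Fintype.card (Fin m ⊕ Fin m) := by simp; omega
  have h5 : 5 ≤ finrank F (Fin m ⊕ Fin m → F) := by simp; omega
  have hd : finrank F (Fin m ⊕ Fin m → F) = 2 * m := by simp; omega
  obtain ⟨e⟩ := hn.out_even h5 (omM hn h7) h2 hd (omM_surj hn h7 fun h => by simp at h; omega)
    ⟨_, fld_mem_plusF m (frob F)⟩ mem_zpowers_frob (by rw [mu_fld_plusF (by omega), map_one])
    fun _ => Subtype.ext (fld_pow_card _)
  have hE := plusF_neg_mem_E hodd (m := m) (by omega)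
  rw [hF, and_comm] at hE
  split_ifs with h
  · obtain ⟨e1⟩ := hn.oK_range_klein h5 (omM hn h7) h2 hd fun h' => hE.1 h' h
    obtain ⟨e2⟩ := nonempty_units_equiv
    exact ⟨e.trans (((e1.trans (e2.prodCongr e2)).prodCongr e3).trans (MulEquiv.prodAssoc.trans
      (((MulEquiv.refl _).prodCongr (MulEquiv.prodMultiplicative _ _).symm).trans (MulEquiv.prodMultiplicative _ _).symm)))⟩
  · obtain ⟨e1⟩ := hn.oK_range_dihedral h5 (omM hn h7) h2 hd (hE.2 h)
    exact ⟨e.trans (e1.prodCongr e3)⟩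

end Cfsg.Agent.S2608
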