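import Cfsg.Statements.S0817
import Cfsg.Agent.H4.Aut13
import Cfsg.Agent.S2607
import Cfsg.Agent.S2608

set_option autoImplicit false
open Cfsg

namespace Cfsg.Agent.S0817

/-- |Aut(PΩ⁺_2m(q))| for q = p^f, m ≥ 4: |PΩ⁺_2m(q)| times f, times 3 when m = 4, times 2 if p = 2, and times 8 or 4 if p is odd according as m(q−1)/2 is even or odd. -/
theorem result {F : Type*} [Field F] [Fintype F] (p f : ℕ) [Fact p.Prime] (hf : 1 ≤ f) (hF : Fintype.card F = p ^ f) (m : ℕ) (hm : 4 ≤ m) : Nat.card (MulAut (Cfsg.POmega F (Cfsg.quadFormPlus m F))) = (if m = 4 then 3 else 1) * (if p = 2 then 2 else (if Even (m * (p ^ f - 1) / 2) then 8 else 4)) * f * Nat.card (Cfsg.POmega F (Cfsg.quadFormPlus m F)) := by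
  open Cfsg.Agent.H4 Module in
  have hn := plusF_nondeg (F := F) m
  have h7 : 7 ≤ Fintype.card (Fin m ⊕ Fin m) := by simp; omega
  refine (card_aut_eq ((orth_good2' hn h7).conj_injective (omC hn h7))).trans (congrArg₂ _ ?_ rfl)
  by_cases hp : p = 2
  · subst hp
    rw [if_pos (rfl : 2 = 2)]
    have h := Cfsg.Agent.S2607.result hf hF hm
    split_ifs at h ⊢ with h4 <;> obtain ⟨e⟩ := h <;> refine (Nat.card_congr e.toEquiv).trans ?_
    · rw [Nat.card_prod, Nat.card_congr Multiplicative.toAdd, Nat.card_zmod, Nat.card_perm]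
      simp [Nat.factorial]
    · rw [Nat.card_congr Multiplicative.toAdd, Nat.card_prod, Nat.card_zmod, Nat.card_zmod]
  have hodd : Odd (Fintype.card F) := hF ▸ ((Fact.out : p.Prime).odd_of_ne_two hp).pow
  have h := Cfsg.Agent.S2608.result hf hF hp hm
  have h1 := isSquare_neg_one_pow_iff' hodd m
  rw [isSquare_neg_one_pow_iff hodd, pow_mod_four_eq_one hodd, hF, and_comm] at h1
  rw [if_neg hp]
  by_cases h4 : m = 4
  · rw [if_pos h4] at h ⊢
    obtain ⟨e⟩ := h
    refine (Nat.card_congr e.toEquiv).trans ?_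
    rw [if_pos (h1.1 fun h => absurd (h4 ▸ h.2) (by decide)), Nat.card_prod, Nat.card_congr Multiplicative.toAdd, Nat.card_zmod,
      Nat.card_perm]
    simp [Nat.factorial]
  rw [if_neg h4] at h ⊢
  split_ifs at h with h2 <;> obtain ⟨e⟩ := h <;> refine (Nat.card_congr e.toEquiv).trans ?_
  · rw [if_neg fun h => h1.2 h h2, Nat.card_congr Multiplicative.toAdd, Nat.card_prod, Nat.card_prod, Nat.card_zmod, Nat.card_zmod]
    ring
  · rw [if_pos (h1.1 h2), Nat.card_prod, Nat.card_congr Multiplicative.toAdd, Nat.card_zmod, DihedralGroup.nat_card]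

end Cfsg.Agent.S0817
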