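import Cfsg.Statements.S2605
import Cfsg.Agent.H4.Aut13

set_option autoImplicit false
open Cfsg

namespace Cfsg.Agent.S2605

/-- Outer automorphism group of PΩ⁻_2m(q), m ≥ 4, q = 2^f: cyclic of order 2f, generated by a semilinear map inducing the Frobenius automorphism of the field (its f-th power is a graph automorphism, an orthogonal transvection). -/
theorem result {F : Type*} [Field F] [Fintype F] {f m : ℕ} (hf : 1 ≤ f) (hF : Fintype.card F = 2 ^ f) (hm : 4 ≤ m) (a b : F) (hab : ∀ z₁ z₂ : F, z₁ ^ 2 + a * z₁ * z₂ + b * z₂ ^ 2 = 0 → z₁ = 0 ∧ z₂ = 0) : IsCyclic (Cfsg.Out (Cfsg.POmega F (Cfsg.quadFormMinus (m - 1) F a b))) ∧ Nat.card (Cfsg.Out (Cfsg.POmega F (Cfsg.quadFormMinus (m - 1) F a b))) = 2 * f := by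
  open Cfsg.Agent.H4 Module in
  have h2 : (2 : F) = 0 := by
    have := FiniteField.cast_card_eq_zero F
    rw [hF] at this
    exact pow_eq_zero_iff (n := f) (by omega) |>.1 (by exact_mod_cast this)
  have hn := minusF_nondeg (m - 1) hab
  have h7 : 7 ≤ Fintype.card ((Fin (m - 1) ⊕ Fin (m - 1)) ⊕ Fin 2) := by simp; omega
  obtain ⟨γ, h1, -, w, hw, h3⟩ := exists_minus_gam (m - 1) hab
  have : Fact (Nat.Prime 2) := ⟨Nat.prime_two⟩
  rw [← card_ringAut hF]
  exact hn.out_minus_two (by simp; omega) (omM hn h7) h2 (omM_surj hn h7 fun h => by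
    rw [minusF_wi _ hab]; simp at h; omega) γ (h1 ▸ mem_zpowers_frob) hw h3

end Cfsg.Agent.S2605
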