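import Cfsg.Statements.S2606
import Cfsg.Agent.H4.Aut13

set_option autoImplicit false
open Cfsg

namespace Cfsg.Agent.S2606

/-- Outer automorphism group of PΩ⁻_2m(q), m ≥ 4, q = p^f odd: it is dihedral of order 8 times cyclic of order f when q ≡ 3 (mod 4) and m is odd, and otherwise the direct product of a group of order 2 with a cyclic group of order 2f. -/
theorem result {F : Type*} [Field F] [Fintype F] {p f m : ℕ} [Fact p.Prime] (hf : 1 ≤ f) (hF : Fintype.card F = p ^ f) (hp : p ≠ 2) (hm : 4 ≤ m) (a b : F) (hab : ∀ z₁ z₂ : F, z₁ ^ 2 + a * z₁ * z₂ + b * z₂ ^ 2 = 0 → z₁ = 0 ∧ z₂ = 0) : if p ^ f % 4 = 3 ∧ Odd m then Nonempty (Cfsg.Out (Cfsg.POmega F (Cfsg.quadFormMinus (m - 1) F a b)) ≃* DihedralGroup 4 × Multiplicative (ZMod f)) else Nonempty (Cfsg.Out (Cfsg.POmega F (Cfsg.quadFormMinus (m - 1) F a b)) ≃* Multiplicative (ZMod 2 × ZMod (2 * f))) := by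
  open Cfsg.Agent.H4 Module in
  have hodd : Odd (Fintype.card F) := hF ▸ ((Fact.out : p.Prime).odd_of_ne_two hp).pow
  have h2 := two_ne_zero_of_odd hodd
  have hn := minusF_nondeg (m - 1) hab
  have h7 : 7 ≤ Fintype.card ((Fin (m - 1) ⊕ Fin (m - 1)) ⊕ Fin 2) := by simp; omega
  have h5 : 5 ≤ finrank F ((Fin (m - 1) ⊕ Fin (m - 1)) ⊕ Fin 2 → F) := by simp; omega
  have hd : finrank F ((Fin (m - 1) ⊕ Fin (m - 1)) ⊕ Fin 2 → F) = 2 * m := by simp; omega
  have hs := omM_surj hn h7 fun h => by rw [minusF_wi _ hab]; simp at h; omega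
  obtain ⟨γ, h1, h4, w, hw, h3⟩ := exists_minus_gam (m - 1) hab
  have hE := minusF_neg_mem_E hodd (m := m - 1) (by omega) hab
  rw [hF, show Even (m - 1) ↔ Odd m by rw [Nat.even_iff, Nat.odd_iff]; omega, and_comm] at hE
  split_ifs with h
  · obtain ⟨e⟩ := hn.out_even h5 (omM hn h7) h2 hd hs γ (h1 ▸ mem_zpowers_frob) (by rw [h4, map_one])
      fun he => by
        rw [card_ringAut hF] at he
        have := (pow_mod_four_eq_one (m := f) ((Fact.out : p.Prime).odd_of_ne_two hp)).2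
          fun h' => Nat.not_odd_iff_even.2 he h'.1
        omega
    obtain ⟨e1⟩ := hn.oK_range_dihedral h5 (omM hn h7) h2 hd (hE.2 h)
    obtain ⟨e3⟩ := nonempty_ringAut_equiv hF
    exact ⟨e.trans (e1.prodCongr e3)⟩
  · rw [← card_ringAut hF]
    exact hn.out_minus_odd h5 (omM hn h7) h2 hd (fun h' => h (hE.1 h')) hs γ
      (h1 ▸ mem_zpowers_frob) (by rw [h4, map_one]) hw h3

end Cfsg.Agent.S2606
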