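import Cfsg.Statements.S0820
import Cfsg.Agent.H9.L34

set_option autoImplicit false
open Cfsg

namespace Cfsg.Agent.S0820

open Cfsg.Agent Cfsg.Agent.H9

/-- Any two elements of order 2 of PSL_3(4) are conjugate. -/
theorem result {F : Type*} [Field F] [Fintype F] (hF : Fintype.card F = 4) (x y : Matrix.ProjectiveSpecialLinearGroup (Fin 3) F) (hx : orderOf x = 2) (hy : orderOf y = 2) : IsConj x y := by
  exact psl34_inv_conj hF x y hx hy

end Cfsg.Agent.S0820
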