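import Cfsg.Statements.S0821
import Cfsg.Agent.H4.Aut7

set_option autoImplicit false
open Cfsg

namespace Cfsg.Agent.S0821

/-- PSp_2m(q) ≇ PΩ_(2m+1)(q) for q odd and m ≥ 3 (they have the same order). -/
theorem result {F : Type*} [Field F] [Fintype F] (hodd : Odd (Fintype.card F)) (m : ℕ) (hm : 3 ≤ m) : IsEmpty (Cfsg.PSp m F ≃* Cfsg.POmega F (Cfsg.quadFormOdd m F)) := by
  open Cfsg.Agent.H4 Module in
  have h2 := two_ne_zero_of_odd hodd
  have hf := oddF_nondeg h2 m
  have h7 : 7 ≤ Fintype.card (Unit ⊕ (Fin m ⊕ Fin m)) := by simp; omega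
  exact ⟨fun α => hf.isEmpty_corr_orth_symp (spF_nondeg m) h2 (by simpa using h7) (by simp; omega)
    ((omC hf h7).corr (spC (by omega)) α.symm)⟩

end Cfsg.Agent.S0821
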