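import Cfsg.Statements.S0822
import Cfsg.Agent.GS.Cp1
import Cfsg.Agent.S0245
import Cfsg.Agent.S0246
import Cfsg.Agent.S0278
import Cfsg.Agent.S0279
import Cfsg.Agent.S0283

set_option autoImplicit false
open Cfsg

namespace Cfsg.Agent.S0822

section
open Finset Pointwise Cfsg.Agent.St Cfsg.Agent.H6

set_option maxRecDepth 100000
noncomputable def nl : List Net := [(Net.cons (nat_lit 128) (nat_lit 0xf0ff0f00f0ff0f00f0ff0f00f0ff0f0)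
  (Net.cons (nat_lit 64) (nat_lit 0xff0f00ff00f0ff000000000000000000ff0f00ff00f0ff0)
  (Net.cons (nat_lit 32) (nat_lit 0xaaaa5555000000005555aaaa00000000aaaa5555000000005555aaaa)
  (Net.cons (nat_lit 16) (nat_lit 0xcccc000033330000cccc00003333000033330000cccc000033330000cccc)
  (Net.cons (nat_lit 8) (nat_lit 0xa500a500a500a5005a005a005a005a00a500a500a500a5005a005a005a005a)
  (Net.cons (nat_lit 4) (nat_lit 0xc030c030c030c030c030c030c030c03030c030c030c030c030c030c030c030c)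
  (Net.cons (nat_lit 2) (nat_lit 0x2121121221211212212112122121121221211212212112122121121221211212)
  (Net.cons (nat_lit 1) (nat_lit 0x4411441111441144441144111144114444114411114411444411441111441144)
  Net.nil)))))))),
 (Net.cons (nat_lit 128) (nat_lit 0xaaaa5555aaaa55555555aaaa5555aaaa)
  (Net.cons (nat_lit 64) (nat_lit 0xcccccccc33333333000000000000000033333333cccccccc)
  (Net.cons (nat_lit 32) (nat_lit 0xcccc333300000000cccc3333000000003333cccc000000003333cccc)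
  (Net.cons (nat_lit 16) (nat_lit 0x999900006666000066660000999900006666000099990000999900006666)
  (Net.cons (nat_lit 2) (nat_lit 0x2222222211111111111111112222222222222222111111111111111122222222)
  (Net.cons (nat_lit 1) (nat_lit 0x1111444444441111111144444444111144441111111144444444111111114444)
  Net.nil)))))),
 (Net.cons (nat_lit 128) (nat_lit 0xffff00000000ffff0000ffffffff0000)
  (Net.cons (nat_lit 64) (nat_lit 0xffffffff000000000000000000000000ffffffff00000000)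
  (Net.cons (nat_lit 32) (nat_lit 0xffffffff000000000000000000000000ffffffff0000000000000000)
  (Net.cons (nat_lit 16) (nat_lit 0xffff00000000000000000000ffff000000000000ffff0000ffff00000000)
  (Net.cons (nat_lit 4) (nat_lit 0xf000f000f000f000f000f000f000f000f000f000f000f000f000f000f000f00)
  (Net.cons (nat_lit 2) (nat_lit 0x2222222222222222222222222222222222222222222222222222222222222222)
  (Net.cons (nat_lit 1) (nat_lit 0x4444444444444444444444444444444444444444444444444444444444444444)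
  (Net.cons (nat_lit 8) (nat_lit 0xf000f000f000f000f000f000f000f000f000f000f000f000f000f000f000f0)
  (Net.cons (nat_lit 64) (nat_lit 0xffffffff000000000000000000000000ffffffff00000000)
  (Net.cons (nat_lit 128) (nat_lit 0xffff0000ffff0000ffff0000ffff0000)
  Net.nil)))))))))),
 (Net.cons (nat_lit 128) (nat_lit 0xffffffff00000000ffffffff0000)
  (Net.cons (nat_lit 64) (nat_lit 0xffffffff000000000000000000000000ffffffff00000000)
  (Net.cons (nat_lit 32) (nat_lit 0xffff000000000000ffff00000000ffff000000000000ffff0000)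
  (Net.cons (nat_lit 16) (nat_lit 0xffff00000000000000000000ffff000000000000ffff0000ffff00000000)
  (Net.cons (nat_lit 4) (nat_lit 0xf000f000f000f000f000f000f000f000f000f000f000f000f000f000f000f00)
  (Net.cons (nat_lit 8) (nat_lit 0xf000f000f000f000f000f000f000f000f000f000f000f000f000f000f000f0)
  (Net.cons (nat_lit 64) (nat_lit 0xffff0000ffff00000000000000000000ffff0000ffff0000)
  (Net.cons (nat_lit 128) (nat_lit 0xffffffff00000000ffffffff00000000)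
  Net.nil)))))))),
 (Net.cons (nat_lit 128) (nat_lit 0xffff0000ffffffff0000ffff0000)
  (Net.cons (nat_lit 64) (nat_lit 0xffffffff0000000000000000ffffffff00000000)
  (Net.cons (nat_lit 32) (nat_lit 0xffffffff00000000ffffffff0000000000000000)
  (Net.cons (nat_lit 16) (nat_lit 0xffff000000000000ffff0000ffff000000000000ffff00000000)
  (Net.cons (nat_lit 32) (nat_lit 0xffff000000000000ffff000000000000ffff000000000000ffff0000)
  (Net.cons (nat_lit 64) (nat_lit 0xffff0000ffff00000000000000000000ffff0000ffff0000)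
  (Net.cons (nat_lit 128) (nat_lit 0xffffffff00000000ffffffff00000000)
  Net.nil)))))))]
def SL : SLev := (SLev.cons [[0]] [[],[0],[0,0],[1,0],[2,0],[3,0],[0,0,0],[1,0,0],[2,0,0],[0,1,0],[2,1,0],[0,2,0],[1,2,0],[2,2,0],[4,2,0],[0,3,0],[2,3,0],[1,0,0,0],[3,0,0,0],[4,0,0,0],[1,1,0,0],[2,1,0,0],[3,1,0,0],[4,1,0,0],[1,2,0,0],[2,2,0,0],[3,2,0,0],[0,0,1,0],[2,0,1,0],[4,0,1,0],[0,2,1,0],[0,2,2,0],[1,0,3,0],[3,3,0,0,0],[1,1,1,0,0],[3,1,1,0,0],[4,2,1,0,0],[0,4,1,0,0],[1,4,1,0,0],[1,3,2,0,0]]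
  [[(1,[]),(2,[]),(6,[]),(9,[]),(11,[]),(15,[]),(8,[0,3,1,2,1,0]),(3,[0,1,3,1]),(7,[0,1,1]),(27,[]),(30,[]),(18,[3,1,1,0]),(22,[2,0,0,3]),(31,[]),(0,[1,1,0,1,0,0]),(20,[3,0,0]),(25,[2,0,3,0]),(10,[2,1,0,2,1,1]),(19,[1,1,1,0,0]),(4,[1,3,1,0,1]),(13,[2,2,0,2,1]),(26,[1,2,0,3,1,2]),(5,[0,2,0,2,2,0]),(37,[]),(28,[1,0,2,1,1]),(35,[1,1,0,1,2]),(14,[3,1,1,0,1]),(21,[3,0,1,3]),(24,[2,0,3,2,1]),(32,[2,0,0,3,0]),(17,[0,0,3,1]),(33,[3,0,2,0,3,0]),(29,[3,0,0]),(34,[3,0,2,0,0,2]),(36,[0,3,1,1,1,1]),(38,[0,1,2,1,1]),(23,[3,2,2]),(12,[1,1,1,1,0]),(16,[2,2]),(39,[3,1,2,0,2,0])],[(0,[0]),(3,[]),(7,[]),(1,[0,3,0,0,0]),(12,[]),(13,[2,2,0,0,1]),(17,[]),(20,[]),(24,[]),(9,[3,2,2,0,3,1]),(15,[0,2,0,3,2]),(10,[2,1,0,1,1,0]),(4,[1,1,1]),(14,[2,2,0,3]),(16,[3,1,2,0,0,0]),(32,[]),(5,[1,2,0]),(8,[3,2,1,1,1,0,0]),(18,[2,0,3,2,2]),(29,[1,0,2,2]),(34,[]),(28,[2,1,2,1,0,0]),(35,[2,1,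0,1,0,0]),(38,[]),(6,[3,1,0,0,1]),(37,[3,2,0,3,2,0]),(39,[]),(33,[0,2,0,3,1,0]),(26,[0,3,0,0,2]),(36,[0,2,1,2,1]),(19,[0,2,2,0,1]),(31,[1,2,0,2]),(11,[1,1,1]),(23,[3,2,0,0]),(2,[]),(25,[3,1,3,1,0]),(30,[1,2,0]),(22,[0,2,1,0,3,0]),(27,[0,1,2,1,0]),(21,[1,0,0,0,3])],[(0,[1]),(4,[]),(8,[]),(10,[]),(13,[]),(16,[]),(7,[3,2,0,2,1]),(21,[]),(25,[]),(28,[]),(3,[0,1,1,1,0]),(5,[0,2]),(15,[2,2,1,0,2]),(11,[2,2,1,0,1]),(12,[1,3,1,1,0,1]),(14,[2,1,1,0,2]),(1,[0,1,0,3,0]),(26,[3,2,2,1,0,1]),(6,[1,2]),(33,[1,2]),(31,[0,3,1,2]),(34,[3,1,3,1,0]),(9,[0,2,0,2,1]),(37,[3,1,0,0,3]),(35,[2,1,2,1,0]),(27,[3,1,0,2,1]),(38,[1,1,1]),(30,[0,1,0,2,0]),(19,[1,1,1,1,1,0]),(18,[3,1,0,1,0,2]),(39,[3,0,3,2]),(23,[3,1,2,0,3,1]),(32,[3,0,1,0,2]),(36,[3,0,0,3,1,0]),(29,[0,2,0,3,2,0]),(20,[2,2]),(22,[3,0,2,0,3,0]),(24,[0,1,1,0,1]),(17,[0,0,3,1,1,0]),(2,[1,2,0,1])],[(0,[2]),(5,[]),(2,[3,2,1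,1,1]),(10,[0,1,0,1]),(12,[2,2,0,3]),(13,[3,1,1,0]),(18,[]),(22,[]),(26,[]),(24,[1,0,1,3]),(3,[2,2,1,1,1,1]),(14,[3,1,1,1]),(11,[2,2,0,2,1,0]),(1,[0,1,0,3,0]),(16,[3,0,0,3]),(4,[3,0,1,0,1]),(15,[2,1,2,0,1]),(27,[3,0,3,1,1,1]),(33,[]),(20,[0,0]),(35,[]),(7,[3,1,1,0]),(36,[3,0,2,0,3,0]),(31,[3,2,1,0,0]),(37,[0,0,3,1,1]),(25,[3,2,1,1,1]),(8,[2,2]),(17,[3,2,0,2]),(9,[1,0,3,1]),(34,[1,3,1,0,2]),(30,[3,2,2,0,1,1]),(21,[0,3,0,0,1,1]),(32,[1,2,1]),(19,[]),(28,[0,0,1,0]),(6,[0,0]),(23,[3,1,1,0]),(29,[0,3,1,0,2]),(39,[3,1,3,1,0]),(38,[1,2,0,1])],[(0,[3]),(1,[3,0,0,3]),(2,[1,1,1]),(10,[0,2,0,0]),(14,[]),(5,[3,0,0,3]),(19,[]),(23,[]),(26,[2,2]),(29,[]),(3,[2,1,0,1,2,1]),(15,[3,1,1,1,0,2]),(16,[3,0,3,2]),(13,[3,0,0,3]),(4,[]),(11,[3,1,0,0,1,0]),(12,[1,2,0]),(27,[2,0,0,1,0,3,0]),(20,[0,0]),(6,[]),(18,[0,0]),(36,[]),(31,[3,2,1,0,0]),(7,[]),(34,[3,2,1,1,1]),(25,[1,1,1]),(8,[3,2]),(17,[1,0,0,3]),(37,[2,0,2,0,0,2]),(9,[]),(30,[1,1,1]),(22,[3,0,0,2,0,0]),(32,[3,1,3,1,1]),(35,[0,0]),(24,[2,2,1,1,1]),(33,[0,0]),(21,[]),(28,[0,2,2,0,2]),(39,[3,0,1,3,0]),(38,[1,3,0,1])]]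
  (SLev.cons [[1]] [[],[0],[0,0],[1,0],[2,0],[3,0],[1,0,0],[0,1,0],[1,1,0],[1,2,0],[3,2,0],[0,1,0,0]]
  [[(1,[]),(2,[]),(5,[2,1,0,1]),(7,[]),(8,[0,0]),(0,[0,2,0,1]),(11,[]),(4,[2,0,2,0,0]),(3,[2,0,2]),(10,[1,1,0,0]),(9,[1,0,0,0,0]),(6,[2])],[(0,[0]),(3,[]),(6,[]),(8,[]),(9,[]),(4,[1,1,0]),(2,[2,1,0,1,0,0]),(1,[1,0,0,0,0]),(11,[0,0,0,0,0]),(5,[2,1,0,0]),(7,[2,0,0,0,0]),(10,[2,0,1,0,1])],[(0,[1]),(4,[]),(6,[2,0,0,0]),(7,[2,0]),(8,[1,1,0,0,0,0]),(10,[]),(2,[1,0]),(11,[2,1,1,0,0]),(5,[2,1,0,0]),(1,[1,1,0]),(9,[2,0,2,0,1]),(3,[2,1])],[(0,[2]),(5,[]),(6,[2,1,0,0,0,0]),(3,[0,0,0]),(10,[]),(1,[]),(2,[1,1,0,0]),(7,[2,0,2,0,0]),(9,[1,1,0]),(8,[2,0,2,0,1]),(4,[]),(11,[0,0,0])]]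
  (SLev.cons [[2]] [[],[0],[0,0],[1,0],[0,0,0],[0,1,0],[0,0,0,0],[1,0,0,0],[1,0,1,0]]
  [[(1,[]),(2,[]),(4,[]),(5,[]),(6,[]),(7,[]),(8,[0]),(3,[1]),(0,[1,0,0])],[(0,[0]),(3,[]),(2,[0]),(1,[0,0]),(7,[]),(8,[]),(6,[0]),(4,[0,0]),(5,[0,0])],[(0,[1]),(3,[0,0]),(2,[1]),(1,[1,0]),(7,[0,0]),(8,[0,0]),(6,[1]),(4,[1,0]),(5,[1,0])]]
  (SLev.cons [[3]] [[],[0],[0,0]]
  [[(1,[]),(2,[]),(0,[0])],[(0,[0]),(1,[0]),(2,[0])]]
  (SLev.cons [[4]] [[],[0]]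
  [[(1,[]),(0,[])]]
  SLev.nil)))))

end

/-- PSU_4(2) ≅ PSp_4(3): with |F| = 4 and |K| = 3, the projective special unitary group of the standard Hermitian form on F^4 is isomorphic to PSp_4(K). -/
theorem result {F K : Type*} [Field F] [Fintype F] [Field K] [Fintype K] (hF : Fintype.card F = 4) (hK : Fintype.card K = 3) : Nonempty (Cfsg.PSU 4 F 2 ≃* Cfsg.PSp 2 K) := by
  open Finset Pointwise Cfsg.Agent.St Cfsg.Agent.H6 in focus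
    haveI := charP_of_card (p := 2) (k := 2) Nat.prime_two hF
    haveI := charP_of_card (p := 3) (k := 1) Nat.prime_three hK
    obtain ⟨ω, hω⟩ := exists_w4 hF
    obtain ⟨g, hg⟩ := mrep_SU (n := 4) (sem4 hω) (frobenius F 2) (fun _ => rfl) (ml := [[43,177,141,104],[179,4,146,242],[3,8,192,32],[1,8,192,16],[1,4,128,48]]) (fs := [[[9,4,16,64],[1,5,17,64],[1,52,16,64],[1,4,20,88],[249,164,208,64]],[[17,4,16,64],[1,4,18,82],[1,4,144,64],[1,4,16,96],[33,4,16,64]],[[1,5,16,64],[13,4,16,64],[1,7,16,64],[1,4,208,64],[1,4,16,96],[5,4,208,64]],[[1,4,20,64],[1,36,16,64],[1,4,24,64],[1,4,80,64],[1,4,16,80],[1,68,80,64]],[[1,4,144,64],[1,4,16,112],[1,4,144,64]]]) (by decide +kernel)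
    have hs := semP (F := K) 3 (by norm_num)
    obtain ⟨t, ht⟩ := mrep_Sp hs (ixSum 2) (hJ_of (e := 2) hs (by
      rw [eq_neg_iff_add_eq_zero, ← CharP.cast_eq_zero K 3]; norm_num) (U := [18,54,1,3]) (by decide +kernel)) (ml := [[70,21,53,10],[16,6,25,78],[2,3,26,34],[2,3,20,27],[1,6,9,54],[50,10,16,46],[26,6,11,76],[2,3,25,31],[2,3,19,27],[1,6,9,54]]) (by decide +kernel)
    letI : MulAction (SU 4 F 2) (Fin 4 → F) := MulAction.compHom _ (SU 4 F 2).subtype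
    have mA := vecModel (fun _ _ => rfl) hg (inj4 hω) (N := 256) (nl := nl) (by decide +kernel)
    have cA : Nat.card (SU 4 F 2) = 25920 := by
      have := S0278.result (q := 2) hF 4 (by norm_num)
      simp only [Finset.prod_range_succ] at this
      norm_num at this; omega
    haveI : Finite (SU 4 F 2) := Nat.finite_of_card_ne_zero (by omega)
    have lb : SL.ord ≤ Nat.card (cl g SL.ws) := le_of_eq_of_le (by decide +kernel) (lb_of mA (L := (Lev.cons 1 120 [[1,2,0,1,2,2,1]]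
      (Lev.cons 4 36 [[3,2,0,0,3],[3,2,0,1,0,2,0]]
      (Lev.cons 16 6 [[4,2,4,2,2],[2,2,2]]
      Lev.nil)))) (k := 5) (r := 40) (by decide +kernel) (kl := [0,1,2,3,4]) (by decide +kernel))
    obtain ⟨φ, -, hφ⟩ := exists_hom_of_slev hg.eqv (eqvQ ht (ht.psat (il := [5,6,7,8,9,0,1,2,3,4]) (Rl := []) (by decide +kernel)).inv) (L := SL) (by decide +kernel) lb
    have top : cl g SL.ws = ⊤ := Subgroup.eq_top_of_le_card _ (cA.trans_le (le_of_eq_of_le (by decide +kernel) lb))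
    have cB : Nat.card (PSp 2 K) = 25920 := by
      have h1 := S0245.result hK 2
      have h2 := S0246.result hK 2 (by norm_num)
      rw [Subgroup.card_eq_card_quotient_mul_card_subgroup (Subgroup.center _), h2] at h1
      generalize Nat.card (PSp 2 K) = x at h1
      norm_num [Finset.prod_range_succ] at h1 ⊢; omega
    have hz : Subgroup.center (SU 4 F 2) = ⊥ := Subgroup.card_eq_one.1 ((S0279.result (q := 2) hF 4 (by norm_num)).trans (by norm_num))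
    let e : PSU 4 F 2 ≃* SU 4 F 2 := (QuotientGroup.quotientMulEquivOfEq hz).trans QuotientGroup.quotientBot
    let χ : PSU 4 F 2 →* PSp 2 K := (φ.comp ((MonoidHom.id _).codRestrict _ fun x => top ▸ Subgroup.mem_top x)).comp e.toMonoidHom
    haveI := S0283.result (q := 2) hF 4 (by norm_num) (by norm_num)
    haveI : Finite (PSp 2 K) := Nat.finite_of_card_ne_zero (by omega)
    refine ⟨MulEquiv.ofBijective χ ((Nat.bijective_iff_injective_and_card χ).2 ⟨(MonoidHom.ker_eq_bot_iff χ).1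
      (χ.normal_ker.eq_bot_or_eq_top.resolve_right fun h => ?_), ((Nat.card_congr e.toEquiv).trans cA).trans cB.symm⟩)⟩
    have h1 : χ (e.symm (wp g (sel SL.ws [0]))) = 1 := show _ ∈ χ.ker from h ▸ Subgroup.mem_top _
    have h2 : χ (e.symm (wp g (sel SL.ws [0]))) = φ ⟨_, wp_sel_mem SL.ws [0]⟩ := congrArg φ (Subtype.ext (e.apply_symm_apply _))
    exact ne_one_quot_center (u := [0]) (v := [1]) (ht.nev (injP 3) (i := 0) (j := 0) (by decide +kernel)) ((hφ [0]).symm.trans (h2.symm.trans h1))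

end Cfsg.Agent.S0822
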