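import Cfsg.Statements.S0823
import Cfsg.Agent.GS.Misc1
import Cfsg.Agent.S0286

set_option autoImplicit false
open Cfsg

namespace Cfsg.Agent.S0823

open Cfsg.Agent.H1

section
open Subgroup Pointwise commutatorElement Cfsg.Agent.BG Cfsg.Agent.GS
open Cfsg.Agent.H2 hiding card_lt_of_lt card_lt_of_ne_top isMulCommutative_of_le isPGroup_zpowers_iff mem_of_pow_mem_of_coprime inf_eq_bot_of_cop exists_maxElem_ge Sec
open Cfsg.Agent.H8 (Op Opp Fit SN)
open Cfsg.Agent.L (FPF)
universe u

def M : Fin 3 → Matrix (Unit ⊕ (Fin 1 ⊕ Fin 1)) (Unit ⊕ (Fin 1 ⊕ Fin 1)) (ZMod 3) := fun i => Matrix.submatrix (![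
  !![1,0,0;0,2,0;0,0,2], !![1,0,1;2,2,1;0,0,2], !![2,0,0;0,0,1;0,1,0]] i)
  (Sum.elim (fun _ => 0) (Sum.elim (fun _ => 1) fun _ => 2)) (Sum.elim (fun _ => 0) (Sum.elim (fun _ => 1) fun _ => 2))

theorem h1 : ∀ i, M i * M i = 1 := by decide +kernel

theorem S4 : ∀ g : Equiv.Perm (Fin 4), g = 1 ∨ ∃ a b : Equiv.Perm (Fin 4), a * g * a⁻¹ * (b * g⁻¹ * b⁻¹) = adj 0 * adj 2 ∨ a * g * a⁻¹ = adj 0 * adj 2 := by
  decide +kernel

end

/-- SO_3(3) ≅ S_4: the determinant-one isometries of the form x_0² + x_1y_1 over the field with 3 elements form a group isomorphic to the symmetric group on 4 letters. -/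
theorem result {F : Type*} [Field F] [Fintype F] (hF : Fintype.card F = 3) : Nonempty (↥(Cfsg.specialIsometryGroup F (Cfsg.quadFormOdd 1 F)) ≃* Equiv.Perm (Fin 4)) := by
  open Subgroup Pointwise commutatorElement Cfsg.Agent.BG Cfsg.Agent.GS in
  open Cfsg.Agent.H2 hiding card_lt_of_lt card_lt_of_ne_top isMulCommutative_of_le isPGroup_zpowers_iff mem_of_pow_mem_of_coprime inf_eq_bot_of_cop exists_maxElem_ge Sec in
  open Cfsg.Agent.H8 (Op Opp Fit SN) in
  open Cfsg.Agent.L (FPF) in focus
    obtain ⟨φ, hφ⟩ := exists_zmod_hom hF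
    have k := fun M h1 h => exists_isom hφ.2 (Q := quadFormOdd 1 _) (Q' := quadFormOdd 1 F) (fun v => by simp [quadFormOdd]) M h1 h
    obtain ⟨f, hf⟩ := exists_perm_hom_of (H := specialIsometryGroup F (quadFormOdd 1 F)) (((Units.coeHom _).comp (Subgroup.subtype _)).comp (Subgroup.subtype _))
      ((Units.val_injective.comp Subtype.val_injective).comp Subtype.val_injective) φ.mapMatrix.toMonoidHom M (fun i => by
        obtain ⟨g, hg⟩ := k _ (h1 i) (by revert i; decide +kernel)
        refine ⟨⟨g, Units.ext ?_⟩, hg⟩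
        change g.1.1.det = 1
        rw [show g.1.1 = φ.mapMatrix (M i) from hg, ← RingHom.map_det, (by decide +kernel : ∀ i, (M i).det = 1), map_one])
      h1 (by decide +kernel) (by decide +kernel)
    have a : Function.Injective f := (injective_iff_map_eq_one f).2 fun g hg => (S4 g).resolve_right fun ⟨a, b, h⟩ => by
      have : f (adj 0 * adj 2) = 1 := by rcases h with h | h <;> simp [← h, hg]
      have := congrArg (((Units.coeHom _).comp (Subgroup.subtype _)).comp (Subgroup.subtype _)) this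
      rw [map_mul, map_mul, hf, hf, ← map_mul, map_one, ← map_one φ.mapMatrix.toMonoidHom] at this
      exact absurd (mapMatrix_inj φ this) (by decide +kernel)
    have b := Nat.card_le_card_of_injective f a
    have c : ♯(isometryGroup F (quadFormOdd 1 F)) = 48 := S0286.result hF (by decide) 1
    have d := (specialIsometryGroup F (quadFormOdd 1 F)).card_mul_index
    have e : (specialIsometryGroup F (quadFormOdd 1 F)).index ≠ 1 := fun h => by
      obtain ⟨g, hg⟩ := k (-1) (by simp) (by decide +kernel)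
      have : g.1.1.det = 1 := congrArg Units.val ((index_eq_one.1 h).ge (mem_top g))
      rw [show g.1.1 = φ.mapMatrix (-1) from hg, ← RingHom.map_det, ← map_one φ] at this
      exact absurd (hφ.1 this) (by decide +kernel)
    have := (specialIsometryGroup F (quadFormOdd 1 F)).index_ne_zero_of_finite
    rw [H4.card_S4] at b
    refine ⟨(MulEquiv.ofBijective f ((Nat.bijective_iff_injective_and_card f).2 ⟨a, H4.card_S4.trans (le_antisymm b ?_)⟩)).symm⟩
    nlinarith [Nat.mul_le_mul_left ♯(specialIsometryGroup F (quadFormOdd 1 F)) (show 2 ≤ (specialIsometryGroup F (quadFormOdd 1 F)).index by omega)]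

end Cfsg.Agent.S0823
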