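import Cfsg.Statements.S0824
import Cfsg.Agent.GS.Misc1
import Cfsg.Agent.S0288

set_option autoImplicit false
open Cfsg

namespace Cfsg.Agent.S0824

open Cfsg.Agent.H1

section
open Subgroup Pointwise commutatorElement Cfsg.Agent.BG Cfsg.Agent.GS
open Cfsg.Agent.H2 hiding card_lt_of_lt card_lt_of_ne_top isMulCommutative_of_le isPGroup_zpowers_iff mem_of_pow_mem_of_coprime inf_eq_bot_of_cop exists_maxElem_ge Sec
open Cfsg.Agent.H8 (Op Opp Fit SN)
open Cfsg.Agent.L (FPF)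
universe u

def M : Fin 4 → Matrix ((Fin 1 ⊕ Fin 1) ⊕ Fin 2) ((Fin 1 ⊕ Fin 1) ⊕ Fin 2) (ZMod 2) := fun i => Matrix.submatrix (![
  !![0,1,0,0;1,0,0,0;0,0,1,0;0,0,0,1], !![1,0,0,0;1,1,0,1;1,0,1,1;0,0,0,1], !![1,0,0,0;0,1,0,0;0,0,0,1;0,0,1,0], !![1,0,0,0;0,1,0,0;0,0,1,1;0,0,0,1]] i)
  (Sum.elim (Sum.elim (fun _ => 0) fun _ => 1) ![2, 3]) (Sum.elim (Sum.elim (fun _ => 0) fun _ => 1) ![2, 3])

theorem h1 : ∀ i, M i * M i = 1 := by decide +kernel

end

/-- O⁻_4(2) ≅ S_5: the isometry group of the form x y + z_1² + z_1 z_2 + z_2² over the field with 2 elements is isomorphic to the symmetric group on 5 letters. -/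
theorem result {F : Type*} [Field F] [Fintype F] (hF : Fintype.card F = 2) : Nonempty (↥(Cfsg.isometryGroup F (Cfsg.quadFormMinus 1 F 1 1)) ≃* Equiv.Perm (Fin 5)) := by
  open Subgroup Pointwise commutatorElement Cfsg.Agent.BG Cfsg.Agent.GS in
  open Cfsg.Agent.H2 hiding card_lt_of_lt card_lt_of_ne_top isMulCommutative_of_le isPGroup_zpowers_iff mem_of_pow_mem_of_coprime inf_eq_bot_of_cop exists_maxElem_ge Sec in
  open Cfsg.Agent.H8 (Op Opp Fit SN) in
  open Cfsg.Agent.L (FPF) in focus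
    obtain ⟨φ, hφ⟩ := exists_zmod_hom hF
    refine perm_equiv_of (n := 4) (by decide) _ (Units.val_injective.comp Subtype.val_injective) _ (mapMatrix_inj φ) M (fun i =>
      exists_isom hφ.2 (Q := quadFormMinus 1 _ 1 1) (fun v => by simp [quadFormMinus, -ZMod.pow_card]) _ (h1 i) ?_) h1 (by decide +kernel) (by decide +kernel)
      ⟨0, 1, by decide +kernel⟩ ((S0288.result hF 2 (by decide) 1 1 fun x y h => ?_).trans rfl)
    · revert i; decide +kernel
    obtain ⟨x, rfl⟩ := hφ.2 x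
    obtain ⟨y, rfl⟩ := hφ.2 y
    have : x ^ 2 + 1 * x * y + 1 * y ^ 2 = 0 := hφ.1 (by simpa [-ZMod.pow_card] using h)
    have : x = 0 ∧ y = 0 := by clear h; revert x y; decide
    simp [this]

end Cfsg.Agent.S0824
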