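import Cfsg.Statements.S0825
import Cfsg.Agent.GS.Misc1
import Cfsg.Agent.S0287

set_option autoImplicit false
open Cfsg

namespace Cfsg.Agent.S0825

open Cfsg.Agent.H1

section
open Subgroup Pointwise commutatorElement Cfsg.Agent.BG Cfsg.Agent.GS
open Cfsg.Agent.H2 hiding card_lt_of_lt card_lt_of_ne_top isMulCommutative_of_le isPGroup_zpowers_iff mem_of_pow_mem_of_coprime inf_eq_bot_of_cop exists_maxElem_ge Sec
open Cfsg.Agent.H8 (Op Opp Fit SN)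
open Cfsg.Agent.L (FPF)
universe u

def M : Fin 7 → Matrix (Fin 3 ⊕ Fin 3) (Fin 3 ⊕ Fin 3) (ZMod 2) := fun i => Matrix.submatrix (![
  !![0,0,0,1,0,0;0,1,0,0,0,0;0,0,1,0,0,0;1,0,0,0,0,0;0,0,0,0,1,0;0,0,0,0,0,1], !![1,0,0,0,0,0;0,1,0,0,0,0;1,0,0,0,0,1;1,0,1,1,0,1;0,0,0,0,1,0;1,0,1,0,0,0],
  !![0,0,0,1,1,0;1,1,0,1,1,0;0,0,1,0,0,0;1,0,0,0,1,0;0,0,0,0,1,0;0,0,0,0,0,1], !![0,1,0,1,0,1;0,1,0,0,0,0;1,1,1,1,0,1;1,1,0,0,0,1;1,1,0,1,1,1;0,0,0,0,0,1],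
  !![0,0,0,1,1,1;1,1,0,1,1,1;1,0,1,1,1,1;1,0,0,0,1,1;0,0,0,0,1,0;0,0,0,0,0,1], !![0,0,1,1,1,0;1,1,1,1,1,0;0,0,1,0,0,0;1,0,1,0,1,0;0,0,0,0,1,0;1,0,1,1,1,1],
  !![0,0,0,1,0,1;0,1,0,0,0,0;1,0,1,1,0,1;1,0,0,0,0,1;0,0,0,0,1,0;0,0,0,0,0,1]] i) finSumFinEquiv finSumFinEquiv

theorem h1 : ∀ i, M i * M i = 1 := by decide +kernel

end

/-- O⁺_6(2) ≅ S_8: the isometry group of the hyperbolic form x_1y_1 + x_2y_2 + x_3y_3 over the field with 2 elements is isomorphic to the symmetric group on 8 letters. -/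
theorem result {F : Type*} [Field F] [Fintype F] (hF : Fintype.card F = 2) : Nonempty (↥(Cfsg.isometryGroup F (Cfsg.quadFormPlus 3 F)) ≃* Equiv.Perm (Fin 8)) := by
  open Subgroup Pointwise commutatorElement Cfsg.Agent.BG Cfsg.Agent.GS in
  open Cfsg.Agent.H2 hiding card_lt_of_lt card_lt_of_ne_top isMulCommutative_of_le isPGroup_zpowers_iff mem_of_pow_mem_of_coprime inf_eq_bot_of_cop exists_maxElem_ge Sec in
  open Cfsg.Agent.H8 (Op Opp Fit SN) in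
  open Cfsg.Agent.L (FPF) in focus
    obtain ⟨φ, hφ⟩ := exists_zmod_hom hF
    refine perm_equiv_of (n := 7) (by decide) _ (Units.val_injective.comp Subtype.val_injective) _ (mapMatrix_inj φ) M (fun i =>
      exists_isom hφ.2 (Q := quadFormPlus 3 _) (fun v => by simp [quadFormPlus]) _ (h1 i) ?_) h1 (by decide +kernel) (by decide +kernel)
      ⟨0, 1, by decide +kernel⟩ ((S0287.result hF 3 (by decide)).trans rfl)
    revert i; decide +kernel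

end Cfsg.Agent.S0825
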