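import Cfsg.Statements.S0828
import Cfsg.Agent.H4.TScnt

set_option autoImplicit false
open Cfsg

namespace Cfsg.Agent.S0828

/-- The symplectic generalised quadrangle over a field with q elements: the number of 2-dimensional subspaces of F^4 on which the symplectic form vanishes is (q + 1)(q² + 1), and every non-zero vector lies in exactly q + 1 of them. -/
theorem result {F : Type*} [Field F] [Fintype F] {q : ℕ} (hF : Fintype.card F = q) : Nat.card {W : Submodule F (Fin 2 ⊕ Fin 2 → F) // Module.finrank F W = 2 ∧ ∀ u ∈ W, ∀ v ∈ W, Cfsg.sympForm 2 F u v = 0} = (q + 1) * (q ^ 2 + 1) ∧ ∀ v : Fin 2 ⊕ Fin 2 → F, v ≠ 0 → Nat.card {W : Submodule F (Fin 2 ⊕ Fin 2 → F) // Module.finrank F W = 2 ∧ v ∈ W ∧ ∀ u ∈ W, ∀ w ∈ W, Cfsg.sympForm 2 F u w = 0} = q + 1 := by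
  open Cfsg.Agent.H4 Module in
  subst hF
  have hq : 1 < Fintype.card F := Fintype.one_lt_card
  have h1 : ∀ v : Fin 2 ⊕ Fin 2 → F, v ≠ 0 → (spF F 2).Q v = 0 → Nat.card {W : Submodule F _ //
      finrank F W = 2 ∧ (spF F 2).TS W ∧ v ∈ W} = Fintype.card F + 1 := fun v hv hQ => by
    obtain ⟨Z, -, h1, -, h2⟩ := (spF_nondeg 2).card_TS_through hv hQ
    rw [CForm.symp_cnt, show finrank F Z = 2 by simpa using h1, sq_sub_one_eq] at h2
    exact Nat.eq_of_mul_eq_mul_right (by omega) h2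
  constructor
  · have h2 := CForm.card_TS_two h1
    rw [CForm.symp_cnt] at h2
    simp only [CForm.symp_TS_iff, spF_B, finrank_fintype_fun_eq_card, Fintype.card_sum,
      Fintype.card_fin] at h2
    refine Nat.eq_of_mul_eq_mul_right (m := Fintype.card F ^ 2 - 1)
      (by have := Nat.one_lt_pow two_ne_zero hq; omega) (h2.trans ?_)
    rw [show 2 + 2 = 2 * 2 from rfl, pow_mul, sq_sub_one_eq]; ring
  · intro v hv
    rw [← h1 v hv rfl]
    exact Nat.card_congr (Equiv.subtypeEquivRight fun W => by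
      rw [CForm.symp_TS_iff, and_comm (a := v ∈ W)]; rfl)

end Cfsg.Agent.S0828
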