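import Cfsg.Statements.S0829
import Cfsg.Agent.H4.TScnt

set_option autoImplicit false
open Cfsg

namespace Cfsg.Agent.S0829

/-- The unitary quadrangle of PSU_4(q): with |F| = q², the number of 2-dimensional subspaces of F^4 on which the Hermitian form Σ x_i y_i^q vanishes is (q + 1)(q³ + 1). -/
theorem result {F : Type*} [Field F] [Fintype F] {q : ℕ} (hF : Fintype.card F = q ^ 2) : Nat.card {W : Submodule F (Fin 4 → F) // Module.finrank F W = 2 ∧ ∀ u ∈ W, ∀ v ∈ W, Cfsg.hermForm 4 F q u v = 0} = (q + 1) * (q ^ 3 + 1) := by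
  open Cfsg.Agent.H4 Module in
  have hq := two_le_of_card_sq hF
  have hq2 : 1 < q ^ 2 := Nat.one_lt_pow two_ne_zero hq
  have hq' : (q : ℤ) ≠ 0 := by positivity
  have h1 : ∀ v : Fin 4 → F, v ≠ 0 → (unF hF 4).Q v = 0 → Nat.card {W : Submodule F _ //
      finrank F W = 2 ∧ (unF hF 4).TS W ∧ v ∈ W} = q + 1 := fun v hv hQ => by
    obtain ⟨Z, h0, h1, -, h2⟩ := (unF_nondeg hF 4).card_TS_through hv hQ
    have h3 := (h0.unit_cnt hF).1
    rw [show finrank F Z = 2 by simpa using h1] at h3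
    have h4 : ((unF hF 4).res Z).cnt 0 = (q + 1) * (q ^ 2 - 1) + 1 := by
      zify [hq2.le]
      exact mul_left_cancel₀ hq' (by rw [h3]; ring)
    rw [h4, hF, Nat.add_sub_cancel] at h2
    exact Nat.eq_of_mul_eq_mul_right (by omega) h2
  have h2 := CForm.card_TS_two h1
  have h3 := ((unF_nondeg hF 4).unit_cnt hF).1
  rw [finrank_fin_fun] at h3
  have h4 : (unF hF 4).cnt 0 = (q ^ 3 + 1) * ((q ^ 2) ^ 2 - 1) + 1 := by
    zify [(Nat.one_lt_pow two_ne_zero hq2).le]
    exact mul_left_cancel₀ hq' (by rw [h3]; ring)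
  rw [h4, hF, Nat.add_sub_cancel] at h2
  simp only [CForm.unit_TS_iff, unF_B] at h2
  refine Nat.eq_of_mul_eq_mul_right (m := (q ^ 2) ^ 2 - 1)
    (by have := Nat.one_lt_pow two_ne_zero hq2; omega) (h2.trans ?_)
  ring

end Cfsg.Agent.S0829
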