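import Cfsg.Statements.S0831
import Cfsg.Agent.H4.Over2

set_option autoImplicit false
open Cfsg

namespace Cfsg.Agent.S0831

/-- The two families of maximal totally singular subspaces of the hyperbolic quadric: for the form Σ x_i y_i on F^(2m), m ≥ 1, and m-dimensional subspaces U, W, X on which it vanishes, the parities of m − dim(U ∩ W), m − dim(W ∩ X) and m − dim(U ∩ X) sum to an even number (so 'even codimension of the intersection' is an equivalence relation), and there exist two such subspaces meeting in codimension 1 (so there are exactly two classes). -/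
theorem result {F : Type*} [Field F] (m : ℕ) (hm : 1 ≤ m) : (∀ U W X : Submodule F (Fin m ⊕ Fin m → F), (Module.finrank F U = m ∧ ∀ w ∈ U, Cfsg.quadFormPlus m F w = 0) → (Module.finrank F W = m ∧ ∀ w ∈ W, Cfsg.quadFormPlus m F w = 0) → (Module.finrank F X = m ∧ ∀ w ∈ X, Cfsg.quadFormPlus m F w = 0) → Even ((m - Module.finrank F ↥(U ⊓ W)) + (m - Module.finrank F ↥(W ⊓ X)) + (m - Module.finrank F ↥(U ⊓ X)))) ∧ ∃ U W : Submodule F (Fin m ⊕ Fin m → F), (Module.finrank F U = m ∧ ∀ w ∈ U, Cfsg.quadFormPlus m F w = 0) ∧ (Module.finrank F W = m ∧ ∀ w ∈ W, Cfsg.quadFormPlus m F w = 0) ∧ Module.finrank F ↥(U ⊓ W) + 1 = m := by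
  open Cfsg.Agent.H4 in
  have hf := plusF_nondeg (F := F) m
  have hd : Module.finrank F (Fin m ⊕ Fin m → F) = 2 * m := by simp; omega
  constructor
  · rintro U W X ⟨dU, hU⟩ ⟨dW, hW⟩ ⟨dX, hX⟩
    have := hf.even_inf' hd (CForm.orth_TS_iff.2 hU) (CForm.orth_TS_iff.2 hW)
      (CForm.orth_TS_iff.2 hX) dU dW dX
    rw [inf_comm X U, inf_comm X W] at this
    have h1 := Submodule.finrank_mono (inf_le_left : U ⊓ W ≤ U)
    have h2 := Submodule.finrank_mono (inf_le_left : U ⊓ X ≤ U)
    have h3 := Submodule.finrank_mono (inf_le_left : W ⊓ X ≤ W)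
    rw [Nat.even_iff] at this ⊢
    omega
  · have hU := plusF_TS_inlSub (F := F) m
    let w : Fin m ⊕ Fin m → F := Pi.single (.inr ⟨0, hm⟩) 1
    have hw : (plusF F m).Q w = 0 := by simp [plusF_Q, quadFormPlus, w]
    obtain ⟨h1, h2, h3⟩ := hf.exists_adj hd hU (finrank_inlSub m) hw
      (fun h => by simpa [w] using mem_inlSub.1 h ⟨0, hm⟩)
    exact ⟨_, _, ⟨finrank_inlSub m, hU.1⟩, ⟨h2, h1.1⟩, h3⟩

end Cfsg.Agent.S0831
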