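import Cfsg.Statements.S0832
import Cfsg.Agent.H4.TScnt

set_option autoImplicit false
open Cfsg

namespace Cfsg.Agent.S0832

/-- For the form Σ x_i y_i on F^(2m) over a finite field, m ≥ 1: an (m−1)-dimensional subspace on which the form vanishes is contained in exactly two m-dimensional subspaces on which it vanishes. -/
theorem result {F : Type*} [Field F] [Finite F] (m : ℕ) (hm : 1 ≤ m) (U : Submodule F (Fin m ⊕ Fin m → F)) (hU : Module.finrank F U + 1 = m ∧ ∀ u ∈ U, Cfsg.quadFormPlus m F u = 0) : Nat.card {W : Submodule F (Fin m ⊕ Fin m → F) // Module.finrank F W = m ∧ (∀ w ∈ W, Cfsg.quadFormPlus m F w = 0) ∧ U ≤ W} = 2 := by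
  open Cfsg.Agent.H4 Module in
  have := Fintype.ofFinite F
  have hq : 1 < Fintype.card F := Fintype.one_lt_card
  have hU' : (plusF F m).TS U := CForm.orth_TS_iff.2 hU.2
  obtain ⟨Z, h1, h2, h3, h4, h5, h6⟩ := (plusF_nondeg m).exists_compl_TS hU'
  have h7 := CForm.card_TS_ext hU' h1 h3 h4
  rw [plusF_wi] at h6
  simp only [finrank_fintype_fun_eq_card, Fintype.card_sum, Fintype.card_fin] at h5
  have h8 := (((plusF F m).res_nondeg_iff.2 h2).orth_cnt).1 (by omega)
  rw [show ((plusF F m).res Z).wi = 1 by omega] at h8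
  have h9 : ((plusF F m).res Z).cnt 0 = 2 * (Fintype.card F - 1) + 1 := by
    zify [hq.le]
    exact mul_left_cancel₀ (by positivity : (Fintype.card F : ℤ) ≠ 0) (by rw [h8]; ring)
  rw [h9, Nat.add_sub_cancel, hU.1] at h7
  simp only [CForm.orth_TS_iff] at h7
  exact Nat.eq_of_mul_eq_mul_right (by omega) h7

end Cfsg.Agent.S0832
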