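import Cfsg.Statements.S0833
import Cfsg.Agent.H4.Basis

set_option autoImplicit false
open Cfsg

namespace Cfsg.Agent.S0833

open Cfsg.Agent.H4 Module in
theorem det_gram_tmul {F U W : Type*} [Field F] [AddCommGroup U] [Module F U] [AddCommGroup W]
    [Module F W] (B₁ : LinearMap.BilinForm F U) (B₂ : LinearMap.BilinForm F W) {ι κ : Type*}
    [Fintype ι] [DecidableEq ι] [Fintype κ] [DecidableEq κ] (b : Basis ι F U) (c : Basis κ F W) :
    (Matrix.of fun i j => B₁.tmul B₂ (b.tensorProduct c i) (b.tensorProduct c j)).det =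
      (Matrix.of fun i j => B₁ (b i) (b j)).det ^ Fintype.card κ *
      (Matrix.of fun i j => B₂ (c i) (c j)).det ^ Fintype.card ι := by
  rw [← Matrix.det_kronecker]
  congr 1
  ext ⟨i, i'⟩ ⟨j, j'⟩
  simp [mul_comm]

open Cfsg.Agent.H4 Module in
theorem tmul_nondeg {F U W : Type*} [Field F] [AddCommGroup U] [Module F U] [AddCommGroup W]
    [Module F W] [FiniteDimensional F U] [FiniteDimensional F W] {B₁ : LinearMap.BilinForm F U}
    {B₂ : LinearMap.BilinForm F W} (h₁ : B₁.Nondegenerate) (h₂ : B₂.Nondegenerate) :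
    (B₁.tmul B₂).Nondegenerate := by
  have e : ∀ {V : Type _} [AddCommGroup V] [Module F V] {ι : Type} [Fintype ι] [DecidableEq ι]
    (B : LinearMap.BilinForm F V) (d : Basis ι F V),
      LinearMap.BilinForm.toMatrix d B = Matrix.of fun i j => B (d i) (d j) :=
    fun B d => by ext i j; simp
  rw [LinearMap.BilinForm.nondegenerate_iff_det_ne_zero (finBasis F U)] at h₁
  rw [LinearMap.BilinForm.nondegenerate_iff_det_ne_zero (finBasis F W)] at h₂
  refine (LinearMap.BilinForm.nondegenerate_iff_det_ne_zero
    ((finBasis F U).tensorProduct (finBasis F W))).2 ?_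
  have e1 : LinearMap.BilinForm.toMatrix (finBasis F U) B₁ =
    Matrix.of fun i j => B₁ (finBasis F U i) (finBasis F U j) := by ext; simp
  have e2 : LinearMap.BilinForm.toMatrix (finBasis F W) B₂ =
    Matrix.of fun i j => B₂ (finBasis F W i) (finBasis F W j) := by ext; simp
  rw [e1] at h₁
  rw [e2] at h₂
  rw [e, det_gram_tmul]
  exact mul_ne_zero (pow_ne_zero _ h₁) (pow_ne_zero _ h₂)

/-- If B₁, B₂ are non-degenerate alternating forms on U (dim 2k) and W (dim 2l), then B₁ ⊗ B₂ on U ⊗ W is symmetric, non-degenerate, and vanishes identically on some subspace of dimension 2kl (half of dim U ⊗ W). -/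
theorem result {F U W : Type*} [Field F] [Fintype F] [AddCommGroup U] [Module F U] [FiniteDimensional F U] [AddCommGroup W] [Module F W] [FiniteDimensional F W] (B₁ : LinearMap.BilinForm F U) (B₂ : LinearMap.BilinForm F W) (h₁ : B₁.Nondegenerate) (h₂ : B₂.Nondegenerate) (hA₁ : B₁.IsAlt) (hA₂ : B₂.IsAlt) (k l : ℕ) (hU : Module.finrank F U = 2 * k) (hW : Module.finrank F W = 2 * l) : (B₁.tmul B₂).IsSymm ∧ (B₁.tmul B₂).Nondegenerate ∧ (∃ X : Submodule F (TensorProduct F U W), Module.finrank F X = 2 * k * l ∧ ∀ x ∈ X, ∀ y ∈ X, (B₁.tmul B₂) x y = 0) := by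
  open Cfsg.Agent.H4 Module in
  refine ⟨⟨fun x y => ?_⟩, tmul_nondeg h₁ h₂, ?_⟩
  · induction x using TensorProduct.induction_on with
    | zero => simp
    | add a b ha hb => simp only [map_add, LinearMap.add_apply, RingHom.id_apply] at *; rw [ha, hb]
    | tmul a b =>
      induction y using TensorProduct.induction_on with
      | zero => simp
      | add a b ha hb => simp only [map_add, LinearMap.add_apply, RingHom.id_apply] at *; rw [ha, hb]
      | tmul c d =>
        simp only [LinearMap.BilinForm.tmul, LinearMap.BilinForm.tensorDistrib_tmul, RingHom.id_apply,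
          smul_eq_mul]
        rw [← hA₁.neg_eq a c, ← hA₂.neg_eq b d]; ring
  · have hf : (CForm.ofAlt B₁ hA₁).Nondeg := h₁.1
    obtain ⟨X, hX, hd⟩ := (CForm.ofAlt B₁ hA₁).exists_TS_wi
    have := hf.symp_finrank
    have hinj : Function.Injective (LinearMap.rTensor W X.subtype) :=
      Module.Flat.rTensor_preserves_injective_linearMap _ X.subtype_injective
    refine ⟨LinearMap.range (LinearMap.rTensor W X.subtype), ?_, ?_⟩
    · rw [LinearMap.finrank_range_of_inj hinj, Module.finrank_tensorProduct, hW, hd,
        show (CForm.ofAlt B₁ hA₁).wi = k by omega]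
      ring
    · rintro _ ⟨x, rfl⟩ _ ⟨y, rfl⟩
      induction x using TensorProduct.induction_on with
      | zero => simp
      | add a b ha hb => simp only [map_add, LinearMap.add_apply] at *; rw [ha, hb, add_zero]
      | tmul a b =>
        induction y using TensorProduct.induction_on with
        | zero => simp
        | add a b ha hb => simp only [map_add, LinearMap.add_apply] at *; rw [ha, hb, add_zero]
        | tmul c d =>
          have : B₁ a c = 0 := hX.2 a a.2 c c.2
          simp [LinearMap.BilinForm.tmul, this]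

end Cfsg.Agent.S0833
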