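import Cfsg.Statements.S0834
import Cfsg.Agent.H4.Basis
import Cfsg.Agent.S0833

set_option autoImplicit false
open Cfsg

namespace Cfsg.Agent.S0834

open Cfsg.Agent.H4 Module in
theorem key {F U : Type*} [Field F] [Fintype F] [AddCommGroup U] [Module F U] [FiniteDimensional F U]
    (h2 : (2 : F) ≠ 0) {B : LinearMap.BilinForm F U} (h : B.Nondegenerate) (hS : B.IsSymm) {k : ℕ}
    (hU : finrank F U = 2 * k) {ι : Type*} [Fintype ι] [DecidableEq ι] (b : Basis ι F U) :
    (∃ X : Submodule F U, finrank F X = k ∧ ∀ x ∈ X, ∀ y ∈ X, B x y = 0) ↔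
      IsSquare ((-1) ^ k * (Matrix.of fun i j => B (b i) (b j)).det) := by
  have hf : (CForm.ofSymm h2 B hS).Nondeg := h.1
  refine Iff.trans ?_ ((CForm.ofSymm h2 B hS).isSquare_mul_gram b _).symm
  rw [← hf.plus_iff_disc h2 hU, hf.wi_ge_of_two_mul hU]
  refine exists_congr fun X => ⟨fun h => ⟨⟨fun x hx => by simp [h.2 x hx x hx], h.2⟩, h.1⟩,
    fun h => ⟨h.2, h.1.2⟩⟩

open Cfsg.Agent.H4 Module in
theorem det_ne {F U : Type*} [Field F] [AddCommGroup U] [Module F U]
    {B : LinearMap.BilinForm F U} (h : B.Nondegenerate) {ι : Type*} [Fintype ι] [DecidableEq ι]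
    (b : Basis ι F U) : (Matrix.of fun i j => B (b i) (b j)).det ≠ 0 := by
  rw [LinearMap.BilinForm.nondegenerate_iff_det_ne_zero b] at h
  convert h using 2
  ext; simp

/-- Over a finite field with 2 ≠ 0: if B₁ on U (dim 2k, k ≥ 1) and B₂ on W (dim 2l, l ≥ 1) are non-degenerate symmetric forms admitting no totally isotropic subspaces of dimensions k, resp. l (minus type), then B₁ ⊗ B₂ admits a totally isotropic subspace of dimension 2kl (plus type). -/
theorem result {F U W : Type*} [Field F] [Fintype F] [AddCommGroup U] [Module F U] [FiniteDimensional F U] [AddCommGroup W] [Module F W] [FiniteDimensional F W] (h2 : (2 : F) ≠ 0) (B₁ : LinearMap.BilinForm F U) (B₂ : LinearMap.BilinForm F W) (h₁ : B₁.Nondegenerate) (h₂ : B₂.Nondegenerate) (hS₁ : B₁.IsSymm) (hS₂ : B₂.IsSymm) (k l : ℕ) (hk : 1 ≤ k) (hl : 1 ≤ l) (hU : Module.finrank F U = 2 * k) (hW : Module.finrank F W = 2 * l) (hm₁ : ¬ (∃ X : Submodule F (U), Module.finrank F X = k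 ∧ ∀ x ∈ X, ∀ y ∈ X, (B₁) x y = 0)) (hm₂ : ¬ (∃ X : Submodule F (W), Module.finrank F X = l ∧ ∀ x ∈ X, ∀ y ∈ X, (B₂) x y = 0)) : (∃ X : Submodule F (TensorProduct F U W), Module.finrank F X = 2 * k * l ∧ ∀ x ∈ X, ∀ y ∈ X, (B₁.tmul B₂) x y = 0) := by
  open Cfsg.Agent.H4 Module in
  have := (key h2 (Cfsg.Agent.S0833.tmul_nondeg h₁ h₂) (LinearMap.BilinForm.isSymm_iff.2 ((LinearMap.BilinForm.isSymm_iff.1 hS₁).tmul
      (LinearMap.BilinForm.isSymm_iff.1 hS₂))) (k := 2 * k * l)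
    (by rw [Module.finrank_tensorProduct, hU, hW]; ring) ((finBasis F U).tensorProduct (finBasis F W))).2
  apply this
  rw [Cfsg.Agent.S0833.det_gram_tmul]
  simp only [Fintype.card_fin, hU, hW, mul_assoc, pow_mul, neg_one_sq, one_pow, one_mul]
  exact ⟨_, by rw [← pow_mul, ← pow_mul, pow_mul', pow_mul', ← mul_pow, pow_two]⟩

end Cfsg.Agent.S0834
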