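import Cfsg.Statements.S0835
import Cfsg.Agent.H4.Basis
import Cfsg.Agent.S0834

set_option autoImplicit false
open Cfsg

namespace Cfsg.Agent.S0835

/-- Over a finite field with 2 ≠ 0: if B₁ on U (dim 2k, k ≥ 1) is non-degenerate symmetric of minus type (no totally isotropic k-subspace) and B₂ on W (dim 2l + 1) is non-degenerate symmetric, then B₁ ⊗ B₂ (dimension 2k(2l+1)) admits no totally isotropic subspace of dimension k(2l+1) (minus type). -/
theorem result {F U W : Type*} [Field F] [Fintype F] [AddCommGroup U] [Module F U] [FiniteDimensional F U] [AddCommGroup W] [Module F W] [FiniteDimensional F W] (h2 : (2 : F) ≠ 0) (B₁ : LinearMap.BilinForm F U) (B₂ : LinearMap.BilinForm F W) (h₁ : B₁.Nondegenerate) (h₂ : B₂.Nondegenerate) (hS₁ : B₁.IsSymm) (hS₂ : B₂.IsSymm) (k l : ℕ) (hk : 1 ≤ k) (hU : Module.finrank F U = 2 * k) (hW : Module.finrank F W = 2 * l + 1) (hm₁ : ¬ (∃ X : Submodule F (U), Module.finrank F X = k ∧ ∀ x ∈ X, ∀ y ∈ X, (B₁)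 x y = 0)) : ¬ (∃ X : Submodule F (TensorProduct F U W), Module.finrank F X = k * (2 * l + 1) ∧ ∀ x ∈ X, ∀ y ∈ X, (B₁.tmul B₂) x y = 0) := by
  open Cfsg.Agent.H4 Module Cfsg.Agent.S0834 in
  rw [key h2 (Cfsg.Agent.S0833.tmul_nondeg h₁ h₂) (LinearMap.BilinForm.isSymm_iff.2 ((LinearMap.BilinForm.isSymm_iff.1 hS₁).tmul
      (LinearMap.BilinForm.isSymm_iff.1 hS₂))) (k := k * (2 * l + 1))
    (by rw [Module.finrank_tensorProduct, hU, hW]; ring) ((finBasis F U).tensorProduct (finBasis F W)),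
    Cfsg.Agent.S0833.det_gram_tmul]
  rw [key h2 h₁ hS₁ hU (finBasis F U)] at hm₁
  have e1 := det_ne h₁ (finBasis F U)
  have e2 := det_ne h₂ (finBasis F W)
  generalize (Matrix.of fun i j => B₁ (finBasis F U i) (finBasis F U j)).det = d at *
  generalize (Matrix.of fun i j => B₂ (finBasis F W i) (finBasis F W j)).det = d' at *
  simp only [Fintype.card_fin, hU, hW]
  rwa [show (-1) ^ (k * (2 * l + 1)) * (d ^ (2 * l + 1) * d' ^ (2 * k)) =
    ((-1) ^ (k * l) * d ^ l * d' ^ k) ^ 2 * ((-1) ^ k * d) by ring, isSquare_sq_mul (by simp [e1, e2])]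

end Cfsg.Agent.S0835
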