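import Cfsg.Statements.S0836
import Cfsg.Agent.GS.Misc1

set_option autoImplicit false
open Cfsg

namespace Cfsg.Agent.S0836

open Cfsg.Agent.H1

/-- For i ≠ j and any scalar c, the elementary transvection 1 + c E_ij is a commutator ⁅g, h⁆ of two elements of SL_n(F) provided n ≥ 3, or n = 2 and F contains x ≠ 0 with x² ≠ 1. -/
theorem result {F : Type*} [Field F] (n : ℕ) (hn : 3 ≤ n ∨ (n = 2 ∧ ∃ x : F, x ≠ 0 ∧ x ^ 2 ≠ 1)) (i j : Fin n) (hij : i ≠ j) (c : F) (t : Matrix.SpecialLinearGroup (Fin n) F) (ht : (t : Matrix (Fin n) (Fin n) F) = Matrix.transvection i j c) : t ∈ commutatorSet (Matrix.SpecialLinearGroup (Fin n) F) := by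
  open Subgroup Pointwise commutatorElement Cfsg.Agent.BG Cfsg.Agent.GS in
  open Cfsg.Agent.H2 hiding card_lt_of_lt card_lt_of_ne_top isMulCommutative_of_le isPGroup_zpowers_iff mem_of_pow_mem_of_coprime inf_eq_bot_of_cop exists_maxElem_ge Sec in
  open Cfsg.Agent.H8 (Op Opp Fit SN) in
  open Cfsg.Agent.L (FPF) in focus
    obtain rfl : t = Matrix.SpecialLinearGroup.transvection hij c := Subtype.ext ht
    rcases hn with h | ⟨rfl, x, a, b⟩
    · obtain ⟨k, h1, h2⟩ := H4.exists_third (i := i) (j := j) (by simpa)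
      exact ⟨_, _, (H4.commutator_transvection h1.symm h2 hij c 1).trans (by rw [mul_one])⟩
    have := sub_ne_zero.2 b
    refine ⟨Matrix.SpecialLinearGroup.diag2n hij x a, Matrix.SpecialLinearGroup.transvection hij (c / (x ^ 2 - 1)), ?_⟩
    rw [commutatorElement_def, mul_inv_eq_iff_eq_mul, mul_inv_eq_iff_eq_mul]
    ext k l
    fin_cases i <;> fin_cases j <;> first | exact absurd rfl hij | skip
    all_goals fin_cases k <;> fin_cases l <;>
      simp [Matrix.SpecialLinearGroup.coe_mul, Matrix.SpecialLinearGroup.transvection_coe, Matrix.SpecialLinearGroup.diag2n_coe, Matrix.mul_apply, Fin.sum_univ_two] <;> field_simp <;> ring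

end Cfsg.Agent.S0836
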