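import Cfsg.Statements.S0837
import Cfsg.Agent.H4.Bridge2

set_option autoImplicit false
open Cfsg

namespace Cfsg.Agent.S0837

/-- If W ≤ F^n (|F| = q²) is a k-dimensional subspace on which the Hermitian form Σ x_i y_i^q is non-degenerate, then the stabiliser of W in GU_n(q) is isomorphic to GU_k(q) × GU_(n−k)(q). -/
theorem result {F : Type*} [Field F] [Fintype F] {q : ℕ} (hF : Fintype.card F = q ^ 2) (n k : ℕ) (hk : k ≤ n) (W : Submodule F (Fin n → F)) (hWk : Module.finrank F W = k) (hW : ∀ u ∈ W, (∀ v ∈ W, Cfsg.hermForm n F q u v = 0) → u = 0) : Nonempty (↥((Cfsg.stabilizing (Cfsg.glToMat (Fin n) F) (W : Set (Fin n → F))).subgroupOf (Cfsg.GU n F q)) ≃* ↥(Cfsg.GU k F q) × ↥(Cfsg.GU (n - k) F q)) := by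
  open Cfsg.Agent.H4 in
  have hf := unF_nondeg hF n
  have hU : W ⊓ (unF hF n).perp W = ⊥ := eq_bot_iff.2 fun x hx => hW x hx.1 hx.2
  have h1 := hf.finrank_perp W
  obtain ⟨e1⟩ := (CForm.Nondeg.unit_isom (frobq_ne hF) (((unF hF n).res_nondeg_iff).2 hU)
    (unF_nondeg hF k) (by simp [hWk])).nonempty_iso
  obtain ⟨e2⟩ := (CForm.Nondeg.unit_isom (frobq_ne hF) (hf.res_perp hU) (unF_nondeg hF (n - k))
    (by simp at h1 ⊢; omega)).nonempty_iso
  exact ⟨(subEquiv (guEquiv hF n) (L := stab W ⊓ (unF hF n).iso) inf_le_right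
    (fun g => ⟨fun h => ⟨h, (guEquiv hF n g).2⟩, fun h => h.1⟩)).trans ((hf.stabEquiv hU).symm.trans
      ((e1.trans (guEquiv hF k).symm).prodCongr (e2.trans (guEquiv hF (n - k)).symm)))⟩

end Cfsg.Agent.S0837
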