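import Cfsg.Statements.S0839
import Cfsg.Agent.GS.Cj3

set_option autoImplicit false
open Cfsg

namespace Cfsg.Agent.S0839

open Cfsg.Agent.H1

/-- Every transvection t ∈ SL_(n+2)(F) (rank(t − 1) = 1, (t − 1)² = 0) is conjugate in SL_(n+2)(F) to 1 + v·e_0ᵀ for some column vector v with v_0 = 0 (the group A of matrices that are the identity except in the first column below the diagonal); the dimension is written n + 2 ≥ 2. -/
theorem result {F : Type*} [Field F] (n : ℕ) (t : Matrix.SpecialLinearGroup (Fin (n + 2)) F) (ht : Cfsg.IsTransvection (t : Matrix (Fin (n + 2)) (Fin (n + 2)) F)) : ∃ (g : Matrix.SpecialLinearGroup (Fin (n + 2)) F) (v : Fin (n + 2) → F), v 0 = 0 ∧ ((g⁻¹ * t * g : Matrix.SpecialLinearGroup (Fin (n + 2)) F) : Matrix (Fin (n + 2)) (Fin (n + 2)) F) = 1 + Matrix.vecMulVec v (Pi.single 0 1) := by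
  open Subgroup Pointwise commutatorElement Cfsg.Agent.BG Cfsg.Agent.GS in
  open Cfsg.Agent.H2 hiding card_lt_of_lt card_lt_of_ne_top isMulCommutative_of_le isPGroup_zpowers_iff mem_of_pow_mem_of_coprime inf_eq_bot_of_cop exists_maxElem_ge Sec in
  open Cfsg.Agent.H8 (Op Opp Fit SN) in
  open Cfsg.Agent.L (FPF) in focus
    obtain ⟨g, hg⟩ := (IsTransvection.isConj ht (Fin.zero_ne_one (n := n)).symm).symm
    let d : Matrix (Fin (n + 2)) (Fin (n + 2)) F := Matrix.diagonal (Pi.mulSingle 1 g.1.det⁻¹)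
    have := Matrix.GeneralLinearGroup.det_ne_zero g
    obtain ⟨x, hx⟩ : ∃ x : Matrix.SpecialLinearGroup (Fin (n + 2)) F, x.1 = g.1 * d := ⟨⟨g.1 * d, by simp [d, this]⟩, rfl⟩
    refine ⟨x, Pi.single 1 g.1.det, by simp, ?_⟩
    have e : t.1 * x.1 = x.1 * (1 + Matrix.vecMulVec (Pi.single 1 g.1.det) (Pi.single 0 1)) := by
      rw [hx, ← mul_assoc, ← hg.eq, mul_assoc, mul_assoc]
      simp only [d, mul_add, add_mul, mul_one, one_mul, add_right_inj]
      congr 1; ext i j
      simp only [Matrix.diagonal_mul, Matrix.mul_diagonal, Matrix.single_apply, Matrix.vecMulVec_apply, Pi.single_apply]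
      by_cases a : 1 = i <;> by_cases b : 0 = j
      · simp [← a, ← b, this]
      all_goals simp [a, b, eq_comm (b := (1 : Fin (n + 2))), eq_comm (b := (0 : Fin (n + 2)))]
    rw [mul_assoc, Matrix.SpecialLinearGroup.coe_mul, Matrix.SpecialLinearGroup.coe_mul, e, ← mul_assoc, ← Matrix.SpecialLinearGroup.coe_mul]
    simp

end Cfsg.Agent.S0839
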