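import Cfsg.Statements.S0841
import Cfsg.Agent.H3.Misc

set_option autoImplicit false
open Cfsg

namespace Cfsg.Agent.S0841

open Cfsg.Agent.H3
open scoped commutatorElement

/-- If the commutator subgroup of G lies in the centre, then for all x, y in G and every natural number n one has (x * y) ^ n = x ^ n * y ^ n * c ^ (n * (n - 1) / 2) with c = y⁻¹ * x⁻¹ * y * x. -/
theorem result {G : Type*} [Group G] (hG : commutator G ≤ Subgroup.center G) (x y : G) (n : ℕ) : (x * y) ^ n = x ^ n * y ^ n * (y⁻¹ * x⁻¹ * y * x) ^ (n * (n - 1) / 2) := by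
  have h : y⁻¹ * x⁻¹ * y * x ∈ Subgroup.center G := hG (by
    simpa [commutatorElement_def, commutator_def] using
      Subgroup.commutator_mem_commutator (Subgroup.mem_top y⁻¹) (Subgroup.mem_top x⁻¹))
  rw [← Nat.choose_two_right]
  exact L.mul_pow_of_central_commutator (by group) (Subgroup.mem_center_iff.1 h x)
    (Subgroup.mem_center_iff.1 h y) n

end Cfsg.Agent.S0841
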