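import Cfsg.Statements.S0842
import Cfsg.Agent.B.ZStar

set_option autoImplicit false
open Cfsg

namespace Cfsg.Agent.S0842

open Cfsg.Agent Cfsg.Agent.B Cfsg.Agent.H2 Cfsg.Agent.H3 Cfsg.Agent.L Subgroup MonoidAlgebra
open scoped Pointwise commutatorElement

/-- Suppose a Sylow 2-subgroup S of the finite group G is generalized quaternion of order at least 16, and let D be the commutator subgroup of S, C its centralizer and N its normalizer in G. Then there is a subgroup K of odd order, contained in C and normalized by N, with K ⊔ S = N and K ⊔ (S ⊓ C) = C, and C has index 2 in N. -/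
theorem result {G : Type*} [Group G] [Finite G] (S : Sylow 2 G) (n : ℕ) (e : (S : Subgroup G) ≃* QuaternionGroup (2 ^ (n + 2))) (D : Subgroup G) (hD : D = ⁅(S : Subgroup G), (S : Subgroup G)⁆) : ∃ K : Subgroup G, Odd (Nat.card K) ∧ K ≤ Subgroup.centralizer (D : Set G) ∧ Subgroup.normalizer (D : Set G) ≤ Subgroup.normalizer (K : Set G) ∧ K ⊔ (S : Subgroup G) = Subgroup.normalizer (D : Set G) ∧ K ⊔ ((S : Subgroup G) ⊓ Subgroup.centralizer (D : Set G)) = Subgroup.centralizer (D : Set G) ∧ ((Subgroup.centralizer (D : Set G)).subgroupOf (Subgroup.normalizer (D : Set G))).index = 2 := by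
  obtain ⟨a, b, h⟩ := exists_qP (Nat.two_pow_pos _) e
  have hP := sylIn_top S
  have hy : a ^ 2 ∈ zpowers a := pow_mem (mem_zpowers a) 2
  rw [hD, h.commutator_eq]
  refine ⟨resOf 2 (centralizer (zpowers (a ^ 2) : Set G)), Nat.coprime_two_right.1
    (pNil_iff_card.1 (h.pNil_centralizer hP hy h.sq_mul_sq_ne)), resOf_le _ _,
    (H8.normalizer_le_normalizer_centralizer _).trans (normalizer_le_normalizer_resOf _ _),
    h.resOf_sup hP hy, ?_, h.relIndex_centralizer hP hy h.sq_mul_sq_ne⟩
  rw [h.inf_centralizer hy h.sq_mul_sq_ne]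
  exact (h.sylIn_centralizer hP hy h.sq_mul_sq_ne).resOf_sup

end Cfsg.Agent.S0842
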