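import Cfsg.Statements.S0844
import Cfsg.Agent.B.ZStar

set_option autoImplicit false
open Cfsg

namespace Cfsg.Agent.S0844

open Cfsg.Agent Cfsg.Agent.B Cfsg.Agent.H2 Cfsg.Agent.H3 Cfsg.Agent.L Subgroup MonoidAlgebra
open scoped Pointwise commutatorElement

/-- Suppose a Sylow 2-subgroup S of the finite group G is generalized quaternion of order at least 16. Then G has two non-principal irreducible characters χ₁ and χ₂ with χ₁ 1 = χ₂ 1 + 1 such that χ₁ g - χ₂ g = 1 for every element g whose order is not divisible by 4. -/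
theorem result {G : Type*} [Group G] [Fintype G] (S : Sylow 2 G) (n : ℕ) (e : (S : Subgroup G) ≃* QuaternionGroup (2 ^ (n + 2))) : ∃ χ₁ χ₂ : G → ℂ, Cfsg.IsIrrCharacter G χ₁ ∧ Cfsg.IsIrrCharacter G χ₂ ∧ χ₁ ≠ (fun _ => 1) ∧ χ₂ ≠ (fun _ => 1) ∧ χ₁ 1 = χ₂ 1 + 1 ∧ ∀ g : G, ¬ 4 ∣ orderOf g → χ₁ g - χ₂ g = 1 := by
  obtain ⟨a, b, h⟩ := exists_qP (Nat.two_pow_pos _) e
  obtain ⟨α, β, hα, hβ, h1, h2, h3⟩ := exists_three_of_quaternion h (sylIn_top S)
  have h0 := (isIrrCharacter_one (G := G)).inner_self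
  have key : ∀ α β : G → ℂ, IsIrrCharacter G (-α) → IsIrrCharacter G β →
      classInner α (fun _ => 1) = 0 → classInner β (fun _ => 1) = 0 →
      (∀ g, ¬ 4 ∣ orderOf g → 1 + α g + β g = 0) → ∃ χ₁ χ₂ : G → ℂ, IsIrrCharacter G χ₁ ∧
        IsIrrCharacter G χ₂ ∧ χ₁ ≠ (fun _ => 1) ∧ χ₂ ≠ (fun _ => 1) ∧ χ₁ 1 = χ₂ 1 + 1 ∧
        ∀ g : G, ¬ 4 ∣ orderOf g → χ₁ g - χ₂ g = 1 := by
    intro α β hα hβ h1 h2 h3
    refine ⟨-α, β, hα, hβ, fun e => ?_, fun e => by simp [e, h0] at h2, ?_, fun g hg => ?_⟩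
    · rw [← neg_neg α, e, classInner_neg_left, h0] at h1
      simp at h1
    · rw [Pi.neg_apply]; linear_combination -h3 1 (by simp)
    · rw [Pi.neg_apply]; linear_combination -h3 g hg
  have h4 := h3 1 (by simp)
  rcases hα with hα | hα <;> rcases hβ with hβ | hβ
  · have := congrArg Complex.re h4
    have h5 := hα.re_apply_one_pos
    have h6 := hβ.re_apply_one_pos
    simp at this
    linarith
  · exact key β α hβ hα h2 h1 fun g hg => by linear_combination h3 g hg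
  · exact key α β hα hβ h1 h2 h3
  · obtain ⟨m, h5, h6⟩ := hα.exists_pos_degree
    obtain ⟨k, h7, h8⟩ := hβ.exists_pos_degree
    rw [Pi.neg_apply] at h6 h8
    have : ((m + k : ℕ) : ℂ) = (1 : ℕ) := by push_cast; linear_combination -h4 - h6 - h8
    have := Nat.cast_injective this
    omega

end Cfsg.Agent.S0844
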