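import Cfsg.Statements.S0845
import Cfsg.Agent.S0844
import Cfsg.Agent.B.ZStar

set_option autoImplicit false
open Cfsg

namespace Cfsg.Agent.S0845

open Cfsg.Agent Cfsg.Agent.B Cfsg.Agent.H2 Cfsg.Agent.H3 Cfsg.Agent.L Subgroup MonoidAlgebra
open scoped Pointwise commutatorElement

/-- Suppose a Sylow 2-subgroup S of the finite group G is generalized quaternion of order at least 16. Then G has a normal subgroup M of even order such that G / M is non-abelian, that is, M does not contain the commutator subgroup of G. -/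
theorem result {G : Type*} [Group G] [Finite G] (S : Sylow 2 G) (n : ℕ) (e : (S : Subgroup G) ≃* QuaternionGroup (2 ^ (n + 2))) : ∃ M : Subgroup G, M.Normal ∧ Even (Nat.card M) ∧ ¬ commutator G ≤ M := by
  have := Fintype.ofFinite G
  obtain ⟨a, b, h⟩ := exists_qP (Nat.two_pow_pos _) e
  obtain ⟨χ, ψ, h1, h2, -, -, h3, h4⟩ := S0844.result S n e
  have h5 := eq_of_three (α := -χ) (β := ψ) (t := a ^ 2 ^ (n + 2)) h1.isSIrr.neg h2.isSIrr
    (fun x => by
      rw [Pi.neg_apply]
      linear_combination -h4 _ fun e => h.odd_mul (sylIn_top S) (ord2_conj h.ord_t x) h.ord_t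
        ((show 2 ∣ 4 by decide).trans e))
    (by rw [Pi.neg_apply, h3]; ring) (by
      rw [Pi.neg_apply, ← h4 (a ^ 2 ^ (n + 2)) (by rw [h.ord_t]; decide)]; ring)
  refine ⟨charKer χ, h1.isClassFunction.charKer_normal, even_card_of_ord2_mem
    (h1.mem_charKer_iff.2 (neg_injective h5)) h.ord_t, fun e => h2.apply_one_ne_zero ?_⟩
  rw [h1.degree_eq_one_iff.2 e] at h3
  linear_combination -h3

end Cfsg.Agent.S0845
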