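import Cfsg.Statements.S0846
import Cfsg.Agent.B.ZStar

set_option autoImplicit false
open Cfsg

namespace Cfsg.Agent.S0846

open Cfsg.Agent Cfsg.Agent.B Cfsg.Agent.H2 Cfsg.Agent.H3 Cfsg.Agent.L Subgroup MonoidAlgebra
open scoped Pointwise commutatorElement

/-- Suppose a Sylow 2-subgroup S of the finite group G is generalized quaternion of order at least 16. Then every Sylow 2-subgroup of the subgroup generated by the involutions of G is cyclic. -/
theorem result {G : Type*} [Group G] [Finite G] (S : Sylow 2 G) (n : ℕ) (e : (S : Subgroup G) ≃* QuaternionGroup (2 ^ (n + 2))) (Q : Sylow 2 ↥(Subgroup.closure {g : G | orderOf g = 2})) : IsCyclic Q := by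
  obtain ⟨a, b, h⟩ := exists_qP (Nat.two_pow_pos _) e
  have hP := sylIn_top S
  let f := QuotientGroup.mk' (pPrimeCore 2 G)
  have h1 : closure {g : G | orderOf g = 2} ≤ (zpowers (f (a ^ 2 ^ (n + 2)))).comap f := by
    refine (closure_le _).2 fun s hs => ?_
    obtain ⟨c, hc⟩ := exists_conj_mem_sylow S (k := 1) hs
    rw [← h.eq_t hc (ord2_conj hs c), SetLike.mem_coe, mem_comap, show f (c * s * c⁻¹) = f s from ?_]
    · exact mem_zpowers _
    · rw [← mul_inv_eq_one, ← map_inv, ← map_mul]
      exact (QuotientGroup.eq_one_iff _).2 (zstar (h.isolated hP hs) c)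
  let g : Q →* zpowers (f (a ^ 2 ^ (n + 2))) :=
    (f.comp ((Subgroup.subtype _).comp (Q : Subgroup _).subtype)).codRestrict _ fun x => h1 x.1.2
  refine isCyclic_of_injective g ((injective_iff_map_eq_one g).2 fun x hx => ?_)
  have h2 : (x.1 : G) ∈ pPrimeCore 2 G := (QuotientGroup.eq_one_iff _).1 (congrArg Subtype.val hx)
  exact Subtype.ext (Subtype.ext ((pElt_coe.2 (pElt_of_mem Q.2 x.2)).eq_one
    (reg_of_mem (not_dvd_card_pPrimeCore Nat.prime_two) h2)))

end Cfsg.Agent.S0846
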