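import Cfsg.Statements.S0848
import Mathlib
import Cfsg.Agent.H7.BSW4

set_option autoImplicit false
open Cfsg

namespace Cfsg.Agent.S0848

open Cfsg.Agent.H7 Subgroup

/-- If a finite group equals its own commutator subgroup and contains an involution whose centralizer is isomorphic to the dihedral group of order 8, then the group has order 168 or 360. -/
theorem result {G : Type*} [Group G] [Finite G] (hperf : commutator G = ⊤) (t : G) (ht : orderOf t = 2) (e : Subgroup.centralizer ({t} : Set G) ≃* DihedralGroup 4) : Nat.card G = 168 ∨ Nat.card G = 360 := by
  obtain ⟨q, h1, h2, -⟩ := d8_psl ht e fun H hH => not_normal_pow_index hperf Nat.prime_two one_ne_zero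
    ⟨H, normal_of_index_eq_two hH, hH⟩
  rcases h1 with rfl | rfl <;> omega

end Cfsg.Agent.S0848
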