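import Cfsg.Statements.S0849
import Cfsg.Agent.H3.Misc

set_option autoImplicit false
open Cfsg

namespace Cfsg.Agent.S0849

open Cfsg.Agent.H3
open scoped commutatorElement

/-- Let H be a subgroup of a finite group G and S a subset of H that is mapped to itself under conjugation by H, is disjoint from its conjugate by any element outside H, and is closed under inverses. Let φ be a class function of H vanishing on H away from S, and let u, v be involutions of G. Then the sum of the induced function of φ over all products a * b with a conjugate to u and b conjugate to v equals the index of H times the sum of φ (a * b) over such pairs with a and b in H. -/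
theorem result {G : Type*} [Group G] [Fintype G] (H : Subgroup G) (S : Set G) (hSH : S ⊆ H) (hHS : ∀ h ∈ H, ∀ s ∈ S, h * s * h⁻¹ ∈ S) (hTI : ∀ g : G, g ∉ H → ∀ s ∈ S, g * s * g⁻¹ ∉ S) (hinv : ∀ s ∈ S, s⁻¹ ∈ S) (φ : H → ℂ) (hφ : Cfsg.IsClassFunction H φ) (hφS : ∀ x : H, (x : G) ∉ S → φ x = 0) (u v : G) (hu : orderOf u = 2) (hv : orderOf v = 2) : ∑ᶠ p ∈ {p : G × G | IsConj u p.1 ∧ IsConj v p.2}, Cfsg.indFun H φ (p.1 * p.2) = (H.index : ℂ) * ∑ᶠ p ∈ {p : H × H | IsConj u (p.1 : G) ∧ IsConj v (p.2 : G)}, φ (p.1 * p.2) := by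
  classical
  have := Fintype.ofFinite H
  rw [finsum_mem_eq_finite_toFinset_sum _ (Set.toFinite _),
    finsum_mem_eq_finite_toFinset_sum _ (Set.toFinite _)]
  set A := (Set.toFinite {p : G × G | IsConj u p.1 ∧ IsConj v p.2}).toFinset with hA
  have h1 : ∀ x : G, ∑ p ∈ A, extendByZero H φ (x * (p.1 * p.2) * x⁻¹) =
      ∑ p ∈ A, extendByZero H φ (p.1 * p.2) := fun x =>
    Finset.sum_equiv ((MulAut.conj x).toEquiv.prodCongr (MulAut.conj x).toEquiv) (fun p => by
      have : ∀ a b : G, IsConj a (x * b * x⁻¹) ↔ IsConj a b := fun a b =>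
        ⟨fun h => h.trans (isConj_iff.2 ⟨x, rfl⟩).symm, fun h => h.trans (isConj_iff.2 ⟨x, rfl⟩)⟩
      simp only [A, Set.Finite.mem_toFinset, Set.mem_setOf_eq, Equiv.prodCongr_apply, Prod.map,
        MulEquiv.toEquiv_eq_coe, EquivLike.coe_coe, MulAut.conj_apply, this])
      fun p _ => by simp [mul_assoc]
  have h2 : ∑ p ∈ A, extendByZero H φ (p.1 * p.2) = ∑ p ∈ (Set.toFinite
      {p : H × H | IsConj u (p.1 : G) ∧ IsConj v (p.2 : G)}).toFinset, φ (p.1 * p.2) := by
    symm
    refine Finset.sum_bij_ne_zero (fun p _ _ => ((p.1 : G), (p.2 : G))) (fun p hp _ => ?_)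
      (fun p _ _ q _ _ h => Prod.ext (Subtype.ext (congrArg Prod.fst h))
        (Subtype.ext (congrArg Prod.snd h))) (fun p hp h => ?_) fun p _ _ => ?_
    · simpa [A] using hp
    · have h2 : p.1 * p.2 ∈ H := by
        by_contra h2; exact h (extendByZero_of_not_mem _ h2)
      rw [extendByZero_of_mem _ h2] at h
      have h3 : p.1 * p.2 ∈ S := by by_contra h3; exact h (hφS _ h3)
      have hp' : IsConj u p.1 ∧ IsConj v p.2 := by simpa only [A, Set.Finite.mem_toFinset, Set.mem_setOf_eq] using hp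
      have h4 : ∀ a b : G, orderOf a = 2 → IsConj a b → b⁻¹ = b := fun a b ha hab => by
        obtain ⟨c, rfl⟩ := isConj_iff.1 hab
        rw [inv_eq_iff_mul_eq_one, ← sq, conj_pow, ← ha, pow_orderOf_eq_one]; simp
      have h5 : p.1 ∈ H := by
        by_contra h5
        refine hTI _ h5 _ (hinv _ h3) ?_
        rwa [mul_inv_rev, h4 _ _ hv hp'.2, mul_assoc, mul_assoc, h4 _ _ hu hp'.1,
          show p.1 * p.1 = 1 from inv_eq_iff_mul_eq_one.1 (h4 _ _ hu hp'.1), mul_one]
      have h6 : p.2 ∈ H := by simpa using H.mul_mem (H.inv_mem h5) h2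
      exact ⟨(⟨_, h5⟩, ⟨_, h6⟩), by
        simpa only [Set.Finite.mem_toFinset, Set.mem_setOf_eq] using hp', h, rfl⟩
    · rw [← Subgroup.coe_mul, extendByZero_coe]
  simp only [indFun_apply', ← Finset.mul_sum]
  rw [Finset.sum_comm, Finset.sum_congr rfl fun x _ => h1 x, h2, Finset.sum_const, Finset.card_univ,
    ← Nat.card_eq_fintype_card, ← H.index_mul_card, nsmul_eq_mul]
  have := card_ne_zero (G := H)
  push_cast; field_simp

end Cfsg.Agent.S0849
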