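import Cfsg.Statements.S0850
import Cfsg.Agent.H3.Misc

set_option autoImplicit false
open Cfsg

namespace Cfsg.Agent.S0850

open Cfsg.Agent.H3
open scoped commutatorElement

/-- Let K be a subgroup of the finite group G that meets each conjugate by an element outside its normalizer N trivially, is properly contained in N, and contains the centralizer of each of its non-identity elements (a T.I. subgroup with Frobenius normalizer). Then no element of N outside K is conjugate in G to an element of K, and for every class function ϑ of N that vanishes on N away from K and at the identity, the function induced from ϑ to G agrees with ϑ on all of N. -/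
theorem result {G : Type*} [Group G] [Fintype G] (K : Subgroup G) (hTI : ∀ g : G, g ∉ Subgroup.normalizer (K : Set G) → ∀ k ∈ K, g * k * g⁻¹ ∈ K → k = 1) (hlt : K < Subgroup.normalizer (K : Set G)) (hC : ∀ k ∈ K, k ≠ 1 → Subgroup.centralizer ({k} : Set G) ≤ K) : (∀ x ∈ Subgroup.normalizer (K : Set G), x ∉ K → ∀ g : G, g * x * g⁻¹ ∉ K) ∧ ∀ (ϑ : Subgroup.normalizer (K : Set G) → ℂ), Cfsg.IsClassFunction (Subgroup.normalizer (K : Set G)) ϑ → (∀ x : Subgroup.normalizer (K : Set G), (x : G) ∉ K → ϑ x = 0) → ϑ 1 = 0 → ∀ x : Subgroup.normalizer (K : Set G), Cfsg.indFun (Subgroup.normalizer (K : Set G)) ϑ x = ϑ x := by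
  classical
  have h0 : Nat.Coprime (Nat.card (K.subgroupOf (Subgroup.normalizer (K : Set G))))
      (K.subgroupOf (Subgroup.normalizer (K : Set G))).index :=
    coprime_of_centralizer_le fun n hn h1 y hy => hC n hn (fun h => h1 (Subtype.ext h))
      (Subgroup.mem_centralizer_singleton_iff.2
        (congrArg Subtype.val (Subgroup.mem_centralizer_singleton_iff.1 hy)))
  rw [Nat.card_congr (Subgroup.subgroupOfEquivOfLe Subgroup.le_normalizer).toEquiv] at h0
  have h1 : ∀ x ∈ Subgroup.normalizer (K : Set G), x ∉ K → ∀ g : G, g * x * g⁻¹ ∉ K :=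
    fun x hx hxK g hg => hxK (L.mem_of_coprime_index (N := K.subgroupOf _) (g := ⟨x, hx⟩)
      (h0.coprime_dvd_left (by
        rw [← Subgroup.orderOf_coe, ← (MulAut.conj g).orderOf_eq]
        exact K.orderOf_dvd_natCard hg)))
  refine ⟨h1, fun ϑ hϑ h2 h3 x => ?_⟩
  by_cases hx : (x : G) ∈ K
  · by_cases hx1 : x = 1
    · rw [hx1, OneMemClass.coe_one, indFun_one, h3, mul_zero]
    · exact indFun_eq_of_TI_set (S := K) hTI hϑ (fun y hy _ => h2 y hy) x hx hx1
  · rw [h2 x hx]
    exact indFun_eq_zero_of_forall _ fun g hg => h2 _ (h1 x x.2 hx g)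

end Cfsg.Agent.S0850
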