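import Cfsg.Statements.S0851
import Mathlib
import Cfsg.Agent.H2.TIF

set_option autoImplicit false
open Cfsg

namespace Cfsg.Agent.S0851

open Cfsg.Agent.H3 Cfsg.Agent.H2.TIF Subgroup

/-- Let K be a subgroup of the finite group G that meets each conjugate by an element outside its normalizer N trivially, is properly contained in N, and contains the centralizer of each of its non-identity elements (a T.I. subgroup with Frobenius normalizer). Suppose K is abelian, let e be the index of K in N, and call an irreducible character of N relevant when it takes at some element of K a value different from its degree. Then either there is exactly one relevant character and K is an elementary abelian p-group of order e + 1 for some prime p, or there are a sign ε and an injective map f from the relevant characters to the irreducible characters of G such that inducing χ - ξ to G gives ε (f χ - f ξ) for all relevant χ and ξ. -/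
theorem result {G : Type*} [Group G] [Fintype G] (K : Subgroup G) (hTI : ∀ g : G, g ∉ Subgroup.normalizer (K : Set G) → ∀ k ∈ K, g * k * g⁻¹ ∈ K → k = 1) (hlt : K < Subgroup.normalizer (K : Set G)) (hC : ∀ k ∈ K, k ≠ 1 → Subgroup.centralizer ({k} : Set G) ≤ K) (hab : ∀ a ∈ K, ∀ b ∈ K, a * b = b * a) : (Nat.card {χ : Cfsg.IrrCharacter (Subgroup.normalizer (K : Set G)) // ∃ k : Subgroup.normalizer (K : Set G), (k : G) ∈ K ∧ (χ : ↥(Subgroup.normalizer (K : Set G)) → ℂ) k ≠ (χ : ↥(Subgroup.normalizer (K : Set G)) → ℂ) 1} = 1 ∧ ∃ p : ℕ, p.Prime ∧ Cfsg.IsElementaryAbelian p K ∧ Nat.card K = (K.subgroupOf (Subgroup.normalizer (K : Set G))).index + 1) ∨ ∃ (ε : ℂ) (f : {χ : Cfsg.IrrCharacter (Subgroup.normalizer (K : Set G)) // ∃ k : Subgroup.normalizer (K : Set G), (k : G) ∈ K ∧ (χ : ↥(Subgroup.normalizer (K : Set G)) → ℂ) k ≠ (χ : ↥(Subgroup.normalizer (K : Set G)) → ℂ) 1} → Cfsg.IrrCharacter G), (ε = 1 ∨ ε = -1) ∧ Function.Injective f ∧ ∀ χ ξ, Cfsg.indFun (Subgroup.normalizer (K : Set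 G)) ((χ.1 : ↥(Subgroup.normalizer (K : Set G)) → ℂ) - (ξ.1 : ↥(Subgroup.normalizer (K : Set G)) → ℂ)) = ε • ((f χ : G → ℂ) - (f ξ : G → ℂ)) := by
  classical
  right
  haveI := Fintype.ofFinite (normalizer (K : Set G))
  rcases isEmpty_or_nonempty {χ : IrrCharacter (normalizer (K : Set G)) // ∃ k : normalizer (K : Set G), (k : G) ∈ K ∧
    (χ : normalizer (K : Set G) → ℂ) k ≠ (χ : normalizer (K : Set G) → ℂ) 1} with h | ⟨⟨i₀⟩⟩
  · exact ⟨1, isEmptyElim, .inl rfl, fun a => isEmptyElim a, fun a => isEmptyElim a⟩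
  haveI : IsMulCommutative (K.subgroupOf (normalizer (K : Set G))) :=
    ⟨⟨fun a b => Subtype.ext (Subtype.ext (hab _ a.2 _ b.2))⟩⟩
  have dg : ∀ χ : normalizer (K : Set G) → ℂ, IsIrrCharacter _ χ →
      (∃ k : normalizer (K : Set G), (k : G) ∈ K ∧ χ k ≠ χ 1) → χ 1 = (K.subgroupOf (normalizer (K : Set G))).index :=
    fun χ h1 h2 => by
      obtain ⟨θ, t1, -, rfl⟩ := rel hC h1 h2
      rw [indFun_one, t1.degree_eq_one_of_comm, mul_one]
  obtain ⟨ε, h1, μ, h2, h3, h4⟩ := exists_exceptional i₀ (fun i => indFun (normalizer (K : Set G)) (i.1.1 - i₀.1.1))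
    (by rw [sub_self, indFun_zero]) (fun i => (i.1.2.isCharacter.isGen.sub i₀.1.2.isCharacter.isGen).ind)
    (fun i => by rw [indFun_one, Pi.sub_apply, dg _ i.1.2 i.2, dg _ i₀.1.2 i₀.2, sub_self, mul_zero])
    fun i j hi hj => by
      rw [classInner_indFun_of_TI (S := K) hTI (j.1.2.isClassFunction.sub i₀.1.2.isClassFunction)
        (fun x hx _ => by rw [Pi.sub_apply, van hC j.1.2 j.2 x hx, van hC i₀.1.2 i₀.2 x hx, sub_self])
        (fun x hx _ => by rw [Pi.sub_apply, van hC i.1.2 i.2 x hx, van hC i₀.1.2 i₀.2 x hx, sub_self])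
        (by rw [Pi.sub_apply, dg _ i.1.2 i.2, dg _ i₀.1.2 i₀.2, sub_self]), classInner_sub_left, classInner_sub_right,
        classInner_sub_right, i₀.1.2.inner_self, i.1.2.inner_of_ne i₀.1.2 fun e => hi (Subtype.ext (Subtype.ext e)),
        i₀.1.2.inner_of_ne j.1.2 fun e => hj (Subtype.ext (Subtype.ext e.symm))]
      split_ifs with e
      · rw [e, j.1.2.inner_self]; norm_num
      · rw [i.1.2.inner_of_ne j.1.2 fun e' => e (Subtype.ext (Subtype.ext e'))]; norm_num
  refine ⟨ε, fun i => ⟨μ i, h2 i⟩, h1, fun i j e => h3 (congrArg Subtype.val e), fun χ ξ => ?_⟩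
  rw [← sub_sub_sub_cancel_right _ _ i₀.1.1, indFun_sub, h4 χ, h4 ξ, ← smul_sub, sub_sub_sub_cancel_right]

end Cfsg.Agent.S0851
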