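import Cfsg.Statements.S0852
import Mathlib
import Cfsg.Agent.H2.TIF

set_option autoImplicit false
open Cfsg

namespace Cfsg.Agent.S0852

open Cfsg.Agent.H3 Cfsg.Agent.H2.TIF Subgroup

/-- Let K be a subgroup of the finite group G that meets each conjugate by an element outside its normalizer N trivially, is properly contained in N, and contains the centralizer of each of its non-identity elements (a T.I. subgroup with Frobenius normalizer). Let S be the set of irreducible characters of N taking at some element of K a value different from their degree, suppose S has at least two members, and let star be a linear isometry on the integer span of S into the generalized characters of G that agrees with induction on the members vanishing at the identity (so S is coherent, with star as the extending isometry). Then an irreducible character ψ of G is of the form star χ or -star χ for some χ in S if and only if ψ is not constant on the non-identity elements of K. -/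
theorem result {G : Type*} [Group G] [Fintype G] (K : Subgroup G) (hTI : ∀ g : G, g ∉ Subgroup.normalizer (K : Set G) → ∀ k ∈ K, g * k * g⁻¹ ∈ K → k = 1) (hlt : K < Subgroup.normalizer (K : Set G)) (hC : ∀ k ∈ K, k ≠ 1 → Subgroup.centralizer ({k} : Set G) ≤ K) [Fintype ↥(Subgroup.normalizer (K : Set G))] (S : Set (↥(Subgroup.normalizer (K : Set G)) → ℂ)) (hS : S = {χ : ↥(Subgroup.normalizer (K : Set G)) → ℂ | Cfsg.IsIrrCharacter ↥(Subgroup.normalizer (K : Set G)) χ ∧ ∃ k : ↥(Subgroup.normalizer (K : Set G)), (k : G) ∈ K ∧ χ k ≠ χ 1}) (htwo : ∃ χ ∈ S, ∃ ξ ∈ S, χ ≠ ξ) (star : (↥(Subgroup.normalizer (K : Set G)) → ℂ) → (G → ℂ)) (hstar : Cfsg.IsLinearIsometryOn (Cfsg.zspan S) star) (hext : ∀ α ∈ Cfsg.zspanOn S ({1}ᶜ : Set ↥(Subgroup.normalizer (K : Set G))), star α = Cfsg.indFun (Subgroup.normalizer (K : Set G)) α) (ψ : G → ℂ) (hψ : Cfsg.IsIrrCharacter G ψ) : (∃ χ ∈ S, ψ = star χ ∨ ψ = -star χ) ↔ ∃ a ∈ K, ∃ b ∈ K, a ≠ 1 ∧ b ≠ 1 ∧ ψ a ≠ ψ b := by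
  classical
  have hI : ∀ χ ∈ S, IsIrrCharacter _ χ := fun χ h => (hS.le h).1
  have sp : ∀ χ ∈ S, χ ∈ zspan S := fun χ h => Submodule.subset_span h
  constructor
  · rintro ⟨χ, hχ, h⟩
    by_contra! h0
    obtain ⟨ξ, hξ, hne⟩ : ∃ ξ ∈ S, χ ≠ ξ := by
      obtain ⟨a, ha, b, hb, e⟩ := htwo
      by_contra! h
      exact e ((h a ha).symm.trans (h b hb))
    obtain ⟨k, hk, k1⟩ := (hS.le hχ).2
    have k2 : k ≠ 1 := fun e => k1 (e ▸ rfl)
    have h1 : ∀ x : normalizer (K : Set G), (x : G) ∈ K → x ≠ 1 → χ x = χ k := fun x hx x1 => by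
      have a := ratio hS hstar hext hχ (hstar.2.2.2 _ (sp _ hχ)).isClassFunction (hI _ hχ).isClassFunction
        (fun ξ hξ => hstar.2.2.1 _ (sp _ hχ) _ (sp _ hξ)) hx hk x1 k2
      have b := h0 x hx k hk (fun e => x1 (Subtype.ext e)) fun e => k2 (Subtype.ext e)
      rcases h with rfl | rfl
      · linear_combination b - a
      · simp only [Pi.neg_apply] at b
        linear_combination -b - a
    have h2 : classInner χ (al χ ξ) = classInner (χ k • fun _ => 1) (al χ ξ) := by
      simp only [classInner_def]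
      congr 1
      refine Finset.sum_congr rfl fun x _ => ?_
      by_cases x1 : x = 1
      · rw [x1, al_one (hI _ hχ) (hI _ hξ)]; simp
      by_cases hx : (x : G) ∈ K
      · rw [h1 x hx x1]; simp
      · rw [al_apply (hI _ hχ) (hI _ hξ), van hC (hI _ hχ) (hS.le hχ).2 x hx, van hC (hI _ hξ) (hS.le hξ).2 x hx]
        simp
    have o : ∀ χ ∈ S, classInner (fun _ => 1) χ = 0 := fun χ h => isIrrCharacter_one.inner_of_ne (hI _ h) fun e => by
      obtain ⟨k, -, k1⟩ := (hS.le h).2
      exact k1 (e ▸ rfl)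
    rw [classInner_smul_left, al, inner_comb, inner_comb, o _ hχ, o _ hξ, (hI _ hχ).inner_self,
      (hI _ hχ).inner_of_ne (hI _ hξ) hne, (hI _ hξ).cast_charDegree] at h2
    exact (hI _ hξ).apply_one_ne_zero (by linear_combination -h2)
  · rintro ⟨a, ha, b, hb, a1, b1, h⟩
    by_contra! h0
    obtain ⟨χ, hχ, -⟩ := htwo
    have := ratio hS hstar hext hχ hψ.isClassFunction (φ := 0) (fun _ _ => rfl) (fun ξ hξ => by
      rw [classInner_zero_left]
      exact hψ.isSIrr.inner_eq_zero ((hstar.2.2.2 _ (sp _ hξ)).isSIrr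
        ((hstar.2.2.1 _ (sp _ hξ) _ (sp _ hξ)).trans (hI _ hξ).inner_self)) (h0 ξ hξ).1 (h0 ξ hξ).2)
      (a := ⟨a, le_normalizer ha⟩) (b := ⟨b, le_normalizer hb⟩) ha hb (fun e => a1 (congrArg Subtype.val e))
      fun e => b1 (congrArg Subtype.val e)
    exact h (by simpa using this)

end Cfsg.Agent.S0852
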