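import Cfsg.Statements.S0853
import Mathlib
import Cfsg.Agent.H2.TIF

set_option autoImplicit false
open Cfsg

namespace Cfsg.Agent.S0853

open Cfsg.Agent.H3 Cfsg.Agent.H2.TIF Subgroup

/-- Let K be a subgroup of the finite group G that meets each conjugate by an element outside its normalizer N trivially, is properly contained in N, and contains the centralizer of each of its non-identity elements (a T.I. subgroup with Frobenius normalizer). Let S be the set of irreducible characters of N taking at some element of K a value different from their degree, suppose S has at least two members, and let star be a linear isometry on the integer span of S into the generalized characters of G that agrees with induction on the members vanishing at the identity (so S is coherent, with star as the extending isometry). Then there is a single integer m such that star χ k - χ k = m * χ 1 / e for every χ in S and every non-identity element k of K, where e is the index of K in N. -/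
theorem result {G : Type*} [Group G] [Fintype G] (K : Subgroup G) (hTI : ∀ g : G, g ∉ Subgroup.normalizer (K : Set G) → ∀ k ∈ K, g * k * g⁻¹ ∈ K → k = 1) (hlt : K < Subgroup.normalizer (K : Set G)) (hC : ∀ k ∈ K, k ≠ 1 → Subgroup.centralizer ({k} : Set G) ≤ K) [Fintype ↥(Subgroup.normalizer (K : Set G))] (S : Set (↥(Subgroup.normalizer (K : Set G)) → ℂ)) (hS : S = {χ : ↥(Subgroup.normalizer (K : Set G)) → ℂ | Cfsg.IsIrrCharacter ↥(Subgroup.normalizer (K : Set G)) χ ∧ ∃ k : ↥(Subgroup.normalizer (K : Set G)), (k : G) ∈ K ∧ χ k ≠ χ 1}) (htwo : ∃ χ ∈ S, ∃ ξ ∈ S, χ ≠ ξ) (star : (↥(Subgroup.normalizer (K : Set G)) → ℂ) → (G → ℂ)) (hstar : Cfsg.IsLinearIsometryOn (Cfsg.zspan S) star) (hext : ∀ α ∈ Cfsg.zspanOn S ({1}ᶜ : Set ↥(Subgroup.normalizer (K : Set G))), star α = Cfsg.indFun (Subgroup.normalizer (K : Set G)) α) : ∃ m : ℤ, ∀ χ ∈ S, ∀ k : ↥(Subgroup.normalizer (K : Set G)), (k : G) ∈ K → k ≠ 1 → star χ k - χ k = (m : ℂ) * χ 1 / ((K.subgroupOf (Subgroup.normalizer (K : Set G))).index : ℂ) := by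
  classical
  have hI : ∀ χ ∈ S, IsIrrCharacter _ χ := fun χ h => (hS.le h).1
  have sp : ∀ χ ∈ S, χ ∈ zspan S := fun χ h => Submodule.subset_span h
  obtain ⟨χ, hχ, -⟩ := htwo
  obtain ⟨k, hk, k1⟩ := (hS.le hχ).2
  have k2 : k ≠ 1 := fun e => k1 (e ▸ rfl)
  have he : ((K.subgroupOf (normalizer (K : Set G))).index : ℂ) ≠ 0 := Nat.cast_ne_zero.2 index_ne_zero_of_finite
  have c1 : ∀ ξ ∈ S, ∀ x : normalizer (K : Set G), (x : G) ∈ K → x ≠ 1 → star ξ x - ξ x = star ξ k - ξ k :=
    fun ξ hξ x hx x1 => ratio hS hstar hext hχ (hstar.2.2.2 _ (sp _ hξ)).isClassFunction (hI _ hξ).isClassFunction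
      (fun η hη => hstar.2.2.1 _ (sp _ hξ) _ (sp _ hη)) hx hk x1 k2
  have c2 : ∀ ξ ∈ S, star ξ k - ξ k = (star χ k - χ k) / χ 1 * ξ 1 := fun ξ hξ => by
    have a := indFun_eq_of_TI_set (S := K) hTI (al_class (hI _ hχ) (hI _ hξ)) (fun x hx _ => by
      rw [al_apply (hI _ hχ) (hI _ hξ), van hC (hI _ hχ) (hS.le hχ).2 x hx, van hC (hI _ hξ) (hS.le hξ).2 x hx]
      simp) k hk k2
    rw [ind_al hI hstar hext hχ hξ, al_apply (hI _ hχ) (hI _ hξ)] at a
    rw [Pi.add_apply, Pi.smul_apply, Pi.smul_apply, zsmul_eq_mul, zsmul_eq_mul, Int.cast_neg, Int.cast_natCast,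
      Int.cast_natCast, (hI _ hχ).cast_charDegree, (hI _ hξ).cast_charDegree] at a
    have := (hI _ hχ).apply_one_ne_zero
    field_simp
    linear_combination a
  obtain ⟨θ₀, t1, t2, -⟩ := rel hC (hI _ hχ) (hS.le hχ).2
  obtain ⟨m, hm⟩ := int_of_deg (x := (star χ k - χ k) / χ 1 * (K.subgroupOf (normalizer (K : Set G))).index) t1 t2
    fun θ h1 h2 => by
      have a := h1.ind_irr_of_frobenius h2 (cent hC)
      have b : indFun _ θ ∈ S := hS.ge ⟨a, by
        by_contra! h
        have := (le_charKer_ind_iff le_rfl h1.isCharacter).1 fun x hx => a.mem_charKer_iff.2 (h x hx)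
        refine h2 (funext fun x => ?_)
        have d : θ = fun _ => θ 1 := funext fun y => h1.mem_charKer_iff.1 (this y.2)
        by_contra e
        have := h1.inner_of_ne isIrrCharacter_one h2
        rw [d, show (fun _ => θ 1) = θ 1 • fun _ : K.subgroupOf (normalizer (K : Set G)) => (1 : ℂ) from
          funext fun _ => by simp, classInner_smul_left, isIrrCharacter_one.inner_self, mul_one] at this
        exact h1.apply_one_ne_zero this⟩
      obtain ⟨n, hn⟩ := (((hstar.2.2.2 _ (sp _ b)).res (normalizer (K : Set G))).sub a.isCharacter.isGen).exists_int_of_pow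
        k fun j hj => c1 _ b _ (K.pow_mem hk j) fun e => k2 (orderOf_eq_one_iff.1 (Nat.eq_one_of_dvd_coprimes hj
          (orderOf_dvd_of_pow_eq_one e) (orderOf_dvd_natCard k)))
      exact ⟨n, by rw [← hn, mul_assoc, ← indFun_one, ← c2 _ b]; rfl⟩
  refine ⟨m, fun ξ hξ x hx x1 => ?_⟩
  rw [c1 ξ hξ x hx x1, c2 ξ hξ, ← hm]
  field_simp

end Cfsg.Agent.S0853
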