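import Cfsg.Statements.S0855
import Cfsg.Agent.H3.Prim
import Cfsg.Agent.H2.PNil

set_option autoImplicit false
open Cfsg

namespace Cfsg.Agent.S0855

open Cfsg.Agent.H3
open scoped commutatorElement

/-- For a finite group G and a prime p: every irreducible character of G has degree a power of p if and only if G has an abelian normal subgroup whose order is prime to p and whose index is a power of p. -/
theorem result {G : Type*} [Group G] [Finite G] (p : ℕ) (hp : p.Prime) : (∀ χ : Cfsg.IrrCharacter G, ∃ k : ℕ, (χ : G → ℂ) 1 = (p : ℂ) ^ k) ↔ ∃ A : Subgroup G, A.Normal ∧ (∀ a ∈ A, ∀ b ∈ A, a * b = b * a) ∧ Nat.Coprime (Nat.card A) p ∧ ∃ k : ℕ, A.index = p ^ k := by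
  classical
  have := Fact.mk hp
  constructor
  · intro h
    let N := pResidual p G
    have hN : N.Normal := inferInstance
    have := Fintype.ofFinite N
    have := Fintype.ofFinite G
    have h1 : ∀ θ : IrrCharacter N, ∃ k, charDegree (θ : N → ℂ) = p ^ k := fun θ => by
      obtain ⟨χ, hχ, h1⟩ := θ.2.exists_over
      obtain ⟨e, h2, -⟩ := hχ.exists_degree_eq θ.2 h1
      obtain ⟨k, hk⟩ := h ⟨χ, hχ⟩
      rw [show χ 1 = _ from hk, ← θ.2.cast_charDegree] at h2
      obtain ⟨j, -, hj⟩ := (Nat.dvd_prime_pow hp).1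
        (Dvd.intro_left e (by exact_mod_cast h2.symm) : charDegree (θ : N → ℂ) ∣ p ^ k)
      exact ⟨j, hj⟩
    have h2 : ¬ p ∣ (commutator N).index := by
      intro h2
      let P : Sylow p N := default
      have h3 : (P : Subgroup N) ≤ commutator N := by
        have h4 := H2.le_commutator_of_resOf_eq (p := p) (K := N) (Q := (P : Subgroup N).map N.subtype)
          (by rw [show N = H2.resOf p ⊤ from (H2.resOf_top p).symm, H2.resOf_resOf])
          (P.isPGroup'.map _) (Subgroup.map_subtype_le _)
        rwa [← Agent.L.map_subtype_commutator',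
          Subgroup.map_le_map_iff_of_injective N.subtype_injective] at h4
      exact P.not_dvd_index (h2.trans (Subgroup.index_dvd_of_le h3))
    have h3 : ¬ p ∣ Nat.card N := by
      intro h3
      rw [← sum_irr_charDegree_sq, ← Finset.sum_filter_add_sum_filter_not Finset.univ
        (fun θ : IrrCharacter N => (θ : N → ℂ) 1 = 1)] at h3
      rw [Finset.sum_congr rfl (g := fun _ => 1) (fun θ hθ => by
        rw [charDegree_eq (n := 1) (by simpa using hθ)]; simp), Finset.sum_const, smul_eq_mul,
        mul_one, ← Fintype.card_subtype, ← Nat.card_eq_fintype_card, card_irr_degree_one] at h3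
      refine h2 ((Nat.dvd_add_left (Finset.dvd_sum fun θ hθ => ?_)).1 h3)
      obtain ⟨k, hk⟩ := h1 θ
      rw [hk]
      refine Dvd.dvd.pow (dvd_pow_self p ?_) two_ne_zero
      rintro rfl
      exact (Finset.mem_filter.1 hθ).2 (by rw [← θ.2.cast_charDegree, hk]; simp)
    refine ⟨N, hN, fun a ha b hb => ?_, (hp.coprime_iff_not_dvd.2 h3).symm, H2.index_pResidual p G⟩
    have h4 : ⁅(⟨a, ha⟩ : N), (⟨b, hb⟩ : N)⁆ = 1 := eq_one_of_forall_irr fun θ hθ => by
      refine apply_of_mem_charKer (hθ.degree_eq_one_iff.1 ?_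
        (Subgroup.commutator_mem_commutator (Subgroup.mem_top _) (Subgroup.mem_top _)))
      obtain ⟨k, hk⟩ := h1 ⟨θ, hθ⟩
      have h5 := hθ.degree_dvd_card
      rw [← hθ.cast_charDegree, hk]
      rw [hk] at h5
      rcases k with _ | k
      · simp
      · exact absurd ((dvd_pow_self p k.succ_ne_zero).trans h5) h3
    exact congrArg Subtype.val (commutatorElement_eq_one_iff_mul_comm.1 h4)
  · rintro ⟨A, hA, h1, -, k, hk⟩ χ
    obtain ⟨j, -, hj⟩ := (Nat.dvd_prime_pow hp).1 (hk ▸ χ.2.degree_dvd_index_of_comm h1)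
    exact ⟨j, by rw [← χ.2.cast_charDegree, hj]; simp⟩

end Cfsg.Agent.S0855
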