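import Cfsg.Statements.S0856
import Cfsg.Agent.H3.Normal

set_option autoImplicit false
open Cfsg

namespace Cfsg.Agent.S0856

open Cfsg.Agent.H3

/-- Let N be a normal subgroup of the finite group G and φ, ϑ irreducible characters of N that are invariant under conjugation by G, such that the pointwise product φ * ϑ is irreducible and ϑ is the restriction of an irreducible character χ of G. Then multiplication by χ is a bijection from the set of irreducible characters of G having nonzero inner product with the function induced from φ onto the set of those having nonzero inner product with the function induced from φ * ϑ. -/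
theorem result {G : Type*} [Group G] [Fintype G] (N : Subgroup G) [hN : N.Normal] (φ ϑ : N → ℂ) (hφ : Cfsg.IsIrrCharacter N φ) (hϑ : Cfsg.IsIrrCharacter N ϑ) (hφinv : ∀ (g : G) (n : N), φ ⟨g * n * g⁻¹, hN.conj_mem (n : G) n.2 g⟩ = φ n) (hϑinv : ∀ (g : G) (n : N), ϑ ⟨g * n * g⁻¹, hN.conj_mem (n : G) n.2 g⟩ = ϑ n) (hprod : Cfsg.IsIrrCharacter N (φ * ϑ)) (χ : G → ℂ) (hχ : Cfsg.IsIrrCharacter G χ) (hext : ∀ n : N, χ n = ϑ n) : Set.BijOn (fun β : G → ℂ => β * χ) {β : G → ℂ | Cfsg.IsIrrCharacter G β ∧ Cfsg.classInner (Cfsg.indFun N φ) β ≠ 0} {ψ : G → ℂ | Cfsg.IsIrrCharacter G ψ ∧ Cfsg.classInner (Cfsg.indFun N (φ * ϑ)) ψ ≠ 0} := by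
  have hext' : ϑ = fun n : N => χ n := (funext hext).symm
  subst hext'
  obtain ⟨h1, h2⟩ := gallagher_aux hφ (fun g => funext (hφinv g)) hχ.isCharacter hprod
  refine ⟨fun β hβ => ⟨h1 β hβ.1 hβ.2, ?_⟩, fun β hβ γ hγ h => h2 β γ hβ.1 hβ.2 hγ.1 hγ.2 h,
    fun ψ hψ => ?_⟩
  · have h3 : indFun N (φ * fun n : N => χ n) = indFun N φ * χ :=
      indFun_mul_res φ hχ.isClassFunction
    have h4 := (hφ.isCharacter.ind.sub_of_inner_ne_zero hβ.1 hβ.2).mul hχ.isCharacter
    have h5 := h1 β hβ.1 hβ.2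
    obtain ⟨n, hn⟩ := h4.exists_nat_inner h5.isCharacter
    rw [sub_mul, classInner_sub_left, h5.inner_self, sub_eq_iff_eq_add] at hn
    rw [h3, hn]
    exact_mod_cast n.succ_ne_zero
  · obtain ⟨β, hβ, h3, h4⟩ := exists_mul_of_inner_ind_mul hφ.isCharacter hχ.isCharacter hψ.2
    exact ⟨β, ⟨hβ, h3⟩, (h1 β hβ h3).eq_of_inner_ne_zero hψ.1 h4⟩

end Cfsg.Agent.S0856
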