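import Cfsg.Statements.S0858
import Cfsg.Agent.H3.Prim

set_option autoImplicit false
open Cfsg

namespace Cfsg.Agent.S0858

open Cfsg.Agent.H3
open scoped commutatorElement

/-- Let N be a normal subgroup of the finite group G with G / N solvable, and suppose that for every subgroup H containing N and all subgroups L < K between N and H that are normal in H with no subgroup normal in H strictly between them, the index of L in K is not a perfect square. Then every irreducible character χ of G is induced from an irreducible character ψ of some subgroup H containing N such that the restriction of ψ to N is irreducible. -/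
theorem result {G : Type*} [Group G] [Fintype G] (N : Subgroup G) [N.Normal] (hsolv : Group.IsSolvable (G ⧸ N)) (hchief : ∀ (H K L : Subgroup G), N ≤ L → L < K → K ≤ H → (∀ h ∈ H, ∀ k ∈ K, h * k * h⁻¹ ∈ K) → (∀ h ∈ H, ∀ l ∈ L, h * l * h⁻¹ ∈ L) → (∀ M : Subgroup G, L ≤ M → M ≤ K → (∀ h ∈ H, ∀ m ∈ M, h * m * h⁻¹ ∈ M) → M = L ∨ M = K) → ¬ IsSquare (L.relIndex K)) (χ : G → ℂ) (hχ : Cfsg.IsIrrCharacter G χ) : ∃ (H : Subgroup G) (hNH : N ≤ H) (ψ : H → ℂ), Cfsg.IsIrrCharacter H ψ ∧ Cfsg.indFun H ψ = χ ∧ Cfsg.IsIrrCharacter N (fun n : N => ψ ⟨(n : G), hNH n.2⟩) := by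
  obtain ⟨H, ψ, hNH, hψ, h1, h2⟩ := exists_rel_primitive hχ N
  refine ⟨H, hNH, ψ, hψ, h1, ?_⟩
  obtain ⟨K, ⟨hK, hNK, h3⟩, hmin⟩ := exists_minimal_of_wellFoundedLT
    (fun K : Subgroup H => K.Normal ∧ N.subgroupOf H ≤ K ∧ IsIrrCharacter K (fun k : K => ψ k))
    ⟨⊤, inferInstance, le_top, hψ.comp_equiv Subgroup.topEquiv⟩
  by_cases h4 : K ≤ N.subgroupOf H
  · rw [le_antisymm h4 hNK] at h3
    exact h3.ofSubOf hNH
  exfalso
  obtain ⟨L, ⟨hL, hNL, hLK⟩, hmax⟩ := exists_maximal_of_wellFoundedGT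
    (fun L : Subgroup H => L.Normal ∧ N.subgroupOf H ≤ L ∧ L < K)
    ⟨N.subgroupOf H, inferInstance, le_rfl, lt_of_le_not_ge hNK h4⟩
  have h5 : ∀ M : Subgroup H, M.Normal → L ≤ M → M ≤ K → M = L ∨ M = K := fun M hM h5 h6 =>
    or_iff_not_imp_right.2 fun h7 => le_antisymm
      (hmax ⟨hM, hNL.trans h5, lt_of_le_of_ne h6 h7⟩ h5) h5
  obtain ⟨K', hK', h6, h7, -, h8, -⟩ := exists_chief_above hLK.not_ge hLK.le
    (isSolvable_quotient_of_le hNL (isSolvable_quotient_comap H.subtype hsolv))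
  obtain rfl : K' = K := (h5 K' hK' h6.le h7).resolve_left h6.ne'
  obtain ⟨φ, e, hφ, he⟩ := h2 L hL hNL
  rcases going_down_homog hLK.le h5 h8 h3 hψ.isClassFunction.cjf_res hφ he with h9 | h9
  · rw [h9, Nat.cast_one, one_smul] at he
    exact hLK.not_ge (hmin ⟨hL, hNL, he ▸ hφ⟩ hLK.le)
  · have hinj := H.subtype_injective
    refine hchief H (K'.map H.subtype) (L.map H.subtype)
      (fun n hn => ⟨⟨n, hNH hn⟩, hNL hn, rfl⟩) ((Subgroup.map_lt_map_iff_of_injective hinj).2 hLK)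
      (Subgroup.map_subtype_le _) ?_ ?_ ?_ ⟨e, ?_⟩
    · rintro h hh _ ⟨k, hk, rfl⟩
      exact ⟨_, hK.conj_mem k hk ⟨h, hh⟩, rfl⟩
    · rintro h hh _ ⟨k, hk, rfl⟩
      exact ⟨_, hL.conj_mem k hk ⟨h, hh⟩, rfl⟩
    · intro M h10 h11 h12
      have h13 := Subgroup.map_subgroupOf_eq_of_le (h11.trans (Subgroup.map_subtype_le _))
      rcases h5 (M.subgroupOf H) ⟨fun m hm g => h12 g g.2 m hm⟩
        (Subgroup.map_le_iff_le_comap.1 h10)
        ((Subgroup.map_le_map_iff_of_injective hinj).1 (h13.symm ▸ h11)) with h14 | h14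
      · left; rw [← h14, h13]
      · right; rw [← h14, h13]
    · rw [Subgroup.relIndex_map_map_of_injective _ _ hinj, ← h9, sq]

end Cfsg.Agent.S0858
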