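import Cfsg.Statements.S0859
import Cfsg.Agent.H3.Mackey

set_option autoImplicit false
open Cfsg

namespace Cfsg.Agent.S0859

open Cfsg.Agent.H3
open scoped commutatorElement

/-- Let G be a finite solvable group and N a normal subgroup such that for every prime p every Sylow p-subgroup of N is abelian. Suppose every irreducible character of G is induced from an irreducible character of some subgroup containing N whose restriction to N is irreducible. Then every irreducible character of G is induced from a character of degree 1 of some subgroup. -/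
theorem result {G : Type*} [Group G] [Fintype G] [Group.IsSolvable G] (N : Subgroup G) [N.Normal] (hab : ∀ (p : ℕ) [Fact p.Prime] (P : Sylow p N), ∀ a ∈ P, ∀ b ∈ P, a * b = b * a) (hrel : ∀ χ : G → ℂ, Cfsg.IsIrrCharacter G χ → ∃ (H : Subgroup G) (hNH : N ≤ H) (ψ : H → ℂ), Cfsg.IsIrrCharacter H ψ ∧ Cfsg.indFun H ψ = χ ∧ Cfsg.IsIrrCharacter N (fun n : N => ψ ⟨(n : G), hNH n.2⟩)) (χ : G → ℂ) (hχ : Cfsg.IsIrrCharacter G χ) : ∃ (U : Subgroup G) (lam : U → ℂ), Cfsg.IsCharacter U lam ∧ lam 1 = 1 ∧ Cfsg.indFun U lam = χ := by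
  obtain ⟨H, hNH, ψ, hψ, rfl, h1⟩ := hrel χ hχ
  have := Fintype.ofFinite H
  obtain ⟨U, ϑ, -, hϑ, rfl, h2⟩ := exists_rel_primitive hψ ⊥
  suffices h : ϑ 1 = 1 from ⟨_, _, (hϑ.comp_equiv _).isCharacter, by simpa using h,
    (indFun_indFun U ϑ).symm⟩
  have h3 := h1.toSubOf hNH
  have hab' : ∀ (p : ℕ), p.Prime → ∀ P : Subgroup H, IsPGroup p P → P ≤ N.subgroupOf H →
      ∀ a ∈ P, ∀ b ∈ P, a * b = b * a := by
    intro p hp P hP hPN a ha b hb
    have := Fact.mk hp
    obtain ⟨Q, hQ⟩ := ((hP.map H.subtype).comap_subtype (K := N)).exists_le_sylow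
    exact Subtype.ext (congrArg (Subtype.val : N → G)
      (hab p Q ⟨a, hPN ha⟩ (hQ ⟨a, ha, rfl⟩) ⟨b, hPN hb⟩ (hQ ⟨b, hb, rfl⟩)))
  change IsIrrCharacter (N.subgroupOf H) (fun n : N.subgroupOf H => indFun U ϑ n) at h3
  have hN' : (N.subgroupOf H).Normal := inferInstance
  generalize N.subgroupOf H = M at h3 hab' hN'
  have := Fintype.ofFinite M
  have := Fintype.ofFinite ↥(U ⊔ M)
  have h4 : U ⊔ M = ⊤ := by
    have h5 := indFun_indLe (le_sup_left : U ≤ U ⊔ M) ϑ
    have h6 := (hψ.isCharacter.res (U ⊔ M)).irr_of_comp (Subgroup.inclusion le_sup_right) h3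
    have h7 := (hϑ.isCharacter.indLe le_sup_left).irr_of_ind_irr (h5 ▸ hψ)
    have h8 := h6.eq_of_inner_ne_zero h7 (by
      rw [← classInner_indFun_right _ hψ.isClassFunction, h5, hψ.inner_self]; simp)
    have h9 := congrFun h8 1
    rw [← h5] at h9
    simp only [OneMemClass.coe_one, indFun_one (U ⊔ M)] at h9
    rw [← Subgroup.index_eq_one]
    exact_mod_cast (mul_eq_right₀ h7.apply_one_ne_zero).1 h9
  rw [res_indFun_of_mul (exists_mul_of_sup_normal h4) hϑ.isClassFunction] at h3
  have h5 := ((hϑ.isCharacter.resLe inf_le_left).toSubOf inf_le_right).irr_of_ind_irr h3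
  rw [isIrrCharacter_toSubOf_iff inf_le_right] at h5
  have h6 : IsIrrCharacter (M.subgroupOf U) (fun m : M.subgroupOf U => ϑ m) := by
    have := h5.toSubOf (inf_le_left : U ⊓ M ≤ U)
    rw [← Subgroup.inf_subgroupOf_left]
    exact this
  have hZ := hϑ.isClassFunction.charCenter_normal
  have h7 : M.subgroupOf U ≤ charCenter ϑ := by
    by_contra h7
    obtain ⟨A, hA, h8, h9, -, -, p, hp, h10⟩ := exists_chief_above
      (L := charCenter ϑ ⊓ M.subgroupOf U) (X := M.subgroupOf U)
      (fun h => h7 (h.trans inf_le_left)) inf_le_right inferInstance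
    obtain ⟨θ, e, hθ, he⟩ := h2 A hA (by simp)
    have := Fact.mk hp
    obtain ⟨k, hk⟩ := exists_pow_relIndex hp h10
    let P : Sylow p A := default
    have h11 := Agent.L.sylow_sup_eq_top_of_index P hk
    have h12 : charCenter θ = ⊤ := by
      rw [eq_top_iff, ← h11]
      refine sup_le (fun x hx => hθ.mem_charCenter_of_commutator fun g => ?_)
        fun x hx => (mem_charCenter_res_iff hϑ hθ he x).1 hx.1
      obtain ⟨y, hy, z, hz, rfl⟩ := exists_mul_of_sup_normal h11 g
      have h13 : y * x = x * y := Subtype.ext (Subtype.ext (hab' p hp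
        ((P : Subgroup A).map (U.subtype.comp A.subtype)) (P.isPGroup'.map _)
        (by rintro _ ⟨a, -, rfl⟩; exact h9 a.2) _ ⟨y, hy, rfl⟩ _ ⟨x, hx, rfl⟩))
      have h14 := hθ.isClassFunction.charKer_normal.conj_mem _ ((charKer θ).inv_mem
        (hθ.isClassFunction.commutator_mem_charKer
          ((mem_charCenter_res_iff hϑ hθ he z).1 hz.1) x)) y
      convert h14 using 1
      calc _ = y * z * x * z⁻¹ * (x * y)⁻¹ := by group
        _ = _ := by rw [← h13]; group
    refine h8.not_ge fun a ha => ⟨?_, h9 ha⟩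
    exact (mem_charCenter_res_iff hϑ hθ he ⟨a, ha⟩).2 (h12 ▸ Subgroup.mem_top _)
  exact h6.degree_eq_one_of_charCenter (eq_top_iff.2 fun m _ =>
    (mem_charCenter_res_iff hϑ h6 (e := 1) (by simp) m).1 (h7 m.2))

end Cfsg.Agent.S0859
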