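import Cfsg.Statements.S0860
import Cfsg.Agent.H3.Irr

set_option autoImplicit false
open Cfsg

namespace Cfsg.Agent.S0860

open Cfsg.Agent.H3

/-- Let a group A act on the set of irreducible characters and on the set of conjugacy classes of a finite group G in such a way that (a • χ) evaluated on the class a • C equals χ evaluated on C, for all a, χ and C. Then every element of A fixes exactly as many irreducible characters as it fixes conjugacy classes. -/
theorem result {G : Type*} [Group G] [Finite G] {A : Type*} [Group A] [MulAction A (Cfsg.IrrCharacter G)] [MulAction A (ConjClasses G)] (hcompat : ∀ (a : A) (χ : Cfsg.IrrCharacter G) (g g' : G), ConjClasses.mk g' = a • ConjClasses.mk g → ((a • χ : Cfsg.IrrCharacter G) : G → ℂ) g' = (χ : G → ℂ) g) (a : A) : Nat.card {χ : Cfsg.IrrCharacter G // a • χ = χ} = Nat.card {C : ConjClasses G // a • C = C} := by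
  classical
  choose s hs using fun g : G => ConjClasses.exists_rep (a⁻¹ • ConjClasses.mk g)
  have key : ∀ χ : Cfsg.IrrCharacter G, (χ : G → ℂ) ∘ s = ((a • χ : Cfsg.IrrCharacter G) : G → ℂ) := by
    intro χ; ext g
    exact (hcompat a χ (s g) g (by rw [hs, smul_inv_smul])).symm
  have h := card_fixed_irr_eq (G := G) s (fun χ hχ => by
    rw [key ⟨χ, hχ⟩]; exact (a • (⟨χ, hχ⟩ : Cfsg.IrrCharacter G)).2)
  refine Eq.trans (Nat.card_congr (Equiv.subtypeEquivRight fun χ => ?_)) (h.trans
    (Nat.card_congr (Equiv.subtypeEquivRight fun C => ?_)))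
  · rw [key, Subtype.ext_iff]
  · obtain ⟨c, rfl⟩ := ConjClasses.exists_rep C
    simp only [← ConjClasses.mk_eq_mk_iff_isConj, hs]
    constructor
    · intro h
      rw [← eq_inv_smul_iff, h c rfl]
    · intro h g hg
      rw [hg, inv_smul_eq_iff, h]

end Cfsg.Agent.S0860
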