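import Cfsg.Statements.S0861
import Cfsg.Agent.H3.Misc

set_option autoImplicit false
open Cfsg

namespace Cfsg.Agent.S0861

open Cfsg.Agent.H3
open scoped commutatorElement

/-- Let P be a normal abelian Sylow p-subgroup of the finite group G and suppose some element g of P has centralizer exactly P. Then the number of irreducible characters of G is at most the order of P, and if equality holds then G / P is abelian (the commutator subgroup lies in P). -/
theorem result {G : Type*} [Group G] [Finite G] (p : ℕ) [Fact p.Prime] (P : Sylow p G) [(P : Subgroup G).Normal] (hab : ∀ a ∈ P, ∀ b ∈ P, a * b = b * a) (g : G) (hg : g ∈ P) (hC : Subgroup.centralizer ({g} : Set G) = P) : Nat.card (Cfsg.IrrCharacter G) ≤ Nat.card P ∧ (Nat.card (Cfsg.IrrCharacter G) = Nat.card P → commutator G ≤ P) := by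
  classical
  have := Fintype.ofFinite G
  obtain ⟨M, hM⟩ := exists_isPModular (p := p) Fact.out
  obtain ⟨k, hk⟩ := P.2.exists_card_eq
  let S := Finset.univ.filter fun s : G => Subgroup.zpowers s = Subgroup.zpowers g
  have hS : ∀ s ∈ S, s ∈ (P : Subgroup G) := fun s hs =>
    Subgroup.zpowers_le.2 hg ((Finset.mem_filter.1 hs).2 ▸ Subgroup.mem_zpowers s)
  have h1 : ∀ χ : IrrCharacter G, (S.card : ℝ) ≤ ∑ s ∈ S, ‖(χ : G → ℂ) s‖ ^ 2 := fun χ =>
    χ.2.isGen.card_le_sum_norm_sq S (fun k hk s hs => by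
      simp only [S, Finset.mem_filter, Finset.mem_univ, true_and] at hs ⊢
      rw [← hs]
      exact le_antisymm (Subgroup.zpowers_le.2 (Subgroup.npow_mem_zpowers s k))
        (Subgroup.zpowers_le.2 (mem_zpowers_pow_iff.2
          (hk.coprime_dvd_right (orderOf_dvd_natCard s))))) fun s hs h0 => by
      have h1 := χ.2.isGen.inM_sub hM (Commute.one_right s) (k := k) (by
        rw [← hk]; exact orderOf_dvd_iff_pow_eq_one.1 (Subgroup.orderOf_dvd_natCard _ (hS s hs)))
      rw [mul_one, h0, zero_sub, ← χ.2.cast_charDegree] at h1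
      exact P.not_dvd_index (((inM_nat_iff hM).1 (by simpa using h1.neg)).trans
        (χ.2.degree_dvd_index_of_comm hab))
  have h2 : ∑ χ : IrrCharacter G, ∑ s ∈ S, ‖(χ : G → ℂ) s‖ ^ 2 = S.card * Nat.card P := by
    rw [Finset.sum_comm, Finset.sum_congr rfl (g := fun _ => (Nat.card P : ℝ)) fun s hs => by
      rw [sum_irr_norm_sq, ← Subgroup.centralizer_closure, ← Subgroup.zpowers_eq_closure,
        (Finset.mem_filter.1 hs).2, Subgroup.zpowers_eq_closure, Subgroup.centralizer_closure, hC],
      Finset.sum_const, nsmul_eq_mul]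
  have h3 : (0 : ℝ) < S.card := by exact_mod_cast Finset.card_pos.2 ⟨g, by simp [S]⟩
  have h4 : ∑ _χ : IrrCharacter G, (S.card : ℝ) = S.card * Nat.card (IrrCharacter G) := by
    rw [Finset.sum_const, Finset.card_univ, ← Nat.card_eq_fintype_card, nsmul_eq_mul, mul_comm]
  have h5 := Finset.sum_le_sum fun χ (_ : χ ∈ Finset.univ) => h1 χ
  constructor
  · rw [h2, h4] at h5
    exact_mod_cast le_of_mul_le_mul_left h5 h3
  · intro h x hx
    have h6 := (Finset.sum_eq_sum_iff_of_le fun χ (_ : χ ∈ Finset.univ) => h1 χ).1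
      (by rw [h2, h4, h])
    refine mem_of_forall_irr _ fun χ hχ h7 => apply_of_mem_charKer (hχ.degree_eq_one_iff.1 ?_ hx)
    have h8 := h6 ⟨χ, hχ⟩ (Finset.mem_univ _)
    rw [Finset.sum_congr rfl (g := fun _ => (charDegree χ : ℝ) ^ 2) fun s hs => by
      rw [show (⟨χ, hχ⟩ : IrrCharacter G).1 s = χ 1 from apply_of_mem_charKer (h7 (hS s hs)),
        ← hχ.cast_charDegree]; simp, Finset.sum_const, nsmul_eq_mul, eq_comm,
      mul_eq_left₀ h3.ne'] at h8
    have h9 : charDegree χ = 1 := by
      have : charDegree χ ^ 2 = 1 := by exact_mod_cast h8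
      simpa using this
    rw [← hχ.cast_charDegree, h9, Nat.cast_one]

end Cfsg.Agent.S0861
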