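import Cfsg.Statements.S0869
import Cfsg.Agent.H3.Brauer

set_option autoImplicit false
open Cfsg

namespace Cfsg.Agent.S0869

open Cfsg.Agent.H3
open scoped commutatorElement

/-- Let S be a nonempty finite type and R an additive subgroup of the integer-valued functions on S that is closed under pointwise multiplication. If the constant function 1 is not in R, then there exist a point x of S and a prime p such that p divides f x for every f in R. -/
theorem result {S : Type*} [Finite S] [Nonempty S] (R : AddSubgroup (S → ℤ)) (hmul : ∀ f ∈ R, ∀ g ∈ R, f * g ∈ R) (h1 : (1 : S → ℤ) ∉ R) : ∃ (x : S) (p : ℕ), p.Prime ∧ ∀ f ∈ R, (p : ℤ) ∣ f x := by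
  have := Fintype.ofFinite S
  by_contra h
  push Not at h
  have h2 : ∀ x : S, ∃ f ∈ R, f x = 1 := fun x => by
    obtain ⟨f, hf, h2⟩ := h x 2 Nat.prime_two
    have key : ∀ f ∈ R, ((f x).natAbs : ℤ) ∈ R.map (Pi.evalAddMonoidHom (fun _ => ℤ) x) :=
      fun f hf => by rw [Int.natCast_natAbs, abs_mem_iff]; exact ⟨f, hf, rfl⟩
    exact one_mem_of_forall_prime (fun h3 => h2 (by simp [Int.natAbs_eq_zero.1 h3])) (key f hf)
      fun p hp _ => by
        obtain ⟨g, hg, h3⟩ := h x p hp
        exact ⟨_, key g hg, (hp.coprime_iff_not_dvd.2 fun h4 => h3 (Int.natCast_dvd.2 h4)).symm⟩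
  choose f hf h3 using h2
  have := prod_const_mem R hmul f hf (fun _ => 1) h3 (Classical.arbitrary S)
  simp only [Finset.prod_const_one, Int.cast_id] at this
  exact h1 this

end Cfsg.Agent.S0869
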