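import Cfsg.Statements.S0875
import Cfsg.Agent.H3.Brauer2

set_option autoImplicit false
open Cfsg

namespace Cfsg.Agent.S0875

open Cfsg.Agent.H3
open scoped commutatorElement

/-- Let G be a finite group of order m * n with m and n coprime, and g an element whose order is coprime to m. Every x in G factors uniquely as x = u * v with u, v commuting, the order of u coprime to n and the order of v coprime to m; let ϑ be the function on G equal to n at those x whose factor v is conjugate to g and equal to 0 elsewhere. Then ϑ is a linear combination of the irreducible characters of G with algebraic-integer coefficients. -/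
theorem result {G : Type*} [Group G] [Fintype G] (m n : ℕ) (hmn : Nat.card G = m * n) (hcop : Nat.Coprime m n) (g : G) (hg : Nat.Coprime (orderOf g) m) (ϑ : G → ℂ) (hϑ1 : ∀ x : G, (∃ v : G, IsConj v g ∧ (∃ u : G, x = u * v ∧ Commute u v ∧ Nat.Coprime (orderOf u) n ∧ Nat.Coprime (orderOf v) m)) → ϑ x = n) (hϑ0 : ∀ x : G, (¬ ∃ v : G, IsConj v g ∧ (∃ u : G, x = u * v ∧ Commute u v ∧ Nat.Coprime (orderOf u) n ∧ Nat.Coprime (orderOf v) m)) → ϑ x = 0) : ∃ c : Cfsg.IrrCharacter G → ℂ, (∀ χ, c χ ∈ Cfsg.AlgInt) ∧ ϑ = ∑ᶠ χ : Cfsg.IrrCharacter G, c χ • (χ : G → ℂ) := by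
  classical
  obtain ⟨k, h1, h2, h3⟩ := exists_part_exp (G := G) hcop
  have hd : ∀ x : G, orderOf x ∣ m * n := fun x => hmn ▸ orderOf_dvd_natCard x
  have hF : IsClassFunction G (fun x => if IsConj x g then (1 : ℂ) else 0) :=
    isClassFunction_of_isConj fun a b hab => by
      simp only [show IsConj a g ↔ IsConj b g from ⟨fun h => hab.symm.trans h, fun h => hab.trans h⟩]
  have h4 : ϑ = fun x => (n : ℂ) * if IsConj (x ^ k) g then 1 else 0 := by
    funext x
    split_ifs with h
    · rw [mul_one]
      exact hϑ1 x ⟨x ^ k, h, x * (x ^ k)⁻¹, by simp,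
        (Commute.self_pow x k).mul_left (Commute.refl _).inv_left,
        hcop.coprime_dvd_left (h3 x (hd x)).2, hcop.symm.coprime_dvd_left (h3 x (hd x)).1⟩
    · rw [mul_zero]
      refine hϑ0 x ?_
      rintro ⟨v, hv, u, rfl, huv, hu, hv'⟩
      refine h ?_
      rwa [huv.mul_pow, h1 u (hu.dvd_of_dvd_mul_right (hd u)), one_mul,
        h2 v (hv'.dvd_of_dvd_mul_left (hd v))]
  have h5 : IsClassFunction G ϑ := by
    rw [h4]; intro x y; simp only [conj_pow, hF _ y]
  refine ⟨fun χ => classInner ϑ χ, fun χ => ?_, ?_⟩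
  · rw [h4]
    exact isIntegral_inner_part hcop hmn.dvd h1 hF
      (fun g => by split_ifs; exacts [isIntegral_one, isIntegral_zero]) χ.2.isCharacter
  · rw [finsum_eq_sum_of_fintype]; exact h5.eq_sum_irr

end Cfsg.Agent.S0875
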