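import Cfsg.Statements.S0876
import Cfsg.Agent.H3.Brauer2

set_option autoImplicit false
open Cfsg

namespace Cfsg.Agent.S0876

open Cfsg.Agent.H3
open scoped commutatorElement

/-- Let G be a finite group, p a prime and M a maximal ideal of the ring of algebraic integers containing p. Let x, y be elements with p-parts a and b (so a⁻¹ * x and b⁻¹ * y are their p-regular parts). Then a⁻¹ * x and b⁻¹ * y are conjugate in G if and only if, for every irreducible character χ, the difference χ x - χ y lies in the local ideal at M. -/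
theorem result {G : Type*} [Group G] [Finite G] (p : ℕ) (M : Ideal Cfsg.AlgInt) (hM : Cfsg.IsPModular p M) (x y a b : G) (ha : Cfsg.IsPPart p x a) (hb : Cfsg.IsPPart p y b) : IsConj (a⁻¹ * x) (b⁻¹ * y) ↔ ∀ χ : Cfsg.IrrCharacter G, Cfsg.MemLocalIdeal M ((χ : G → ℂ) x - (χ : G → ℂ) y) := by
  obtain ⟨u, rfl, h1, ⟨j, h2⟩, h3⟩ := ha
  obtain ⟨v, rfl, h4, ⟨k, h5⟩, h6⟩ := hb
  rw [inv_mul_cancel_left, inv_mul_cancel_left]
  have key : ∀ χ, IsIrrCharacter G χ → InM M ((χ (a * u) - χ (b * v)) - (χ u - χ v)) :=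
    fun χ hχ => by
      have := (hχ.isGen.inM_sub hM h1 (h2 ▸ pow_orderOf_eq_one a)).sub
        (hχ.isGen.inM_sub hM h4 (h5 ▸ pow_orderOf_eq_one b))
      convert this using 1; ring
  constructor
  · intro h χ
    rw [memLocalIdeal_iff hM ((χ.2.isCharacter.isIntegral _).sub (χ.2.isCharacter.isIntegral _))]
    simpa [χ.2.isClassFunction.eq_of_isConj h] using key χ χ.2
  · intro h
    refine isConj_of_forall_inM hM h3 h6 fun χ hχ => ?_
    have := ((memLocalIdeal_iff hM ((hχ.isCharacter.isIntegral _).sub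
      (hχ.isCharacter.isIntegral _))).1 (h ⟨χ, hχ⟩)).sub (key χ hχ)
    simpa using this

end Cfsg.Agent.S0876
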