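import Cfsg.Statements.S0878
import Cfsg.Agent.H3.Misc
import Cfsg.Agent.H7.Zass3

set_option autoImplicit false
open Cfsg

namespace Cfsg.Agent.S0878

open Cfsg.Agent.H3
open scoped commutatorElement

/-- Let G be a Zassenhaus group on the finite set Ω, a a point, and let H be the subgroup of the stabilizer of a consisting of the identity and the elements fixing no point other than a (given here as a subgroup of the stabilizer of order one less than the number of points whose non-identity elements fix only a; it is the Frobenius kernel of the stabilizer). Then an element outside the stabilizer of a conjugates no non-identity element of H into H, and the normalizer of H is exactly the stabilizer of a. -/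
theorem result {G Ω : Type*} [Group G] [Finite G] [MulAction G Ω] [Fintype Ω] (hZ : Cfsg.IsZassenhausGroup G Ω) (a : Ω) (H : Subgroup G) (hHa : H ≤ MulAction.stabilizer G a) (hHcard : Nat.card H + 1 = Fintype.card Ω) (hHfix : ∀ u ∈ H, u ≠ 1 → ∀ c : Ω, u • c = c → c = a) : (∀ g : G, g ∉ MulAction.stabilizer G a → ∀ u ∈ H, g * u * g⁻¹ ∈ H → u = 1) ∧ Subgroup.normalizer (H : Set G) = MulAction.stabilizer G a := by
  have h1 : ∀ g : G, g ∉ MulAction.stabilizer G a → ∀ u ∈ H, g * u * g⁻¹ ∈ H → u = 1 :=
    fun g hg u hu h => by
      by_contra h1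
      refine hg ((hHfix _ h (by simpa using h1) (g • a) ?_))
      rw [mul_smul, inv_smul_smul, mul_smul, show u • a = a from hHa hu]
  have h3 := H7.zass_three_le hZ
  have z := H7.zass_z3 hZ
  refine ⟨h1, le_antisymm (fun g hg => ?_) fun g hg => ?_⟩
  · by_contra h2
    have : H = ⊥ := eq_bot_iff.2 fun u hu =>
      h1 g h2 u hu ((Subgroup.mem_normalizer_iff.1 hg u).1 hu)
    rw [this, Subgroup.card_bot, ← Nat.card_eq_fintype_card] at hHcard
    omega
  · obtain ⟨F, k⟩ := z.exists_ker h3 a
    obtain ⟨b, hb, -⟩ := H7.Z3.exists_third h3 a a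
    have h4 : H = F := Subgroup.eq_of_le_of_card_ge (fun u hu => by
      by_cases h : u = 1
      · rw [h]; exact F.one_mem
      · exact k.mem_of_fpf z hb (hHa hu) fun y hy e => hy (hHfix u hu h y e)) (by
      rw [k.card hb, Nat.card_eq_fintype_card (α := Ω), ← hHcard]; simp)
    rw [h4]
    exact Subgroup.mem_normalizer_fintype fun u hu => k.norm g hg u hu

end Cfsg.Agent.S0878
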