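import Cfsg.Statements.S0879
import Cfsg.Agent.H3.Misc
import Cfsg.Agent.H7.Zass3

set_option autoImplicit false
open Cfsg

namespace Cfsg.Agent.S0879

open Cfsg.Agent.H3
open scoped commutatorElement

/-- Let G be a Zassenhaus group on the finite set Ω and E the stabilizer of two distinct points a, b. Then an element outside the normalizer of E conjugates no non-identity element of E into E, and E has index 2 in its normalizer. -/
theorem result {G Ω : Type*} [Group G] [Finite G] [MulAction G Ω] [Fintype Ω] (hZ : Cfsg.IsZassenhausGroup G Ω) {a b : Ω} (hab : a ≠ b) : (∀ g : G, g ∉ Subgroup.normalizer ((MulAction.stabilizer G a ⊓ MulAction.stabilizer G b : Subgroup G) : Set G) → ∀ x ∈ (MulAction.stabilizer G a ⊓ MulAction.stabilizer G b : Subgroup G), g * x * g⁻¹ ∈ (MulAction.stabilizer G a ⊓ MulAction.stabilizer G b : Subgroup G) → x = 1) ∧ ((MulAction.stabilizer G a ⊓ MulAction.stabilizer G b : Subgroup G).subgroupOf (Subgroup.normalizer ((MulAction.stabilizer G a ⊓ MulAction.stabilizer G b : Subgroup G) : Set G))).index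 = 2 := by
  have z := H7.zass_z3 hZ
  have h1 : Subgroup.normalizer ((H7.St G a b : Subgroup G) : Set G) = H7.Pair G a b := by
    refine le_antisymm (fun g hg => ?_) fun g hg =>
      Subgroup.mem_normalizer_fintype fun u hu => H7.conj_mem_St hg hu
    obtain ⟨⟨y, hy⟩, hy1⟩ := Subgroup.ne_bot_iff_exists_ne_one.1 (H7.zass_St_ne_bot hZ hab)
    exact H7.mem_Pair_of_conj z hab hy (fun h => hy1 (Subtype.ext h))
      ((Subgroup.mem_normalizer_iff''.1 hg y).1 hy)
  obtain ⟨s, hs1, hs2⟩ := H7.mt_two z.two hab hab.symm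
  rw [h1]
  refine ⟨fun g hg x hx h => ?_, H7.index_St_Pair hab hs1 hs2⟩
  by_contra h2
  exact hg (by simpa using (H7.Pair G a b).inv_mem (H7.mem_Pair_of_conj z hab hx h2
    (g := g⁻¹) (by simpa using h)))

end Cfsg.Agent.S0879
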