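import Cfsg.Statements.S0893
import Cfsg.Agent.H3.Misc

set_option autoImplicit false
open Cfsg

namespace Cfsg.Agent.S0893

open Cfsg.Agent.H3
open scoped commutatorElement

/-- Let P be an extraspecial p-group of order p ^ (2 * n + 1), A an abelian subgroup of order p ^ (n + 1), and λ a character of A of degree 1 that is not identically 1 on the elements of A lying in the centre of P. Then the function induced from λ to P is an irreducible character of P and vanishes at every element outside the centre. -/
theorem result {P : Type*} [Group P] [Fintype P] (p n : ℕ) [Fact p.Prime] (hP : Cfsg.IsExtraspecial p P) (hcard : Nat.card P = p ^ (2 * n + 1)) (A : Subgroup P) (hab : ∀ a ∈ A, ∀ b ∈ A, a * b = b * a) (hA : Nat.card A = p ^ (n + 1)) (lam : A → ℂ) (hlam : Cfsg.IsCharacter A lam ∧ lam 1 = 1) (hZ : ∃ a : A, (a : P) ∈ Subgroup.center P ∧ lam a ≠ 1) : Cfsg.IsIrrCharacter P (Cfsg.indFun A lam) ∧ ∀ x : P, x ∉ Subgroup.center P → Cfsg.indFun A lam x = 0 := by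
  obtain ⟨a, ha1, ha2⟩ := hZ
  have := Fintype.ofFinite A
  obtain ⟨χ, hχ, h1⟩ := (hlam.1.irr_of_degree_one hlam.2).exists_over
  have h2 : ¬ Subgroup.center P ≤ charKer χ := fun h => ha2 (by
    have := (hχ.isCharacter.res A).charKer_le_of_inner (hlam.1.irr_of_degree_one hlam.2) h1
      (show a ∈ _ from fun x => h ha1 x)
    rw [apply_of_mem_charKer this, hlam.2])
  obtain ⟨h3, h4⟩ := hχ.degree_of_extraspecial hP hcard h2
  have h5 := A.index_mul_card
  rw [hA, hcard, show 2 * n + 1 = n + (n + 1) by ring, pow_add p n (n + 1)] at h5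
  have h6 : indFun A lam = χ := hlam.1.ind.eq_of_inner_ne_zero_of_degree hχ
    (by rwa [classInner_indFun_left _ hχ.isClassFunction, Ne, classInner_eq_zero_comm])
    (by
      rw [indFun_one, hlam.2, h3,
        show A.index = p ^ n from Nat.eq_of_mul_eq_mul_right (pow_pos (Fact.out : p.Prime).pos _) h5]
      simp)
  rw [h6]; exact ⟨hχ, h4⟩

end Cfsg.Agent.S0893
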