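import Cfsg.Statements.S0894
import Cfsg.Agent.H3.Misc

set_option autoImplicit false
open Cfsg

namespace Cfsg.Agent.S0894

open Cfsg.Agent.H3
open scoped commutatorElement

/-- Let P be an extraspecial p-group of order p ^ (2 * n + 1). Then every irreducible character of P has degree 1 or p ^ n, and exactly p - 1 of them have degree p ^ n. -/
theorem result {P : Type*} [Group P] [Finite P] (p n : ℕ) [Fact p.Prime] (hP : Cfsg.IsExtraspecial p P) (hcard : Nat.card P = p ^ (2 * n + 1)) : (∀ χ : Cfsg.IrrCharacter P, (χ : P → ℂ) 1 = 1 ∨ (χ : P → ℂ) 1 = (p : ℂ) ^ n) ∧ Nat.card {χ : Cfsg.IrrCharacter P // (χ : P → ℂ) 1 = (p : ℂ) ^ n} = p - 1 := by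
  classical
  have hp : p.Prime := Fact.out
  have h1 : ∀ χ : IrrCharacter P, (χ : P → ℂ) 1 ≠ 1 → (χ : P → ℂ) 1 = (p : ℂ) ^ n := fun χ h =>
    (χ.2.degree_of_extraspecial hP hcard fun h' => h (χ.2.degree_eq_one_iff.2
      (hP.1.2.2 ▸ h'))).1
  refine ⟨fun χ => or_iff_not_imp_left.2 (h1 χ), ?_⟩
  have hn : n ≠ 0 := by
    rintro rfl
    have : IsCyclic P := isCyclic_of_prime_card (p := p) (by simpa using hcard)
    have h2 := hP.2
    rw [← hP.1.2.2, commutator_eq_bot, Subgroup.card_bot] at h2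
    exact hp.one_lt.ne h2
  have h2 : ∀ χ : IrrCharacter P, (χ : P → ℂ) 1 = (p : ℂ) ^ n ↔ ¬ (χ : P → ℂ) 1 = 1 :=
    fun χ => ⟨fun h h' => hp.one_lt.ne' ((Nat.pow_eq_one.1 (by
      exact_mod_cast h.symm.trans h' : p ^ n = 1)).resolve_right hn), h1 χ⟩
  have h3 := sum_irr_degree_sq (G := P)
  rw [← Finset.sum_filter_add_sum_filter_not _ (fun χ : IrrCharacter P => (χ : P → ℂ) 1 = 1),
    Finset.sum_congr rfl (g := fun _ => 1) fun χ hχ => by rw [(Finset.mem_filter.1 hχ).2, one_pow],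
    Finset.sum_congr (s₁ := Finset.filter (fun χ => ¬ _) _) rfl (g := fun _ => ((p : ℂ) ^ n) ^ 2)
      fun χ hχ => by
      rw [h1 χ (Finset.mem_filter.1 hχ).2], Finset.sum_const, Finset.sum_const,
    ← Fintype.card_subtype, ← Fintype.card_subtype, ← Nat.card_eq_fintype_card,
    ← Nat.card_eq_fintype_card, card_irr_degree_one, hP.1.2.2] at h3
  have h4 := (Subgroup.center P).index_mul_card
  rw [hP.2, hcard, pow_succ] at h4
  rw [Nat.eq_of_mul_eq_mul_right hp.pos h4, hcard] at h3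
  simp only [h2]
  have h5 : p ^ (2 * n) * (1 + Nat.card {χ : IrrCharacter P // ¬ (χ : P → ℂ) 1 = 1}) =
      p ^ (2 * n) * p := by
    have : ((p ^ (2 * n) * (1 + Nat.card {χ : IrrCharacter P // ¬ (χ : P → ℂ) 1 = 1}) : ℕ) : ℂ) =
        (p ^ (2 * n + 1) : ℕ) := by
      rw [← h3]; simp only [nsmul_eq_mul]; push_cast; ring
    exact_mod_cast this
  have := Nat.eq_of_mul_eq_mul_left (pow_pos hp.pos _) h5
  omega

end Cfsg.Agent.S0894
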