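import Cfsg.Statements.S0895
import Cfsg.Agent.H3.FS

set_option autoImplicit false
open Cfsg

namespace Cfsg.Agent.S0895

open Cfsg.Agent.H3

/-- Let χ be a real-valued irreducible character of a finite group G whose degree is an odd natural number. Then the average over s in G of χ (s * s) equals 1. -/
theorem result {G : Type*} [Group G] [Fintype G] (χ : G → ℂ) (hχ : Cfsg.IsIrrCharacter G χ) (hreal : ∀ g : G, (χ g).im = 0) (d : ℕ) (hd : χ 1 = d) (hodd : Odd d) : (Nat.card G : ℂ)⁻¹ * ∑ s : G, χ (s * s) = 1 := by
  classical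
  have hr : (fun g => (starRingEnd ℂ) (χ g)) = χ := funext fun g => Complex.conj_eq_iff_im.2 (hreal g)
  have h1 : ∑ g, χ g * χ g = Nat.card G := by
    have := card_mul_classInner χ χ
    rw [hχ.inner_self, mul_one] at this
    rw [this]
    exact Finset.sum_congr rfl fun g _ => by rw [congrFun hr g]
  obtain ⟨n, ρ, hρ, rfl⟩ := hχ
  have hn : n = d := by simpa using hd
  subst hn
  let R : G →* Matrix (Fin n) (Fin n) ℂ :=
    (LinearMap.toMatrixAlgEquiv' (R := ℂ) (n := Fin n)).toMonoidHom.comp ρ
  have hR : ∀ g, ρ g = Matrix.toLin' (R g) := fun g => (Matrix.toLin'_toMatrix' (ρ g)).symm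
  have hc : ∀ g, ρ.character g = (R g).trace := fun g => by
    rw [Representation.character, hR, Matrix.trace_toLin'_eq]
  have key : ∀ X : Matrix (Fin n) (Fin n) ℂ, X.transpose = -X →
      ∑ g, R g * X * (R g).transpose = 0 := by
    intro X hX
    set M := ∑ g, R g * X * (R g).transpose with hM
    have h2 : M.transpose = -M := by
      simp [hM, Matrix.transpose_sum, Matrix.transpose_mul, hX, Matrix.mul_assoc]
    have h3 : ∀ h, R h * M = M * (R h⁻¹).transpose := by
      intro h
      simp only [hM, Finset.mul_sum, Finset.sum_mul, ← Matrix.mul_assoc, ← map_mul]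
      refine Fintype.sum_equiv (Equiv.mulLeft h) _ _ fun g => ?_
      simp only [Equiv.coe_mulLeft, Matrix.mul_assoc, ← Matrix.transpose_mul, ← map_mul,
        inv_mul_cancel_left]
    have h4 : M.det = 0 := by
      have := Matrix.det_transpose M
      rw [h2, Matrix.det_neg, Fintype.card_fin, hodd.neg_one_pow] at this
      linear_combination (-1 / 2 : ℂ) * this
    rcases ((isIrreducible_iff ρ).1 hρ).2 (LinearMap.range (Matrix.toLin' M)) (by
      rintro h _ ⟨v, rfl⟩
      refine ⟨Matrix.toLin' (R h⁻¹).transpose v, ?_⟩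
      rw [hR, ← Matrix.toLin'_mul_apply, ← Matrix.toLin'_mul_apply, h3]) with h5 | h5
    · exact Matrix.toLin'.map_eq_zero_iff.1 (LinearMap.range_eq_bot.1 h5)
    · exfalso
      have h6 : IsUnit (Matrix.toLin' M) := (LinearMap.isUnit_iff_range_eq_top _).2 h5
      have := (LinearMap.isUnit_iff_isUnit_det _).1 h6
      rw [LinearMap.det_toLin', h4] at this
      exact not_isUnit_zero this
  have h7 : ∀ i j, ∑ g, R g i i * R g j j = ∑ g, R g i j * R g j i := by
    intro i j
    have := congrFun (congrFun (key (Matrix.single i j 1 - Matrix.single j i 1) (by simp)) i) j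
    simp only [Matrix.mul_sub, Matrix.sub_mul, Matrix.sum_apply, Matrix.sub_apply,
      Finset.sum_sub_distrib, Matrix.zero_apply, sub_eq_zero] at this
    have e : ∀ (A : Matrix (Fin n) (Fin n) ℂ) (a b c e : Fin n),
        (A * Matrix.single a b (1 : ℂ) * A.transpose : Matrix (Fin n) (Fin n) ℂ) c e =
          A c a * A e b := by
      intro A a b c e
      rw [Matrix.mul_apply, Finset.sum_eq_single b]
      · simp
      · intro x _ hx; simp [Matrix.mul_single_apply_of_ne _ _ _ _ _ hx]
      · simp
    simpa only [e] using this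
  have h8 : ∑ g, ρ.character (g * g) = ∑ g, ρ.character g * ρ.character g := by
    simp only [hc, map_mul, Matrix.trace, Matrix.diag_apply, Matrix.mul_apply, Finset.sum_mul_sum]
    rw [Finset.sum_comm, Finset.sum_comm (s := (Finset.univ : Finset G))]
    refine Finset.sum_congr rfl fun i _ => ?_
    rw [Finset.sum_comm, Finset.sum_comm (s := (Finset.univ : Finset G))]
    exact Finset.sum_congr rfl fun j _ => (h7 i j).symm
  rw [h8, h1, inv_mul_cancel₀ card_ne_zero]

end Cfsg.Agent.S0895
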