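import Cfsg.Statements.S0900
import Cfsg.Agent.H3.Normal

set_option autoImplicit false
open Cfsg

namespace Cfsg.Agent.S0900

open Cfsg.Agent.H3

/-- Let N be a normal subgroup of the finite group G, χ an irreducible character of G and ϑ an irreducible character of N having nonzero inner product with the restriction of χ. Consider: (a) the restriction of χ to N is e • ϑ for a natural number e with e ^ 2 equal to the index of N; (b) χ vanishes outside N and ϑ is invariant under conjugation by G; (c) ϑ is invariant and every irreducible character of G having nonzero inner product with the function induced from ϑ equals χ. Then (a) ↔ (b) and (a) ↔ (c). -/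
theorem result {G : Type*} [Group G] [Fintype G] (N : Subgroup G) [hN : N.Normal] [Fintype N] (χ : G → ℂ) (hχ : Cfsg.IsIrrCharacter G χ) (ϑ : N → ℂ) (hϑ : Cfsg.IsIrrCharacter N ϑ) (hcon : Cfsg.classInner (fun n : N => χ n) ϑ ≠ 0) : ((∃ e : ℕ, (fun n : N => χ n) = (e : ℂ) • ϑ ∧ e ^ 2 = N.index) ↔ ((∀ g : G, g ∉ N → χ g = 0) ∧ ∀ (g : G) (n : N), ϑ ⟨g * n * g⁻¹, hN.conj_mem (n : G) n.2 g⟩ = ϑ n)) ∧ ((∃ e : ℕ, (fun n : N => χ n) = (e : ℂ) • ϑ ∧ e ^ 2 = N.index) ↔ (∀ (g : G) (n : N), ϑ ⟨g * n * g⁻¹, hN.conj_mem (n : G) n.2 g⟩ = ϑ n ∧ ∀ ψ : G → ℂ, Cfsg.IsIrrCharacter G ψ → Cfsg.classInner (Cfsg.indFun N ϑ) ψ ≠ 0 → ψ = χ)) := by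
  have hA : (∃ e : ℕ, (fun n : N => χ n) = (e : ℂ) • ϑ ∧ e ^ 2 = N.index) →
      ∀ g : G, cjf g ϑ = ϑ := by
    rintro ⟨e, h1, h2⟩
    refine invariant_of_res_eq_smul hχ.isClassFunction (e := e) ?_ h1
    rintro h
    rw [Nat.cast_eq_zero] at h
    rw [h] at h2
    exact N.index_ne_zero_of_finite (by simpa using h2.symm)
  refine ⟨⟨fun h => ⟨?_, fun g n => congrFun (hA h g) n⟩, fun h => ?_⟩,
    ⟨fun h g n => ⟨congrFun (hA h g) n, fun ψ hψ h1 => ?_⟩, fun h => ?_⟩⟩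
  · obtain ⟨e, h1, h2⟩ := h
    exact (sq_eq_index_iff hχ hϑ h1).1 h2
  · obtain ⟨e, -, h1⟩ := hχ.exists_res_eq_smul hϑ (fun g => funext (h.2 g)) hcon
    exact ⟨e, h1, (sq_eq_index_iff hχ hϑ h1).2 h.1⟩
  · obtain ⟨e, h2, h3⟩ := h
    rw [(ind_eq_smul_iff hχ hϑ h2).2 h3, classInner_smul_left] at h1
    exact (hχ.eq_of_inner_ne_zero hψ (right_ne_zero_of_mul h1)).symm
  · obtain ⟨e, -, h1⟩ := hχ.exists_res_eq_smul hϑ (fun g => funext fun n => (h g n).1) hcon
    refine ⟨e, h1, (ind_eq_smul_iff hχ hϑ h1).1 ?_⟩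
    refine (isClassFunction_indFun _ _).ext_inner (hχ.isClassFunction.smul _) fun ψ hψ => ?_
    rw [classInner_smul_left]
    by_cases h2 : ψ = χ
    · rw [h2, hχ.inner_self, mul_one, classInner_ind_of_res_eq hχ.isClassFunction hϑ h1]
    · rw [hχ.inner_of_ne hψ (Ne.symm h2), mul_zero]
      by_contra h3
      exact h2 ((h 1 1).2 ψ hψ h3)

end Cfsg.Agent.S0900
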