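import Cfsg.Statements.S0901
import Cfsg.Agent.B.Mod

set_option autoImplicit false
open Cfsg

namespace Cfsg.Agent.S0901

open Cfsg.Agent Cfsg.Agent.B Cfsg.Agent.H2 Cfsg.Agent.H3 Subgroup
open scoped Pointwise commutatorElement

/-- Let M be a maximal ideal of the ring of algebraic integers containing the prime p, and let U be the set of complex roots of unity of order prime to p. Then reduction modulo M is injective on U, and every algebraic integer not in M is congruent modulo M to an element of U (so U maps bijectively onto the nonzero residues). -/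
theorem result (p : ℕ) [Fact p.Prime] (M : Ideal Cfsg.AlgInt) (hM : Cfsg.IsPModular p M) : (∀ ε₁ ε₂ : Cfsg.AlgInt, (∃ m : ℕ, ¬ p ∣ m ∧ (ε₁ : ℂ) ^ m = 1) → (∃ m : ℕ, ¬ p ∣ m ∧ (ε₂ : ℂ) ^ m = 1) → ε₁ - ε₂ ∈ M → ε₁ = ε₂) ∧ (∀ a : Cfsg.AlgInt, a ∉ M → ∃ ε : Cfsg.AlgInt, (∃ m : ℕ, ¬ p ∣ m ∧ (ε : ℂ) ^ m = 1) ∧ a - ε ∈ M) := by
  have : PMod p M := ⟨hM⟩
  constructor
  · rintro ε₁ ε₂ ⟨m, hm, h1⟩ ⟨n, hn, h2⟩ h
    have hm0 : m ≠ 0 := by rintro rfl; exact hm (dvd_zero _)
    have hn0 : n ≠ 0 := by rintro rfl; exact hn (dvd_zero _)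
    have r2 : red M (ε₂ : ℂ) ≠ 0 := red_ne_zero_of_pow_eq_one hn0 h2
    have e : red M (ε₁ : ℂ) = red M (ε₂ : ℂ) :=
      (red_eq_iff (algInt_mem_O _) (algInt_mem_O _)).2 ((memLocalIdeal_algInt (ε₁ - ε₂)).2 h)
    have n2 : (ε₂ : ℂ) ≠ 0 := ne_zero_of_red r2
    have hO : (ε₁ : ℂ) / ε₂ ∈ O M := div_mem_O (algInt_mem_O _) r2
    have r1 : red M ((ε₁ : ℂ) / ε₂) = 1 := by rw [red_div (algInt_mem_O _) r2, e, div_self r2]
    by_contra hne
    have hne' : (ε₁ : ℂ) / ε₂ ≠ 1 := fun h => hne (Subtype.ext ((div_eq_one_iff_eq n2).1 h))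
    have hp : ((ε₁ : ℂ) / ε₂) ^ (m * n) = 1 := by
      rw [div_pow, pow_mul, h1, one_pow, mul_comm, pow_mul, h2, one_pow, div_one]
    have hs := geom_sum_eq hne' (m * n)
    rw [hp, sub_self, zero_div] at hs
    have := congrArg (red M) hs
    rw [red_sum _ _ (fun i _ => pow_mem hO i), red_zero] at this
    simp only [red_pow hO, r1, one_pow, Finset.sum_const, Finset.card_range, nsmul_eq_mul, mul_one] at this
    rcases (Nat.Prime.dvd_mul Fact.out).1 ((natCast_F_eq_zero_iff _).1 this) with h | h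
    · exact hm h
    · exact hn h
  · intro a ha
    have r0 : resI M a ≠ 0 := by
      rw [resI_apply, Ne, red_eq_zero_iff (algInt_mem_O _), memLocalIdeal_algInt]; exact ha
    letI : Algebra (ZMod p) (F M) := ZMod.algebra _ p
    have hi : IsIntegral ℤ (resI M a) := by
      have : IsIntegral ℤ a := (isIntegral_algHom_iff AlgInt.val Subtype.val_injective).1 a.2
      exact map_isIntegral_int (resI M) this
    have hi' : IsIntegral (ZMod p) (resI M a) := by
        obtain ⟨f, hf, e⟩ := hi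
        refine ⟨f.map (Int.castRingHom (ZMod p)), hf.map _, ?_⟩
        rw [Polynomial.eval₂_map, ← e]
        congr 1
        exact RingHom.ext_int _ _
    haveI := IntermediateField.adjoin.finiteDimensional hi'
    haveI : Finite (IntermediateField.adjoin (ZMod p) {resI M a}) := Module.finite_of_finite (ZMod p)
    letI := Fintype.ofFinite (IntermediateField.adjoin (ZMod p) {resI M a})
    obtain ⟨n, -, hn⟩ := FiniteField.card (IntermediateField.adjoin (ZMod p) {resI M a}) p
    have hx := FiniteField.pow_card_sub_one_eq_one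
      (⟨resI M a, IntermediateField.mem_adjoin_simple_self _ _⟩ : IntermediateField.adjoin (ZMod p) {resI M a})
      (fun h => r0 (congrArg Subtype.val h))
    have hx' : resI M a ^ (p ^ (n : ℕ) - 1) = 1 := by
      rw [← hn]; exact congrArg Subtype.val hx
    have hp1 : 1 < p ^ (n : ℕ) := Nat.one_lt_pow n.ne_zero (Fact.out : p.Prime).one_lt
    have hnd : ¬ p ∣ p ^ (n : ℕ) - 1 := fun h => by
      have := (Nat.dvd_sub_iff_right hp1.le (dvd_pow_self p n.ne_zero)).1 h
      exact (Fact.out : p.Prime).one_lt.ne' (Nat.dvd_one.1 this)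
    generalize p ^ (n : ℕ) - 1 = m at hx' hnd
    have hm0 : m ≠ 0 := by rintro rfl; exact hnd (dvd_zero _)
    have hζ := Complex.isPrimitiveRoot_exp m hm0
    have hprod := congrArg (Polynomial.eval (a : ℂ)) (Polynomial.X_pow_sub_one_eq_prod (Nat.pos_of_ne_zero hm0) hζ)
    simp only [Polynomial.eval_sub, Polynomial.eval_pow, Polynomial.eval_X, Polynomial.eval_one,
      Polynomial.eval_prod, Polynomial.eval_C] at hprod
    have hO : ∀ z ∈ Polynomial.nthRootsFinset m (1 : ℂ), z ∈ O M := fun z hz =>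
      mem_O_of_pow_eq_one hm0 ((Polynomial.mem_nthRootsFinset (Nat.pos_of_ne_zero hm0) 1).1 hz)
    have h3 := congrArg (red M) hprod
    rw [red_sub (pow_mem (algInt_mem_O a) m) (one_mem _), red_pow (algInt_mem_O a), ← resI_apply, hx',
      red_one, sub_self, red_prod _ _ (fun z hz => sub_mem (algInt_mem_O a) (hO z hz))] at h3
    obtain ⟨z, hz, h4⟩ := Finset.prod_eq_zero_iff.1 h3.symm
    have hz1 := (Polynomial.mem_nthRootsFinset (Nat.pos_of_ne_zero hm0) 1).1 hz
    have hzi : IsIntegral ℤ z := IsIntegral.of_pow (Nat.pos_of_ne_zero hm0) (hz1 ▸ isIntegral_one)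
    refine ⟨⟨z, hzi⟩, ⟨m, hnd, hz1⟩, ?_⟩
    rw [← memLocalIdeal_algInt]
    exact (red_eq_zero_iff (sub_mem (algInt_mem_O a) (hO z hz))).1 h4

end Cfsg.Agent.S0901
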