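import Cfsg.Statements.S0902
import Cfsg.Agent.B.Defect
import Cfsg.Agent.B.Orth

set_option autoImplicit false
open Cfsg

namespace Cfsg.Agent.S0902

open Cfsg.Agent Cfsg.Agent.B Cfsg.Agent.H2 Cfsg.Agent.H3 Subgroup
open scoped Pointwise commutatorElement

/-- If two irreducible characters of a finite group lie in the same block relative to one maximal ideal M of the algebraic integers containing the prime p, then at every element the difference of their central characters is an algebraic integer lying in every maximal ideal containing p; in particular they lie in the same block relative to any such ideal. -/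
theorem result {G : Type*} [Group G] [Finite G] (p : ℕ) [Fact p.Prime] (M : Ideal Cfsg.AlgInt) (hM : Cfsg.IsPModular p M) (χ ψ : Cfsg.IrrCharacter G) (h : Cfsg.SameBlock M (χ : G → ℂ) (ψ : G → ℂ)) (M' : Ideal Cfsg.AlgInt) (hM' : Cfsg.IsPModular p M') (g : G) : ∃ r : Cfsg.AlgInt, r ∈ M' ∧ (r : ℂ) = Cfsg.centralChar (χ : G → ℂ) g - Cfsg.centralChar (ψ : G → ℂ) g := by
  have : PMod p M := ⟨hM⟩
  have : PMod p M' := ⟨hM'⟩
  classical
  letI := Fintype.ofFinite G
  have hB := isPBlock_blockOf (M := M) χ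
  obtain ⟨θ, hθ, h0⟩ := exists_height_zero p ⟨χ, self_mem_blockOf (M := M) χ⟩
  have key : ∀ ξ ∈ blockOf M (χ : G → ℂ), ξ ∈ blockOf M' (θ : G → ℂ) := by
    intro ξ hξ
    by_contra hn
    have h1 := (IsPBlock.closed (isPBlock_blockOf (M := M') θ)).classInner_reg_eq_zero
      (self_mem_blockOf θ) hn
    have h2 := (IsPBlock.lam_zF_ne_zero_iff hB hξ).2 ⟨hθ, h0⟩
    rw [(lam_zF θ.2.isCharacter.isClassFunction (irr_mem_O θ) ξ).2, h1] at h2
    simp at h2
  have h1 := (mem_blockOf_iff θ.2).1 (key χ (self_mem_blockOf χ))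
  have h2 := (mem_blockOf_iff θ.2).1 (key ψ h)
  have h3 : ψ ∈ blockOf M' (χ : G → ℂ) := (mem_blockOf_iff χ.2).2 (h1.symm.trans h2)
  refine ⟨⟨_, (χ.2.isIntegral_centralChar g).sub (ψ.2.isIntegral_centralChar g)⟩, ?_, rfl⟩
  rw [← memLocalIdeal_algInt]
  exact h3 g

end Cfsg.Agent.S0902
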