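import Cfsg.Statements.S0903
import Cfsg.Agent.B.Defect

set_option autoImplicit false
open Cfsg

namespace Cfsg.Agent.S0903

open Cfsg.Agent Cfsg.Agent.B Cfsg.Agent.H2 Cfsg.Agent.H3 Subgroup MonoidAlgebra
open scoped Pointwise commutatorElement

/-- Let P be a p-subgroup of the finite group G, let c centralize P and let g, h ∈ G. The number of pairs (x, y) with x conjugate to g, y conjugate to h and x * y = c is congruent modulo p to the number of such pairs in which x and y both centralize P. (This is why the Brauer map on class sums is multiplicative.) -/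
theorem result {G : Type*} [Group G] [Finite G] (p : ℕ) [Fact p.Prime] (P : Subgroup G) (hP : IsPGroup p P) (c : G) (hc : c ∈ Subgroup.centralizer (P : Set G)) (g h : G) : Nat.card {xy : G × G // IsConj g xy.1 ∧ IsConj h xy.2 ∧ xy.1 * xy.2 = c} ≡ Nat.card {xy : G × G // IsConj g xy.1 ∧ IsConj h xy.2 ∧ xy.1 * xy.2 = c ∧ xy.1 ∈ Subgroup.centralizer (P : Set G) ∧ xy.2 ∈ Subgroup.centralizer (P : Set G)} [MOD p] := by
  classical
  have := Fintype.ofFinite G
  have key : ∀ (S : Set G) (a b : MonoidAlgebra (ZMod p) G), (∀ x, a.coeff x = if IsConj g x ∧ x ∈ S then 1 else 0) →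
      (∀ x, b.coeff x = if IsConj h x ∧ x ∈ S then 1 else 0) → (a * b).coeff c =
      (Nat.card {xy : G × G // IsConj g xy.1 ∧ IsConj h xy.2 ∧ xy.1 * xy.2 = c ∧ xy.1 ∈ S ∧ xy.2 ∈ S} : ℕ) := by
    intro S a b ha hb
    let e : {xy : G × G // IsConj g xy.1 ∧ IsConj h xy.2 ∧ xy.1 * xy.2 = c ∧ xy.1 ∈ S ∧ xy.2 ∈ S} ≃
        {x : G // (IsConj g x ∧ x ∈ S) ∧ (IsConj h (x⁻¹ * c) ∧ x⁻¹ * c ∈ S)} :=
      ⟨fun xy => ⟨xy.1.1, ⟨xy.2.1, xy.2.2.2.2.1⟩, by
          rw [inv_mul_eq_of_eq_mul xy.2.2.2.1.symm]; exact ⟨xy.2.2.1, xy.2.2.2.2.2⟩⟩,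
        fun x => ⟨(x.1, x.1⁻¹ * c), x.2.1.1, x.2.2.1, by simp, x.2.1.2, x.2.2.2⟩,
        fun xy => Subtype.ext (Prod.ext rfl (inv_mul_eq_of_eq_mul xy.2.2.2.1.symm)),
        fun x => rfl⟩
    rw [coeff_mul_sum, Nat.card_congr e, Nat.card_eq_fintype_card, Fintype.card_subtype, Finset.card_filter]
    push_cast
    refine Finset.sum_congr rfl fun x _ => ?_
    rw [ha, hb, ite_zero_mul_ite_zero, mul_one]
  have h1 := key Set.univ (cls _ g) (cls _ h) (fun x => by simp [coeff_cls]) (fun x => by simp [coeff_cls])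
  have h2 := key (centralizer (P : Set G)) (Br P (cls _ g)) (Br P (cls _ h))
    (fun x => by simp only [coeff_trunc, coeff_cls, ← ite_and, and_comm]) (fun x => by simp only [coeff_trunc, coeff_cls, ← ite_and, and_comm])
  rw [← trunc_mul hP (cent_le_fix _ (cls_mem g)) (cent_le_fix _ (cls_mem h)), coeff_trunc_of_mem _ hc, h1] at h2
  simp only [Set.mem_univ, and_true] at h2
  exact (ZMod.natCast_eq_natCast_iff _ _ _).1 h2

end Cfsg.Agent.S0903
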