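import Cfsg.Statements.S0904
import Mathlib
import Cfsg.Agent.H7.Recog2
import Cfsg.Agent.H3.Brauer2

set_option autoImplicit false
open Cfsg

namespace Cfsg.Agent.S0904

open Cfsg.Agent.H7 Cfsg.Agent.H3

theorem aux {G : Type*} [Group G] [Finite G] [IsSimpleGroup G] (hG : ¬ IsMulCommutative G)
    {p q r a b : ℕ} (hp : p.Prime) (hq : q.Prime) (hr : r.Prime) (hpr : p ≠ r) (hqr : q ≠ r)
    (hcard : Nat.card G = p ^ a * q ^ b * r) {x : G} (h1 : p ∣ orderOf x) (h2 : r ∣ orderOf x) : False := by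
  classical
  haveI := Fact.mk hp
  letI := Fintype.ofFinite G
  obtain ⟨M, hM⟩ := B.exists_pMod p
  have h3 := (B.isPBlock_principal (M := M) (G := G)).closed.weak_orth (x := 1) (by
    rw [orderOf_one]; exact hp.not_dvd_one) h1
  rw [← Finset.add_sum_erase _ _ (Finset.mem_univ (oneI G)), if_pos (show oneI G ∈ principalBlock M G from B.oneIrr_mem)] at h3
  have h4 : IsIntegral ℤ (∑ χ ∈ Finset.univ.erase (oneI G), (if χ ∈ principalBlock M G then
      (χ : G → ℂ) 1 * (χ : G → ℂ) x else 0) / q) := by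
    refine IsIntegral.sum _ fun χ hχ => ?_
    split_ifs with h5
    swap
    · simpa using isIntegral_zero
    by_cases h6 : q ∣ charDegree (χ : G → ℂ)
    · obtain ⟨m, hm⟩ := h6
      rw [← χ.2.cast_charDegree, hm, Nat.cast_mul, mul_assoc,
        mul_div_cancel_left₀ _ (Nat.cast_ne_zero.2 hq.ne_zero)]
      exact (isIntegral_natCast m).mul (χ.2.isCharacter.isIntegral x)
    by_cases h7 : r ∣ charDegree (χ : G → ℂ)
    · rw [χ.2.eq_zero_of_defect_zero (n := 1) hr (by
        rw [hcard, pow_succ, pow_one, Nat.mul_dvd_mul_iff_right hr.pos, hr.dvd_mul]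
        rintro (h | h)
        · exact hpr ((Nat.prime_dvd_prime_iff_eq hr hp).1 (hr.dvd_of_dvd_pow h)).symm
        · exact hqr ((Nat.prime_dvd_prime_iff_eq hr hq).1 (hr.dvd_of_dvd_pow h)).symm)
        (by simpa using h7) h2]
      simpa using isIntegral_zero
    have h8 := χ.2.degree_dvd_card
    rw [hcard] at h8
    have h9 := (((hq.coprime_iff_not_dvd.2 h6).symm.pow_right b).dvd_mul_right).1
      ((hr.coprime_iff_not_dvd.2 h7).symm.dvd_mul_right.1 h8)
    obtain ⟨k, -, hk⟩ := (Nat.dvd_prime_pow hp).1 h9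
    exact absurd h5 (not_mem_principal_of_pow hG (h1.trans (orderOf_dvd_natCard x)) M
      (Finset.ne_of_mem_erase hχ) hk)
  rw [← Finset.sum_div, eq_neg_of_add_eq_zero_right h3] at h4
  have h5 := h4.neg
  rw [neg_div, neg_neg] at h5
  exact hq.not_dvd_one (nat_dvd_of_isIntegral_div hq.ne_zero (by simpa [oneI] using h5))

/-- Let G be a finite simple group of order p ^ a * q ^ b * r with p, q, r distinct primes. Then every Sylow r-subgroup S of G satisfies C_G(S) = S. -/
theorem result {G : Type*} [Group G] [Finite G] [IsSimpleGroup G] (p q r a b : ℕ) (hp : p.Prime) (hq : q.Prime) [Fact r.Prime] (hpq : p ≠ q) (hpr : p ≠ r) (hqr : q ≠ r) (hcard : Nat.card G = p ^ a * q ^ b * r) (S : Sylow r G) : Subgroup.centralizer (S : Set G) = (S : Subgroup G) := by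
  have hr : r.Prime := Fact.out
  have hS := card_sylow_of_dvd (k := 1) (m := p ^ a * q ^ b) S (by rw [hcard]; ring) (by
    rw [hr.dvd_mul]
    rintro (h | h)
    · exact hpr ((Nat.prime_dvd_prime_iff_eq hr hp).1 (hr.dvd_of_dvd_pow h)).symm
    · exact hqr ((Nat.prime_dvd_prime_iff_eq hr hq).1 (hr.dvd_of_dvd_pow h)).symm)
  obtain ⟨x, K, h, hx⟩ := exists_D1_sylow S (by simpa using hS)
  change Subgroup.centralizer ((S : Subgroup G) : Set G) = _
  rw [← hx, centralizer_zpowers]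
  refine h.cent_eq ?_
  by_contra hK
  obtain ⟨s, hs, hsK⟩ := Nat.exists_prime_and_dvd hK
  haveI := Fact.mk hs
  obtain ⟨⟨y, hyK⟩, hy⟩ := exists_prime_orderOf_dvd_card' s hsK
  rw [Subgroup.orderOf_mk] at hy
  have hsr : s ≠ r := fun e => h.cardK (e ▸ hsK)
  have ho : orderOf (x * y) = r * s := by
    rw [(h.comm hyK).orderOf_mul_eq_mul_orderOf_of_coprime, h.ord, hy]
    rw [h.ord, hy]
    exact (Nat.coprime_primes hr hs).2 hsr.symm
  have hG : ¬ IsMulCommutative G := Sv.not_comm_of_card fun hc => by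
    have := (Nat.dvd_prime hc).1 (orderOf_dvd_natCard (x * y))
    rw [ho] at this
    rcases this with e | e
    · exact hr.one_lt.ne' (Nat.eq_one_of_mul_eq_one_right e)
    · exact Nat.not_prime_mul hr.one_lt.ne' hs.one_lt.ne' (e ▸ hc)
  have hd := hsK.trans (Subgroup.card_subgroup_dvd_card K)
  rw [hcard, hs.dvd_mul, hs.dvd_mul] at hd
  rcases hd with (hd | hd) | hd
  · obtain rfl := (Nat.prime_dvd_prime_iff_eq hs hp).1 (hs.dvd_of_dvd_pow hd)
    exact aux hG hp hq hr hpr hqr hcard (ho ▸ dvd_mul_left _ _) (ho ▸ dvd_mul_right _ _)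
  · obtain rfl := (Nat.prime_dvd_prime_iff_eq hs hq).1 (hs.dvd_of_dvd_pow hd)
    exact aux hG hq hp hr hqr hpr (by rw [hcard, mul_comm (p ^ a)]) (ho ▸ dvd_mul_left _ _)
      (ho ▸ dvd_mul_right _ _)
  · exact hsr ((Nat.prime_dvd_prime_iff_eq hs hr).1 hd)

end Cfsg.Agent.S0904
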