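import Cfsg.Statements.S0905
import Cfsg.Agent.B.Defect

set_option autoImplicit false
open Cfsg

namespace Cfsg.Agent.S0905

open Cfsg.Agent Cfsg.Agent.B Cfsg.Agent.H2 Cfsg.Agent.H3 Subgroup MonoidAlgebra
open scoped Pointwise commutatorElement

/-- Let F be a field of characteristic p and let g be an element of the finite group G no conjugate of which centralizes O_p(G). Then the class sum of g is a nilpotent element of the group algebra F[G]. -/
theorem result {G : Type*} [Group G] [Finite G] (p : ℕ) [Fact p.Prime] (F : Type*) [Field F] [CharP F p] (g : G) (hg : ∀ x : G, IsConj g x → x ∉ Subgroup.centralizer (Cfsg.pCore p G : Set G)) : IsNilpotent (∑ᶠ x ∈ ConjClasses.carrier (ConjClasses.mk g), MonoidAlgebra.single x (1 : F) : MonoidAlgebra F G) := by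
  classical
  have := Fintype.ofFinite G
  have : (∑ᶠ x ∈ ConjClasses.carrier (ConjClasses.mk g), MonoidAlgebra.single x (1 : F) : MonoidAlgebra F G) = cls F g := by
    rw [finsum_mem_eq_ite]
    refine extA fun y => ?_
    rw [coeff_sum_apply, Finset.sum_eq_single y, coeff_cls]
    · simp only [ConjClasses.mem_carrier_iff_mk_eq, ConjClasses.mk_eq_mk_iff_isConj, isConj_comm (g := y)]
      split_ifs <;> simp
    · intro x _ hx
      split_ifs <;> simp [hx]
    · simp
  rw [this]
  exact isNilpotent_of_br (L.pCore_isPGroup p G) (cent_le_fix _ (cls_mem g))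
    (trunc_eq_zero_iff.2 fun x hx => by rw [coeff_cls, if_neg fun h => hg x h hx])

end Cfsg.Agent.S0905
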