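import Cfsg.Statements.S0910
import Mathlib
import Cfsg.Agent.H7.Sieve

set_option autoImplicit false
open Cfsg

namespace Cfsg.Agent.S0910

/-- Let G be a non-abelian finite simple group and p a prime. If an irreducible character χ lies in the principal block (relative to a maximal ideal of the algebraic integers containing p) and χ 1 is a power of p, then χ is the principal character. -/
theorem result {G : Type*} [Group G] [Finite G] (p : ℕ) [Fact p.Prime] (M : Ideal Cfsg.AlgInt) (hM : Cfsg.IsPModular p M) [IsSimpleGroup G] (hna : ∃ a b : G, a * b ≠ b * a) (χ : Cfsg.IrrCharacter G) (hχ : χ ∈ Cfsg.principalBlock M G) (k : ℕ) (hdeg : (χ : G → ℂ) 1 = (p : ℂ) ^ k) : (χ : G → ℂ) = fun _ => 1 := by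
  have hG : ¬ IsMulCommutative G := fun h => by
    obtain ⟨a, b, hab⟩ := hna
    exact hab (h.is_comm.comm a b)
  haveI : B.PMod p M := ⟨hM⟩
  by_contra h1
  have h1' : χ ≠ H7.oneI G := fun e => h1 (by rw [e]; rfl)
  have hd : charDegree (χ : G → ℂ) = p ^ k := H3.charDegree_eq (by rw [hdeg]; simp)
  refine H7.not_mem_principal_of_pow hG ?_ M h1' hd hχ
  have h2 := H7.Sv.one_lt_degree hG h1'
  refine Dvd.dvd.trans ?_ χ.2.degree_dvd_card
  rw [hd] at h2 ⊢
  exact dvd_pow_self _ (by rintro rfl; simp at h2)

end Cfsg.Agent.S0910
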