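import Cfsg.Statements.S0926
import Cfsg.Agent.B.Cover

set_option autoImplicit false
open Cfsg

namespace Cfsg.Agent.S0926

open Cfsg.Agent Cfsg.Agent.B Cfsg.Agent.H2 Cfsg.Agent.H3 Subgroup MonoidAlgebra
open scoped Pointwise commutatorElement

/-- Let B be a block of the finite group G with defect group D (relative to a maximal ideal M of the algebraic integers containing p), let χ ∈ B have height zero, and let x be a p-element. Then some conjugate of x lies in D if and only if χ does not vanish on the whole p-section of x (the elements whose p-part is conjugate to x). -/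
theorem result {G : Type*} [Group G] [Finite G] (p : ℕ) [Fact p.Prime] (M : Ideal Cfsg.AlgInt) (hM : Cfsg.IsPModular p M) (B : Set (Cfsg.IrrCharacter G)) (hB : Cfsg.IsPBlock M B) (D : Subgroup G) (hD : Cfsg.IsDefectGroup p M B D) (χ : Cfsg.IrrCharacter G) (hχ : χ ∈ B) (h0 : Cfsg.blockHeight p B (χ : G → ℂ) = 0) (x : G) (hx : ∃ k : ℕ, orderOf x = p ^ k) : (∃ g : G, g * x * g⁻¹ ∈ D) ↔ ∃ u : G, (∃ z : G, Cfsg.IsPPart p u z ∧ IsConj x z) ∧ (χ : G → ℂ) u ≠ 0 := by
  have : PMod p M := ⟨hM⟩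
  constructor
  · rintro ⟨g, hg⟩
    obtain ⟨y, hy, hDy⟩ := isDefectGroup_iff.1 hD
    have hc : Commute (g * x * g⁻¹) y := mem_centralizer_singleton_iff.1 (hDy.le hg)
    refine ⟨_, ⟨_, isPPart_mul (PElt.conj hx g) (hy.reg hB.closed) hc, isConj_iff.2 ⟨g, rfl⟩⟩,
      ne_zero_of_red (M := M) ?_⟩
    rw [red_mul_eq χ.2.isCharacter (PElt.conj hx g) hc]
    exact hy.red_ne_zero hB.closed hχ h0
  · rintro ⟨u, ⟨z, hz, hc⟩, hu⟩
    obtain ⟨c, rfl⟩ := isConj_iff.1 hc
    obtain ⟨d, hd⟩ := hD.exists_conj_mem hB hχ hz hu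
    exact ⟨d * c, by simpa [mul_assoc] using hd⟩

end Cfsg.Agent.S0926
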