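import Cfsg.Statements.S0928
import Cfsg.Agent.B.Rank2

set_option autoImplicit false
open Cfsg

namespace Cfsg.Agent.S0928

open Cfsg.Agent Cfsg.Agent.B Cfsg.Agent.H2 Cfsg.Agent.H3 Cfsg.Agent.L Subgroup MonoidAlgebra
open scoped Pointwise commutatorElement

/-- Let χ be an irreducible character of the finite group G and p a prime. If χ g = 0 for every element g of order p, then the exponent of p in the degree χ(1) equals the exponent of p in the order of G (χ has p-defect zero). -/
theorem result {G : Type*} [Group G] [Finite G] (p : ℕ) [Fact p.Prime] (χ : Cfsg.IrrCharacter G) (hvan : ∀ g : G, orderOf g = p → (χ : G → ℂ) g = 0) : (Cfsg.charDegree (χ : G → ℂ)).factorization p = (Nat.card G).factorization p := by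
  classical
  have := Fintype.ofFinite G
  obtain ⟨M, hM⟩ := exists_pMod p
  have hB := isPBlock_blockOf (M := M) χ
  have hχ := self_mem_blockOf (M := M) χ
  refine (hB.defect_eq_zero_iff hχ).1 (by_contra fun h => ?_)
  let φ : G → ℂ := fun g => if g ^ p = 1 then 1 else 0
  have h1 : IsClassFunction G φ := fun g u => by simp [φ, conj_pow]
  have h2 : ∀ g, φ g ∈ O M := fun g => by
    simp only [φ]; split_ifs; exacts [one_mem _, zero_mem _]
  have h3 : dn M (mkO M φ) ∈ cent (F M) G := by
    rw [dn_mkO]; exact mkA_mem_cent fun g u => congrArg _ (h1 g u)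
  have h4 : lam M (χ : G → ℂ) (dn M (mkO M φ)) = 1 := by
    rw [lam_dn χ.2 (mkO_mem_cent h1), up_mkO h2, om_apply, ev_apply, Finset.sum_eq_single 1]
    · simp [φ, χ.2.apply_one_ne_zero]
    · intro g _ hg
      by_cases h5 : g ^ p = 1
      · rw [hvan g (orderOf_eq_prime h5 hg), mul_zero]
      · simp [φ, h5]
    · simp
  obtain ⟨w, hw, h5⟩ := hB.closed.exists_mul_eq_eB h3 fun ψ hψ => by
    rw [hB.lam_eq hψ hχ, h4]; exact one_ne_zero
  obtain ⟨y, hy⟩ := hB.exists_defectClass
  obtain ⟨u, hu⟩ := exists_prime_orderOf_dvd_card' (G := centralizer ({y} : Set G)) p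
    (Nat.dvd_of_factorization_pos (by rwa [hy.factorization_eq hB.closed]))
  have hu' : orderOf (u : G) = p := by simpa using hu
  have hup : PElt p (u : G) := ⟨1, by simpa using hu'⟩
  have hc : Commute (u : G) y := mem_centralizer_singleton_iff.1 u.2
  have h6 : ∀ g : G, Commute (u : G) g → (eB M (blockOf M (χ : G → ℂ))).coeff g =
      ∑ x ∈ Finset.univ.filter (· ∈ centralizer (zpowers (u : G) : Set G)),
        red M (φ x) * w.coeff (x⁻¹ * g) := fun g hg => by
    rw [← h5, coeff_mul_sum, sum_eq_sum_centralizer hup.isPGroup _ fun v hv x => ?_]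
    · simp [dn_mkO]
    · obtain ⟨n, rfl⟩ := hv
      rw [mem_cent.1 h3, ← mem_cent.1 hw ((u : G) ^ n) (x⁻¹ * g)]
      congr 2
      simp only [mul_inv_rev, inv_inv, mul_assoc, ← (hg.zpow_left n).inv_left.eq]
  refine (isDefectClass_iff.1 hy).1 ?_
  have h7 : (eB M (blockOf M (χ : G → ℂ))).coeff (u * y) = 0 := by_contra fun h =>
    (Fact.out : p.Prime).one_lt.ne' (by rw [← hu', (isPPart_mul hup (hy.reg hB.closed) hc).eq_one_iff.2
      (hB.closed.reg_of_coeff_eB h), orderOf_one])
  rw [h6 y hc, ← h7, h6 _ ((Commute.refl _).mul_right hc), centralizer_zpowers]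
  refine Finset.sum_bij (fun x _ => u * x) (fun x hx => ?_) (fun _ _ _ _ h => mul_left_cancel h)
    (fun x hx => ⟨(u : G)⁻¹ * x, ?_, by simp⟩) fun x hx => ?_
  · exact Finset.mem_filter.2 ⟨Finset.mem_univ _, mul_mem (self_mem_centralizer _)
      (Finset.mem_filter.1 hx).2⟩
  · exact Finset.mem_filter.2 ⟨Finset.mem_univ _, mul_mem (inv_mem (self_mem_centralizer _))
      (Finset.mem_filter.1 hx).2⟩
  · have h8 : Commute (u : G) x := (mem_centralizer_singleton_iff.1 (Finset.mem_filter.1 hx).2).symm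
    have h9 : (u : G) ^ p = 1 := hu' ▸ pow_orderOf_eq_one _
    simp only [φ, h8.mul_pow, h9, one_mul, mul_inv_rev, mul_assoc, inv_mul_cancel_left]

end Cfsg.Agent.S0928
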