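import Cfsg.Statements.S0938
import Cfsg.Agent.B.Cover

set_option autoImplicit false
open Cfsg

namespace Cfsg.Agent.S0938

open Cfsg.Agent Cfsg.Agent.B Cfsg.Agent.H2 Cfsg.Agent.H3 Subgroup MonoidAlgebra
open scoped Pointwise commutatorElement

/-- Let B be a block of the finite group G relative to a maximal ideal M of the algebraic integers containing the prime p, and let χ ∈ B. Then the kernel of B (the set of g with ψ g = ψ 1 for all ψ ∈ B) is a normal subgroup of order prime to p contained in the kernel of χ, and it contains every normal subgroup of order prime to p on which χ takes the value χ(1); that is, it is O_p' of the kernel of χ. -/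
theorem result {G : Type*} [Group G] [Finite G] (p : ℕ) [Fact p.Prime] (M : Ideal Cfsg.AlgInt) (hM : Cfsg.IsPModular p M) (B : Set (Cfsg.IrrCharacter G)) (hB : Cfsg.IsPBlock M B) (χ : Cfsg.IrrCharacter G) (hχ : χ ∈ B) : ∃ K : Subgroup G, K.Normal ∧ (K : Set G) = Cfsg.blockKer B ∧ ¬ p ∣ Nat.card K ∧ (∀ g ∈ K, (χ : G → ℂ) g = (χ : G → ℂ) 1) ∧ ∀ N : Subgroup G, N.Normal → ¬ p ∣ Nat.card N → (∀ g ∈ N, (χ : G → ℂ) g = (χ : G → ℂ) 1) → N ≤ K := by
  have : PMod p M := ⟨hM⟩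
  classical
  let K : Subgroup G := ⨅ ψ : B, charKer (ψ.1 : G → ℂ)
  have hK : ∀ g, g ∈ K ↔ ∀ ψ ∈ B, (ψ : G → ℂ) g = (ψ : G → ℂ) 1 := fun g => by
    simp only [K, Subgroup.mem_iInf, IsIrrCharacter.mem_charKer_iff (Subtype.property _), Subtype.forall]
  refine ⟨K, ⟨fun n hn g => (hK _).2 fun ψ hψ => by rw [ψ.2.isClassFunction n g, (hK n).1 hn ψ hψ]⟩,
    Set.ext hK, fun hd => ?_, fun g hg => (hK g).1 hg χ hχ, fun N _ hN h g hg => (hK g).2 fun ψ hψ =>
      apply_of_mem_charKer (le_charKer_of_lam_eq hN (hB.lam_eq hχ hψ) (fun n hn => χ.2.mem_charKer_iff.2 (h n hn)) hg)⟩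
  obtain ⟨u, hu⟩ := exists_prime_orderOf_dvd_card' p hd
  have h1 := hB.closed.weak_orth (x := 1) (y := u) reg_one (by rw [orderOf_coe, hu])
  have h2 : ((∑ ψ : IrrCharacter G, if ψ ∈ B then charDegree (ψ : G → ℂ) ^ 2 else 0 : ℕ) : ℂ) = 0 := by
    rw [← h1]
    push_cast
    refine Finset.sum_congr rfl fun ψ _ => ?_
    split_ifs with h
    · rw [(hK u).1 u.2 ψ h, ψ.2.cast_charDegree, sq]
    · rfl
  have h3 := Finset.sum_eq_zero_iff.1 (Nat.cast_eq_zero.1 h2) χ (Finset.mem_univ _)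
  rw [if_pos hχ] at h3
  exact pow_ne_zero 2 χ.2.charDegree_pos.ne' h3

end Cfsg.Agent.S0938
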