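import Cfsg.Statements.S0940
import Cfsg.Agent.B.Rob

set_option autoImplicit false
open Cfsg

namespace Cfsg.Agent.S0940

open Cfsg.Agent Cfsg.Agent.B Cfsg.Agent.H2 Cfsg.Agent.H3 Cfsg.Agent.L Subgroup MonoidAlgebra
open scoped Pointwise commutatorElement

/-- Let G be a finite group and M a maximal ideal of the algebraic integers containing the prime p. For every p-regular g, the idempotent coefficient of the principal block at g (the inverse of the group order times the sum over χ in the principal block of χ 1 * conj (χ g)) is congruent modulo the local ideal at M to N / R, where N is the number of pairs (x, y) with x of p-power order, y of order prime to p and x * y = g, and R is the number of elements of G of order prime to p. -/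
theorem result {G : Type*} [Group G] [Finite G] (p : ℕ) [Fact p.Prime] (M : Ideal Cfsg.AlgInt) (hM : Cfsg.IsPModular p M) (g : G) (hg : ¬ p ∣ orderOf g) : Cfsg.MemLocalIdeal M (Cfsg.blockCoeff (Cfsg.principalBlock M G) g - (Nat.card {xy : G × G // (∃ k : ℕ, orderOf xy.1 = p ^ k) ∧ ¬ p ∣ orderOf xy.2 ∧ xy.1 * xy.2 = g} : ℂ) / (Nat.card {y : G // ¬ p ∣ orderOf y} : ℂ)) := by
  have : PMod p M := ⟨hM⟩
  classical
  have := Fintype.ofFinite G
  have h1 := robinson (M := M) (zF_mem (M := M) (oneIrr G).2.isClassFunction) (isPPart_one hg)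
  have h0 : ∀ y : G, (zF M (oneIrr G : G → ℂ)).coeff y = if ¬ p ∣ orderOf y then 1 else 0 := fun y => by
    rw [coeff_zF]
    split_ifs with h
    · rw [reg_of_dvd _ (by simpa using h), red_zero]
    · rw [reg_of_not_dvd _ (by simpa using h)]; exact red_one
  have h2 : lam M (oneIrr G : G → ℂ) (zF M (oneIrr G : G → ℂ)) =
      (Nat.card {y : G // ¬ p ∣ orderOf y} : F M) := by
    rw [(lam_zF (oneIrr G).2.isClassFunction (irr_mem_O _) _).2, card_mul_classInner, ← red_natCast]
    congr 1
    rw [Nat.card_eq_fintype_card, Fintype.card_subtype, ← Finset.sum_boole]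
    have : ((oneIrr G : G → ℂ) 1) = 1 := rfl
    rw [this, div_one]
    refine Finset.sum_congr rfl fun y _ => ?_
    split_ifs with h
    · rw [reg_of_dvd _ h, zero_mul]
    · rw [reg_of_not_dvd _ h]; simp [oneIrr]
  have h3 : lam M (oneIrr G : G → ℂ) (zF M (oneIrr G : G → ℂ)) ≠ 0 :=
    (isPBlock_principal.lam_zF_ne_zero_iff oneIrr_mem).2 ⟨oneIrr_mem, blockHeight_one _⟩
  rw [Finset.sum_eq_single (blkOf M (oneIrr G)) (fun B _ hB => by
      rw [lam_zF_eq_zero, zero_mul]
      rw [← B.2.eq_blockOf B.rep_mem, mem_blk_iff]; exact hB.symm) (by simp),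
    lam_rep_blkOf, h2, inv_one, one_mul] at h1
  rw [h2] at h3
  have h4 : red M (Nat.card {y : G // ¬ p ∣ orderOf y} : ℂ) ≠ 0 := by rwa [red_natCast]
  rw [← red_eq_iff (isPBlock_principal.closed.blockCoeff_mem _) (div_mem_O (natCast_mem _ _) h4),
    red_div (natCast_mem _ _) h4, red_natCast, red_natCast, eq_div_iff h3, mul_comm, ← coeff_eB]
  refine h1.symm.trans ?_
  simp only [h0]
  rw [Finset.sum_boole, Nat.card_eq_fintype_card, Fintype.card_subtype]
  congr 1
  refine Finset.card_bij (fun y _ => (g * y⁻¹, y)) (fun y hy => ?_)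
    (fun _ _ _ _ h => congrArg Prod.snd h) fun x hx => ?_
  · simp only [Finset.mem_filter, Finset.mem_univ, true_and] at hy ⊢
    exact ⟨show PElt p _ by simpa using hy.1.inv, hy.2, by simp⟩
  · simp only [Finset.mem_filter, Finset.mem_univ, true_and] at hx ⊢
    obtain ⟨h5, h6, rfl⟩ := hx
    exact ⟨x.2, ⟨by simpa using PElt.inv h5, h6⟩, by simp⟩

end Cfsg.Agent.S0940
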