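import Cfsg.Statements.S0944
import Cfsg.Agent.B.Defect

set_option autoImplicit false
open Cfsg

namespace Cfsg.Agent.S0944

open Cfsg.Agent Cfsg.Agent.B Cfsg.Agent.H2 Cfsg.Agent.H3 Subgroup MonoidAlgebra
open scoped Pointwise commutatorElement

/-- Let χ be an irreducible character of the finite group G and u an involution. Then χ u is a rational integer n with n ≡ χ 1 (mod 2). -/
theorem result {G : Type*} [Group G] [Finite G] (χ : Cfsg.IrrCharacter G) (u : G) (hu : orderOf u = 2) : ∃ n : ℤ, (χ : G → ℂ) u = (n : ℂ) ∧ (2 : ℤ) ∣ (Cfsg.charDegree (χ : G → ℂ) : ℤ) - n := by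
  obtain ⟨n, ε, h0, h1, h2, -⟩ := χ.2.isCharacter.exists_eigenvalues u
  have h3 : ∀ i, ∃ m : ℤ, ε i = m ∧ (2 : ℤ) ∣ 1 - m := fun i => by
    have := h1 i
    rw [hu] at this
    rcases sq_eq_one_iff.1 this with h | h
    · exact ⟨1, by simp [h], by simp⟩
    · exact ⟨-1, by simp [h], by simp⟩
  choose m hm hm' using h3
  refine ⟨∑ i, m i, by simpa [hm] using h2 1, ?_⟩
  rw [charDegree_eq h0]
  have : (n : ℤ) - ∑ i, m i = ∑ i, (1 - m i) := by simp [Finset.sum_sub_distrib]
  rw [this]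
  exact Finset.dvd_sum fun i _ => hm' i

end Cfsg.Agent.S0944
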