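import Cfsg.Statements.S0945
import Cfsg.Agent.L.K4

set_option autoImplicit false
open Cfsg

namespace Cfsg.Agent.S0945

open Cfsg.Agent Cfsg.Agent.H2 Cfsg.Agent.L Subgroup
open scoped Pointwise commutatorElement

/-- Let P be a Sylow 2-subgroup of the finite group G isomorphic to Z/2^m × Z/2^m with m ≥ 1. Then (i) the index of C_G(P) in N_G(P) is 1 or 3, and (ii) if it is not 1, then for every z ≠ 1 in P, C_G(z) ∩ N_G(P) = C_G(P). -/
theorem result {G : Type*} [Group G] [Finite G] (P : Sylow 2 G) (m : ℕ) (hm : 1 ≤ m) (e : (P : Subgroup G) ≃* Multiplicative (ZMod (2 ^ m) × ZMod (2 ^ m))) : ((Subgroup.centralizer (P : Set G)).relIndex (Subgroup.normalizer (P : Set G)) = 1 ∨ (Subgroup.centralizer (P : Set G)).relIndex (Subgroup.normalizer (P : Set G)) = 3) ∧ ((Subgroup.centralizer (P : Set G)).relIndex (Subgroup.normalizer (P : Set G)) ≠ 1 → ∀ z ∈ (P : Subgroup G), z ≠ 1 → Subgroup.centralizer ({z} : Set G) ⊓ Subgroup.normalizer (P : Set G) = Subgroup.centralizer (P : Set G)) := by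
  obtain ⟨V, a, b, hK, hV⟩ := exists_omega_k4 hm e
  haveI : IsMulCommutative (P : Subgroup G) :=
    ⟨⟨fun x y => e.injective (by rw [map_mul, map_mul, mul_comm])⟩⟩
  have hS : SylIn 2 (P : Subgroup G) (normalizer ((P : Subgroup G) : Set G)) :=
    sylIn_of_le P le_normalizer
  have hVP : V ≤ P := fun x hx => ((hV x).1 hx).1
  have hcn : centralizer ((P : Subgroup G) : Set G) ≤ normalizer ((P : Subgroup G) : Set G) :=
    centralizer_le_normalizer _
  have hNV : normalizer ((P : Subgroup G) : Set G) ≤ normalizer (V : Set G) := fun g hg => by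
    refine mem_normalizer_of_cj_le (cj_le_iff_forall.2 fun x hx => ?_)
    obtain ⟨h1, h2⟩ := (hV x).1 hx
    refine (hV _).2 ⟨(mem_normalizer_iff.1 hg x).1 h1, ?_⟩
    calc g * x * g⁻¹ * (g * x * g⁻¹) = g * (x * x) * g⁻¹ := by group
      _ = 1 := by rw [h2]; group
  have fix : ∀ g ∈ normalizer ((P : Subgroup G) : Set G), (orderOf g).Coprime 2 →
      g ∈ centralizer (V : Set G) → g ∈ centralizer ((P : Subgroup G) : Set G) := by
    intro g hg ho hgc
    rw [mem_centralizer_iff]
    intro x hx
    have := (oddAut_conj hg ho).fix_of_omega P.isPGroup'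
      (fun x hx y hy => (le_centralizer_self_of_comm (P := (P : Subgroup G)) hy x hx))
      (fun x hx h2 => conj_eq_of_mem_centralizer hgc ((hV x).2 ⟨hx, h2⟩)) hx
    calc x * g = (g * x * g⁻¹) * g := by rw [this]
      _ = g * x := by group
  constructor
  · have hc := (sylIn_top P).coprime_centralizer (H := normalizer ((P : Subgroup G) : Set G)) le_top le_normalizer
    have h2 : 2 ∣ Nat.card (P : Subgroup G) :=
      (show 2 ∣ Nat.card V by rw [hK.card]; norm_num).trans (card_dvd_of_le hVP)
    refine relIndex_odd_part (H := centralizer ((P : Subgroup G) : Set G))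
      (K := normalizer ((P : Subgroup G) : Set G) ⊓ centralizer (V : Set G)) (a := 1) inf_le_left
      (le_inf hcn (centralizer_le hVP)) ?_ ?_ ?_ (one_mul _).symm
    · rw [inf_relIndex_left]; exact relIndex_centralizer_dvd_six hK.card hNV
    · exact resOf_le_iff.2 fun g hg ho => fix g hg.1 ho hg.2
    · exact Nat.coprime_two_left.1 (Nat.Coprime.coprime_dvd_left h2 hc)
  · intro _ z hz z1
    refine le_antisymm ?_ (le_inf (centralizer_le (Set.singleton_subset_iff.2 hz)) hcn)
    have hS' : SylIn 2 (P : Subgroup G) (centralizer ({z} : Set G) ⊓ normalizer ((P : Subgroup G) : Set G)) :=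
      sylIn_of_le P (le_inf (le_centralizer_self_of_comm.trans
        (centralizer_le (Set.singleton_subset_iff.2 hz))) le_normalizer)
    change centralizer ({z} : Set G) ⊓ normalizer ((P : Subgroup G) : Set G) ≤ centralizer ((P : Subgroup G) : Set G)
    rw [← hS'.resOf_sup, sup_le_iff]
    refine ⟨resOf_le_iff.2 fun g hg ho => fix g hg.2 ho ?_, le_centralizer_self_of_comm⟩
    by_contra hc
    obtain ⟨k, hk⟩ := orderOf_eq_pow_of_mem P.isPGroup' hz
    have hk0 : k ≠ 0 := by
      rintro rfl; exact z1 (orderOf_eq_one_iff.1 (by simpa using hk))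
    obtain ⟨j, rfl⟩ := Nat.exists_eq_succ_of_ne_zero hk0
    have t1 : z ^ 2 ^ j ≠ 1 := fun h => by
      have := Nat.le_of_dvd (by positivity) (orderOf_dvd_of_pow_eq_one h)
      have h2 : 0 < 2 ^ j := by positivity
      rw [hk, pow_succ] at this; omega
    have tV : z ^ 2 ^ j ∈ V := (hV _).2 ⟨pow_mem hz _, by
      rw [← pow_two, ← pow_mul, ← pow_succ, ← Nat.succ_eq_add_one, ← hk, pow_orderOf_eq_one]⟩
    have ft : g * z ^ 2 ^ j * g⁻¹ = z ^ 2 ^ j := by
      have : Commute z g := hg.1 z rfl
      rw [← (this.pow_left _).eq, mul_inv_cancel_right]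
    have key := fun b hb b1 => (oddAut_conj (hNV hg.2) ho).k4_trans hK.isKleinFour
      (exists_conj_ne hc) (b := b) tV hb t1 b1
    simp only [ft, or_self] at key
    exact hK.ne ((key a hK.a_mem hK.a1).trans (key b hK.b_mem hK.b1).symm)

end Cfsg.Agent.S0945
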