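import Cfsg.Statements.S0946
import Cfsg.Agent.L.K4

set_option autoImplicit false
open Cfsg

namespace Cfsg.Agent.S0946

open Cfsg.Agent Cfsg.Agent.H2 Cfsg.Agent.L Subgroup
open scoped Pointwise commutatorElement

/-- Let P be a Sylow 2-subgroup of the finite group G isomorphic to Z/2^m × Z/2^m with m ≥ 1. Then either P has a normal complement in G, or all involutions of G are conjugate. -/
theorem result {G : Type*} [Group G] [Finite G] (P : Sylow 2 G) (m : ℕ) (hm : 1 ≤ m) (e : (P : Subgroup G) ≃* Multiplicative (ZMod (2 ^ m) × ZMod (2 ^ m))) : (∃ N : Subgroup G, N.Normal ∧ Subgroup.IsComplement' N (P : Subgroup G)) ∨ ∀ s t : G, orderOf s = 2 → orderOf t = 2 → IsConj s t := by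
  obtain ⟨V, a, b, hK, hV⟩ := exists_omega_k4 hm e
  haveI : IsMulCommutative (P : Subgroup G) :=
    ⟨⟨fun x y => e.injective (by rw [map_mul, map_mul, mul_comm])⟩⟩
  by_cases h : PNil 2 (⊤ : Subgroup G)
  · exact Or.inl ((exists_complement_iff P).2 h)
  · exact Or.inr fun s t hs ht => isConj_of_not_pNil P hK.isKleinFour hV h hs ht

end Cfsg.Agent.S0946
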