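import Cfsg.Statements.S0947
import Cfsg.Agent.B.Prin

set_option autoImplicit false
open Cfsg

namespace Cfsg.Agent.S0947

open Cfsg.Agent Cfsg.Agent.B Cfsg.Agent.H2 Cfsg.Agent.H3 Cfsg.Agent.L Subgroup MonoidAlgebra
open scoped Pointwise commutatorElement

/-- Let z ≠ 1 be a p-element of the finite group G with centralizer H, and fix a maximal ideal M of the algebraic integers containing p. (i) For every y ∈ H of order prime to p, the sum over ζ in the principal block of G of |ζ (z * y)|² equals the sum over χ in the principal block of H of |χ y|². (ii) If moreover H has a normal p-complement (its largest normal subgroup of order prime to p has p-power index), that common value is the largest power of p dividing the order of H. -/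
theorem result {G : Type*} [Group G] [Finite G] (p : ℕ) [Fact p.Prime] (M : Ideal Cfsg.AlgInt) (hM : Cfsg.IsPModular p M) (z : G) (hz : ∃ k : ℕ, orderOf z = p ^ k) (hz1 : z ≠ 1) (y : Subgroup.centralizer ({z} : Set G)) (hy : ¬ p ∣ orderOf y) : (∑ᶠ ζ ∈ Cfsg.principalBlock M G, ‖(ζ : G → ℂ) (z * (y : G))‖ ^ 2 = ∑ᶠ χ ∈ Cfsg.principalBlock M (Subgroup.centralizer ({z} : Set G)), ‖(χ : Subgroup.centralizer ({z} : Set G) → ℂ) y‖ ^ 2) ∧ ((∃ k : ℕ, (Cfsg.pPrimeCore p (Subgroup.centralizer ({z} : Set G))).index = p ^ k) → ∑ᶠ ζ ∈ Cfsg.principalBlock M G, ‖(ζ : G → ℂ) (z * (y : G))‖ ^ 2 = ((p ^ (Nat.card (Subgroup.centralizer ({z} : Set G))).factorization p : ℕ) : ℝ)) := by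
  have : PMod p M := ⟨hM⟩
  classical
  have h0 : ∀ {K : Type _} [Group K] [Finite K] (B : Set (IrrCharacter K)) (g : K),
      ((∑ᶠ ζ ∈ B, ‖(ζ : K → ℂ) g‖ ^ 2 : ℝ) : ℂ) =
        ∑ ζ : IrrCharacter K, if ζ ∈ B then (ζ : K → ℂ) g * (ζ : K → ℂ) g⁻¹ else 0 := by
    intro K _ _ B g
    rw [finsum_mem_eq_ite]
    push_cast
    refine Finset.sum_congr rfl fun ζ _ => ?_
    split_ifs
    · rw [ζ.2.apply_inv, Complex.mul_conj']; simp
    · simp
  have h1 := isPBlock_principal.closed.sum_mul_eq_roots (M := M) hz hy hy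
  rw [roots_principal_centralizer hz] at h1
  refine ⟨Complex.ofReal_injective (by rw [h0, h0, h1]), fun ⟨k, hk⟩ => Complex.ofReal_injective ?_⟩
  have hn : PNil p (centralizer ({z} : Set G)) := pNil_top_subtype_iff.1
    (pNil_of_relIndex le_normalizer_of_normal (pPrimeCore_coprime p) (by rwa [relIndex_top_right]))
  rw [h0, Complex.ofReal_natCast, ← sum_principal_of_pNil (M := M) hz hn]
  refine Finset.sum_congr rfl fun ζ _ => ?_
  split_ifs with h
  · rw [ζ.2.apply_inv, ζ.2.apply_inv,
      apply_mul_of_pNil hz hn (commute_of_mem_centralizer y) (by simpa using hy) h]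
  · rfl

end Cfsg.Agent.S0947
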