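import Cfsg.Statements.S0948
import Cfsg.Agent.B.Prin

set_option autoImplicit false
open Cfsg

namespace Cfsg.Agent.S0948

open Cfsg.Agent Cfsg.Agent.B Cfsg.Agent.H2 Cfsg.Agent.H3 Cfsg.Agent.L Subgroup MonoidAlgebra
open scoped Pointwise commutatorElement

/-- Let the finite group G have a Sylow 2-subgroup P that is a Klein four-group, suppose all involutions of G are conjugate, and fix a maximal ideal M of the algebraic integers containing 2. Then the principal block consists of exactly four irreducible characters, the principal character and ζ₂, ζ₃, ζ₄, and there is a sign ε such that for every involution z: ζ₂ z = 1, ζ₃ z = ε, ζ₄ z = -1; moreover ζ₂ 1 ≡ 1, ζ₃ 1 ≡ ε, ζ₄ 1 ≡ -1 (mod 4), and 1 + ζ₂ y + ε ζ₃ y - ζ₄ y = 0 for every y of odd order. -/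
theorem result {G : Type*} [Group G] [Finite G] (M : Ideal Cfsg.AlgInt) (hM : Cfsg.IsPModular 2 M) (P : Sylow 2 G) (hP : IsKleinFour (P : Subgroup G)) (hone : ∀ s t : G, orderOf s = 2 → orderOf t = 2 → IsConj s t) : ∃ ζ₂ ζ₃ ζ₄ : Cfsg.IrrCharacter G, ∃ ε : ℤ, (ε = 1 ∨ ε = -1) ∧ (ζ₂ : G → ℂ) ≠ (fun _ => 1) ∧ (ζ₃ : G → ℂ) ≠ (fun _ => 1) ∧ ζ₂ ≠ ζ₃ ∧ ζ₂ ≠ ζ₄ ∧ ζ₃ ≠ ζ₄ ∧ Cfsg.principalBlock M G = {χ : Cfsg.IrrCharacter G | (χ : G → ℂ) = (fun _ => 1) ∨ χ = ζ₂ ∨ χ = ζ₃ ∨ χ = ζ₄} ∧ (∀ z : G, orderOf z = 2 → (ζ₂ : G → ℂ) z = 1 ∧ (ζ₃ : G → ℂ) z = (ε : ℂ) ∧ (ζ₄ : G → ℂ) z = -1) ∧ (4 : ℤ) ∣ (Cfsg.charDegree (ζ₂ : G → ℂ) : ℤ) - 1 ∧ (4 : ℤ) ∣ (Cfsg.charDegree (ζ₃ : G → ℂ) : ℤ) - ε ∧ (4 : ℤ) ∣ (Cfsg.charDegree (ζ₄ : G → ℂ) : ℤ) + 1 ∧ ∀ y : G, Odd (orderOf y) → 1 + (ζ₂ : G → ℂ) y + (ε : ℂ) * (ζ₃ : G → ℂ) y - (ζ₄ : G → ℂ) y = 0 := by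
  have : PMod 2 M := ⟨hM⟩
  classical
  obtain ⟨δ, hδ, hc⟩ := klein_block M P hP hone
  have h1 : oneIrr G ∈ Finset.univ.filter (· ∈ principalBlock M G) := by simpa using oneIrr_mem
  obtain ⟨x, y, z, hxy, hxz, hyz, h2⟩ := Finset.card_eq_three.1
    (show ((Finset.univ.filter (· ∈ principalBlock M G)).erase (oneIrr G)).card = 3 by
      rw [Finset.card_erase_of_mem h1, hc])
  have hm : ∀ χ, χ ∈ principalBlock M G ∧ χ ≠ oneIrr G ↔ χ = x ∨ χ = y ∨ χ = z := fun χ => by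
    have := Finset.ext_iff.1 h2 χ
    simpa [and_comm] using this
  obtain ⟨t, -, ht⟩ := exists_ord2_mem_of_even (H := (P : Subgroup G)) (by rw [hP.card_four]; decide)
  have hx := (hm x).2 (by simp)
  have hy := (hm y).2 (by simp)
  have hz := (hm z).2 (by simp)
  have horth : ∀ g : G, Odd (orderOf g) → 1 + δ x * (x : G → ℂ) g + δ y * (y : G → ℂ) g +
      δ z * (z : G → ℂ) g = 0 := fun g hg => by
    have := isPBlock_principal.closed.weak_orth (M := M) hg.not_two_dvd_nat ht.symm.dvd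
    rw [← Finset.sum_filter, ← Finset.add_sum_erase _ _ h1, h2, Finset.sum_insert (by simp [hxy, hxz]),
      Finset.sum_pair hyz, (hδ x hx.1).2.1 t ht.symm.dvd, (hδ y hy.1).2.1 t ht.symm.dvd,
      (hδ z hz.1).2.1 t ht.symm.dvd] at this
    change (1 : ℂ) * 1 + _ = 0 at this
    linear_combination this
  have key : ∀ x y z : IrrCharacter G, x ≠ y → x ≠ z → y ≠ z →
      (∀ χ, χ ∈ principalBlock M G ∧ χ ≠ oneIrr G ↔ χ = x ∨ χ = y ∨ χ = z) → δ x = 1 → δ z = -1 →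
      (∀ g : G, Odd (orderOf g) → 1 + δ x * (x : G → ℂ) g + δ y * (y : G → ℂ) g +
      δ z * (z : G → ℂ) g = 0) → ∃ ζ₂ ζ₃ ζ₄ : Cfsg.IrrCharacter G, ∃ ε : ℤ, (ε = 1 ∨ ε = -1) ∧ (ζ₂ : G → ℂ) ≠ (fun _ => 1) ∧ (ζ₃ : G → ℂ) ≠ (fun _ => 1) ∧ ζ₂ ≠ ζ₃ ∧ ζ₂ ≠ ζ₄ ∧ ζ₃ ≠ ζ₄ ∧ Cfsg.principalBlock M G = {χ : Cfsg.IrrCharacter G | (χ : G → ℂ) = (fun _ => 1) ∨ χ = ζ₂ ∨ χ = ζ₃ ∨ χ = ζ₄} ∧ (∀ z : G, orderOf z = 2 → (ζ₂ : G → ℂ) z = 1 ∧ (ζ₃ : G → ℂ) z = (ε : ℂ) ∧ (ζ₄ : G → ℂ) z = -1) ∧ (4 : ℤ) ∣ (Cfsg.charDegree (ζ₂ : G → ℂ) : ℤ) - 1 ∧ (4 : ℤ) ∣ (Cfsg.charDegree (ζ₃ : G → ℂ) : ℤ) - ε ∧ (4 : ℤ) ∣ (Cfsg.charDegree (ζ₄ : G → ℂ) : ℤ) + 1 ∧ ∀ y : G, Odd (orderOf y) → 1 + (ζ₂ : G → ℂ) y + (ε : ℂ) * (ζ₃ : G → ℂ) y - (ζ₄ : G → ℂ) y = 0 := by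
    intro x y z hxy hxz hyz hm e1 e2 horth
    have hx := (hm x).2 (by simp)
    have hy := (hm y).2 (by simp)
    have hz := (hm z).2 (by simp)
    obtain ⟨-, a1, a2⟩ := hδ x hx.1
    obtain ⟨b0, b1, b2⟩ := hδ y hy.1
    obtain ⟨-, c1, c2⟩ := hδ z hz.1
    refine ⟨x, y, z, δ y, b0, fun e => hx.2 (Subtype.ext e), fun e => hy.2 (Subtype.ext e), hxy, hxz,
      hyz, Set.ext fun χ => ?_, fun s hs => ?_, by omega, b2, by omega, fun g hg => ?_⟩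
    · rw [Set.mem_setOf_eq, ← hm]
      by_cases e : χ = oneIrr G
      · exact iff_of_true (e ▸ oneIrr_mem) (Or.inl (e ▸ rfl))
      · exact ⟨fun h => Or.inr ⟨h, e⟩, fun h => (h.resolve_left fun h => e (Subtype.ext h)).1⟩
    · rw [a1 s hs.symm.dvd, b1 s hs.symm.dvd, c1 s hs.symm.dvd, e1, e2]; simp
    · have := horth g hg
      rw [e1, e2] at this
      push_cast at this
      linear_combination this
  have h3 := horth 1 (by simp)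
  rw [← x.2.cast_charDegree, ← y.2.cast_charDegree, ← z.2.cast_charDegree] at h3
  have h4 : 1 + δ x * charDegree (x : G → ℂ) + δ y * charDegree (y : G → ℂ) +
    δ z * charDegree (z : G → ℂ) = 0 := by exact_mod_cast h3
  have := x.2.charDegree_pos
  have := y.2.charDegree_pos
  have := z.2.charDegree_pos
  rcases (hδ x hx.1).1 with e1 | e1 <;> rcases (hδ y hy.1).1 with e2 | e2 <;>
    rcases (hδ z hz.1).1 with e3 | e3
  · rw [e1, e2, e3] at h4; omega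
  · exact key x y z hxy hxz hyz hm e1 e3 horth
  · exact key x z y hxz hxy hyz.symm (fun χ => by rw [hm]; tauto) e1 e2 fun g hg => by
      linear_combination horth g hg
  · exact key x y z hxy hxz hyz hm e1 e3 horth
  · exact key y z x hyz hxy.symm hxz.symm (fun χ => by rw [hm]; tauto) e2 e1 fun g hg => by
      linear_combination horth g hg
  · exact key y z x hyz hxy.symm hxz.symm (fun χ => by rw [hm]; tauto) e2 e1 fun g hg => by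
      linear_combination horth g hg
  · exact key z y x hyz.symm hxz.symm hxy.symm (fun χ => by rw [hm]; tauto) e3 e1 fun g hg => by
      linear_combination horth g hg
  · rw [e1, e2, e3] at h4; omega

end Cfsg.Agent.S0948
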