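import Cfsg.Statements.S0950
import Cfsg.Agent.L.Quat

set_option autoImplicit false
open Cfsg

namespace Cfsg.Agent.S0950

open Cfsg.Agent Cfsg.Agent.H2 Cfsg.Agent.L Subgroup MonoidAlgebra
open scoped Pointwise commutatorElement

/-- Let S be a Sylow 2-subgroup of the finite group G that is isomorphic to the quaternion group of order 8, and suppose S has no normal complement in G. Then any two subgroups of order 4 of S are conjugate by an element of the normalizer of S. -/
theorem result {G : Type*} [Group G] [Finite G] (S : Sylow 2 G) (e : (S : Subgroup G) ≃* QuaternionGroup 2) (hnc : ∀ N : Subgroup G, N.Normal → ¬ Subgroup.IsComplement' N (S : Subgroup G)) (A B : Subgroup G) (hA : A ≤ S) (hB : B ≤ S) (hA4 : Nat.card A = 4) (hB4 : Nat.card B = 4) : ∃ n ∈ Subgroup.normalizer ((S : Subgroup G) : Set G), B = A.map (MulAut.conj n).toMonoidHom := by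
  obtain ⟨a, b, h⟩ := exists_qP two_pos e
  have hn : ¬ PNil 2 (⊤ : Subgroup G) := fun h => by
    obtain ⟨N, h1, h2⟩ := (exists_complement_iff S).2 h
    exact hnc N h1 h2
  have key : ∀ A : Subgroup G, A ≤ S → Nat.card A = 4 → ∃ x, orderOf x = 4 ∧ zpowers x = A := by
    intro A h1 h2
    have := h.isCyclic_of_lt8 (lt_of_le_of_ne h1 fun e => by rw [e, h.card] at h2; omega)
    obtain ⟨x, hx⟩ := (Subgroup.isCyclic_iff_exists_zpowers_eq_top A).1 this
    exact ⟨x, by rw [← Nat.card_zpowers, hx, h2], hx⟩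
  obtain ⟨x, h1, rfl⟩ := key A hA hA4
  obtain ⟨y, h2, rfl⟩ := key B hB hB4
  obtain ⟨n, h3, rfl⟩ := h.exists_conj8 (sylIn_top S) hn (zpowers_le.1 hA) (zpowers_le.1 hB) h1 h2
  exact ⟨n, h3, (cj_zpowers n x).symm⟩

end Cfsg.Agent.S0950
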