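import Cfsg.Statements.S0951
import Cfsg.Agent.B.ZStar

set_option autoImplicit false
open Cfsg

namespace Cfsg.Agent.S0951

open Cfsg.Agent Cfsg.Agent.B Cfsg.Agent.H2 Cfsg.Agent.H3 Cfsg.Agent.L Subgroup MonoidAlgebra
open scoped Pointwise commutatorElement

/-- Let S be a Sylow 2-subgroup of the finite group G isomorphic to the quaternion group of order 8. Suppose G has no nontrivial normal subgroup of odd order and G ≠ S. Then, relative to any maximal ideal M of the algebraic integers containing 2, the principal block of G consists of exactly 7 irreducible characters. -/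
theorem result {G : Type*} [Group G] [Finite G] (M : Ideal Cfsg.AlgInt) (hM : Cfsg.IsPModular 2 M) (S : Sylow 2 G) (e : (S : Subgroup G) ≃* QuaternionGroup 2) (hO : ∀ N : Subgroup G, N.Normal → Odd (Nat.card N) → N = ⊥) (hG : (S : Subgroup G) ≠ ⊤) : Nat.card (Cfsg.principalBlock M G) = 7 := by
  have : PMod 2 M := ⟨hM⟩
  classical
  have := Fintype.ofFinite G
  obtain ⟨a, b, h⟩ := exists_qP two_pos e
  have hO' : pPrimeCore 2 G = ⊥ :=
    hO _ inferInstance (Nat.coprime_two_right.1 (pPrimeCore_coprime 2))
  have hP := sylIn_top S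
  obtain ⟨-, -, -, -, -, -, -, -, -, -, -, h1⟩ := q8_block M h hP (fun e => hG (by
    rw [← hP.resOf_sup, hO (resOf 2 ⊤) inferInstance (Nat.coprime_two_right.1 (pNil_iff_card.1 e)),
      bot_sup_eq])) (zstar_center (h.isolated hP h.ord_t) hO')
  rw [← h1, Nat.card_eq_fintype_card, Fintype.card_subtype]

end Cfsg.Agent.S0951
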