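import Cfsg.Statements.S0953
import Cfsg.Agent.B.Rob

set_option autoImplicit false
open Cfsg

namespace Cfsg.Agent.S0953

open Cfsg.Agent Cfsg.Agent.B Cfsg.Agent.H2 Cfsg.Agent.H3 Cfsg.Agent.L Subgroup MonoidAlgebra
open scoped Pointwise commutatorElement

/-- Let P be a Sylow p-subgroup of the finite group G with normalizer N, and fix a maximal ideal M of the algebraic integers containing p. The number of blocks of G having P as a defect group equals the number of conjugacy classes of N consisting of elements of order prime to p that centralize P. -/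
theorem result {G : Type*} [Group G] [Finite G] (p : ℕ) [Fact p.Prime] (M : Ideal Cfsg.AlgInt) (hM : Cfsg.IsPModular p M) (P : Sylow p G) : Nat.card {B : Set (Cfsg.IrrCharacter G) // Cfsg.IsPBlock M B ∧ Cfsg.IsDefectGroup p M B (P : Subgroup G)} = Nat.card {C : ConjClasses (Subgroup.normalizer ((P : Subgroup G) : Set G)) // ∀ n : Subgroup.normalizer ((P : Subgroup G) : Set G), ConjClasses.mk n = C → ¬ p ∣ orderOf n ∧ (n : G) ∈ Subgroup.centralizer ((P : Subgroup G) : Set G)} := by
  have : PMod p M := ⟨hM⟩
  rw [card_blk_normalizer P.isPGroup', card_blk_of_normal (by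
    rw [← subgroupOf_self, sylIn_subgroupOf_iff le_rfl le_normalizer]; exact sylIn_of_le P le_normalizer)]
  refine Nat.card_congr (Equiv.subtypeEquivRight fun C => forall₂_congr fun n _ => and_congr_right fun _ => ?_)
  simp only [mem_centralizer_iff, SetLike.mem_coe, mem_subgroupOf, Subtype.forall, Subtype.ext_iff]
  exact ⟨fun h x hx => h x (le_normalizer hx) hx, fun h x _ hx => h x hx⟩

end Cfsg.Agent.S0953
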