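import Cfsg.Statements.S0956
import Cfsg.Agent.B.Rob

set_option autoImplicit false
open Cfsg

namespace Cfsg.Agent.S0956

open Cfsg.Agent Cfsg.Agent.B Cfsg.Agent.H2 Cfsg.Agent.H3 Cfsg.Agent.L Subgroup MonoidAlgebra
open scoped Pointwise commutatorElement

/-- Let D be a defect group of a block of the finite group G (relative to a maximal ideal M of the algebraic integers containing the prime p) and P a Sylow p-subgroup containing D. Then there is an element x of order prime to p such that D is a Sylow p-subgroup of the centralizer of x and D = P ∩ x P x⁻¹. -/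
theorem result {G : Type*} [Group G] [Finite G] (p : ℕ) [Fact p.Prime] (M : Ideal Cfsg.AlgInt) (hM : Cfsg.IsPModular p M) (B : Set (Cfsg.IrrCharacter G)) (hB : Cfsg.IsPBlock M B) (D : Subgroup G) (hD : Cfsg.IsDefectGroup p M B D) (P : Sylow p G) (hDP : D ≤ P) : ∃ x : G, ¬ p ∣ orderOf x ∧ (∃ S : Sylow p (Subgroup.centralizer ({x} : Set G)), (S : Subgroup (Subgroup.centralizer ({x} : Set G))).map (Subgroup.centralizer ({x} : Set G)).subtype = D) ∧ (P : Subgroup G) ⊓ (P : Subgroup G).map (MulAut.conj x).toMonoidHom = D := by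
  have : PMod p M := ⟨hM⟩
  obtain ⟨b, h1, h2⟩ := hD.exists_root hB le_normalizer (centralizer_le_normalizer _) le_rfl
  obtain ⟨S, hS⟩ := (P.isPGroup'.comap_subtype (K := normalizer (D : Set G))).exists_le_sylow
  obtain ⟨g, hg⟩ := h1.1.exists_defectClass
  obtain ⟨l, h3, h4⟩ := h1.1.exists_br_inf S (isDefectClass_iff.1 hg).1
  have h5 := (isDefectClass_iff.1 (hg.of_isConj h3)).1
  have h6 := sylIn_of_coeff_normalizer h2 h1.1.closed h5
  obtain ⟨x, hx⟩ := (h2.br_ne_zero_iff h1.1.closed (S.isPGroup'.to_le inf_le_left)).1 h4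
  rw [cj_le_iff, cj_eq_of_normal _ (D.subgroupOf _)] at hx
  refine ⟨(l : G)⁻¹, by simpa using h1.1.closed.reg_of_coeff_eB h5, ?_, ?_⟩
  · rw [centralizer_inv]; exact h6.exists_sylow'
  have h7 : D ≤ (P : Subgroup G) ⊓ cj (l : G)⁻¹ P :=
    le_inf hDP (by rw [le_cj_iff, inv_inv, cj_eq_of_mem_normalizer l.2]; exact hDP)
  refine (h7.eq_or_lt.resolve_right fun h8 => ?_).symm
  obtain ⟨y, h9, h10, h11⟩ := exists_mem_normalizer_not_mem (P.isPGroup'.to_le inf_le_left) h8
  refine h11 (hx (show (⟨y, h10⟩ : normalizer (D : Set G)) ∈ _ from ⟨hS h9.1, mem_cj.2 (hS ?_)⟩))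
  simpa [mem_subgroupOf] using mem_cj.1 h9.2

end Cfsg.Agent.S0956
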