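import Cfsg.Statements.S0957
import Cfsg.Agent.B.Rob

set_option autoImplicit false
open Cfsg

namespace Cfsg.Agent.S0957

open Cfsg.Agent Cfsg.Agent.B Cfsg.Agent.H2 Cfsg.Agent.H3 Cfsg.Agent.L Subgroup MonoidAlgebra
open scoped Pointwise commutatorElement

/-- Let P be a Sylow p-subgroup of the finite group G, let g, h ∈ G and let p ^ d be the order of a Sylow p-subgroup of the centralizer of g. Then the number of pairs (y, z) with y conjugate to g, z conjugate to h and z * y⁻¹ ∈ P is divisible by the order of P divided by p ^ d. -/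
theorem result {G : Type*} [Group G] [Finite G] (p : ℕ) [Fact p.Prime] (P : Sylow p G) (g h : G) (S : Sylow p (Subgroup.centralizer ({g} : Set G))) : Nat.card P / Nat.card S ∣ Nat.card {yz : G × G // IsConj g yz.1 ∧ IsConj h yz.2 ∧ yz.2 * yz.1⁻¹ ∈ (P : Subgroup G)} := by
  have := Fintype.ofFinite G
  obtain ⟨n, -, hn⟩ := exists_count (P : Subgroup G) g h
  obtain ⟨m, h1, h2⟩ := exists_card_eq_mul (sylIn_map_subtype S)
  have h3 := (sylIn_top P).card_dvd (sylIn_map_subtype S).pgrp le_top
  rw [card_map_of_injective (subtype_injective _)] at h2 h3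
  obtain ⟨e, he⟩ := h3
  obtain ⟨k, hk⟩ := IsPGroup.iff_card.1 P.isPGroup'
  have h4 : Nat.card P = Nat.card (S : Subgroup (centralizer ({g} : Set G))) * e := he
  have h5 : Nat.card P / Nat.card S = e := by
    rw [h4]; exact Nat.mul_div_cancel_left _ Nat.card_pos
  rw [h2, he, mul_assoc, mul_assoc, Nat.mul_right_inj Nat.card_pos.ne'] at hn
  obtain ⟨j, -, rfl⟩ := (Nat.dvd_prime_pow Fact.out).1 (hk ▸ Dvd.intro_left _ he.symm)
  rw [h5]
  exact (Nat.Coprime.pow_left j ((Nat.Prime.coprime_iff_not_dvd Fact.out).2 h1)).dvd_of_dvd_mul_left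
    ⟨n, hn.symm⟩

end Cfsg.Agent.S0957
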