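import Cfsg.Statements.S0959
import Cfsg.Agent.B.Defect

set_option autoImplicit false
open Cfsg

namespace Cfsg.Agent.S0959

open Cfsg.Agent Cfsg.Agent.B Cfsg.Agent.H2 Cfsg.Agent.H3 Subgroup MonoidAlgebra
open scoped Pointwise commutatorElement

/-- Let B be a block of the finite group G with defect group D (relative to a maximal ideal M of the algebraic integers containing the prime p), and let P be a p-subgroup. Then there is an element g whose idempotent coefficient for B is a local integer outside the local ideal at M and which has a conjugate centralizing P, if and only if some conjugate of P is contained in D. -/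
theorem result {G : Type*} [Group G] [Finite G] (p : ℕ) [Fact p.Prime] (M : Ideal Cfsg.AlgInt) (hM : Cfsg.IsPModular p M) (B : Set (Cfsg.IrrCharacter G)) (hB : Cfsg.IsPBlock M B) (D : Subgroup G) (hD : Cfsg.IsDefectGroup p M B D) (P : Subgroup G) (hP : IsPGroup p P) : (∃ g : G, Cfsg.MemLocalRing M (Cfsg.blockCoeff B g) ∧ ¬ Cfsg.MemLocalIdeal M (Cfsg.blockCoeff B g) ∧ ∃ c : G, IsConj g c ∧ c ∈ Subgroup.centralizer (P : Set G)) ↔ ∃ x : G, P.map (MulAut.conj x).toMonoidHom ≤ D := by
  have : PMod p M := ⟨hM⟩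
  rw [← hD.br_ne_zero_iff hB.closed hP, Ne, trunc_eq_zero_iff]
  push Not
  constructor
  · rintro ⟨g, h1, h2, c, hc, hc'⟩
    exact ⟨c, hc', by rw [← coeff_eq_of_isConj (eB_mem B) hc, coeff_eB]; exact red_ne_zero_iff.2 ⟨h1, h2⟩⟩
  · rintro ⟨c, hc, h⟩
    rw [coeff_eB, red_ne_zero_iff] at h
    exact ⟨c, h.1, h.2, c, IsConj.refl c, hc⟩

end Cfsg.Agent.S0959
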