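import Cfsg.Statements.S0963
import Cfsg.Agent.B.Cover

set_option autoImplicit false
open Cfsg

namespace Cfsg.Agent.S0963

open Cfsg.Agent Cfsg.Agent.B Cfsg.Agent.H2 Cfsg.Agent.H3 Subgroup MonoidAlgebra
open scoped Pointwise commutatorElement

/-- Let N be a normal subgroup of the finite group G, χ an irreducible character of G and θ an irreducible character of N. Then θ occurs in the restriction of χ to N if and only if, for every n ∈ N, the central character of χ at n (class size in G times χ n over χ 1) equals the sum of θ m / θ 1 over the elements m of N conjugate in G to n. -/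
theorem result {G : Type*} [Group G] [Fintype G] (N : Subgroup G) [N.Normal] [Fintype N] (χ : Cfsg.IrrCharacter G) (θ : Cfsg.IrrCharacter N) : Cfsg.classInner (fun n : N => (χ : G → ℂ) n) (θ : N → ℂ) ≠ 0 ↔ ∀ n : N, Cfsg.centralChar (χ : G → ℂ) (n : G) = Cfsg.inducedCentralChar N (θ : N → ℂ) (n : G) := by
  constructor
  · intro h n
    rw [inducedCentralChar_eq, ← om_trunc_eq χ.2 θ.2 h (cls_mem _), trunc_cls_of_mem n.2, om_cls χ.2.isClassFunction]
  · intro h
    obtain ⟨ψ, h2⟩ := exists_under χ N
    have h3 := (inv_sat {θ}).incA_fC_mem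
    have h4 := om_trunc_eq χ.2 ψ.2 h2 h3
    rw [trunc_incA le_rfl, resA_incA, linear_ext_cent (g := om (θ : N → ℂ) ∘ₗ resA N) h3 fun x hx => by
      have hx' : x ∈ N := by by_contra h'; exact hx (coeff_incA_of_not_mem _ h')
      rw [om_cls χ.2.isClassFunction, h ⟨x, hx'⟩, inducedCentralChar_eq]; rfl, LinearMap.comp_apply, resA_incA,
      om_fC_of_mem (subset_sat {θ} (Set.mem_singleton θ))] at h4
    obtain ⟨g, hg⟩ : ψ ∈ sat {θ} := by
      by_contra h5
      rw [om_fC_of_not_mem h5] at h4
      exact one_ne_zero h4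
    rwa [← Set.mem_singleton_iff.1 hg, classInner_res_cjI]

end Cfsg.Agent.S0963
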