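import Cfsg.Statements.S0966
import Cfsg.Agent.B.Cover

set_option autoImplicit false
open Cfsg

namespace Cfsg.Agent.S0966

open Cfsg.Agent Cfsg.Agent.B Cfsg.Agent.H2 Cfsg.Agent.H3 Subgroup MonoidAlgebra
open scoped Pointwise commutatorElement

/-- Let N be a normal subgroup of p-power index in the finite group G and b a block of N relative to a maximal ideal M of the algebraic integers containing p. Then there is exactly one block B of G containing a character whose restriction to N has a constituent in b. -/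
theorem result {G : Type*} [Group G] [Fintype G] (p : ℕ) [Fact p.Prime] (M : Ideal Cfsg.AlgInt) (hM : Cfsg.IsPModular p M) (N : Subgroup G) [N.Normal] [Fintype N] (hidx : ∃ k : ℕ, N.index = p ^ k) (b : Set (Cfsg.IrrCharacter N)) (hb : Cfsg.IsPBlock M b) : ∃! B : Set (Cfsg.IrrCharacter G), Cfsg.IsPBlock M B ∧ ∃ χ ∈ B, ∃ θ ∈ b, Cfsg.classInner (fun n : N => (χ : G → ℂ) n) (θ : N → ℂ) ≠ 0 := by
  have : PMod p M := ⟨hM⟩
  obtain ⟨k, hk⟩ := hidx
  obtain ⟨θ, hθ⟩ := hb.nonempty
  obtain ⟨χ, hχ⟩ := exists_over θ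
  refine ⟨_, ⟨isPBlock_blockOf χ, χ, self_mem_blockOf χ, θ, hθ, hχ⟩, ?_⟩
  rintro B ⟨hB, χ', hχ', θ', hθ', h⟩
  exact hB.eq_of_lam (isPBlock_blockOf χ) hχ' (self_mem_blockOf χ)
    (lam_eq_of_under (fun g => reg_mem_of_index hk) (hb.lam_eq hθ' hθ) h hχ)

end Cfsg.Agent.S0966
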