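import Cfsg.Statements.S0970
import Cfsg.Agent.B.PC

set_option autoImplicit false
open Cfsg

namespace Cfsg.Agent.S0970

open Cfsg.Agent Cfsg.Agent.B Cfsg.Agent.H2 Cfsg.Agent.H3 Cfsg.Agent.L Subgroup MonoidAlgebra
open scoped Pointwise commutatorElement

/-- Let N be a normal subgroup of the finite group G and fix a maximal ideal M of the algebraic integers containing the prime p. Let b be a block of N that is invariant under conjugation by G, and B a block of G covering b (some χ ∈ B has a constituent in b) whose defect is at least that of every block covering b. If P is a defect group of B, then p does not divide the index of P ⊔ N, the subgroup P ∩ N of N is a defect group of b, and the defect of B equals the defect of b plus the exponent of p in the index of N. -/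
theorem result {G : Type*} [Group G] [Fintype G] (p : ℕ) [Fact p.Prime] (M : Ideal Cfsg.AlgInt) (hM : Cfsg.IsPModular p M) (N : Subgroup G) [hN : N.Normal] [Fintype N] (b : Set (Cfsg.IrrCharacter N)) (hb : Cfsg.IsPBlock M b) (hinv : ∀ g : G, ∀ θ ∈ b, ∀ θ' : Cfsg.IrrCharacter N, (∀ n : N, (θ' : N → ℂ) n = (θ : N → ℂ) ⟨g * n * g⁻¹, hN.conj_mem n n.2 g⟩) → θ' ∈ b) (B : Set (Cfsg.IrrCharacter G)) (hB : Cfsg.IsPBlock M B) (hcov : ∃ χ ∈ B, ∃ θ ∈ b, Cfsg.classInner (fun n : N => (χ : G → ℂ) n) (θ : N → ℂ) ≠ 0) (hmax : ∀ B' : Set (Cfsg.IrrCharacter G), Cfsg.IsPBlock M B' → (∃ χ ∈ B', ∃ θ ∈ b, Cfsg.classInner (fun n : N => (χ : G → ℂ) n) (θ : N → ℂ) ≠ 0) → Cfsg.blockDefect p B' ≤ Cfsg.blockDefect p B) (P : Subgroup G) (hP : Cfsg.IsDefectGroup p M B P) : ¬ p ∣ (P ⊔ N).index ∧ Cfsg.IsDefectGroup p M b ((P ⊓ N).subgroupOf N) ∧ Cfsg.blockDefect p B = Cfsg.blockDefect p b + N.index.factorization p := by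
  have : PMod p M := ⟨hM⟩
  have h0 : iB M N b ∈ cent (F M) G := mem_fix_iff_le.2 (hb.closed.eq_stab' (T := ⊤)
    fun g => iff_of_true trivial (hinv g)).le
  have h1 := (covers_iff hB hb).1 hcov
  have hn : ∀ K : Subgroup G, K ≤ normalizer (N : Set G) := fun K => by simp [normalizer_eq_top]
  obtain ⟨β, h2, h3, -, h4⟩ := hB.isBI_top.exists_cover_isDG le_top (hn _) (hB.isDefectGroup_iff_top.1 hP)
  obtain rfl : iB M N b = β := hb.isBI.eq_of_mul h2 fun h => h3 (by
    rw [← hB.isBI_top.mul_eq (mem_ZA_top.2 h0) hb.isBI.idem (by rwa [(commute_of_cent h0 _).eq]),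
      (commute_of_cent h0 _).eq, mul_assoc, h, mul_zero])
  have h5 := (hb.isDefectGroup_iff inf_le_right).2 h4
  obtain ⟨S⟩ : Nonempty (Sylow p G) := inferInstance
  obtain ⟨-, h6⟩ := hb.isBI.pindex (K := N ⊔ S) le_sup_left (hn _)
    (resOf_le_of_sup (hn _) S.isPGroup' le_sup_right le_rfl) (cent_le_fix _ h0)
  obtain ⟨D, h7⟩ := exists_isDG p (N ⊔ S) hb.isBI.ne
  obtain ⟨h8, h9⟩ := h6 D h7
  obtain ⟨B', h10, h11⟩ := exists_br_mul_ne (φ := MonoidHom.id G) D h7.br
  rw [push_id] at h11
  have h12 := hmax B' h10 ((covers_iff h10 hb).2 fun h => h11 (by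
    rw [← br_mul h7.pgrp (cent_le_fix _ (mem_ZA_top.1 h10.isBI_top.mem)) (cent_le_fix _ h0), h, map_zero]))
  obtain ⟨E, hE, hDE⟩ := h10.isBI_top.exists_isDG_ge le_top h7.pgrp (left_ne_zero_of_mul h11)
  have key : ∀ A : Subgroup G, (Nat.card ↥(A ⊔ N)).factorization p +
      (Nat.card ((A ⊓ N).subgroupOf N)).factorization p =
      (Nat.card A).factorization p + (Nat.card N).factorization p := fun A => by
    have h := congrArg (fun n => n.factorization p) (L.card_sup_mul_card_inf (hn A))
    rw [Nat.factorization_mul Nat.card_pos.ne' Nat.card_pos.ne',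
      Nat.factorization_mul Nat.card_pos.ne' Nat.card_pos.ne'] at h
    rwa [L.card_subgroupOf inf_le_right]
  have mono : ∀ A C : Subgroup G, A ≤ C → (Nat.card A).factorization p ≤ (Nat.card C).factorization p :=
    fun A C h => (Nat.factorization_le_iff_dvd Nat.card_pos.ne' Nat.card_pos.ne').2 (card_dvd_of_le h) p
  have e1 := key D
  have e2 := key P
  rw [((hb.isDefectGroup_iff inf_le_right).2 h9).factorization_card hb.closed, sup_comm, h8] at e1
  rw [h5.factorization_card hb.closed, hP.factorization_card hB.closed] at e2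
  have e3 := mono _ _ hDE
  rw [(h10.isDefectGroup_iff_top.2 hE).factorization_card h10.closed] at e3
  have e4 := mono _ _ (le_sup_right : (S : Subgroup G) ≤ N ⊔ S)
  have e5 : (Nat.card S).factorization p = (Nat.card G).factorization p := by
    rw [S.card_eq_multiplicity]; simp [Nat.Prime.factorization_pow Fact.out]
  have e6 := factorization_index_add (p := p) N
  have e7 := factorization_index_add (p := p) (P ⊔ N)
  refine ⟨fun h => ?_, h5, by omega⟩
  have := (Nat.Prime.dvd_iff_one_le_factorization Fact.out index_ne_zero_of_finite).1 h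
  omega

end Cfsg.Agent.S0970
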