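import Cfsg.Statements.S0972
import Cfsg.Agent.B.PC

set_option autoImplicit false
open Cfsg

namespace Cfsg.Agent.S0972

open Cfsg.Agent Cfsg.Agent.B Cfsg.Agent.H2 Cfsg.Agent.H3 Cfsg.Agent.L Subgroup MonoidAlgebra
open scoped Pointwise commutatorElement

/-- Let B be a block of the finite group G (relative to a maximal ideal M of the algebraic integers containing the prime p) with a defect group P that is normal in G. Then P is commutative if and only if every member of B has height zero. -/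
theorem result {G : Type*} [Group G] [Finite G] (p : ℕ) [Fact p.Prime] (M : Ideal Cfsg.AlgInt) (hM : Cfsg.IsPModular p M) (B : Set (Cfsg.IrrCharacter G)) (hB : Cfsg.IsPBlock M B) (P : Subgroup G) [P.Normal] (hP : Cfsg.IsDefectGroup p M B P) : (∀ a ∈ P, ∀ c ∈ P, a * c = c * a) ↔ ∀ χ ∈ B, Cfsg.blockHeight p B (χ : G → ℂ) = 0 := by
  have : PMod p M := ⟨hM⟩
  have := Fintype.ofFinite G
  have := Fintype.ofFinite ↥(P ⊔ centralizer (P : Set G))
  obtain ⟨b, h1, h2⟩ := hP.exists_root hB (H := P ⊔ centralizer (P : Set G)) le_sup_left le_sup_right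
    (by simp [normalizer_eq_top])
  obtain ⟨h3, h4⟩ := h1.normal_root hP
  obtain ⟨ζ, h5, h6⟩ := h2.exists_pc' h1.1 (sup_centralizer_subgroupOf P)
  have h7 : (∀ a ∈ P, ∀ c ∈ P, a * c = c * a) ↔
      IsMulCommutative (P.subgroupOf (P ⊔ centralizer (P : Set G))) :=
    ⟨fun h => ⟨⟨fun a c => Subtype.ext (Subtype.ext (h _ a.2 _ c.2))⟩⟩, fun h a ha c hc =>
      congrArg (fun x : P.subgroupOf (P ⊔ centralizer (P : Set G)) => ((x : ↥(P ⊔ centralizer (P : Set G))) : G))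
        (h.1.1 ⟨⟨a, mem_sup_left ha⟩, ha⟩ ⟨⟨c, mem_sup_left hc⟩, hc⟩)⟩
  rw [h7, isMulCommutative_iff_nu h2.isPGroup]
  refine ⟨fun h χ hχ => ?_, fun h η => ?_⟩
  · obtain ⟨θ, h8, h9⟩ := h4 χ hχ
    rw [(h3 θ h8 χ h9).2, h6 θ h8, h]
  · obtain ⟨θ, hθ, rfl⟩ := h5.2.2 (Set.mem_univ η)
    obtain ⟨χ, hχ⟩ := exists_over θ
    rw [← h6 θ hθ, ← (h3 θ hθ χ hχ).2, h χ (h3 θ hθ χ hχ).1]

end Cfsg.Agent.S0972
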