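import Cfsg.Statements.S0973
import Cfsg.Agent.B.PC

set_option autoImplicit false
open Cfsg

namespace Cfsg.Agent.S0973

open Cfsg.Agent Cfsg.Agent.B Cfsg.Agent.H2 Cfsg.Agent.H3 Cfsg.Agent.L Subgroup MonoidAlgebra
open scoped Pointwise commutatorElement

/-- Let B be a block of the finite group G with defect group P (relative to a maximal ideal M of the algebraic integers containing p), and let L = P ⊔ C_G(P). Then (i) some block b of L with defect group P (viewed in L) induces B, and (ii) if b and b' are blocks of L both inducing B, there is n ∈ N_G(P) carrying b to b': for every θ ∈ b there is θ' ∈ b' with θ' x = θ (n x n⁻¹) for all x ∈ L. -/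
theorem result {G : Type*} [Group G] [Finite G] (p : ℕ) [Fact p.Prime] (M : Ideal Cfsg.AlgInt) (hM : Cfsg.IsPModular p M) (B : Set (Cfsg.IrrCharacter G)) (hB : Cfsg.IsPBlock M B) (P : Subgroup G) (hP : Cfsg.IsDefectGroup p M B P) : (∃ b : Set (Cfsg.IrrCharacter ↥(P ⊔ Subgroup.centralizer (P : Set G))), Cfsg.IsDefectGroup p M b (P.subgroupOf (P ⊔ Subgroup.centralizer (P : Set G))) ∧ Cfsg.IsInducedBlock M (P ⊔ Subgroup.centralizer (P : Set G)) b B) ∧ ∀ b b' : Set (Cfsg.IrrCharacter ↥(P ⊔ Subgroup.centralizer (P : Set G))), Cfsg.IsInducedBlock M (P ⊔ Subgroup.centralizer (P : Set G)) b B → Cfsg.IsInducedBlock M (P ⊔ Subgroup.centralizer (P : Set G)) b' B → ∃ n ∈ Subgroup.normalizer (P : Set G), ∀ θ ∈ b, ∃ θ' ∈ b', ∀ x : ↥(P ⊔ Subgroup.centralizer (P : Set G)), ∀ hx : n * (x : G) * n⁻¹ ∈ P ⊔ Subgroup.centralizer (P : Set G), (θ' : ↥(P ⊔ Subgroup.centralizer (P : Set G)) → ℂ) x = (θ : ↥(P ⊔ Subgroup.centralizer (P : Set G)) → ℂ) ⟨n * (x : G) *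 n⁻¹, hx⟩ := by
  have : PMod p M := ⟨hM⟩
  refine ⟨(hP.exists_root hB le_sup_left le_sup_right
    (sup_le le_normalizer (centralizer_le_normalizer _))).imp fun b h => h.symm, fun b b' h h' => ?_⟩
  obtain ⟨x, -, h1, h2⟩ := (mp_of_induced' h hP).exists_conj_eq (mp_of_induced' h' hP)
  have h3 : cj x (P ⊔ centralizer (P : Set G)) = P ⊔ centralizer (P : Set G) := by
    rw [cj_sup, cj_centralizer, h1]
  rw [cA_iB x h3] at h2
  have h4 := (h.1.preimage_cmp _).closed.iB_inj h'.1.closed h2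
  refine ⟨x⁻¹, inv_mem (mem_normalizer_iff_cj.2 h1), fun θ hθ => ⟨(cmp (cjE x h3)).symm θ, ?_,
    fun y hy => ?_⟩⟩
  · rw [← h4]; simpa using hθ
  · rw [cmp_symm, cmp_apply]
    exact congrArg _ ((MulEquiv.symm_apply_eq _).2 (Subtype.ext (by simp [coe_cjE, mul_assoc])))

end Cfsg.Agent.S0973
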