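import Cfsg.Statements.S0985
import Mathlib
import Cfsg.Agent.H7.Count

set_option autoImplicit false
open Cfsg

namespace Cfsg.Agent.S0985

/-- If the number of Sylow p-subgroups of a finite group is not congruent to 1 modulo p^k, then there are two distinct Sylow p-subgroups P and R such that the index of P ∩ R in P is at most p^(k-1). -/
theorem result {G : Type*} [Group G] [Finite G] (p k : ℕ) [Fact p.Prime] (h : ¬ Nat.card (Sylow p G) ≡ 1 [MOD p ^ k]) : ∃ P R : Sylow p G, P ≠ R ∧ ((R : Subgroup G).subgroupOf (P : Subgroup G)).index ≤ p ^ (k - 1) := by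
  by_contra hcon
  push Not at hcon
  apply h
  obtain ⟨P⟩ : Nonempty (Sylow p G) := inferInstance
  have hd : p ^ k ∣ ({P}ᶜ : Set (Sylow p G)).ncard := by
    refine H7.dvd_ncard_of_orbits (G := (P : Subgroup G)) _ (Set.toFinite _) ?_ ?_
    · intro g R hR hgR
      apply hR
      have : (g : G) • P = P := Sylow.smul_eq_iff_mem_normalizer.2 (Subgroup.le_normalizer g.2)
      exact (smul_left_cancel_iff (g : G)).1 ((show (g : G) • R = P from hgR).trans this.symm)
    · intro R hR
      have h1 := hcon P R (Ne.symm hR)
      have h2 : MulAction.stabilizer (P : Subgroup G) R = (R : Subgroup G).subgroupOf P := by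
        rw [H7.stabilizer_subgroup_eq, Sylow.stabilizer_eq_normalizer, ← Subgroup.inf_subgroupOf_left,
          P.2.inf_normalizer_sylow R, Subgroup.inf_subgroupOf_left]
      rw [H7.card_orbit_eq_index, h2]
      obtain ⟨n, hn⟩ := P.2.index ((R : Subgroup G).subgroupOf P)
      rw [hn] at h1 ⊢
      have := (Nat.pow_lt_pow_iff_right (Fact.out : p.Prime).one_lt).1 h1
      exact pow_dvd_pow p (by omega)
  rw [Set.ncard_compl, Set.ncard_singleton] at hd
  exact ((Nat.modEq_iff_dvd' (Nat.card_pos)).2 hd).symm

end Cfsg.Agent.S0985
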