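import Cfsg.Statements.S0986
import Mathlib
import Cfsg.Agent.H7.SylN

set_option autoImplicit false
open Cfsg

namespace Cfsg.Agent.S0986

open H7 H2

/-- Let P and Q be distinct Sylow p-subgroups of a finite group G chosen so that the order of P ∩ Q is as large as possible among intersections of two distinct Sylow p-subgroups, and let N be the normalizer of P ∩ Q. Then N has more than one Sylow p-subgroup, any two distinct Sylow p-subgroups of N intersect exactly in P ∩ Q, and each Sylow p-subgroup of N lies in exactly one Sylow p-subgroup of G. -/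
theorem result {G : Type*} [Group G] [Finite G] (p : ℕ) [Fact p.Prime] (P Q : Sylow p G) (hPQ : P ≠ Q) (hmax : ∀ P' Q' : Sylow p G, P' ≠ Q' → Nat.card ↥((P' : Subgroup G) ⊓ (Q' : Subgroup G)) ≤ Nat.card ↥((P : Subgroup G) ⊓ (Q : Subgroup G))) : 1 < Nat.card (Sylow p ↥(Subgroup.normalizer (((P : Subgroup G) ⊓ (Q : Subgroup G) : Subgroup G) : Set G))) ∧ (∀ S T : Sylow p ↥(Subgroup.normalizer (((P : Subgroup G) ⊓ (Q : Subgroup G) : Subgroup G) : Set G)), S ≠ T → (S : Subgroup _) ⊓ (T : Subgroup _) = ((P : Subgroup G) ⊓ (Q : Subgroup G)).subgroupOf (Subgroup.normalizer (((P : Subgroup G) ⊓ (Q : Subgroup G) : Subgroup G) : Set G))) ∧ ∀ S : Sylow p ↥(Subgroup.normalizer (((P : Subgroup G) ⊓ (Q : Subgroup G) : Subgroup G) : Set G)), ∃! T : Sylow p G, (S : Subgroup _).map (Subgroup.normalizer (((P : Subgroup G) ⊓ (Q : Subgroup G) : Subgroup G) : Set G)).subtype ≤ (T : Subgroup G) := by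
  set D : Subgroup G := (P : Subgroup G) ⊓ Q with hD
  set N := Subgroup.normalizer (D : Set G) with hN
  have hlt : ∀ P Q : Sylow p G, P ≠ Q → (P : Subgroup G) ⊓ Q < P := fun P Q h =>
    lt_of_le_of_ne inf_le_left fun e => h (sylow_eq_of_le (inf_eq_left.1 e))
  have h1 : D < (P : Subgroup G) ⊓ N := lt_inf_normalizer P.isPGroup' (hlt P Q hPQ)
  have h2 : D < (Q : Subgroup G) ⊓ N := lt_inf_normalizer Q.isPGroup' ((inf_comm _ _).trans_lt (hlt Q P hPQ.symm))
  have key : ∀ (S : Subgroup G) (T T' : Sylow p G), Nat.card D < Nat.card S → S ≤ T → S ≤ T' → T = T' :=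
    fun S T T' a b c => by_contra fun e =>
      (a.trans_le (Subgroup.card_le_of_le (le_inf b c))).not_ge (hmax T T' e)
  have hS : ∀ S : Sylow p N, Nat.card D < Nat.card ((S : Subgroup N).map N.subtype) := fun S =>
    (card_lt_of_lt h1).trans_le ((sylIn_map_subtype S).card_le P.isPGroup'.to_inf_left inf_le_right)
  have hT : ∀ S : Sylow p N, ∃! T : Sylow p G, (S : Subgroup N).map N.subtype ≤ T := fun S => by
    obtain ⟨T, hT⟩ := (sylIn_map_subtype S).pgrp.exists_le_sylow
    exact ⟨T, hT, fun T' hT' => key _ _ _ (hS S) hT' hT⟩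
  refine ⟨?_, fun S T hST => ?_, hT⟩
  · by_contra h
    haveI : Subsingleton (Sylow p N) := Finite.card_le_one_iff_subsingleton.1 (by omega)
    obtain ⟨S, a, b⟩ := exists_sylIn_ge (P.isPGroup'.to_inf_left (K := N)) inf_le_right
    obtain ⟨S', a', b'⟩ := exists_sylIn_ge (Q.isPGroup'.to_inf_left (K := N)) inf_le_right
    obtain ⟨S, rfl⟩ := a.exists_sylow'
    obtain ⟨S', rfl⟩ := a'.exists_sylow'
    obtain ⟨T, hT, -⟩ := hT S
    exact hPQ ((key _ _ _ (card_lt_of_lt h1) inf_le_left (b.trans hT)).trans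
      (key _ _ _ (card_lt_of_lt h2) inf_le_left (b'.trans (Subsingleton.elim S S' ▸ hT))).symm)
  · have h3 : ∀ S : Sylow p N, D ≤ (S : Subgroup N).map N.subtype := fun S =>
      (sylIn_map_subtype S).normal_le P.isPGroup'.to_inf_left Subgroup.le_normalizer
        (sylIn_map_subtype S).le
    obtain ⟨S', a, -⟩ := hT S
    obtain ⟨T', b, -⟩ := hT T
    have h4 : S' ≠ T' := fun e => hST (Sylow.ext (Subgroup.map_injective N.subtype_injective (
      ((sylIn_map_subtype S).max _ inf_le_right S'.isPGroup'.to_inf_left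
        (le_inf a (sylIn_map_subtype S).le)).symm.trans (e ▸
      ((sylIn_map_subtype T).max _ inf_le_right T'.isPGroup'.to_inf_left
        (le_inf b (sylIn_map_subtype T).le))))))
    apply Subgroup.map_injective N.subtype_injective
    rw [Subgroup.map_inf _ _ _ N.subtype_injective, Subgroup.subgroupOf_map_subtype,
      inf_eq_left.2 Subgroup.le_normalizer]
    exact (Subgroup.eq_of_le_of_card_ge (le_inf (h3 S) (h3 T))
      ((Subgroup.card_le_of_le (inf_le_inf a b)).trans (hmax _ _ h4))).symm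

end Cfsg.Agent.S0986
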