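import Cfsg.Statements.S0987
import Mathlib
import Cfsg.Agent.H7.SylN

set_option autoImplicit false
open Cfsg

namespace Cfsg.Agent.S0987

open H7

/-- If a finite group has order pqr for primes p < q < r, then its Sylow r-subgroups are normal. -/
theorem result {G : Type*} [Group G] [Finite G] (p q r : ℕ) (hp : p.Prime) (hq : q.Prime) [Fact r.Prime] (hpq : p < q) (hqr : q < r) (hG : Nat.card G = p * q * r) (R : Sylow r G) : (R : Subgroup G).Normal := by
  have hr : r.Prime := Fact.out
  haveI := Fact.mk hp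
  obtain ⟨P⟩ : Nonempty (Sylow p G) := inferInstance
  have h1 : ¬ p ∣ q * r := fun h => (hp.dvd_mul.1 h).elim
    (fun h => hpq.ne ((Nat.prime_dvd_prime_iff_eq hp hq).1 h))
    fun h => (hpq.trans hqr).ne ((Nat.prime_dvd_prime_iff_eq hp hr).1 h)
  have h2 : Nat.card P = p := by
    rw [card_sylow_of_dvd P (k := 1) (by rw [hG, pow_one, mul_assoc]) h1, pow_one]
  haveI : IsCyclic P := isCyclic_of_prime_card h2
  have h3 : (Nat.card G).minFac = p := by
    refine le_antisymm (Nat.minFac_le_of_dvd hp.two_le ⟨q * r, by rw [hG, mul_assoc]⟩) ?_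
    have h4 : (Nat.card G).minFac.Prime := Nat.minFac_prime (by
      rw [hG]; nlinarith [hp.two_le, Nat.mul_pos hp.pos hq.pos, hr.two_le])
    have h5 := Nat.minFac_dvd (Nat.card G)
    generalize (Nat.card G).minFac = s at *
    rw [hG, h4.dvd_mul, h4.dvd_mul, Nat.prime_dvd_prime_iff_eq h4 hp, Nat.prime_dvd_prime_iff_eq h4 hq,
      Nat.prime_dvd_prime_iff_eq h4 hr] at h5
    omega
  have h4 := IsCyclic.isComplement' h3 ‹IsCyclic P›
  set N := (MonoidHom.transferSylow P (IsCyclic.normalizer_le_centralizer h3 ‹IsCyclic P›)).ker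
  have h5 : N.index = p := by rw [h4.symm.index_eq_card, h2]
  have h6 : Nat.card N = r ^ 1 * q := by
    have := N.card_mul_index
    rw [h5, hG] at this
    exact Nat.eq_of_mul_eq_mul_right hp.pos (by rw [this]; ring)
  have h7 : ¬ r ∣ q := fun h => hqr.ne' ((Nat.prime_dvd_prime_iff_eq hr hq).1 h)
  have h8 := card_sylow_of_normal (p := r) (K := N) (by
    rw [h5]; exact fun h => (hpq.trans hqr).ne' ((Nat.prime_dvd_prime_iff_eq hr hp).1 h))
  obtain ⟨S⟩ : Nonempty (Sylow r N) := inferInstance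
  have h9 := S.card_dvd_index
  have h10 := (S : Subgroup N).card_mul_index
  rw [card_sylow_of_dvd S h6 h7, h6] at h10
  rw [Nat.eq_of_mul_eq_mul_left (pow_pos hr.pos 1) h10, Nat.dvd_prime hq] at h9
  have h11 := card_sylow_modEq_one r N
  rw [Nat.ModEq, Nat.mod_eq_of_lt hr.one_lt] at h11
  have h12 : Nat.card (Sylow r G) = 1 := by
    rw [h8]
    refine h9.resolve_right fun e => ?_
    rw [e, Nat.mod_eq_of_lt hqr] at h11
    exact hq.one_lt.ne' h11
  haveI := (Nat.card_eq_one_iff_unique.1 h12).1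
  exact Sylow.normal_of_subsingleton R

end Cfsg.Agent.S0987
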