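import Cfsg.Statements.S0988
import Mathlib
import Cfsg.Agent.S0144

set_option autoImplicit false
open Cfsg

namespace Cfsg.Agent.S0988

theorem noB {G : Type*} [Group G] [Finite G] [IsSimpleGroup G] {s : ℕ} [Fact s.Prime] (P : Sylow s G)
    (hP : Subgroup.normalizer ((P : Subgroup G) : Set G) ≤ Subgroup.centralizer ((P : Subgroup G) : Set G))
    (h1 : Nat.card (P : Subgroup G) ≠ 1) (h2 : Nat.card (P : Subgroup G) ≠ Nat.card G) : False := by
  have hc := (MonoidHom.ker_transferSylow_isComplement' P hP).card_mul_card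
  rcases IsSimpleGroup.eq_bot_or_eq_top_of_normal (MonoidHom.transferSylow P hP).ker inferInstance with h | h
  · rw [h, Subgroup.card_bot, one_mul] at hc; exact h2 hc
  · rw [h, Subgroup.card_top] at hc
    exact h1 (Nat.eq_of_mul_eq_mul_left (Nat.card_pos (α := G)) (by rw [hc, mul_one]))

theorem cardS {G : Type*} [Group G] [Finite G] {s : ℕ} [hs : Fact s.Prime] (P : Sylow s G) (k m : ℕ)
    (h : Nat.card G = s ^ k * m) (hm : ¬ s ∣ m) : Nat.card (P : Subgroup G) = s ^ k := by
  have hm0 : m ≠ 0 := fun e => hm (e ▸ dvd_zero s)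
  rw [P.card_eq_multiplicity, h, Nat.factorization_mul (pow_ne_zero _ hs.out.ne_zero) hm0, hs.out.factorization_pow]
  simp [Nat.factorization_eq_zero_of_not_dvd hm]

theorem cyc {G : Type*} [Group G] [Finite G] [IsSimpleGroup G] (s m : ℕ) (hs : s.Prime)
    (h : Nat.card G = s * m) (hm : ¬ s ∣ m) (hm1 : m ≠ 1) (hmin : (Nat.card G).minFac = s) : False := by
  haveI := Fact.mk hs
  obtain ⟨P⟩ : Nonempty (Sylow s G) := inferInstance
  have hP := cardS P 1 m (by rw [h, pow_one]) hm
  rw [pow_one] at hP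
  have hc : IsCyclic (P : Subgroup G) := isCyclic_of_prime_card hP
  refine noB P (hc.normalizer_le_centralizer hmin) (by rw [hP]; exact hs.ne_one) ?_
  rw [hP, h]
  exact fun e => hm1 (Nat.eq_of_mul_eq_mul_left hs.pos (by rw [← e, mul_one]))

theorem fin12 {G : Type*} [Group G] [Finite G] [IsSimpleGroup G] (r : ℕ) (hr : r.Prime) (h2 : r ≠ 2) (h3 : r ≠ 3)
    (h : Nat.card G = r * 12) : Nat.card G = 60 := by
  haveI := Fact.mk hr
  have h5 : 5 ≤ r := hr.five_le_of_ne_two_of_ne_three h2 h3
  obtain ⟨P⟩ : Nonempty (Sylow r G) := inferInstance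
  have hnd : ¬ r ∣ 12 := fun d => by
    have := Nat.le_of_dvd (by norm_num) d
    interval_cases r <;> first | omega | exact absurd hr (by norm_num)
  have hP := cardS P 1 12 (by rw [h, pow_one]) hnd
  rw [pow_one] at hP
  have hi : (P : Subgroup G).index = 12 := by
    have := (P : Subgroup G).card_mul_index
    rw [hP, h] at this
    exact Nat.eq_of_mul_eq_mul_left hr.pos this
  have d := P.card_dvd_index
  have m := card_sylow_modEq_one r G
  have e : Nat.card (Sylow r G) = (Subgroup.normalizer ((P : Subgroup G) : Set G)).index := P.card_eq_index_normalizer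
  rw [hi] at d
  have hle := Nat.le_of_dvd (by norm_num) d
  have hpos : 1 ≤ Nat.card (Sylow r G) := Nat.card_pos
  have m' : r ∣ Nat.card (Sylow r G) - 1 := (Nat.modEq_iff_dvd' hpos).1 m.symm
  have n1 : Nat.card (Sylow r G) ≠ 1 := fun e1 => by
    rw [e1, eq_comm, Subgroup.index_eq_one, Subgroup.normalizer_eq_top_iff] at e
    rcases IsSimpleGroup.eq_bot_or_eq_top_of_normal (P : Subgroup G) e with h' | h'
    · rw [h', Subgroup.card_bot] at hP; omega
    · rw [h', Subgroup.index_top] at hi; omega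
  have n12 : Nat.card (Sylow r G) ≠ 12 := fun e1 => by
    have hN := (Subgroup.normalizer ((P : Subgroup G) : Set G)).card_mul_index
    rw [← e, e1, h] at hN
    have hN' : Nat.card (Subgroup.normalizer ((P : Subgroup G) : Set G)) = r := by omega
    have hc : IsCyclic (P : Subgroup G) := isCyclic_of_prime_card hP
    have hE : (P : Subgroup G) = Subgroup.normalizer ((P : Subgroup G) : Set G) :=
      Subgroup.eq_of_le_of_card_ge Subgroup.le_normalizer (by rw [hN', hP])
    refine noB P ?_ (by omega) (by omega)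
    rw [← hE]
    intro a ha b hb
    letI := hc.commGroup
    exact congrArg Subtype.val (mul_comm (⟨b, hb⟩ : (P : Subgroup G)) ⟨a, ha⟩)
  generalize Nat.card (Sylow r G) = n at *
  have := Nat.le_of_dvd (by omega) m'
  interval_cases n <;> omega

theorem two3 {G : Type*} [Group G] [Finite G] [IsSimpleGroup G] (p q r : ℕ) (hp : p.Prime) (hq : q.Prime) (hr : r.Prime)
    (hG : Nat.card G = p ^ 2 * q * r) (hpq : p < q) (hpr : p < r) (hqr : q ≠ r) : p = 2 ∧ (q = 3 ∨ r = 3) := by
  haveI := Fact.mk hp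
  obtain ⟨P⟩ : Nonempty (Sylow p G) := inferInstance
  have hnd : ¬ p ∣ q * r := fun d => by
    rcases (Nat.Prime.dvd_mul hp).1 d with d | d
    · have := (Nat.prime_dvd_prime_iff_eq hp hq).1 d; omega
    · have := (Nat.prime_dvd_prime_iff_eq hp hr).1 d; omega
  have hP := cardS P 2 (q * r) (by rw [hG, mul_assoc]) hnd
  have hp2 : 0 < p ^ 2 := pow_pos hp.pos _
  have hi : (P : Subgroup G).index = q * r := by
    have := (P : Subgroup G).card_mul_index
    rw [hP, hG, mul_assoc] at this
    exact Nat.eq_of_mul_eq_mul_left hp2 this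
  have hcomm : (P : Subgroup G) ≤ Subgroup.centralizer ((P : Subgroup G) : Set G) := fun a ha b hb =>
    congrArg Subtype.val (IsPGroup.commutative_of_card_eq_prime_sq hP (⟨b, hb⟩ : (P : Subgroup G)) ⟨a, ha⟩)
  set N := Subgroup.normalizer ((P : Subgroup G) : Set G) with hNdef
  let K := (Subgroup.centralizer ((P : Subgroup G) : Set G)).subgroupOf N
  have hK : K.index ≠ 1 := fun e => by
    rw [Subgroup.index_eq_one, Subgroup.subgroupOf_eq_top] at e
    refine noB P e ?_ ?_
    · rw [hP]; have := hp.two_le; nlinarith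
    · rw [hP, hG, mul_assoc]; intro e2
      have : 1 = q * r := Nat.eq_of_mul_eq_mul_left hp2 (by rw [← e2, mul_one])
      have := hq.two_le; have := hr.two_le; nlinarith
  obtain ⟨s, hs, hsd⟩ := Nat.exists_prime_and_dvd hK
  haveI := Fact.mk hs
  have hKd : K.index ∣ q * r := by
    rw [← hi]
    exact (Subgroup.index_dvd_of_le (Subgroup.comap_mono hcomm : (P : Subgroup G).subgroupOf N ≤ K)).trans
      (Subgroup.relIndex_dvd_index_of_le Subgroup.le_normalizer)
  have hsqr : s = q ∨ s = r := by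
    rcases (Nat.Prime.dvd_mul hs).1 (hsd.trans hKd) with d | d
    · exact Or.inl ((Nat.prime_dvd_prime_iff_eq hs hq).1 d)
    · exact Or.inr ((Nat.prime_dvd_prime_iff_eq hs hr).1 d)
  have hps : p < s := by rcases hsqr with e | e <;> omega
  obtain ⟨g, hg⟩ := exists_prime_orderOf_dvd_card' (G := N) s (hsd.trans K.index_dvd_card)
  have hgK : g ∉ K := fun hk => by
    have d1 : s ∣ Nat.card K := hg ▸ K.orderOf_dvd_natCard hk
    have d2 : s * s ∣ Nat.card G := ((mul_dvd_mul d1 hsd).trans K.card_mul_index.dvd).trans N.card_subgroup_dvd_card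
    have cp : ¬ s ∣ p ^ 2 := fun d => by
      have := (Nat.prime_dvd_prime_iff_eq hs hp).1 (hs.dvd_of_dvd_pow d); omega
    rcases hsqr with e | e
    · subst e
      rw [hG, show p ^ 2 * s * r = s * (p ^ 2 * r) by ring] at d2
      rcases (Nat.Prime.dvd_mul hs).1 (Nat.dvd_of_mul_dvd_mul_left hs.pos d2) with d | d
      · exact cp d
      · exact hqr ((Nat.prime_dvd_prime_iff_eq hs hr).1 d)
    · subst e
      rw [hG, show p ^ 2 * q * s = s * (p ^ 2 * q) by ring] at d2
      rcases (Nat.Prime.dvd_mul hs).1 (Nat.dvd_of_mul_dvd_mul_left hs.pos d2) with d | d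
      · exact cp d
      · exact hqr ((Nat.prime_dvd_prime_iff_eq hs hq).1 d).symm
  let a : MulAut (P : Subgroup G) := (P : Subgroup G).normalizerMonoidHom g
  have ha1 : a ≠ 1 := fun e => hgK (by
    have : g ∈ (P : Subgroup G).normalizerMonoidHom.ker := e
    rwa [Subgroup.normalizerMonoidHom_ker] at this)
  have has : a ^ s = 1 := by
    change ((P : Subgroup G).normalizerMonoidHom g) ^ s = 1
    rw [← map_pow, ← hg, pow_orderOf_eq_one, map_one]
  have hpg : IsPGroup s (Subgroup.zpowers a) :=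
    IsPGroup.of_card (n := 1) (by rw [Nat.card_zpowers, orderOf_eq_prime has ha1, pow_one])
  have hm := hpg.card_modEq_card_fixedPoints (P : Subgroup G)
  let C := FixedPoints.subgroup (Subgroup.zpowers a) (P : Subgroup G)
  have hC : Nat.card (MulAction.fixedPoints (Subgroup.zpowers a) (P : Subgroup G)) = Nat.card C := rfl
  have hCd := C.card_subgroup_dvd_card
  have hCn : Nat.card C ≠ p ^ 2 := fun e => ha1 (by
    have : C = ⊤ := (Subgroup.card_eq_iff_eq_top C).1 (by rw [e, hP])
    refine MulEquiv.ext fun x => ?_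
    have hx : x ∈ C := by rw [this]; trivial
    exact hx ⟨a, Subgroup.mem_zpowers a⟩)
  rw [hC, hP] at hm
  rw [hP] at hCd
  obtain ⟨k, hk, hkC⟩ := (Nat.dvd_prime_pow hp).1 hCd
  rw [hkC] at hm hCn
  obtain ⟨n, rfl⟩ : ∃ n, p = n + 1 := ⟨p - 1, by have := hp.pos; omega⟩
  have hn : 0 < n := by have := hp.two_le; omega
  have hsn : ¬ s ∣ n := fun d => by have := Nat.le_of_dvd hn d; omega
  interval_cases k
  · have d := (Nat.modEq_iff_dvd' (by nlinarith)).1 hm.symm
    rw [show (n + 1) ^ 2 - (n + 1) ^ 0 = (n + 2) * n by rw [pow_zero]; apply Nat.sub_eq_of_eq_add; ring] at d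
    have d2 := ((Nat.Prime.dvd_mul hs).1 d).resolve_right hsn
    have := Nat.le_of_dvd (by omega) d2
    have hs2 : s = n + 2 := by omega
    have := hp.eq_two_or_odd
    have := hs.eq_two_or_odd
    omega
  · have d := (Nat.modEq_iff_dvd' (by nlinarith)).1 hm.symm
    rw [show (n + 1) ^ 2 - (n + 1) ^ 1 = (n + 1) * n by rw [pow_one]; apply Nat.sub_eq_of_eq_add; ring] at d
    have d2 := ((Nat.Prime.dvd_mul hs).1 d).resolve_right hsn
    have := Nat.le_of_dvd (by omega) d2
    omega
  · exact absurd rfl hCn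

/-- If a finite simple group has order p^2 * q * r with p, q and r prime, then its order is 60. -/
theorem result {G : Type*} [Group G] [Finite G] [IsSimpleGroup G] (p q r : ℕ) (hp : p.Prime) (hq : q.Prime) (hr : r.Prime) (hG : Nat.card G = p ^ 2 * q * r) : Nat.card G = 60 := by
  have ns : ¬ Group.IsSolvable G := fun h => by
    have hc := IsSimpleGroup.comm_iff_isSolvable.2 h
    letI : CommGroup G := { ‹Group G› with mul_comm := hc }
    have := IsSimpleGroup.prime_card (α := G)
    rw [hG] at this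
    refine Nat.not_prime_mul ?_ hr.ne_one this
    have := hp.two_le; have := hq.two_le; nlinarith
  have hpq : p ≠ q := fun e => ns (S0144.result p r 3 1 hp hr (by rw [hG, ← e]; ring))
  have hpr : p ≠ r := fun e => ns (S0144.result p q 3 1 hp hq (by rw [hG, ← e]; ring))
  have hqr : q ≠ r := fun e => ns (S0144.result p q 2 2 hp hq (by rw [hG, ← e]; ring))
  have h1 : Nat.card G ≠ 1 := by
    rw [hG]; have := hp.two_le; have := hq.two_le; have := hr.two_le
    have : 0 < p ^ 2 * q := by positivity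
    nlinarith
  have hm := Nat.minFac_prime h1
  have hd := Nat.minFac_dvd (Nat.card G)
  have aux : ∀ q r : ℕ, q.Prime → r.Prime → p ≠ q → q ≠ r → Nat.card G = p ^ 2 * q * r → (Nat.card G).minFac ≠ q :=
    fun q r hq hr hpq hqr hG e => cyc q (p ^ 2 * r) hq (by rw [hG]; ring) (fun d => by
      rcases (Nat.Prime.dvd_mul hq).1 d with d | d
      · exact hpq ((Nat.prime_dvd_prime_iff_eq hq hp).1 (hq.dvd_of_dvd_pow d)).symm
      · exact hqr ((Nat.prime_dvd_prime_iff_eq hq hr).1 d)) (fun e2 => hr.ne_one (Nat.eq_one_of_mul_eq_one_left e2)) e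
  have hmp : (Nat.card G).minFac = p := by
    nth_rewrite 2 [hG] at hd
    rcases (Nat.Prime.dvd_mul hm).1 hd with d | d
    · rcases (Nat.Prime.dvd_mul hm).1 d with d | d
      · exact (Nat.prime_dvd_prime_iff_eq hm hp).1 (hm.dvd_of_dvd_pow d)
      · exact absurd ((Nat.prime_dvd_prime_iff_eq hm hq).1 d) (aux q r hq hr hpq hqr hG)
    · exact absurd ((Nat.prime_dvd_prime_iff_eq hm hr).1 d) (aux r q hr hq hpr hqr.symm (by rw [hG]; ring))
  have l1 : p ≤ q := hmp ▸ Nat.minFac_le_of_dvd hq.two_le (by rw [hG]; exact ⟨p ^ 2 * r, by ring⟩)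
  have l2 : p ≤ r := hmp ▸ Nat.minFac_le_of_dvd hr.two_le (by rw [hG]; exact ⟨p ^ 2 * q, by ring⟩)
  obtain ⟨rfl, rfl | rfl⟩ := two3 p q r hp hq hr hG (by omega) (by omega) hqr
  · exact fin12 r hr hpr.symm hqr.symm (by rw [hG]; ring)
  · exact fin12 q hq hpq.symm hqr (by rw [hG]; ring)

end Cfsg.Agent.S0988
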