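import Cfsg.Statements.S0989
import Mathlib
import Cfsg.Agent.H7.SylowPrime

set_option autoImplicit false
open Cfsg

namespace Cfsg.Agent.S0989

/-- In the symmetric group on p or p + 1 letters, p a prime, the normalizer of a Sylow p-subgroup has order p * (p - 1). -/
theorem result {α : Type*} [Fintype α] [DecidableEq α] (p : ℕ) [Fact p.Prime] (hα : Fintype.card α = p ∨ Fintype.card α = p + 1) (P : Sylow p (Equiv.Perm α)) : Nat.card ↥(Subgroup.normalizer ((P : Subgroup (Equiv.Perm α)) : Set (Equiv.Perm α))) = p * (p - 1) := by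
  have hp : p.Prime := Fact.out
  have h2 := hp.two_le
  have hP : Nat.card (P : Subgroup (Equiv.Perm α)) = p := by
    refine Eq.trans ?_ (pow_one p)
    rcases hα with h | h
    · refine H7.card_sylow_of_dvd P (m := (p - 1).factorial) ?_ ?_
      · rw [Nat.card_perm, Nat.card_eq_fintype_card, h, pow_one, Nat.mul_factorial_pred hp.ne_zero]
      · rw [hp.dvd_factorial]; omega
    · refine H7.card_sylow_of_dvd P (m := (p + 1) * (p - 1).factorial) ?_ ?_
      · rw [Nat.card_perm, Nat.card_eq_fintype_card, h, pow_one, Nat.factorial_succ, ← Nat.mul_factorial_pred hp.ne_zero]; ring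
      · rw [hp.dvd_mul, hp.dvd_factorial, Nat.dvd_add_self_left, Nat.dvd_one]; omega
  obtain ⟨x, hx, hxP⟩ := H7.exists_zpowers_of_card_prime hp hP
  rw [← hxP, H7.card_normalizer_of_prime hp (by omega) hx]
  rcases hα with h | h <;> simp [h, mul_comm]

end Cfsg.Agent.S0989
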