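import Cfsg.Statements.S0990
import Mathlib
import Cfsg.Agent.H7.SylN

set_option autoImplicit false
open Cfsg

namespace Cfsg.Agent.S0990

open H7

/-- Let p be an odd prime and P a Sylow p-subgroup of the symmetric group on a finite set with at least two elements. Then P is contained in the alternating group, and twice the order of the normalizer of P inside the alternating group equals the order of the normalizer of P in the symmetric group. -/
theorem result {α : Type*} [Fintype α] [DecidableEq α] (hα : 2 ≤ Fintype.card α) (p : ℕ) [Fact p.Prime] (hp : p ≠ 2) (P : Sylow p (Equiv.Perm α)) : (P : Subgroup (Equiv.Perm α)) ≤ alternatingGroup α ∧ 2 * Nat.card ↥(Subgroup.normalizer ((((P : Subgroup (Equiv.Perm α)).subgroupOf (alternatingGroup α) : Subgroup ↥(alternatingGroup α)) : Set ↥(alternatingGroup α)))) = Nat.card ↥(Subgroup.normalizer ((P : Subgroup (Equiv.Perm α)) : Set (Equiv.Perm α))) := by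
  have h1 : (P : Subgroup (Equiv.Perm α)) ≤ alternatingGroup α := fun g hg => by
    obtain ⟨k, hk⟩ := H2.orderOf_eq_pow_of_mem P.isPGroup' hg
    have h2 : Odd (orderOf g) := hk ▸ ((Fact.out : p.Prime).odd_of_ne_two hp).pow
    rw [Equiv.Perm.mem_alternatingGroup]
    have := congrArg Equiv.Perm.sign (pow_orderOf_eq_one g)
    rw [map_pow, map_one] at this
    rcases Int.units_eq_one_or (Equiv.Perm.sign g) with e | e
    · exact e
    · rw [e, h2.neg_one_pow] at this; exact absurd this (by decide)
  refine ⟨h1, ?_⟩
  haveI : Nontrivial α := Fintype.one_lt_card_iff_nontrivial.1 hα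
  rw [← Subgroup.subgroupOf_normalizer_eq h1, ← card_inf_mul_relIndex (alternatingGroup α),
    ← Subgroup.relIndex_sup_right, show Subgroup.normalizer ((P : Subgroup (Equiv.Perm α)) :
      Set (Equiv.Perm α)) ⊔ alternatingGroup α = ⊤ from P.normalizer_sup_eq_top' h1,
    Subgroup.relIndex_top_right, alternatingGroup.index_eq_two, mul_comm, ← Subgroup.inf_subgroupOf_right,
    Nat.card_congr (Subgroup.subgroupOfEquivOfLe inf_le_right).toEquiv, inf_comm]

end Cfsg.Agent.S0990
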