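import Cfsg.Statements.S0992
import Cfsg.Agent.GS.Misc1
import Cfsg.Agent.H2.Two2
import Cfsg.Agent.L.Quat

set_option autoImplicit false
open Cfsg

namespace Cfsg.Agent.S0992

open Cfsg.Agent.H1

/-- Let G be a non-abelian finite simple group of even order not divisible by 8, and T a Sylow 2-subgroup. Then T is a Klein four-group and the centralizer of T has index 3 in the normalizer of T. -/
theorem result {G : Type*} [Group G] [Finite G] [IsSimpleGroup G] (hG : ¬ IsMulCommutative G) (h2 : Even (Nat.card G)) (h8 : ¬ 8 ∣ Nat.card G) (T : Sylow 2 G) : IsKleinFour ↥(T : Subgroup G) ∧ (Subgroup.centralizer ((T : Subgroup G) : Set G)).relIndex (Subgroup.normalizer ((T : Subgroup G) : Set G)) = 3 := by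
  open Subgroup Pointwise commutatorElement Cfsg.Agent.BG Cfsg.Agent.GS in
  open Cfsg.Agent.H2 hiding card_lt_of_lt card_lt_of_ne_top isMulCommutative_of_le isPGroup_zpowers_iff mem_of_pow_mem_of_coprime inf_eq_bot_of_cop exists_maxElem_ge Sec in
  open Cfsg.Agent.H8 (Op Opp Fit SN) in
  open Cfsg.Agent.L (FPF) in focus
    have n := not_npc_of_simple hG h2.two_dvd
    obtain ⟨q, a, b, hq, -, c, d, e, f⟩ := exists_of_not_npc n
    have c : ♯(T : Subgroup G) = 4 := by
      obtain ⟨m, hm⟩ := IsPGroup.iff_card.1 T.2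
      have : m < 3 := lt_of_not_ge fun h => h8 ((pow_dvd_pow 2 h).trans (hm ▸ card_subgroup_dvd_card _))
      have : a ≤ m := (Nat.pow_dvd_pow_iff_le_right' (b := 0)).1 ((T.pow_dvd_card_of_pow_dvd_card e).trans hm.dvd)
      have : a - b ≠ 1 := fun g => hq.ne_one (by simpa [g] using f)
      rw [hm, show m = 2 by omega]; rfl
    have g : ¬ IsCyclic (T : Subgroup G) := fun h => n (hasNPC_iff_top.2 (L.pNil_of_isCyclic (sylIn_top T) h))
    haveI := IsPGroup.isMulCommutative_of_card_eq_prime_sq (p := 2) c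
    refine ⟨⟨c, ?_⟩, ?_⟩
    · haveI : Fact (Nat.Prime 2) := ⟨Nat.prime_two⟩
      exact (not_isCyclic_iff_exponent_eq_prime Nat.prime_two c).1 g
    have i := (relIndex_centralizer_dvd_card_aut (P := (T : Subgroup G)) le_rfl).trans (card_mulAut_dvd_six c)
    have j : ¬ 2 ∣ (𝒞 (T : Subgroup G)).relIndex (𝒩 (T : Subgroup G)) := fun h => T.not_dvd_index
      ((h.trans (Dvd.intro _ (relIndex_mul_index (centralizer_le_normalizer _)))).trans (index_dvd_of_le (le_centralizer _)))
    have k : (𝒞 (T : Subgroup G)).relIndex (𝒩 (T : Subgroup G)) ≠ 1 := fun h => n (hasNPC_iff_top.2 ((sylIn_top T).pNil_of_normalizer_le (inf_le_right.trans (relIndex_eq_one.1 h))))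
    have := Nat.le_of_dvd (by decide) i
    generalize (𝒞 (T : Subgroup G)).relIndex (𝒩 (T : Subgroup G)) = x at *
    interval_cases x <;> simp_all

end Cfsg.Agent.S0992
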