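import Cfsg.Statements.S0996
import Mathlib
import Cfsg.Agent.H7.BR5

set_option autoImplicit false
open Cfsg

namespace Cfsg.Agent.S0996

/-- Let G be a finite perfect group containing an element z of prime order p whose centralizer is the cyclic group it generates, and suppose the number 1 + n * p of Sylow p-subgroups satisfies n < (p + 3) / 2. Then p > 3 and G is isomorphic to the projective special linear group of dimension 2 over the field with p elements, or p - 1 is a power of 2 and G is isomorphic to that group over the field with p - 1 elements. -/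
theorem result {G : Type*} [Group G] [Finite G] (hperf : commutator G = ⊤) (p : ℕ) [Fact p.Prime] (z : G) (hz : orderOf z = p) (hC : Subgroup.centralizer ({z} : Set G) = Subgroup.zpowers z) (hn : 2 * Nat.card (Sylow p G) < (p + 1) * (p + 2)) : (∃ (F : Type) (_ : Field F) (_ : Fintype F), Fintype.card F = p ∧ 3 < p ∧ Nonempty (G ≃* Matrix.ProjectiveSpecialLinearGroup (Fin 2) F)) ∨ (∃ (m : ℕ) (F : Type) (_ : Field F) (_ : Fintype F), Fintype.card F = 2 ^ m ∧ p = 2 ^ m + 1 ∧ 3 < p ∧ Nonempty (G ≃* Matrix.ProjectiveSpecialLinearGroup (Fin 2) F)) := by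
  have hp : p.Prime := Fact.out
  obtain ⟨K, h, hK⟩ := H7.exists_D1_one hz hC
  letI := Fintype.ofFinite K
  obtain ⟨n, hn'⟩ := H7.exists_card_sylow p G
  have hD : ∀ u, u * p + 1 ∣ (p - 1) * (n * p + 1) → u = 0 ∨ u = n := fun u =>
    H7.form_bound hp (by rw [hn'] at hn; nlinarith [hp.pos])
  have h1 := H7.brc_quot hperf h.syl (h.card_sylow _) hn' hD
  obtain ⟨h2, h3⟩ := h.card_normal hK (L.not_dvd_card_pPrimeCore (G := G) hp)
  have h4 := Nat.div_add_mod' (Nat.card (pPrimeCore p G)) p
  rw [h3] at h4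
  rcases hD _ (h4 ▸ hn' ▸ h2.mul_left _) with e | e <;> rw [e] at h4
  · rcases (h1.of_equiv ((QuotientGroup.quotientMulEquivOfEq (Subgroup.card_eq_one.1
      (by omega))).trans QuotientGroup.quotientBot)).out with h5 | ⟨m, F, _, _, h5, h6, h7, h8, -⟩
    · exact Or.inl h5
    · exact Or.inr ⟨m, F, _, _, h5, h6, h7, h8⟩
  · exfalso
    have h5 := Subgroup.card_eq_card_quotient_mul_card_subgroup (pPrimeCore p G)
    rw [h.card_eq_mul.2, hK, hn', ← h4, mul_one] at h5
    have h6 := Nat.eq_of_mul_eq_mul_right (by omega) h5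
    have h7 := Nat.le_of_dvd (by have := hp.two_le; omega) (H7.card_Eg_dvd h)
    have h8 := h1.card
    have h9 := h1.1
    rw [← h6] at h8
    obtain ⟨q, rfl⟩ : ∃ q, p = q + 2 := ⟨p - 2, by omega⟩
    rw [show (q + 2) ^ 2 - 1 = (q + 1) * (q + 3) from Nat.sub_eq_of_eq_add (by ring),
      show q + 2 - 1 = q + 1 from rfl,
      show (q + 1) ^ 2 - 1 = q * (q + 2) from Nat.sub_eq_of_eq_add (by ring)] at h8
    rw [show q + 2 - 1 = q + 1 from rfl] at h7
    have := Nat.mul_le_mul_left (q + 2) h7
    rcases h8 with h8 | h8 <;> nlinarith [Nat.mul_le_mul_left ((q + 1) * (q + 2)) (show 2 ≤ q by omega)]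

end Cfsg.Agent.S0996
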