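import Cfsg.Statements.S0999
import Mathlib
import Cfsg.Agent.H7.BR5

set_option autoImplicit false
open Cfsg

namespace Cfsg.Agent.S0999

/-- Let G be a non-cyclic finite simple group and p a prime divisor of its order with p^3 > |G|. Then p > 3 and G is isomorphic to the projective special linear group of dimension 2 over the field with p elements, or p - 1 is a power of 2 and G is isomorphic to that group over the field with p - 1 elements. -/
theorem result {G : Type*} [Group G] [Finite G] [IsSimpleGroup G] (hG : ¬ IsCyclic G) (p : ℕ) (hp : p.Prime) (hdvd : p ∣ Nat.card G) (hbig : Nat.card G < p ^ 3) : (∃ (F : Type) (_ : Field F) (_ : Fintype F), Fintype.card F = p ∧ 3 < p ∧ Nonempty (G ≃* Matrix.ProjectiveSpecialLinearGroup (Fin 2) F)) ∨ (∃ (m : ℕ) (F : Type) (_ : Field F) (_ : Fintype F), Fintype.card F = 2 ^ m ∧ p = 2 ^ m + 1 ∧ 3 < p ∧ Nonempty (G ≃* Matrix.ProjectiveSpecialLinearGroup (Fin 2) F)) := by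
  haveI := Fact.mk hp
  have h1 : ¬ IsMulCommutative G := fun h => by
    letI : CommGroup G := { (inferInstance : Group G) with mul_comm := h.1.1 }
    exact hG inferInstance
  obtain ⟨P⟩ : Nonempty (Sylow p G) := inferInstance
  have h2 := H7.brc_of_lt_cube (H7.commutator_eq_top_of_simple h1) hdvd hbig P fun e =>
    H7.Sv.normalizer_sylow_ne_top h1 hdvd P (Subgroup.normalizer_eq_top_iff.2 e)
  rcases (h2.of_equiv ((QuotientGroup.quotientMulEquivOfEq
    ((pPrimeCore_normal p G).eq_bot_or_eq_top.resolve_right fun e => L.not_dvd_card_pPrimeCore hp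
      (by rwa [e, Subgroup.card_top]))).trans QuotientGroup.quotientBot)).out with
    h5 | ⟨m, F, _, _, h5, h6, h7, h8, -⟩
  · exact Or.inl h5
  · exact Or.inr ⟨m, F, _, _, h5, h6, h7, h8⟩

end Cfsg.Agent.S0999
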