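import Cfsg.Statements.S1001
import Mathlib
import Cfsg.Agent.S0904

set_option autoImplicit false
open Cfsg

namespace Cfsg.Agent.S1001

/-- In a finite simple group whose order has the form p * 3^a * 2^b with p prime, the centralizer of any element of order p is the cyclic group it generates. -/
theorem result {G : Type*} [Group G] [Finite G] [IsSimpleGroup G] (p a b : ℕ) (hp : p.Prime) (hG : Nat.card G = p * 3 ^ a * 2 ^ b) (x : G) (hx : orderOf x = p) : Subgroup.centralizer ({x} : Set G) = Subgroup.zpowers x := by
  haveI := Fact.mk hp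
  by_cases h : p = 2 ∨ p = 3
  · have h1 : Group.IsSolvable G := by
      rcases h with rfl | rfl
      · exact H1.isSolvable_of_card_eq_two_primes (a := b + 1) (b := a) Nat.prime_two Nat.prime_three
          (by rw [hG]; ring)
      · exact H1.isSolvable_of_card_eq_two_primes (a := b) (b := a + 1) Nat.prime_two Nat.prime_three
          (by rw [hG]; ring)
    letI : CommGroup G := { (inferInstance : Group G) with
      mul_comm := IsSimpleGroup.comm_iff_isSolvable.2 h1 }
    rcases (inferInstance : (Subgroup.zpowers x).Normal).eq_bot_or_eq_top with h2 | h2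
    · rw [Subgroup.zpowers_eq_bot] at h2
      rw [h2, orderOf_one] at hx
      exact absurd hx hp.one_lt.ne
    · rw [h2, eq_top_iff]
      exact fun g _ => Subgroup.mem_centralizer_singleton_iff.2 (mul_comm _ _)
  · push Not at h
    have hP : IsPGroup p (Subgroup.zpowers x) :=
      IsPGroup.of_card (n := 1) (by rw [Nat.card_zpowers, hx, pow_one])
    have hi : ¬ p ∣ (Subgroup.zpowers x).index := by
      have := (Subgroup.zpowers x).card_mul_index
      rw [Nat.card_zpowers, hx, hG, mul_assoc] at this
      rw [Nat.eq_of_mul_eq_mul_left hp.pos this, hp.dvd_mul]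
      rintro (h1 | h1)
      · exact h.2 ((Nat.prime_dvd_prime_iff_eq hp Nat.prime_three).1 (hp.dvd_of_dvd_pow h1))
      · exact h.1 ((Nat.prime_dvd_prime_iff_eq hp Nat.prime_two).1 (hp.dvd_of_dvd_pow h1))
    rw [← H7.centralizer_zpowers]
    exact S0904.result 3 2 p a b Nat.prime_three Nat.prime_two (by norm_num) h.2.symm h.1.symm
      (by rw [hG]; ring) (hP.toSylow hi)

end Cfsg.Agent.S1001
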