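import Cfsg.Statements.S1003
import Cfsg.Agent.B.L7b

set_option autoImplicit false
open Cfsg

namespace Cfsg.Agent.S1003

open Cfsg.Agent Cfsg.Agent.B Cfsg.Agent.B.L7 Subgroup
open scoped Pointwise commutatorElement

/-- A simple group of order 168 has exactly 21 Sylow 2-subgroups, 28 Sylow 3-subgroups and 8 Sylow 7-subgroups. -/
theorem result {G : Type*} [Group G] [Finite G] [IsSimpleGroup G] (h : Nat.card G = 168) : Nat.card (Sylow 2 G) = 21 ∧ Nat.card (Sylow 3 G) = 28 ∧ Nat.card (Sylow 7 G) = 8 := by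
  obtain ⟨e⟩ := ex h
  have c : ∀ (p : ℕ) [Fact p.Prime], Nat.card (Sylow p G) = Nat.card (Sylow p L7) := fun p _ => le_antisymm
    (Nat.card_le_card_of_surjective _ (Sylow.mapSurjective_surjective (f := e.toMonoidHom) e.surjective p))
    (Nat.card_le_card_of_surjective _ (Sylow.mapSurjective_surjective (f := e.symm.toMonoidHom) e.symm.surjective p))
  have : Fact (Nat.Prime 7) := ⟨by norm_num⟩
  refine ⟨(c 2).trans ((Sylow.card_eq_index_normalizer S2).trans ((congrArg index nT0).trans (idx cards.1 rfl))),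
    (c 3).trans ((Sylow.card_eq_index_normalizer (syl 3 P3 (k := 1) (n := 56) cards.2.2.2.2.2.1 rfl (by norm_num))).trans
      ((congrArg index nP3).trans (idx cards.2.2.2.2.2.2.1 rfl))),
    (c 7).trans ((Sylow.card_eq_index_normalizer (syl 7 P7 (k := 1) (n := 24) cards.2.2.2.2.2.2.2.1 rfl (by norm_num))).trans
      ((congrArg index nP7).trans (idx cards.2.2.2.2.2.2.2.2 rfl)))⟩

end Cfsg.Agent.S1003
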