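import Cfsg.Statements.S1004
import Cfsg.Agent.B.L7b

set_option autoImplicit false
open Cfsg

namespace Cfsg.Agent.S1004

open Cfsg.Agent Cfsg.Agent.B Cfsg.Agent.B.L7 Subgroup
open scoped Pointwise commutatorElement
theorem ct : ∀ a ∈ T0, a ≠ 1 → (∀ t ∈ T0, t * a = a * t) → ∀ g, g * a = a * g ↔ g ∈ T0 := by decide +kernel

/-- Let G be a simple group of order 168 and T a Sylow 2-subgroup. Then T is dihedral of order 8, T is its own normalizer, and T is the centralizer of any non-identity element of T that commutes with every element of T. -/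
theorem result {G : Type*} [Group G] [Finite G] [IsSimpleGroup G] (h : Nat.card G = 168) (T : Sylow 2 G) : Nonempty (↥(T : Subgroup G) ≃* DihedralGroup 4) ∧ Subgroup.normalizer ((T : Subgroup G) : Set G) = T ∧ ∀ z : G, z ∈ (T : Subgroup G) → z ≠ 1 → (∀ t ∈ (T : Subgroup G), t * z = z * t) → Subgroup.centralizer ({z} : Set G) = T := by
  obtain ⟨e, he⟩ := exT h T
  rw [← he]
  refine ⟨⟨(e.subgroupMap T0).symm.trans dih.some⟩, by rw [← map_equiv_normalizer_eq, nT0], ?_⟩
  rintro _ ⟨a, ha, rfl⟩ a1 b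
  ext g
  obtain ⟨g, rfl⟩ := e.surjective g
  rw [mem_centralizer_singleton_iff]
  refine Iff.trans ?_ ((ct a ha (fun c => a1 (by rw [c, map_one])) (fun t ht => e.injective ?_) g).trans (mem_map_iff_mem (f := e.toMonoidHom) e.injective).symm)
  · rw [← e.apply_eq_iff_eq, map_mul, map_mul]; rfl
  rw [map_mul, map_mul]; exact b _ ⟨t, ht, rfl⟩

end Cfsg.Agent.S1004
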