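import Cfsg.Statements.S1006
import Cfsg.Agent.B.L7

set_option autoImplicit false
open Cfsg

namespace Cfsg.Agent.S1006

open Cfsg.Agent Cfsg.Agent.B Cfsg.Agent.B.L7 Subgroup
open scoped Pointwise commutatorElement

/-- In a simple group of order 168 there are 56 elements of order 3, all conjugate; 42 elements of order 4, all conjugate; and 48 elements of order 7 falling into two conjugacy classes of size 24, an element of order 7 not being conjugate to its inverse. -/
theorem result {G : Type*} [Group G] [Finite G] [IsSimpleGroup G] (h : Nat.card G = 168) : Nat.card {g : G // orderOf g = 3} = 56 ∧ (∀ s t : G, orderOf s = 3 → orderOf t = 3 → IsConj s t) ∧ Nat.card {g : G // orderOf g = 4} = 42 ∧ (∀ s t : G, orderOf s = 4 → orderOf t = 4 → IsConj s t) ∧ Nat.card {g : G // orderOf g = 7} = 48 ∧ ∀ x : G, orderOf x = 7 → Nat.card {g : G // IsConj x g} = 24 ∧ ¬ IsConj x x⁻¹ := by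
  obtain ⟨e⟩ := ex h
  have c : ∀ n, Nat.card {g : G // orderOf g = n} = Fintype.card {g : L7 // od g = n} := fun n => by
    rw [← Nat.card_congr (e.toEquiv.subtypeEquiv (p := fun g => od g = n) fun g => by simp [od_eq]), Nat.card_eq_fintype_card]
  have d : ∀ n u, (∀ a : L7, od a = n → ∃ g, g * u * g⁻¹ = a) → ∀ s t : G, orderOf s = n → orderOf t = n → IsConj s t := fun n u hu =>
    e.surjective.forall₂.2 fun s t a b => by
      rw [e.orderOf_eq, od_eq] at a b
      exact e.toMonoidHom.map_isConj ((isConj_iff.2 (hu s a)).symm.trans (isConj_iff.2 (hu t b)))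
  have f : ∀ a b, IsConj (e a) (e b) ↔ IsConj a b := fun a b => ⟨fun h => by simpa using e.symm.toMonoidHom.map_isConj h, e.toMonoidHom.map_isConj⟩
  refine ⟨(c 3).trans (by decide +kernel), d 3 _ cj3, (c 4).trans (by decide +kernel), d 4 _ cj4, (c 7).trans (by decide +kernel),
    e.surjective.forall.2 fun x a => ?_⟩
  rw [e.orderOf_eq, od_eq] at a
  rw [← Nat.card_congr (e.toEquiv.subtypeEquiv (p := fun g => IsConj x g) fun g => (f x g).symm), ← map_inv, f]
  have key : ∀ u, Fintype.card {y : L7 // ∃ g, g * u * g⁻¹ = y} = 24 → (∀ g, g * u * g⁻¹ ≠ u⁻¹) → IsConj u x →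
      Nat.card {g // IsConj x g} = 24 ∧ ¬ IsConj x x⁻¹ := fun u a b c => by
    refine ⟨((Nat.card_congr (Equiv.subtypeEquivRight fun y => ?_)).trans Nat.card_eq_fintype_card).trans a, fun d => ?_⟩
    · exact ⟨fun d => isConj_iff.1 (c.trans d), fun d => c.symm.trans (isConj_iff.2 d)⟩
    obtain ⟨g, rfl⟩ := isConj_iff.1 c
    obtain ⟨k, d⟩ := isConj_iff.1 d
    exact b (g⁻¹ * k * g) (by rw [show g⁻¹ * k * g * u * (g⁻¹ * k * g)⁻¹ = g⁻¹ * (k * (g * u * g⁻¹) * k⁻¹) * g by group, d]; group)
  obtain ⟨g, b | b⟩ := cj7 x a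
  exacts [key w (by decide +kernel) (by decide +kernel) (isConj_iff.2 ⟨g, b⟩), key w⁻¹ (by decide +kernel) (by decide +kernel) (isConj_iff.2 ⟨g, b⟩)]

end Cfsg.Agent.S1006
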