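import Cfsg.Statements.S1007
import Cfsg.Agent.B.L7b

set_option autoImplicit false
open Cfsg

namespace Cfsg.Agent.S1007

open Cfsg.Agent Cfsg.Agent.B Cfsg.Agent.B.L7 Subgroup
open scoped Pointwise commutatorElement
theorem nc : ∀ g, ¬ (∀ y ∈ U1, g * y * g⁻¹ ∈ U2) := by decide +kernel

theorem part {G : Type*} [Group G] (e : L7 ≃* G) {U : Subgroup G} (h : U ≤ T0.map e.toMonoidHom) :
    IsKleinFour U ↔ U = U1.map e.toMonoidHom ∨ U = U2.map e.toMonoidHom := by
  obtain ⟨U, rfl⟩ : ∃ V : Subgroup L7, V.map e.toMonoidHom = U := ⟨_, map_comap_eq_self_of_surjective e.surjective U⟩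
  rw [map_le_map_iff_of_injective e.injective] at h
  rw [(map_injective e.injective).eq_iff, (map_injective e.injective).eq_iff, ← kf h]
  have a := Nat.card_congr (e.subgroupMap U).toEquiv
  have b := Monoid.exponent_eq_of_mulEquiv (e.subgroupMap U)
  exact ⟨fun c => ⟨a.trans c.1, b.trans c.2⟩, fun c => ⟨a.symm.trans c.1, b.symm.trans c.2⟩⟩

/-- Let G be a simple group of order 168 and T a Sylow 2-subgroup. Then T contains exactly two subgroups that are Klein four-groups; they are not conjugate in G; and the normalizer of every Klein four-subgroup of G is isomorphic to the symmetric group of degree 4. -/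
theorem result {G : Type*} [Group G] [Finite G] [IsSimpleGroup G] (h : Nat.card G = 168) (T : Sylow 2 G) : Nat.card {U : Subgroup G // U ≤ (T : Subgroup G) ∧ IsKleinFour ↥U} = 2 ∧ (∀ U W : Subgroup G, U ≤ (T : Subgroup G) → W ≤ (T : Subgroup G) → IsKleinFour ↥U → IsKleinFour ↥W → U ≠ W → ∀ g : G, U.map (MulAut.conj g).toMonoidHom ≠ W) ∧ ∀ U : Subgroup G, IsKleinFour ↥U → Nonempty (↥(Subgroup.normalizer (U : Set G)) ≃* Equiv.Perm (Fin 4)) := by
  obtain ⟨e, he⟩ := exT h T
  have a : ∀ g : G, (U1.map e.toMonoidHom).map (MulAut.conj g).toMonoidHom ≠ U2.map e.toMonoidHom := fun g a => by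
    obtain ⟨g, rfl⟩ := e.surjective g
    refine nc g fun y hy => (mem_map_iff_mem (f := e.toMonoidHom) e.injective).1 (a.le ⟨_, ⟨y, hy, rfl⟩, ?_⟩)
    simp
  have b : U1.map e.toMonoidHom ≠ U2.map e.toMonoidHom := fun b => a 1 (by rw [← b]; ext; simp)
  have u1 : U1 ≤ T0 := (by decide +kernel : ∀ y ∈ U1, y ∈ T0)
  have u2 : U2 ≤ T0 := (by decide +kernel : ∀ y ∈ U2, y ∈ T0)
  refine ⟨?_, fun U W hU hW c d f g i => ?_, fun U c => ?_⟩
  · rw [← he, ← Set.ncard_pair b]
    refine congrArg Set.ncard (Set.ext fun U => ⟨fun c => (part e c.1).1 c.2, fun c => ?_⟩ :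
      {U : Subgroup G | U ≤ T0.map e.toMonoidHom ∧ IsKleinFour U} = _)
    have : U ≤ T0.map e.toMonoidHom := c.elim (· ▸ map_mono u1) (· ▸ map_mono u2)
    exact ⟨this, (part e this).2 c⟩
  · rw [← he] at hU hW
    rcases (part e hU).1 c with rfl | rfl <;> rcases (part e hW).1 d with rfl | rfl
    exacts [f rfl, a g i, a g⁻¹ (by rw [← i, map_map _ (MulAut.conj g⁻¹).toMonoidHom]; ext; simp [mul_assoc]), f rfl]
  obtain ⟨Q, hQ⟩ := IsPGroup.exists_le_sylow (p := 2) (P := U) (IsPGroup.of_card (n := 2) c.1)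
  obtain ⟨f, hf⟩ := exT h Q
  rcases (part f (hf ▸ hQ)).1 c with rfl | rfl
  · rw [← map_equiv_normalizer_eq, nU1]; exact ⟨(f.subgroupMap K1).symm.trans iso1.some⟩
  rw [← map_equiv_normalizer_eq, nU2]; exact ⟨(f.subgroupMap K2).symm.trans iso2.some⟩

end Cfsg.Agent.S1007
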