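import Cfsg.Statements.S1008
import Cfsg.Agent.B.L7b

set_option autoImplicit false
open Cfsg

namespace Cfsg.Agent.S1008

open Cfsg.Agent Cfsg.Agent.B Cfsg.Agent.B.L7 Subgroup
open scoped Pointwise commutatorElement
theorem nc : ∀ g, ¬ (∀ y ∈ K1, g * y * g⁻¹ ∈ K2) := by decide +kernel
theorem na : ∃ a ∈ N7, ∃ b ∈ N7, a * b ≠ b * a := by decide +kernel

attribute [local irreducible] L7.mk mN sub od

/-- In a simple group of order 168 every maximal subgroup is either isomorphic to the symmetric group of degree 4 or non-abelian of order 21; the maximal subgroups of order 21 form one conjugacy class and those isomorphic to the symmetric group of degree 4 form exactly two conjugacy classes. -/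
theorem result {G : Type*} [Group G] [Finite G] [IsSimpleGroup G] (h : Nat.card G = 168) : (∀ M : Subgroup G, IsCoatom M → Nonempty (↥M ≃* Equiv.Perm (Fin 4)) ∨ (Nat.card ↥M = 21 ∧ ¬ IsMulCommutative ↥M)) ∧ (∀ M M' : Subgroup G, IsCoatom M → IsCoatom M' → Nat.card ↥M = 21 → Nat.card ↥M' = 21 → ∃ g : G, M' = M.map (MulAut.conj g).toMonoidHom) ∧ ∃ M₁ M₂ : Subgroup G, IsCoatom M₁ ∧ IsCoatom M₂ ∧ Nonempty (↥M₁ ≃* Equiv.Perm (Fin 4)) ∧ Nonempty (↥M₂ ≃* Equiv.Perm (Fin 4)) ∧ (∀ g : G, M₂ ≠ M₁.map (MulAut.conj g).toMonoidHom) ∧ ∀ M : Subgroup G, IsCoatom M → Nonempty (↥M ≃* Equiv.Perm (Fin 4)) → ∃ g : G, M = M₁.map (MulAut.conj g).toMonoidHom ∨ M = M₂.map (MulAut.conj g).toMonoidHom := by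
  obtain ⟨e⟩ := ex h
  have cm : ∀ K : Subgroup L7, Nat.card (K.map e.toMonoidHom) = Nat.card K := fun K => (Nat.card_congr (e.subgroupMap K).toEquiv).symm
  have cc : ∀ (K : Subgroup G) (g : G), Nat.card (K.map (MulAut.conj g).toMonoidHom) = Nat.card K := fun K g =>
    (Nat.card_congr ((MulAut.conj g).subgroupMap K).toEquiv).symm
  have c1 := (cm _).trans cards.2.2.2.1
  have c2 := (cm _).trans cards.2.2.2.2.1
  have c3 := (cm _).trans cards.2.2.2.2.2.2.2.2
  have i1 : Nonempty (K1.map e.toMonoidHom ≃* Equiv.Perm (Fin 4)) := ⟨(e.subgroupMap K1).symm.trans iso1.some⟩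
  have i2 : Nonempty (K2.map e.toMonoidHom ≃* Equiv.Perm (Fin 4)) := ⟨(e.subgroupMap K2).symm.trans iso2.some⟩
  have n3 : ¬ IsMulCommutative (N7.map e.toMonoidHom) := fun a => by
    obtain ⟨x, hx, y, hy, b⟩ := na
    refine b (e.injective ?_)
    rw [map_mul, map_mul]
    exact congrArg Subtype.val (a.is_comm.comm ⟨_, x, hx, rfl⟩ ⟨_, y, hy, rfl⟩)
  have n1 : ∀ g : G, K2.map e.toMonoidHom ≠ (K1.map e.toMonoidHom).map (MulAut.conj g).toMonoidHom := fun g a => by
    obtain ⟨g, rfl⟩ := e.surjective g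
    refine nc g fun y hy => (mem_map_iff_mem (f := e.toMonoidHom) e.injective).1 (a.ge ⟨_, ⟨y, hy, rfl⟩, ?_⟩)
    simp
  have cl : ∀ H : Subgroup G, H ≠ ⊤ → ∃ K, (K = K1.map e.toMonoidHom ∨ K = K2.map e.toMonoidHom ∨ K = N7.map e.toMonoidHom) ∧
      ∃ g, H ≤ K.map (MulAut.conj g).toMonoidHom := fun H a => by
    obtain ⟨H, rfl⟩ : ∃ V : Subgroup L7, V.map e.toMonoidHom = H := ⟨_, map_comap_eq_self_of_surjective e.surjective H⟩
    obtain ⟨K, b, g, c⟩ := cls (H := H) fun b => a (by rw [b]; exact map_top_of_surjective _ e.surjective)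
    refine ⟨K.map e.toMonoidHom, b.imp (congrArg _) (Or.imp (congrArg _) (congrArg _)), e g, (map_mono c).trans ?_⟩
    rintro _ ⟨_, ⟨y, hy, rfl⟩, rfl⟩
    exact ⟨_, ⟨y, hy, rfl⟩, by simp⟩
  generalize K1.map e.toMonoidHom = A, K2.map e.toMonoidHom = B, N7.map e.toMonoidHom = C at *
  have nt : ∀ H : Subgroup G, Nat.card H ≤ 24 → H ≠ ⊤ := fun H a b => by rw [b, card_top, h] at a; omega
  have co : ∀ M : Subgroup G, IsCoatom M → ∃ g : G, M = A.map (MulAut.conj g).toMonoidHom ∨ M = B.map (MulAut.conj g).toMonoidHom ∨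
      M = C.map (MulAut.conj g).toMonoidHom := fun M a => by
    obtain ⟨K, b, g, c⟩ := cl M a.1
    have := (a.le_iff_eq (nt _ (by rw [cc]; rcases b with rfl | rfl | rfl <;> omega))).1 c
    exact ⟨g, by rcases b with rfl | rfl | rfl <;> simp only [this, true_or, or_true]⟩
  have mx : ∀ M : Subgroup G, Nat.card M = 24 → IsCoatom M := fun M a => ⟨nt M a.le, fun H b => by_contra fun c => by
    obtain ⟨K, d, g, f⟩ := cl H c
    have := card_le_of_le f
    rw [cc] at this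
    exact b.ne (eq_of_le_of_card_ge b.le (by rcases d with rfl | rfl | rfl <;> omega))⟩
  refine ⟨fun M a => ?_, fun M M' a b c d => ?_, A, B, mx A c1, mx B c2, i1, i2, n1, fun M a ⟨b⟩ => ?_⟩
  · obtain ⟨g, rfl | rfl | rfl⟩ := co M a
    · exact .inl ⟨((MulAut.conj g).subgroupMap A).symm.trans i1.some⟩
    · exact .inl ⟨((MulAut.conj g).subgroupMap B).symm.trans i2.some⟩
    refine .inr ⟨(cc _ _).trans c3, fun b => n3 ⟨⟨fun x y => ((MulAut.conj g).subgroupMap C).injective ?_⟩⟩⟩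
    rw [map_mul, map_mul]; exact b.is_comm.comm _ _
  · obtain ⟨g, rfl | rfl | rfl⟩ := co M a <;> rw [cc] at c <;> try omega
    obtain ⟨k, rfl | rfl | rfl⟩ := co M' b <;> rw [cc] at d <;> try omega
    exact ⟨k * g⁻¹, by rw [map_map _ (MulAut.conj (k * g⁻¹)).toMonoidHom]; congr 1; ext; simp [mul_assoc]⟩
  obtain ⟨g, c | c | rfl⟩ := co M a
  exacts [⟨g, .inl c⟩, ⟨g, .inr c⟩, absurd ((Nat.card_congr b.toEquiv).symm.trans ((cc _ _).trans c3)) (by rw [Nat.card_perm, Nat.card_fin]; decide)]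

end Cfsg.Agent.S1008
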