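import Cfsg.Statements.S1010
import Mathlib
import Cfsg.Agent.H7.SylN

set_option autoImplicit false
open Cfsg

namespace Cfsg.Agent.S1010

open H7 H3

/-- No finite group has exactly twenty-one Sylow 5-subgroups. -/
theorem result {G : Type*} [Group G] [Finite G] : Nat.card (Sylow 5 G) ≠ 21 := by
  intro hn
  haveI : Fact (Nat.Prime 5) := ⟨by norm_num⟩
  obtain ⟨S, _, _, _, h1, h2, h3⟩ := H7.exists_simple_sylow hn (by norm_num) (by decide +kernel)
    fun m hm h => by
      have := Nat.le_of_dvd (by norm_num) hm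
      interval_cases m <;> simp_all
  obtain ⟨P⟩ : Nonempty (Sylow 5 S) := inferInstance
  obtain ⟨x, K, h, -⟩ := exists_D1_sylow P (card_eq_of_lt_sq h1 h2 (by omega) P)
  letI := Fintype.ofFinite K
  letI := Fintype.ofFinite S
  have hG := commutator_eq_top_of_simple h1
  have he := h.one_lt_card_Eg hG
  have he' : Nat.card (Eg h) ∣ 4 := card_Eg_dvd h
  have he2 : Nat.card (Eg h) = 2 ∨ Nat.card (Eg h) = 4 := by
    have := Nat.le_of_dvd (by norm_num) he'
    interval_cases Nat.card (Eg h) <;> simp_all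
  by_cases hK : Nat.card K = 1
  · have h4 := h.card_G hK
    rcases he2 with e | e <;> rw [h3, e] at h4
    · exact H7.Sv.card_ne 30 (by norm_num) (by decide +kernel) h4
    · exact H7.Sv.card_ne 30 (by norm_num) (by decide +kernel) h4
  obtain ⟨X, Y, δ, ε, hB⟩ := h.exists_br
  have hker : ∀ χ : IrrCharacter S, χ ≠ oneI S → ¬ K ≤ charKer (χ : S → ℂ) := fun χ h4 h5 => by
    rw [χ.2.charKer_eq_bot_of_simple fun e => h4 (Subtype.ext e), le_bot_iff] at h5
    exact hK (Subgroup.card_eq_one.2 h5)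
  have hi := h.card_eq_mul
  have hi' : (Subgroup.centralizer ({x} : Set S)).index = 21 * Nat.card (Eg h) := by
    rw [← hi.1, h3, mul_comm]
  have h84 : (Subgroup.centralizer ({x} : Set S)).index ∣ 84 := by
    rw [hi']; exact Nat.mul_dvd_mul_left 21 he'
  obtain ⟨θ, hθ⟩ := hB.nonempty
  have hX : ∀ χ ∈ X, χ ≠ oneI S → (7 : ℤ) ∣ δ χ * charDegree (χ : S → ℂ) := fun χ hχ h4 => by
    have a := hB.big_X hG hχ (hker χ h4)
    have b := (hB.deg_dvd_X hχ).trans h84
    obtain ⟨m, c⟩ := hB.deg_X hχ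
    have d := Nat.le_of_dvd (by norm_num) b
    generalize charDegree (χ : S → ℂ) = n at *
    rcases hB.sign χ hχ with e | e <;> rw [e] at a c ⊢ <;> interval_cases n <;> omega
  have hY : (7 : ℤ) ∣ ε * charDegree (θ : S → ℂ) := by
    have a := hB.big_Y hG hθ (hker θ fun e => hB.one_not_mem (e ▸ hθ))
    have b := hB.deg_dvd_Y hθ
    rw [hi'] at b
    obtain ⟨m, c⟩ := hB.deg_Y hθ
    generalize charDegree (θ : S → ℂ) = n at *
    rcases he2 with f | f <;> rw [f] at a b c <;> have d := Nat.le_of_dvd (by norm_num) b <;>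
      rcases hB.eps with e | e <;> rw [e] at a c ⊢ <;> interval_cases n <;> omega
  classical
  rw [← hB.deg_eq hθ, ← Finset.add_sum_erase _ _ hB.one_mem, hB.δ_one, charDegree_oneI,
    dvd_add_left (Finset.dvd_sum fun χ hχ => hX χ (Finset.mem_of_mem_erase hχ)
      (Finset.ne_of_mem_erase hχ))] at hY
  omega

end Cfsg.Agent.S1010
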