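import Cfsg.Statements.S1012
import Cfsg.Agent.GS.Misc1

set_option autoImplicit false
open Cfsg

namespace Cfsg.Agent.S1012

open Cfsg.Agent.H1

/-- A group of order 24 containing no element of order 6 is isomorphic to the symmetric group of degree 4. -/
theorem result {G : Type*} [Group G] [Finite G] (h : Nat.card G = 24) (h6 : ∀ g : G, orderOf g ≠ 6) : Nonempty (G ≃* Equiv.Perm (Fin 4)) := by
  open Subgroup Pointwise commutatorElement Cfsg.Agent.BG Cfsg.Agent.GS in
  open Cfsg.Agent.H2 hiding card_lt_of_lt card_lt_of_ne_top isMulCommutative_of_le isPGroup_zpowers_iff mem_of_pow_mem_of_coprime inf_eq_bot_of_cop exists_maxElem_ge Sec in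
  open Cfsg.Agent.H8 (Op Opp Fit SN) in
  open Cfsg.Agent.L (FPF) in focus
    have k : ∀ x y : G, orderOf x = 3 → orderOf y = 2 → x * y ≠ y * x := fun x y a b c =>
      h6 (x * y) (by rw [Commute.orderOf_mul_eq_mul_orderOf_of_coprime c (by rw [a, b]; decide), a, b])
    refine H4.equiv_S4_of h (fun N hN c => ?_) fun N hN c => ?_
    · obtain ⟨P, hP⟩ := Sylow.exists_subgroup_card_pow_prime (G := G) 2 (n := 2) (h ▸ by decide)
      obtain ⟨z, -, b, d⟩ := exists_inv_cent N c P hP
      obtain ⟨x, hx⟩ := exists_prime_orderOf_dvd_card' (G := N) 3 c.symm.dvd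
      exact k x z (by simpa using hx) b (d x x.2)
    · obtain ⟨z, hz⟩ := exists_prime_orderOf_dvd_card' (G := N) 2 c.symm.dvd
      obtain ⟨x, hx⟩ := exists_prime_orderOf_dvd_card' (G := G) 3 (h ▸ by decide)
      obtain ⟨y, -, hy⟩ := (Nat.card_eq_two_iff' (1 : N)).1 c
      have z1 : z ≠ 1 := by rintro rfl; simp at hz
      have := (hy ⟨_, hN.conj_mem _ z.2 x⟩ fun e => z1 (Subtype.ext (by simpa using e))).trans (hy z z1).symm
      exact k x z hx (by simpa using hz) (mul_inv_eq_iff_eq_mul.1 (congrArg Subtype.val this))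

end Cfsg.Agent.S1012
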