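import Cfsg.Statements.S1013
import Mathlib
import Cfsg.Agent.H7.SylN
import Cfsg.Agent.H7.Normal

set_option autoImplicit false
open Cfsg

namespace Cfsg.Agent.S1013

open H7

/-- Let G be a transitive permutation group of prime degree p having more than one Sylow p-subgroup, and suppose a Sylow p-subgroup P has prime index in its normalizer. Then G is simple. -/
theorem result {α : Type*} [Fintype α] [DecidableEq α] {p : ℕ} [Fact p.Prime] (hα : Fintype.card α = p) (G : Subgroup (Equiv.Perm α)) [MulAction.IsPretransitive ↥G α] (P : Sylow p ↥G) (hn : 1 < Nat.card (Sylow p ↥G)) (ht : (((P : Subgroup ↥G).subgroupOf (Subgroup.normalizer ((P : Subgroup ↥G) : Set ↥G))).index).Prime) : IsSimpleGroup ↥G := by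
  have hp : p.Prime := Fact.out
  have hα' : Nat.card α = p := by rw [Nat.card_eq_fintype_card, hα]
  haveI : MulAction.IsPreprimitive G α := MulAction.IsPreprimitive.of_prime_card (hα' ▸ hp)
  haveI : Nonempty α := (Nat.card_pos_iff.1 (hα' ▸ hp.pos)).1
  obtain ⟨a⟩ := ‹Nonempty α›
  have key : ∀ N : Subgroup G, N.Normal → N ≠ ⊥ → p ∣ Nat.card N := fun N _ h => by
    haveI := normal_trans (α := α) N h
    rw [card_eq_card_mul_card_stabilizer (G := N) a, hα']
    exact dvd_mul_right _ _
  have hG : p ∣ Nat.card G := by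
    rw [card_eq_card_mul_card_stabilizer (G := G) a, hα']; exact dvd_mul_right _ _
  haveI : Nontrivial G := Finite.one_lt_card_iff_nontrivial.1
    (hp.one_lt.trans_le (Nat.le_of_dvd Nat.card_pos hG))
  obtain ⟨x, hx⟩ := exists_prime_orderOf_dvd_card' p hG
  obtain ⟨K, h, hK⟩ := exists_D1_one hx (centralizer_eq_zpowers_of_faithful hp (α := α) (by omega) hx)
  have he : ((P : Subgroup G).subgroupOf (Subgroup.normalizer ((P : Subgroup G) : Set G))).index =
      Nat.card (Eg h) := by
    have h1 := card_inf_mul_relIndex (P : Subgroup G) (Subgroup.normalizer ((P : Subgroup G) : Set G))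
    have h2 := card_sylow_mul_card_normalizer P
    rw [inf_eq_left.2 Subgroup.le_normalizer, h.card_sylow] at h1
    rw [← h1, h.card_G hK] at h2
    exact Nat.eq_of_mul_eq_mul_left hp.pos (Nat.eq_of_mul_eq_mul_left Nat.card_pos h2)
  rw [he] at ht
  refine ⟨fun N hN => or_iff_not_imp_left.2 fun h1 => ?_⟩
  have h2 := key N hN h1
  refine Subgroup.index_eq_one.1 (((Nat.dvd_prime ht).1 (h.index_dvd hK h2)).resolve_right fun h3 => ?_)
  obtain ⟨K', h', hK'⟩ := h.sub_one hK (h.mem_of_normal h2)
  have h4 : Nat.card (Sylow p G) = Nat.card (Sylow p N) := card_sylow_of_normal fun e => by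
    letI := Fintype.ofFinite K
    have := hp.two_le
    have := Nat.le_of_dvd (by omega) ((h3 ▸ e).trans (card_Eg_dvd h))
    omega
  have h5 : Nat.card (Eg h') = 1 := by
    have h6 := N.card_mul_index
    rw [h3, h.card_G hK, h'.card_G hK', h4, mul_assoc, mul_assoc] at h6
    exact (Nat.mul_eq_right ht.ne_zero).1 (Nat.eq_of_mul_eq_mul_left hp.pos
      (Nat.eq_of_mul_eq_mul_left Nat.card_pos h6))
  have h6 : Nat.card ((commutator N).map N.subtype) = Nat.card (Sylow p G) := by
    rw [Subgroup.card_map_of_injective N.subtype_injective, (h'.e_one hK' h5).2.2, h4]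
  have h7 := key ((commutator N).map N.subtype) inferInstance fun e => by
    rw [e, Subgroup.card_bot] at h6; omega
  exact not_dvd_card_sylow p G (h6 ▸ h7)

end Cfsg.Agent.S1013
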