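import Cfsg.Statements.S1018
import Mathlib
import Cfsg.Agent.H7.SylN
import Cfsg.Agent.H7.Perm2

set_option autoImplicit false
open Cfsg

namespace Cfsg.Agent.S1018

open H7 H2

/-- Let P be a Sylow p-subgroup of order p of a finite group G, and consider the action of G on the left cosets of the normalizer N of P. Then every element of order p fixes exactly one coset, and an element of N that does not centralize P fixes at most as many cosets as there are orbits of P. -/
theorem result {G : Type*} [Group G] [Finite G] (p : ℕ) [Fact p.Prime] (P : Sylow p G) (hP : Nat.card ↥(P : Subgroup G) = p) : (∀ y : G, orderOf y = p → Nat.card (MulAction.fixedBy (G ⧸ Subgroup.normalizer ((P : Subgroup G) : Set G)) y) = 1) ∧ ∀ x : G, x ∈ Subgroup.normalizer ((P : Subgroup G) : Set G) → x ∉ Subgroup.centralizer ((P : Subgroup G) : Set G) → Nat.card (MulAction.fixedBy (G ⧸ Subgroup.normalizer ((P : Subgroup G) : Set G)) x) ≤ Nat.card (MulAction.orbitRel.Quotient ↥(P : Subgroup G) (G ⧸ Subgroup.normalizer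 ((P : Subgroup G) : Set G))) := by
  have hp : p.Prime := Fact.out
  have key : ∀ y : G, orderOf y = p → ∀ c g : G, c⁻¹ * y * c ∈ (P : Subgroup G) →
      g⁻¹ * y * g ∈ Subgroup.normalizer ((P : Subgroup G) : Set G) →
      c⁻¹ * g ∈ Subgroup.normalizer ((P : Subgroup G) : Set G) := fun y hy c g h1 h2 => by
    have h3 : orderOf (g⁻¹ * y * g) = p := by
      rw [show g⁻¹ * y * g = MulAut.conj g⁻¹ y by simp, MulEquiv.orderOf_eq, hy]
    have h4 := eq_zpowers_of_card_prime hp hP ((sylIn_top P).mem_of_mem_normalizer (Subgroup.mem_top _)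
      (k := 1) (by rw [pow_one, ← h3, pow_orderOf_eq_one]) h2) fun e => hp.one_lt.ne (by
        rw [← h3, e, orderOf_one])
    rw [← h4, mem_normalizer_zpowers_iff, h4]
    simpa [mul_assoc] using h1
  refine ⟨fun y hy => ?_, fun x hx hx' => ?_⟩
  · obtain ⟨c, hc⟩ := exists_conj_mem_sylow P (x := y) (k := 1) (by rw [hy, pow_one])
    have hc' : c⁻¹⁻¹ * y * c⁻¹ ∈ P := by rwa [inv_inv]
    refine Nat.card_eq_one_iff_exists.2 ⟨⟨(c⁻¹ : G), (mem_fixedBy_quotient_iff _ _ _).2
      (Subgroup.le_normalizer hc')⟩, ?_⟩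
    rintro ⟨g, hg⟩
    obtain ⟨g, rfl⟩ := QuotientGroup.mk_surjective g
    exact Subtype.ext (QuotientGroup.eq.2 (key y hy _ _ hc' ((mem_fixedBy_quotient_iff _ _ _).1 hg))).symm
  · refine Nat.card_le_card_of_injective (fun a => Quotient.mk'' a.1) ?_
    rintro ⟨a, ha⟩ ⟨b, hb⟩ e
    obtain ⟨u, rfl⟩ := MulAction.orbitRel_apply.1 (Quotient.exact' e)
    refine Subtype.ext ?_
    change (u : G) • b = b
    by_cases hu : (u : G) = 1
    · rw [hu, one_smul]
    have h1 : x⁻¹ * (u : G)⁻¹ * x * u ∈ (P : Subgroup G) := mul_mem (by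
      simpa using (Subgroup.mem_normalizer_iff.1 (inv_mem hx) _).1 (inv_mem u.2)) u.2
    have h2 : x⁻¹ * (u : G)⁻¹ * x * u ≠ 1 := fun e => hx' (by
      rw [← eq_zpowers_of_card_prime hp hP u.2 hu, centralizer_zpowers,
        Subgroup.mem_centralizer_singleton_iff]
      calc x * u = u * x * (x⁻¹ * (u : G)⁻¹ * x * u) := by group
        _ = _ := by rw [e, mul_one])
    have h3 : (x⁻¹ * (u : G)⁻¹ * x * u) • b = b := by
      rw [mul_smul, mul_smul, mul_smul, show x • (u : G) • b = (u : G) • b from ha, inv_smul_smul,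
        inv_smul_eq_iff, hb]
    have h4 : (u : G) ∈ MulAction.stabilizer G b := by
      refine Subgroup.zpowers_le.2 h3 ?_
      rw [eq_zpowers_of_card_prime hp hP h1 h2]; exact u.2
    exact h4

end Cfsg.Agent.S1018
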