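import Cfsg.Statements.S1026
import Cfsg.Agent.H5.Types
import Cfsg.Agent.H5.SL2

set_option autoImplicit false
open Cfsg

namespace Cfsg.Agent.S1026

/-- Every element of `U` has a unique expression `∏_{r ∈ Φ⁺} x_r(t_r)`, the product over the positive roots in increasing index order (the coefficient family `t`, supported on the positive roots, exists and is unique); and conversely every such ordered product is the matrix of an element of `U`. -/
theorem result {F : Type*} [Field F] (D : Cfsg.Lie.ChevalleyDatum) (hD : D ∈ [Cfsg.Lie.chevG2, Cfsg.Lie.chevB2, Cfsg.Lie.chevD4, Cfsg.Lie.chevF4, Cfsg.Lie.chevE6, Cfsg.Lie.chevE7, Cfsg.Lie.chevE8]) :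
    (∀ g : GL D.Idx F, g ∈ D.posUnipotent F →
      ∃! t : ℕ → F, (∀ r, ¬ D.IsPosRoot r → t r = 0) ∧
        (g : Matrix D.Idx D.Idx F) = D.wordMat F (D.posRoots.map fun r => (r, t r))) ∧
    (∀ t : ℕ → F, ∃ g : GL D.Idx F, g ∈ D.posUnipotent F ∧
      (g : Matrix D.Idx D.Idx F) = D.wordMat F (D.posRoots.map fun r => (r, t r))) := by
  obtain ⟨R⟩ := H5.exists_rs hD
  have key : ∀ t : ℕ → F, D.wordMat F (D.posRoots.map fun r => (r, t r)) =
      ((R.gl F).P H5.RS.posList (fun r => t r) : GL D.Idx F) := fun t => by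
    rw [R.gl_P, ← H5.RS.posList_map, List.map_map]; rfl
  rw [R.pos_eq]
  refine ⟨fun g hg => ?_, fun t => ⟨_, H5.StG.P_mem (fun r hr => (R.mem_posList r).1 hr) _, (key t).symm⟩⟩
  obtain ⟨t, rfl⟩ := H5.StG.exists_P (L := R.lamf) H5.StN.closed_pos' (fun _ h => h) H5.RS.posList_nodup
    R.mem_posList hg
  refine ⟨fun r => if h : D.IsPosRoot r then t ⟨r, h.1⟩ else 0, ⟨fun r hr => dif_neg hr, ?_⟩, ?_⟩
  · rw [key]
    congr 1
    exact H5.StG.P_congr fun r hr => by rw [dif_pos ((R.isPosRoot_iff r).2 ((R.mem_posList r).1 hr))]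
  · rintro t' ⟨h1, h2⟩
    rw [key, Units.val_inj] at h2
    funext r
    split_ifs with h
    · exact (H5.StG.P_unique (S := (R.gl F).toStG) (L := R.lamf) H5.StN.closed_pos' (fun _ h => h) H5.RS.posList_nodup
        (fun r hr => (R.mem_posList r).1 hr) h2 ⟨r, h.1⟩ ((R.mem_posList _).2 ((R.isPosRoot_iff ⟨r, h.1⟩).1 h))).symm
    · exact h1 r h

end Cfsg.Agent.S1026
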