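import Cfsg.Statements.S1030
import Cfsg.Agent.H5.Types
import Cfsg.Agent.H5.SL2

set_option autoImplicit false
open Cfsg

namespace Cfsg.Agent.S1030

/-- There is a homomorphism `SL₂(F) → GL` with image `⟨X_r, X_{-r}⟩` sending `[[1,t],[0,1]]` to `x_r(t)` and `[[1,0],[t,1]]` to `x_{-r}(t)`. -/
theorem result {F : Type*} [Field F] (D : Cfsg.Lie.ChevalleyDatum) (hD : D ∈ [Cfsg.Lie.chevG2, Cfsg.Lie.chevB2, Cfsg.Lie.chevD4, Cfsg.Lie.chevF4, Cfsg.Lie.chevE6, Cfsg.Lie.chevE7, Cfsg.Lie.chevE8]) (r : ℕ) (hr : r < D.nroots) :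
    ∃ φ : Matrix.SpecialLinearGroup (Fin 2) F →* GL D.Idx F,
      φ.range = D.rootSubgroup F r ⊔ D.rootSubgroup F (D.neg r) ∧
      ∀ (g : Matrix.SpecialLinearGroup (Fin 2) F) (t : F),
        ((g : Matrix (Fin 2) (Fin 2) F) = !![1, t; 0, 1] → ((φ g : GL D.Idx F) : Matrix D.Idx D.Idx F) = D.x F r t) ∧
        ((g : Matrix (Fin 2) (Fin 2) F) = !![1, 0; t, 1] → ((φ g : GL D.Idx F) : Matrix D.Idx D.Idx F) = D.x F (D.neg r) t) := by
  obtain ⟨R⟩ := H5.exists_rs hD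
  lift r to H5.Φ D using hr
  obtain ⟨φ, h1, h2⟩ := H5.StN.exists_sl2 (S := R.gl F) r (H5.StN.hr_mul Function.injective_id r)
  rw [← R.neg_val, R.root_eq, R.root_eq]
  refine ⟨φ, le_antisymm (H5.sl_range φ (fun t => ?_) (fun t => ?_)) (sup_le (H5.StG.U_le.2 ?_) (H5.StG.U_le.2 ?_)),
    fun g t => ⟨fun h => ?_, fun h => ?_⟩⟩
  · rw [h1]; exact Subgroup.mem_sup_left (H5.StG.x_mem (Set.mem_singleton _) t)
  · rw [h2]; exact Subgroup.mem_sup_right (H5.StG.x_mem (Set.mem_singleton _) t)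
  · rintro _ rfl t; exact ⟨_, h1 t⟩
  · rintro _ rfl t; exact ⟨_, h2 t⟩
  · rw [show g = H5.slU t from Subtype.ext h, h1, H5.x_val]; rfl
  · rw [show g = H5.slL t from Subtype.ext h, h2, H5.x_val]; rfl

end Cfsg.Agent.S1030
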