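import Cfsg.Statements.S1039
import Cfsg.Agent.H5.Types
import Cfsg.Agent.H5.SL2

set_option autoImplicit false
open Cfsg

namespace Cfsg.Agent.S1039

/-- `N/H ≅ W`: there is a surjective homomorphism from `N` onto the Coxeter group of the type (Mathlib's Coxeter matrix G₂, B₂, F₄, E₆, E₇, E₈, nodes numbered as the fundamental roots) with kernel `H`, mapping each `n_{p_i}` to the `i`-th simple reflection. -/
theorem result {F : Type*} [Field F]
    (p : Cfsg.Lie.ChevalleyDatum × (Σ n : ℕ, CoxeterMatrix (Fin n)))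
    (hp : p ∈ [(Cfsg.Lie.chevG2, ⟨2, CoxeterMatrix.G₂⟩), (Cfsg.Lie.chevB2, ⟨2, CoxeterMatrix.B 2⟩), (Cfsg.Lie.chevD4, ⟨4, Cfsg.Lie.coxeterD4⟩), (Cfsg.Lie.chevF4, ⟨4, CoxeterMatrix.F₄⟩),
      (Cfsg.Lie.chevE6, ⟨6, CoxeterMatrix.E₆⟩), (Cfsg.Lie.chevE7, ⟨7, CoxeterMatrix.E₇⟩), (Cfsg.Lie.chevE8, ⟨8, CoxeterMatrix.E₈⟩)]) :
    ∃ φ : ↥(p.1.monomialSubgroup F) →* p.2.2.Group, Function.Surjective φ ∧
      φ.ker = (p.1.diagonalSubgroup F).subgroupOf (p.1.monomialSubgroup F) ∧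
      ∀ (i : Fin p.2.1) (g : ↥(p.1.monomialSubgroup F)),
        ((g : GL p.1.Idx F) : Matrix p.1.Idx p.1.Idx F) = p.1.nMat F (p.1.simple i) 1 → φ g = p.2.2.simple i := by
  have key : ∀ {D : Cfsg.Lie.ChevalleyDatum} (R : H5.RS D) (M : CoxeterMatrix (Fin D.rank)),
      (∃ e : R.W ≃* M.Group, ∀ i, e (R.sw i) = M.simple i) →
      ∃ φ : ↥(D.monomialSubgroup F) →* M.Group, Function.Surjective φ ∧
      φ.ker = (D.diagonalSubgroup F).subgroupOf (D.monomialSubgroup F) ∧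
      ∀ (i : Fin D.rank) (g : ↥(D.monomialSubgroup F)),
        ((g : GL D.Idx F) : Matrix D.Idx D.Idx F) = D.nMat F (D.simple i) 1 → φ g = M.simple i := by
    rintro D R M ⟨e, he⟩
    rw [R.diag_eq, R.mono_eq]
    refine ⟨e.toMonoidHom.comp (R.gl F).φ, e.surjective.comp H5.StN.φ_surj, ?_, fun i g hg => ?_⟩
    · ext g
      simp [H5.StN.φ_eq_one_iff, Subgroup.mem_subgroupOf]
    · have : (g : GL D.Idx F) = (R.gl F).n i 1 := Units.ext (by rw [R.gl_n, hg]; rfl)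
      rw [← he, ← H5.StN.Lift.φ_eq (S := R.gl F) g.2 (w := R.sw i) (this ▸ H5.StN.lift_n i 1)]; rfl
  simp only [List.mem_cons, List.not_mem_nil, or_false] at hp
  rcases hp with rfl | rfl | rfl | rfl | rfl | rfl | rfl
  exacts [key _ _ H5.coxG2, key _ _ H5.coxB2, key _ _ H5.coxD4, key _ _ H5.coxF4, key _ _ H5.coxE6, key _ _ H5.coxE7,
    key _ _ H5.coxE8]

end Cfsg.Agent.S1039
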