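import Cfsg.Statements.S1044
import Cfsg.Agent.H5.Types
import Cfsg.Agent.H5.SL2

set_option autoImplicit false
open Cfsg

namespace Cfsg.Agent.S1044

/-- For a fundamental root `p` the set `B ∪ B n_p B` is (the carrier of) a subgroup of the general linear group. -/
theorem result {F : Type*} [Field F] (D : Cfsg.Lie.ChevalleyDatum) (hD : D ∈ [Cfsg.Lie.chevG2, Cfsg.Lie.chevB2, Cfsg.Lie.chevD4, Cfsg.Lie.chevF4, Cfsg.Lie.chevE6, Cfsg.Lie.chevE7, Cfsg.Lie.chevE8]) (i : ℕ) (hi : i < D.rank) (n : GL D.Idx F)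
    (hn : (n : Matrix D.Idx D.Idx F) = D.nMat F (D.simple i) 1) :
    ∃ P : Subgroup (GL D.Idx F), (P : Set (GL D.Idx F)) =
      (D.borelSubgroup F : Set (GL D.Idx F)) ∪ DoubleCoset.doubleCoset n (D.borelSubgroup F : Set (GL D.Idx F)) (D.borelSubgroup F) := by
  obtain ⟨R⟩ := H5.exists_rs hD
  lift i to H5.I D using hi
  obtain rfl : n = (R.gl F).n i 1 := Units.ext (by rw [R.gl_n, hn]; rfl)
  rw [R.borel_eq]
  refine ⟨(R.gl F).Par {i}, ?_⟩
  ext g
  simp only [SetLike.mem_coe, Set.mem_union, DoubleCoset.mem_doubleCoset]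
  constructor
  · intro hg
    obtain ⟨b, hb, m, hm, w, hw, hl, b', hb', rfl⟩ := H5.StN.mem_Par_iff.1 hg
    have : w = 1 ∨ w = R.sw i := R.ex.par_induction_left (p := fun w => w = 1 ∨ w = R.sw i) (Or.inl rfl) (by
      rintro _ rfl w - - (rfl | rfl)
      exacts [Or.inr (mul_one _), Or.inl (R.sw_sq _)]) w hw
    rcases this with rfl | rfl
    · exact Or.inl (mul_mem (mul_mem hb ((R.gl F).H_le_B (hl.mem_H hm))) hb')
    · exact Or.inr ⟨b, hb, _, mul_mem ((R.gl F).H_le_B ((H5.StN.lift_n i 1).inv_mul_mem ((R.gl F).n_mem i 1) hm hl)) hb',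
        by group⟩
  · rintro (h | ⟨b, hb, b', hb', rfl⟩)
    · exact H5.StN.B_le_Par _ h
    · exact mul_mem (mul_mem (H5.StN.B_le_Par _ hb) (H5.StN.n_mem_Par (Set.mem_singleton i) 1)) (H5.StN.B_le_Par _ hb')

end Cfsg.Agent.S1044
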