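import Cfsg.Statements.S1045
import Cfsg.Agent.H5.Types
import Cfsg.Agent.H5.SL2

set_option autoImplicit false
open Cfsg

namespace Cfsg.Agent.S1045

/-- For a fundamental root `p`, the subgroup `U_p` generated by the `X_s`, `s` positive and `s ≠ p`, is normalised by `X_p` and `X_{-p}`, and `U = U_p ⊔ X_p`. -/
theorem result {F : Type*} [Field F] (D : Cfsg.Lie.ChevalleyDatum) (hD : D ∈ [Cfsg.Lie.chevG2, Cfsg.Lie.chevB2, Cfsg.Lie.chevD4, Cfsg.Lie.chevF4, Cfsg.Lie.chevE6, Cfsg.Lie.chevE7, Cfsg.Lie.chevE8]) (i : ℕ) (hi : i < D.rank) :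
    D.rootSubgroup F (D.simple i) ⊔ D.rootSubgroup F (D.neg (D.simple i)) ≤
        Subgroup.normalizer (Subgroup.closure {g : GL D.Idx F | ∃ (s : ℕ) (t : F), D.IsPosRoot s ∧ s ≠ D.simple i ∧
          (g : Matrix D.Idx D.Idx F) = D.x F s t} : Set (GL D.Idx F)) ∧
      Subgroup.closure {g : GL D.Idx F | ∃ (s : ℕ) (t : F), D.IsPosRoot s ∧ s ≠ D.simple i ∧
          (g : Matrix D.Idx D.Idx F) = D.x F s t} ⊔ D.rootSubgroup F (D.simple i) = D.posUnipotent F := by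
  obtain ⟨R⟩ := H5.exists_rs hD
  lift i to H5.I D using hi
  have h1 : ∀ r, R.Pos r → (r ∈ R.Sub {i} ↔ r = R.sim i) := fun r hr =>
    ⟨fun h => (R.reduced h).resolve_right (by rintro rfl; exact (R.pos_neg_iff _).1 hr (R.pos_sim i)),
      by rintro rfl; exact H5.RS.sim_mem_sub.2 rfl⟩
  have h2 := R.closure_eq F (fun s => D.IsPosRoot s ∧ s ≠ D.simple i) {r | R.Pos r ∧ r ∉ R.Sub {i}} (fun _ h => h.1.1)
    (fun r => by
      rw [R.isPosRoot_iff, ← R.sim_val, Set.mem_setOf_eq]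
      exact and_congr_right fun h => by rw [h1 r h, Fin.ext_iff])
  simp only [and_assoc] at h2
  rw [h2, ← R.sim_val, ← R.neg_val, R.root_eq, R.root_eq, R.pos_eq, ← H5.StG.U_union, ← H5.StG.U_union]
  constructor
  · refine le_trans (H5.StG.U_le.2 ?_) (H5.StG.le_normalizer_of_conj fun g hg v hv => H5.StN.Par_conj hg hv)
    rintro _ (rfl | rfl) t
    exacts [H5.StN.x_mem_Par (H5.RS.sim_mem_sub.2 (Set.mem_singleton i)) t,
      H5.StN.x_mem_Par (H5.RS.neg_mem_sub.2 (H5.RS.sim_mem_sub.2 (Set.mem_singleton i))) t]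
  · congr 1
    ext r
    refine ⟨?_, fun h => ?_⟩
    · rintro (h | rfl)
      exacts [h.1, R.pos_sim i]
    · by_cases h3 : r = R.sim i
      exacts [Or.inr h3, Or.inl ⟨h, mt (h1 r h).1 h3⟩]

end Cfsg.Agent.S1045
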