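import Cfsg.Statements.S1053
import Cfsg.Agent.H5.Types
import Cfsg.Agent.H5.SL2

set_option autoImplicit false
open Cfsg

namespace Cfsg.Agent.S1053

/-- There is `n₀ ∈ N` with `n₀ U n₀⁻¹ = V` (a representative of the longest element of the Weyl group). -/
theorem result {F : Type*} [Field F] (D : Cfsg.Lie.ChevalleyDatum) (hD : D ∈ [Cfsg.Lie.chevG2, Cfsg.Lie.chevB2, Cfsg.Lie.chevD4, Cfsg.Lie.chevF4, Cfsg.Lie.chevE6, Cfsg.Lie.chevE7, Cfsg.Lie.chevE8]) :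
    ∃ n ∈ D.monomialSubgroup F, (D.posUnipotent F).map (MulAut.conj n).toMonoidHom = D.negUnipotent F := by
  obtain ⟨R⟩ := H5.exists_rs hD
  obtain ⟨w, hw⟩ := R.exists_w0
  obtain ⟨n, hn, hl⟩ := H5.StN.exists_N_lift (S := R.gl F) w
  rw [R.mono_eq, R.pos_eq, R.neg_eq]
  refine ⟨n, hn, le_antisymm ?_ fun v hv => ?_⟩
  · rintro _ ⟨u, hu, rfl⟩
    exact hl.conj_mem (T' := {r | ¬ R.Pos r}) (fun r hr h => (hw r).1 h hr) hu
  · refine ⟨_, (hl.inv hn).conj_mem (fun r hr => ?_) hv, by simp [mul_assoc]⟩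
    by_contra h
    exact hr (by simpa using (hw _).2 h)

end Cfsg.Agent.S1053
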