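import Cfsg.Statements.S1054
import Cfsg.Agent.H5.Types
import Cfsg.Agent.H5.SL2

set_option autoImplicit false
open Cfsg

namespace Cfsg.Agent.S1054

/-- The Chevalley groups of types D₄, F₄, E₆, E₇, E₈ are simple over every field. -/
theorem result {F : Type*} [Field F] (D : Cfsg.Lie.ChevalleyDatum)
    (hD : D ∈ [Cfsg.Lie.chevD4, Cfsg.Lie.chevF4, Cfsg.Lie.chevE6, Cfsg.Lie.chevE7, Cfsg.Lie.chevE8]) :
    IsSimpleGroup ↥(D.group F) ∧ ¬ IsMulCommutative ↥(D.group F) := by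
  have key : ∀ {D : Cfsg.Lie.ChevalleyDatum} (R : H5.RS D), R.Full → R.Good1 → 0 < D.rank →
      IsSimpleGroup ↥(D.group F) ∧ ¬ IsMulCommutative ↥(D.group F) := fun R h1 h2 h3 =>
    ⟨H5.StN.isSimpleGroup h1 ⟨0, h3⟩ (R.adj_gen F) (R.adj_inj F) (H5.StN.perfect1 h2 (R.adj_gen F)),
      H5.StN.not_comm (S := R.adj F) ⟨0, h3⟩⟩
  simp only [List.mem_cons, List.not_mem_nil, or_false] at hD
  rcases hD with rfl | rfl | rfl | rfl | rfl
  exacts [key _ H5.fullD4 H5.good1D4 (by decide), key _ H5.fullF4 H5.good1F4 (by decide),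
    key _ H5.fullE6 H5.good1E6 (by decide), key _ H5.fullE7 H5.good1E7 (by decide), key _ H5.fullE8 H5.good1E8 (by decide)]

end Cfsg.Agent.S1054
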