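import Cfsg.Statements.S1056
import Cfsg.Agent.H5.Types
import Cfsg.Agent.H5.SL2

set_option autoImplicit false
open Cfsg

namespace Cfsg.Agent.S1056

/-- B₂(F) is simple for every field `F` other than the field with two elements. -/
theorem result {F : Type*} [Field F] (hF : ∃ a : F, a ≠ 0 ∧ a ≠ 1) : IsSimpleGroup ↥(Cfsg.Lie.chevB2.group F) ∧ ¬ IsMulCommutative ↥(Cfsg.Lie.chevB2.group F) := by
  exact ⟨H5.StN.isSimpleGroup H5.fullB2 ⟨0, by decide⟩ (H5.rsB2.adj_gen F) (H5.rsB2.adj_inj F)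
    (H5.StN.perfect2 H5.good2B2 hF (H5.rsB2.adj_gen F)), H5.StN.not_comm (S := H5.rsB2.adj F) ⟨0, by decide⟩⟩

end Cfsg.Agent.S1056
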