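import Cfsg.Statements.S1064
import Cfsg.Agent.H5.Types
import Cfsg.Agent.H5.SL2

set_option autoImplicit false
open Cfsg

namespace Cfsg.Agent.S1064

/-- `gcd(2, q-1) · |E₇(q)| = q⁶³ ∏_{d ∈ {2,6,8,10,12,14,18}} (q^d - 1)`. -/
theorem result {F : Type*} [Field F] [Fintype F] {q : ℕ} (hq : Fintype.card F = q) : Nat.gcd 2 (q - 1) * Nat.card ↥(Cfsg.Lie.chevE7.group F) = q ^ 63 * (q ^ 2 - 1) * (q ^ 6 - 1) * (q ^ 8 - 1) * (q ^ 10 - 1) * (q ^ 12 - 1) * (q ^ 14 - 1) * (q ^ 18 - 1) := by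
  have hq' : Nat.card F = q := by rw [Nat.card_eq_fintype_card, hq]
  have h1 := H5.StN.card_eq (H5.rsE7.adj_gen F)
  have h2 := H5.rsE7.card_H_mul F _ (H5.rsE7.adj_inj F)
  have h3 := H5.poinE7 (q := q) (hq' ▸ Nat.card_pos)
  rw [H5.kerE7.card F, hq'] at h2
  change _ = (q - 1) ^ 7 at h2
  rw [hq', show Cfsg.Lie.chevE7.nroots / 2 = 63 from rfl] at h1
  simp only [pow_zero, pow_one, one_mul] at h2
  simp only [mul_assoc] at h3 ⊢
  rw [h1, ← h3, ← h2]; ring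

end Cfsg.Agent.S1064
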