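import Cfsg.Statements.S1071
import Cfsg.Agent.H5.TwD4

set_option autoImplicit false
open Cfsg

namespace Cfsg.Agent.S1071

/-- ³D₄(q) is simple for every `q`. -/
theorem result {K : Type*} [Field K] [Fintype K] {q : ℕ} (hq : IsPrimePow q) (hK : Fintype.card K = q ^ 3) :
    IsSimpleGroup ↥(Cfsg.Lie.twistedD4 K q) ∧ ¬ IsMulCommutative ↥(Cfsg.Lie.twistedD4 K q) := by
  obtain ⟨θ, hθ⟩ := H5.exists_frob hq hK
  have e := H5.eq3D4 hK (θ := θ) hθ
  have H := H5.nt3D4 (H5.act3D4' (θ : K →+* K)) (H5.frob_iter hK hθ)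
  exact H.simple_Γ e H5.fullD4 ⟨0, by decide⟩ (H5.perf3D4' hq hK (θ := θ) hθ)

end Cfsg.Agent.S1071
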