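import Cfsg.Statements.S1073
import Cfsg.Agent.H5.TwG2

set_option autoImplicit false
open Cfsg

namespace Cfsg.Agent.S1073

/-- ²G₂(3^(2m+1)) is simple for `m ≥ 1`. -/
theorem result {K : Type*} [Field K] [Fintype K] {m : ℕ} (hm : 1 ≤ m) (hK : Fintype.card K = 3 ^ (2 * m + 1)) :
    IsSimpleGroup ↥(Cfsg.Lie.twistedG2 K (3 ^ m)) ∧ ¬ IsMulCommutative ↥(Cfsg.Lie.twistedG2 K (3 ^ m)) := by
  haveI := H5.charP_of_card Nat.prime_three hK
  obtain ⟨θ, hθ, h2⟩ := H5.exists_theta Nat.prime_three hK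
  have e := H5.eq2G2 h2 hθ
  have H := H5.nt2G2 (H5.act2G2 θ) h2
  exact H.simple_Γ e H5.fullG2 ⟨0, by decide⟩ (H5.perf2G2' hm hK)

end Cfsg.Agent.S1073
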