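import Cfsg.Statements.S1074
import Cfsg.Agent.H6.TiC6

set_option autoImplicit false
open Cfsg

namespace Cfsg.Agent.S1074

open Cfsg.Agent
open scoped Pointwise commutatorElement

/-- ²F₄(2)′ has index 2 in ²F₄(2), is simple, and has order `2¹¹ · 3³ · 5² · 13`. -/
theorem result : (commutator ↥(Cfsg.Lie.twistedF4 (ZMod 2) 1)).index = 2 ∧ IsSimpleGroup Cfsg.Lie.TitsGroup ∧ ¬ IsMulCommutative Cfsg.Lie.TitsGroup ∧
    Nat.card Cfsg.Lie.TitsGroup = 2 ^ 11 * 3 ^ 3 * 5 ^ 2 * 13 := by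
  obtain ⟨e⟩ := H6.Ti.main.2
  refine ⟨H6.Ti.main.1, ?_, fun h => H6.Ti.hxy (e.injective ?_), ?_⟩
  · haveI := H6.Ti.simpleT
    haveI : Nontrivial Cfsg.Lie.TitsGroup := e.symm.toEquiv.nontrivial
    exact IsSimpleGroup.isSimpleGroup_of_surjective e.toMonoidHom e.surjective
  · rw [map_mul, map_mul]; exact h.is_comm.comm _ _
  · rw [← Nat.card_congr e.toEquiv, H6.Ti.cardT]; norm_num

end Cfsg.Agent.S1074
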