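import Cfsg.Statements.S1081
import Cfsg.Agent.H5.Aut

set_option autoImplicit false
open Cfsg

namespace Cfsg.Agent.S1081

theorem aux {F : Type*} [Field F] {D : Cfsg.Lie.ChevalleyDatum} (R : H5.RS D) (hR : R.Good) (E : R.Emb R) (Y : R.Sym)
    (h : ∀ r, E.π r = Y.ρ r) (h1 : ∀ i, E.γ (R.sim i) = 1) (l : List ℕ) (hl : ∀ i : H5.I D, l.getD i 0 = Y.ρ₀ i) :
    ∃ α : ↥(D.group F) ≃* ↥(D.group F), ∀ (g : ↥(D.group F)) (i : ℕ) (t : F), i < D.rank →
      (((g : GL D.Idx F) : Matrix D.Idx D.Idx F) = D.x F (D.simple i) t →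
        ((α g : GL D.Idx F) : Matrix D.Idx D.Idx F) = D.x F (D.simple (l.getD i 0)) t) ∧
      (((g : GL D.Idx F) : Matrix D.Idx D.Idx F) = D.x F (D.neg (D.simple i)) t →
        ((α g : GL D.Idx F) : Matrix D.Idx D.Idx F) = D.x F (D.neg (D.simple (l.getD i 0))) t) := by
  obtain ⟨α, hα⟩ := R.exists_graphAut (K := F) hR E Y h
  refine ⟨α, fun g i t hi => ?_⟩
  lift i to H5.I D using hi
  simp only [hl, ← R.sim_val, ← R.neg_val, R.eq_adj_x_iff]
  constructor <;> rintro rfl <;> simp [hα, h1, E.γneg, Y.neg, Y.sim]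

/-- Graph automorphisms: for E₆ with ρ = (p₁ p₆)(p₃ p₅) and for D₄ with ρ the 3-cycle on the outer nodes there is a group automorphism sending `x_p(t) ↦ x_{ρ(p)}(t)` and `x_{-p}(t) ↦ x_{-ρ(p)}(t)` for every fundamental root `p`. -/
theorem result {F : Type*} [Field F] (p : Cfsg.Lie.ChevalleyDatum × List ℕ)
    (hp : p ∈ [(Cfsg.Lie.chevE6, [5, 1, 4, 3, 2, 0]), (Cfsg.Lie.chevD4, [2, 1, 3, 0]), (Cfsg.Lie.chevD4, [3, 1, 0, 2])]) :
    ∃ α : ↥(p.1.group F) ≃* ↥(p.1.group F), ∀ (g : ↥(p.1.group F)) (i : ℕ) (t : F), i < p.1.rank →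
      (((g : GL p.1.Idx F) : Matrix p.1.Idx p.1.Idx F) = p.1.x F (p.1.simple i) t →
        ((α g : GL p.1.Idx F) : Matrix p.1.Idx p.1.Idx F) = p.1.x F (p.1.simple (p.2.getD i 0)) t) ∧
      (((g : GL p.1.Idx F) : Matrix p.1.Idx p.1.Idx F) = p.1.x F (p.1.neg (p.1.simple i)) t →
        ((α g : GL p.1.Idx F) : Matrix p.1.Idx p.1.Idx F) = p.1.x F (p.1.neg (p.1.simple (p.2.getD i 0))) t) := by
  simp only [List.mem_cons, List.not_mem_nil, or_false] at hp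
  rcases hp with rfl | rfl | rfl
  exacts [aux _ H5.goodE6 _ _ H5.grE6_π H5.grE6_sim _ (by decide +kernel),
    aux _ H5.goodD4 _ _ H5.grD4_2130_π H5.grD4_2130_sim _ (by decide +kernel),
    aux _ H5.goodD4 _ _ H5.grD4_3102_π H5.grD4_3102_sim _ (by decide +kernel)]

end Cfsg.Agent.S1081
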