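import Cfsg.Statements.S1090
import Cfsg.Agent.H5.TwF4

set_option autoImplicit false
open Cfsg

namespace Cfsg.Agent.S1090

/-- |U¹| = |G¹ ∩ U| = (2 ^ (2 * m + 1)) ^ 12 for ²F₄(2^(2m+1)). -/
theorem result {K : Type*} [Field K] [Fintype K] {m : ℕ} (hK : Fintype.card K = 2 ^ (2 * m + 1)) :
    Nat.card ↥(Cfsg.Lie.chevF4.posUnipotent K ⊓ Cfsg.Lie.twistedF4 K (2 ^ m)) = (2 ^ (2 * m + 1)) ^ 12 := by
  haveI := H5.charP_of_card Nat.prime_two hK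
  obtain ⟨θ, hθ, h2⟩ := H5.exists_theta Nat.prime_two hK
  have e := H5.eq2F4 h2 hθ
  have H := H5.nt2F4 (H5.act2F4 θ) h2
  rw [H.card_U_Γ e, H5.card_U2F4 (H5.act2F4 θ) h2, Nat.card_eq_fintype_card, hK]

end Cfsg.Agent.S1090
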