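import Cfsg.Statements.S1094
import Cfsg.Agent.H5.Types
import Cfsg.Agent.H5.SL2

set_option autoImplicit false
open Cfsg

namespace Cfsg.Agent.S1094

/-- The Coxeter element `s₁ s₂ ⋯ s_l` of the Coxeter group of type B₂, G₂, D₄, F₄, E₆, E₇, E₈ has order `h = 2N/l` = 4, 6, 6, 12, 12, 18, 30. -/
theorem result (p : (Σ n : ℕ, CoxeterMatrix (Fin n)) × ℕ)
    (hp : p ∈ [(⟨2, CoxeterMatrix.B 2⟩, 4), (⟨2, CoxeterMatrix.G₂⟩, 6), (⟨4, Cfsg.Lie.coxeterD4⟩, 6), (⟨4, CoxeterMatrix.F₄⟩, 12),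
      (⟨6, CoxeterMatrix.E₆⟩, 12), (⟨7, CoxeterMatrix.E₇⟩, 18), (⟨8, CoxeterMatrix.E₈⟩, 30)]) :
    orderOf ((List.finRange p.1.1).map p.1.2.simple).prod = p.2 := by
  have key : ∀ {D : Cfsg.Lie.ChevalleyDatum} (R : H5.RS D) (M : CoxeterMatrix (Fin D.rank)),
      (∃ e : R.W ≃* M.Group, ∀ i, e (R.sw i) = M.simple i) →
      orderOf ((List.finRange D.rank).map M.simple).prod = orderOf ((List.finRange D.rank).map R.sw).prod := by
    rintro D R M ⟨e, he⟩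
    rw [← e.orderOf_eq, map_list_prod, List.map_map, show e ∘ R.sw = M.simple from funext he]
  simp only [List.mem_cons, List.not_mem_nil, or_false] at hp
  rcases hp with rfl | rfl | rfl | rfl | rfl | rfl | rfl
  exacts [(key _ _ H5.coxB2).trans H5.coxEltB2, (key _ _ H5.coxG2).trans H5.coxEltG2, (key _ _ H5.coxD4).trans H5.coxEltD4,
    (key _ _ H5.coxF4).trans H5.coxEltF4, (key _ _ H5.coxE6).trans H5.coxEltE6, (key _ _ H5.coxE7).trans H5.coxEltE7,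
    (key _ _ H5.coxE8).trans H5.coxEltE8]

end Cfsg.Agent.S1094
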