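import Cfsg.Statements.S1096
import Cfsg.Agent.H5.Types
import Cfsg.Agent.H5.SL2

set_option autoImplicit false
open Cfsg

namespace Cfsg.Agent.S1096

/-- `n_p h_{p_j}(t) n_p⁻¹ = h_{w_p(p_j)}(t)` for fundamental `p`, `p_j` and `t ≠ 0`, stated as `n_p h_{p_j}(t) = h_{w_p(p_j)}(t) n_p`. -/
theorem result {F : Type*} [Field F] (D : Cfsg.Lie.ChevalleyDatum) (hD : D ∈ [Cfsg.Lie.chevG2, Cfsg.Lie.chevB2, Cfsg.Lie.chevD4, Cfsg.Lie.chevF4, Cfsg.Lie.chevE6, Cfsg.Lie.chevE7, Cfsg.Lie.chevE8]) (i j : ℕ) (hi : i < D.rank) (hj : j < D.rank) (t : F) (ht : t ≠ 0) :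
    D.nMat F (D.simple i) 1 * D.hMat F (D.simple j) t = D.hMat F (D.reflectRoot i (D.simple j)) t * D.nMat F (D.simple i) 1 := by
  obtain ⟨R⟩ := H5.exists_rs hD
  lift i to H5.I D using hi
  lift j to H5.I D using hj
  lift t to Fˣ using ht.isUnit
  rw [← R.sim_val j, ← R.ref_val, R.hMat_eq_dg, R.hMat_eq_dg, ← Units.val_one, ← R.gl_n]
  exact (H5.StN.lift_n (S := R.gl F) i 1).conj_dg fun r => by simp [R.prf_vec, R.pr_ref]

end Cfsg.Agent.S1096
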