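import Cfsg.Statements.S1098
import Cfsg.Agent.H5.Aut

set_option autoImplicit false
open Cfsg

namespace Cfsg.Agent.S1098

theorem aux {K : Type*} [Field K] [CharP K 2] (hperf : ∀ x : K, ∃ y : K, y ^ 2 = x) {D : Cfsg.Lie.ChevalleyDatum}
    (R : H5.RS D) (hR : R.Good) (Y : R.Sym) {π : ℕ → ℕ} (e : ℕ → ℕ) (hρ : ∀ r, (Y.ρ r : ℕ) = π r)
    (h : R.toCert.excChk D.nroots 2 π e = true) (he : ∀ r : H5.Φ D, (e r = 1 ∨ e r = 2) ∧ e (R.neg r) = e r)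
    (l : List (ℕ × ℕ)) (hl : ∀ i : H5.I D, l.getD i (0, 1) = ((Y.ρ₀ i : ℕ), e (R.sim i))) :
    ∃ α : ↥(D.group K) ≃* ↥(D.group K), ∀ (g : ↥(D.group K)) (i : ℕ) (t : K), i < D.rank →
      (((g : GL D.Idx K) : Matrix D.Idx D.Idx K) = D.x K (D.simple i) t →
        ((α g : GL D.Idx K) : Matrix D.Idx D.Idx K) = D.x K (D.simple (l.getD i (0, 1)).1) (t ^ (l.getD i (0, 1)).2)) ∧
      (((g : GL D.Idx K) : Matrix D.Idx D.Idx K) = D.x K (D.neg (D.simple i)) t →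
        ((α g : GL D.Idx K) : Matrix D.Idx D.Idx K) = D.x K (D.neg (D.simple (l.getD i (0, 1)).1)) (t ^ (l.getD i (0, 1)).2)) := by
  obtain ⟨α, hα⟩ := R.exists_excAut hR Y 2 (CharP.cast_eq_zero K 2) hperf e hρ h he
  refine ⟨α, fun g i t hi => ?_⟩
  lift i to H5.I D using hi
  simp only [hl, ← R.sim_val, ← R.neg_val, R.eq_adj_x_iff]
  constructor <;> rintro rfl <;> simp [hα, (he _).2, Y.neg, Y.sim]

/-- Graph automorphisms in characteristic 2 (K perfect): for B₂ (a short, b long) `x_a(t) ↦ x_b(t²)`, `x_b(t) ↦ x_a(t)`, and for F₄ (p₁, p₂ short, p₃, p₄ long) `x_{p₁}(t) ↦ x_{p₄}(t²)`, `x_{p₂}(t) ↦ x_{p₃}(t²)`, `x_{p₃}(t) ↦ x_{p₂}(t)`, `x_{p₄}(t) ↦ x_{p₁}(t)`, likewise on the negatives, extend to an automorphism of the group. -/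
theorem result {K : Type*} [Field K] [CharP K 2] (hperf : ∀ x : K, ∃ y : K, y ^ 2 = x)
    (p : Cfsg.Lie.ChevalleyDatum × List (ℕ × ℕ))
    (hp : p ∈ [(Cfsg.Lie.chevB2, [(1, 2), (0, 1)]), (Cfsg.Lie.chevF4, [(3, 2), (2, 2), (1, 1), (0, 1)])]) :
    ∃ α : ↥(p.1.group K) ≃* ↥(p.1.group K), ∀ (g : ↥(p.1.group K)) (i : ℕ) (t : K), i < p.1.rank →
      (((g : GL p.1.Idx K) : Matrix p.1.Idx p.1.Idx K) = p.1.x K (p.1.simple i) t →
        ((α g : GL p.1.Idx K) : Matrix p.1.Idx p.1.Idx K) = p.1.x K (p.1.simple (p.2.getD i (0, 1)).1) (t ^ (p.2.getD i (0, 1)).2)) ∧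
      (((g : GL p.1.Idx K) : Matrix p.1.Idx p.1.Idx K) = p.1.x K (p.1.neg (p.1.simple i)) t →
        ((α g : GL p.1.Idx K) : Matrix p.1.Idx p.1.Idx K) = p.1.x K (p.1.neg (p.1.simple (p.2.getD i (0, 1)).1)) (t ^ (p.2.getD i (0, 1)).2)) := by
  simp only [List.mem_cons, List.not_mem_nil, or_false] at hp
  rcases hp with rfl | rfl
  exacts [aux hperf _ H5.goodB2 H5.symB2 _ (fun _ => rfl) H5.excB2 (fun r => ⟨(H5.expB2_cases r).1, (H5.expB2_cases r).2.1⟩)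
      _ (by decide +kernel),
    aux hperf _ H5.goodF4 H5.symF4 _ (fun _ => rfl) H5.excF4 (fun r => ⟨(H5.expF4_cases r).1, (H5.expF4_cases r).2.1⟩)
      _ (by decide +kernel)]

end Cfsg.Agent.S1098
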