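import Cfsg.Statements.S1099
import Cfsg.Agent.H5.Aut

set_option autoImplicit false
open Cfsg

namespace Cfsg.Agent.S1099

/-- Graph automorphism of G₂ in characteristic 3 (K perfect): `x_a(t) ↦ x_b(t³)`, `x_b(t) ↦ x_a(t)`, `x_{-a}(t) ↦ x_{-b}(t³)`, `x_{-b}(t) ↦ x_{-a}(t)` extend to an automorphism of the group. -/
theorem result {K : Type*} [Field K] [CharP K 3] (hperf : ∀ x : K, ∃ y : K, y ^ 3 = x) :
    ∃ α : ↥(Cfsg.Lie.chevG2.group K) ≃* ↥(Cfsg.Lie.chevG2.group K), ∀ (g : ↥(Cfsg.Lie.chevG2.group K)) (t : K),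
      (((g : GL Cfsg.Lie.chevG2.Idx K) : Matrix _ _ K) = Cfsg.Lie.chevG2.x K Cfsg.Lie.g2a t →
        ((α g : GL Cfsg.Lie.chevG2.Idx K) : Matrix _ _ K) = Cfsg.Lie.chevG2.x K Cfsg.Lie.g2b (t ^ 3)) ∧
      (((g : GL Cfsg.Lie.chevG2.Idx K) : Matrix _ _ K) = Cfsg.Lie.chevG2.x K Cfsg.Lie.g2b t →
        ((α g : GL Cfsg.Lie.chevG2.Idx K) : Matrix _ _ K) = Cfsg.Lie.chevG2.x K Cfsg.Lie.g2a t) ∧
      (((g : GL Cfsg.Lie.chevG2.Idx K) : Matrix _ _ K) = Cfsg.Lie.chevG2.x K Cfsg.Lie.g2ma t →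
        ((α g : GL Cfsg.Lie.chevG2.Idx K) : Matrix _ _ K) = Cfsg.Lie.chevG2.x K Cfsg.Lie.g2mb (t ^ 3)) ∧
      (((g : GL Cfsg.Lie.chevG2.Idx K) : Matrix _ _ K) = Cfsg.Lie.chevG2.x K Cfsg.Lie.g2mb t →
        ((α g : GL Cfsg.Lie.chevG2.Idx K) : Matrix _ _ K) = Cfsg.Lie.chevG2.x K Cfsg.Lie.g2ma t) := by
  obtain ⟨α, hα⟩ := H5.rsG2.exists_excAut H5.goodG2 H5.symG2 3 (CharP.cast_eq_zero K 3) hperf H5.expG2 (fun _ => rfl)
    H5.excG2 fun r => And.intro (H5.expG2_cases r).1 (H5.expG2_cases r).2.1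
  refine ⟨α, fun g t => ?_⟩
  have key : ∀ (r : H5.Φ Lie.chevG2) (s k : ℕ), (H5.symG2.ρ r : ℕ) = s → H5.expG2 r = k →
      ((g : GL Lie.chevG2.Idx K) : Matrix _ _ K) = Lie.chevG2.x K r t →
      ((α g : GL Lie.chevG2.Idx K) : Matrix _ _ K) = Lie.chevG2.x K s (t ^ k) := by
    rintro r _ _ rfl rfl
    simp only [H5.rsG2.eq_adj_x_iff]
    rintro rfl
    exact hα _ _
  exact ⟨key ⟨7, by decide⟩ _ _ (by decide +kernel) (by decide +kernel),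
    fun h => by simpa using key ⟨6, by decide⟩ Lie.g2a 1 (by decide +kernel) (by decide +kernel) h,
    key ⟨4, by decide⟩ _ _ (by decide +kernel) (by decide +kernel),
    fun h => by simpa using key ⟨5, by decide⟩ Lie.g2ma 1 (by decide +kernel) (by decide +kernel) h⟩

end Cfsg.Agent.S1099
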