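import Cfsg.Statements.S1100
import Cfsg.Agent.H5.Types
import Cfsg.Agent.H5.SL2

set_option autoImplicit false
open Cfsg

namespace Cfsg.Agent.S1100

/-- Canonical form `g = b n_w u` (`b ∈ B`, `u ∈ U_w⁻ = ⟨X_r : r > 0, n_w X_r n_w⁻¹ ≤ V⟩`): such a decomposition exists for every element of the group; the coset `n_w H` is determined by `g`; and for a fixed representative `n_w` the factors `b`, `u` are unique. -/
theorem result {F : Type*} [Field F] (D : Cfsg.Lie.ChevalleyDatum) (hD : D ∈ [Cfsg.Lie.chevG2, Cfsg.Lie.chevB2, Cfsg.Lie.chevD4, Cfsg.Lie.chevF4, Cfsg.Lie.chevE6, Cfsg.Lie.chevE7, Cfsg.Lie.chevE8]) :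
    (∀ g ∈ D.group F, ∃ b ∈ D.borelSubgroup F, ∃ n ∈ D.monomialSubgroup F,
      ∃ u ∈ Subgroup.closure {x : GL D.Idx F | ∃ (r : ℕ) (t : F), D.IsPosRoot r ∧
            (D.rootSubgroup F r).map (MulAut.conj n).toMonoidHom ≤ D.negUnipotent F ∧ (x : Matrix D.Idx D.Idx F) = D.x F r t},
        g = b * n * u) ∧
    (∀ (b b' n n' u u' : GL D.Idx F), b ∈ D.borelSubgroup F → b' ∈ D.borelSubgroup F →
      n ∈ D.monomialSubgroup F → n' ∈ D.monomialSubgroup F →
      u ∈ Subgroup.closure {x : GL D.Idx F | ∃ (r : ℕ) (t : F), D.IsPosRoot r ∧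
            (D.rootSubgroup F r).map (MulAut.conj n).toMonoidHom ≤ D.negUnipotent F ∧ (x : Matrix D.Idx D.Idx F) = D.x F r t} →
      u' ∈ Subgroup.closure {x : GL D.Idx F | ∃ (r : ℕ) (t : F), D.IsPosRoot r ∧
            (D.rootSubgroup F r).map (MulAut.conj n').toMonoidHom ≤ D.negUnipotent F ∧ (x : Matrix D.Idx D.Idx F) = D.x F r t} →
      b * n * u = b' * n' * u' → n⁻¹ * n' ∈ D.diagonalSubgroup F ∧ (n = n' → b = b' ∧ u = u')) := by
  obtain ⟨R⟩ := H5.exists_rs hD
  have key : ∀ {n : GL D.Idx F} {w : R.W}, (R.gl F).Lift n w →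
      Subgroup.closure {x : GL D.Idx F | ∃ (r : ℕ) (t : F), D.IsPosRoot r ∧
            (D.rootSubgroup F r).map (MulAut.conj n).toMonoidHom ≤ D.negUnipotent F ∧
              (x : Matrix D.Idx D.Idx F) = D.x F r t} = (R.gl F).U (H5.RS.inv w) := by
    intro n w hl
    have := R.closure_eq F (fun r => D.IsPosRoot r ∧
      (D.rootSubgroup F r).map (MulAut.conj n).toMonoidHom ≤ D.negUnipotent F) (H5.RS.inv w) (fun _ h => h.1.1) (fun r => by
        rw [R.isPosRoot_iff, R.root_eq, R.neg_eq]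
        refine and_congr_right fun _ => ⟨fun h hp => ?_, fun h => ?_⟩
        · obtain ⟨u, hu⟩ := hl.exists_conj r 1
          have h1 := h ⟨_, H5.StG.x_mem (Set.mem_singleton r) u, rfl⟩
          change n * _ * n⁻¹ ∈ _ at h1
          rw [hu] at h1
          have := H5.StN.eq_one_of_B_V ((R.gl F).U_le_B (H5.StG.x_mem hp 1)) h1 rfl
          exact one_ne_zero (H5.StN.x_eq_one (S := R.gl F) this)
        · rintro _ ⟨u, hu, rfl⟩
          exact hl.conj_mem (by rintro _ rfl; exact h) hu)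
    simpa only [and_assoc] using this
  rw [R.group_eq, R.borel_eq, R.mono_eq, R.diag_eq]
  refine ⟨fun g hg => ?_, fun b b' n n' u u' hb hb' hn hn' hu hu' h => ?_⟩
  · obtain ⟨b, hb, m, hm, w, hw, u, hu, h⟩ := H5.StN.bruhat' hg
    exact ⟨b, hb, m, hm, u, by rwa [key hw], h⟩
  · obtain ⟨w, hw⟩ := H5.StN.exists_lift hn
    obtain ⟨w', hw'⟩ := H5.StN.exists_lift hn'
    rw [key hw] at hu
    rw [key hw'] at hu'
    refine ⟨H5.StN.cell_unique hb (H5.StN.inv_le_B w hu) hb' (H5.StN.inv_le_B w' hu') hn hn' h, ?_⟩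
    rintro rfl
    obtain rfl := hw.unique hw'
    exact H5.StN.canonical_unique hw hb hb' hu hu' h

end Cfsg.Agent.S1100
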