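import Cfsg.Statements.S1101
import Cfsg.Agent.H5.TwG2

set_option autoImplicit false
open Cfsg

namespace Cfsg.Agent.S1101

/-- For ²G₂ over `K` with `|K| = 3^(2m+1)`, `θ = 3^m`: `U¹ = G¹ ∩ U` consists exactly of the elements `x_a(t^θ) x_b(t) x_{a+b}(t^{θ+1}+u^θ) x_{2a+b}(t^{2θ+1}+v^θ) x_{3a+b}(u) x_{3a+2b}(v)`, `t, u, v ∈ K`, and it has `|K|³` elements. -/
theorem result {K : Type*} [Field K] [Fintype K] {m : ℕ} (hK : Fintype.card K = 3 ^ (2 * m + 1)) :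
    (∀ g : GL Cfsg.Lie.chevG2.Idx K, g ∈ Cfsg.Lie.chevG2.posUnipotent K ⊓ Cfsg.Lie.twistedG2 K (3 ^ m) ↔
      ∃ t u v : K, (g : Matrix Cfsg.Lie.chevG2.Idx Cfsg.Lie.chevG2.Idx K) = Cfsg.Lie.chevG2.wordMat K (Cfsg.Lie.reeWordU (3 ^ m) t u v)) ∧
    Nat.card ↥(Cfsg.Lie.chevG2.posUnipotent K ⊓ Cfsg.Lie.twistedG2 K (3 ^ m)) = (3 ^ (2 * m + 1)) ^ 3 := by
  haveI := H5.charP_of_card Nat.prime_three hK
  obtain ⟨θ, hθ, h2⟩ := H5.exists_theta Nat.prime_three hK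
  have e := H5.eq2G2 h2 hθ
  have H := H5.nt2G2 (H5.act2G2 θ) h2
  refine ⟨fun g => ?_, by rw [H.card_U_Γ e, H5.card_U2G2 (H5.act2G2 θ) h2 hK]⟩
  rw [H5.StN.Tw.inf_Γ e, H.U_inf_G1 e, ← H5.subP2G2]
  constructor
  · rintro ⟨a, ha, rfl⟩
    obtain ⟨⟨t, u, v⟩, rfl⟩ := (H5.mem2G2_P (H5.act2G2 θ) h2).1 ha
    exact ⟨t, u, v, ((H5.rsG2.adj K).π_WN _).trans (by rw [(H5.reeW_eq hθ t u v).1])⟩
  · rintro ⟨t, u, v, h⟩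
    exact ⟨_, (H5.mem2G2_P (H5.act2G2 θ) h2).2 ⟨(t, u, v), rfl⟩,
      Units.ext (((H5.rsG2.adj K).π_WN _).trans (by rw [h, (H5.reeW_eq hθ t u v).1]))⟩

end Cfsg.Agent.S1101
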