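import Cfsg.Statements.S1102
import Cfsg.Agent.H5.TwE6

set_option autoImplicit false
open Cfsg

namespace Cfsg.Agent.S1102

/-- `|H¹| = |G¹ ∩ H|`: `Nat.gcd 3 (q + 1) * |H¹| = (q - 1) ^ 4 * (q + 1) ^ 2` for ²E₆(q). -/
theorem result {K : Type*} [Field K] [Fintype K] {q : ℕ} (hq : IsPrimePow q) (hK : Fintype.card K = q ^ 2) :
    Nat.gcd 3 (q + 1) * Nat.card ↥(Cfsg.Lie.chevE6.diagonalSubgroup K ⊓ Cfsg.Lie.twistedE6 K q) = (q - 1) ^ 4 * (q + 1) ^ 2 := by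
  obtain ⟨θ, hθ⟩ := H5.exists_frob hq hK
  have e := H5.eq2E6 hK (θ := θ) hθ
  rw [H5.StN.Tw.card_H_Γ e, H5.card_H2E6 hq hK hθ]

end Cfsg.Agent.S1102
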