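import Cfsg.Statements.S1118
import Mathlib
import Cfsg.Agent.H7.RO

set_option autoImplicit false
open Cfsg

namespace Cfsg.Agent.S1118

open Cfsg.Agent.H7 MulAction Subgroup

/-- In the rank-one set-up (`G` finite and doubly transitive on `Ω`, `t` an involution moving `a`, `Q` normal in `G_a` with `G_a = Q D`, `Q ⊓ D = 1` for the two-point stabiliser `D = G_a ⊓ G_{t • a}`, `|Q|` even, `|D|` odd), the normaliser of a subset of `Q` containing a non-identity element lies in `G_a`; consequently `N_G(Q) = N_G(G_a) = G_a`. -/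
theorem result {G Ω : Type*} [Group G] [Finite G] [MulAction G Ω] {a : Ω} {t : G} {Q : Subgroup G}
    (hS : Cfsg.IsRankOneSetup G Ω a t Q) :
    (∀ X : Set G, X ⊆ (Q : Set G) → (∃ x ∈ X, x ≠ 1) → Subgroup.normalizer X ≤ MulAction.stabilizer G a) ∧
      Subgroup.normalizer (Q : Set G) = MulAction.stabilizer G a ∧
      Subgroup.normalizer (MulAction.stabilizer G a : Set G) = MulAction.stabilizer G a := by
  have key : ∀ X : Set G, X ⊆ (Q : Set G) → (∃ x ∈ X, x ≠ 1) → Subgroup.normalizer X ≤ MulAction.stabilizer G a := by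
    rintro X hX ⟨x, hx, h1⟩ g hg
    have h2 : g * x * g⁻¹ ∈ X := (hg x).1 hx
    by_contra hne
    have h3 := (RO.ker hS).eq_one (hX h2) hne (by
      rw [mul_smul, mul_smul, inv_smul_smul, (RO.ker hS).fix x (hX hx)])
    exact h1 (by simpa using h3)
  obtain ⟨z, hz, h2⟩ := H2.exists_ord2_mem_of_even hS.even_card
  refine ⟨key, le_antisymm (key _ subset_rfl ⟨z, hz, H2.ord2_ne_one h2⟩) (RO.H_le_normalizer hS),
    le_antisymm (fun g hg => ?_) le_normalizer⟩
  exact H2.se_mem' (RO.se hS) (hS.le hz) h2 ((hg z).1 (hS.le hz))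

end Cfsg.Agent.S1118
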