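import Cfsg.Statements.S1119
import Mathlib
import Cfsg.Agent.H7.RO

set_option autoImplicit false
open Cfsg

namespace Cfsg.Agent.S1119

open Cfsg.Agent.H7 MulAction Subgroup

/-- In the rank-one set-up (`G` finite and doubly transitive on `Ω`, `t` an involution moving `a`, `Q` normal in `G_a` with `G_a = Q D`, `Q ⊓ D = 1` for the two-point stabiliser `D = G_a ⊓ G_{t • a}`, `|Q|` even, `|D|` odd): `Q` acts regularly on `Ω` minus `a`; hence `|Ω| = |Q| + 1`, `|G| = |Q| |D| (|Q| + 1)`, some Sylow 2-subgroup of `G` lies in `Q`, and each `g ∉ G_a` is uniquely `x t y` with `x ∈ G_a`, `y ∈ Q` (canonical form). -/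
theorem result {G Ω : Type*} [Group G] [Finite G] [MulAction G Ω] {a : Ω} {t : G} {Q : Subgroup G}
    (hS : Cfsg.IsRankOneSetup G Ω a t Q) :
    (∀ b c : Ω, b ≠ a → c ≠ a → ∃! x : Q, (x : G) • b = c) ∧
      Nat.card Ω = Nat.card Q + 1 ∧
      Nat.card G = Nat.card Q * Nat.card ↥(MulAction.stabilizer G a ⊓ MulAction.stabilizer G (t • a)) * (Nat.card Q + 1) ∧
      (∃ P : Sylow 2 G, (P : Subgroup G) ≤ Q) ∧
      ∀ g : G, g ∉ MulAction.stabilizer G a → ∃! p : G × G, p.1 ∈ MulAction.stabilizer G a ∧ p.2 ∈ Q ∧ g = p.1 * t * p.2 := by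
  refine ⟨(RO.ker hS).reg, RO.card_Ω hS, RO.card_G hS, ?_, fun g hg => ?_⟩
  · obtain ⟨P⟩ : Nonempty (Sylow 2 Q) := inferInstance
    obtain ⟨R, hR⟩ := (P.isPGroup'.map Q.subtype).exists_le_sylow
    obtain ⟨z, hz, h2⟩ := H2.exists_ord2_mem_of_even (H := (P : Subgroup Q)) (by
      obtain ⟨n, hn⟩ := IsPGroup.iff_card.1 P.isPGroup'
      rw [hn]
      rcases n with _ | n
      · exact absurd (Subgroup.card_eq_one.1 hn) (P.ne_bot_of_dvd_card (even_iff_two_dvd.1 hS.even_card))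
      · exact (Nat.even_pow' (by omega)).2 even_two)
    haveI := RO.finite hS
    obtain ⟨c, hc⟩ := R.isPGroup'.nonempty_fixed_point_of_prime_not_dvd_card Ω (by
      rw [RO.card_Ω hS]
      obtain ⟨m, hm⟩ := hS.even_card
      omega)
    have h3 : c = a := RO.fix_unique hS (s := (z : G)) (by simpa using h2)
      (hc ⟨z, hR ⟨z, hz, rfl⟩⟩) (hS.le z.2)
    subst h3
    refine ⟨R, fun x hx => ?_⟩
    obtain ⟨n, hn⟩ := R.isPGroup' ⟨x, hx⟩
    exact RO.mem_Q_of_pgroup hS (hc ⟨x, hx⟩) (n := n) (congrArg Subtype.val hn)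
  · obtain ⟨x, hx, y, hy, e⟩ := RO.canon_exists hS hg
    refine ⟨(x, y), ⟨hx, hy, e⟩, fun p hp => ?_⟩
    obtain ⟨h1, h2⟩ := RO.canon_unique hS hp.1 hx hp.2.1 hy (hp.2.2.symm.trans e)
    exact Prod.ext h1 h2

end Cfsg.Agent.S1119
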