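import Cfsg.Statements.S1120
import Mathlib
import Cfsg.Agent.H7.RO2

set_option autoImplicit false
open Cfsg

namespace Cfsg.Agent.S1120

open Cfsg.Agent.H7 MulAction Subgroup

/-- In the rank-one set-up (`G` finite and doubly transitive on `Ω`, `t` an involution moving `a`, `Q` normal in `G_a` with `G_a = Q D`, `Q ⊓ D = 1` for the two-point stabiliser `D = G_a ⊓ G_{t • a}`, `|Q|` even, `|D|` odd), if `G` has 2-rank at least 2 then `O_{2'}(G)` equals the normal core of `G_a`. -/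
theorem result {G Ω : Type*} [Group G] [Finite G] [MulAction G Ω] {a : Ω} {t : G} {Q : Subgroup G}
    (hS : Cfsg.IsRankOneSetup G Ω a t Q)
    (h2 : ∃ x y : G, x ≠ 1 ∧ y ≠ 1 ∧ x ≠ y ∧ x * x = 1 ∧ y * y = 1 ∧ x * y = y * x) :
    Cfsg.pPrimeCore 2 G = (MulAction.stabilizer G a).normalCore := by
  refine le_antisymm ?_ (L.le_pPrimeCore (Nat.coprime_two_right.2 (hS.odd_card.of_dvd_nat
    (card_dvd_of_le fun x hx => ⟨normalCore_le _ hx, ?_⟩))))
  · obtain ⟨x, y, a1, a2, a3, a4, a5, a6⟩ := RO.exists_two_inv hS h2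
    exact normal_le_normalCore.2 (se_le_of_four (RO.se hS) a1 a2 a3 a4 a5 a6
      (Nat.coprime_two_right.1 (L.pPrimeCore_coprime 2)) (normalizer_eq_top (pPrimeCore 2 G) ▸ mem_top _)
      (normalizer_eq_top (pPrimeCore 2 G) ▸ mem_top _))
  · have : (t⁻¹ * x * t⁻¹⁻¹) • a = a := hx t⁻¹
    rw [inv_inv, mul_smul, mul_smul, inv_smul_eq_iff] at this
    exact this

end Cfsg.Agent.S1120
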