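import Cfsg.Statements.S1124
import Mathlib
import Cfsg.Agent.H7.RO

set_option autoImplicit false
open scoped Pointwise
open Cfsg

namespace Cfsg.Agent.S1124

open Cfsg.Agent.H7 MulAction Subgroup

/-- Let `t` be an element of order 2 of a finite group normalising a subgroup `X` of odd order, `Y = C_X(t)` and `Z` the set of elements of `X` inverted by `t`. Then `(y, z) ↦ y z` is a bijection `Y × Z → X`, so `|X| = |Y| |Z|`, and the subgroup generated by `Z` is normal in `X`. -/
theorem result {M : Type*} [Group M] [Finite M]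
    (t : M) (ht : orderOf t = 2) (X : Subgroup M) (hodd : Odd (Nat.card X))
    (hnorm : ∀ x ∈ X, t * x * t⁻¹ ∈ X) :
    (∀ x ∈ X, ∃! p : M × M, p.1 ∈ X ⊓ Subgroup.centralizer {t} ∧ p.2 ∈ Cfsg.invertedBy X t ∧ x = p.1 * p.2) ∧
      Nat.card X = Nat.card ↥(X ⊓ Subgroup.centralizer {t}) * Nat.card (Cfsg.invertedBy X t) ∧
      ∀ x ∈ X, MulAut.conj x • Subgroup.closure (Cfsg.invertedBy X t) = Subgroup.closure (Cfsg.invertedBy X t) := by
  have h2 := H2.ord2_mul_self ht
  refine ⟨fun x hx => ?_, card_eq_cent_mul_inv hodd h2 hnorm, fun x hx => ?_⟩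
  · obtain ⟨y, hy, h1, z, hz, e⟩ := exists_cent_mul_inv hodd h2 hnorm hx
    refine ⟨(y, z), ⟨⟨hy, mem_centralizer_singleton_iff.2 h1⟩, hz, e⟩, fun p hp => ?_⟩
    obtain ⟨e1, e2⟩ := cent_mul_inv_unique hodd (mem_centralizer_singleton_iff.1 hp.1.2) h1
      hp.2.1 hz (hp.2.2.symm.trans e)
    exact Prod.ext e1 e2
  · ext z
    rw [mem_pointwise_smul_iff_inv_smul_mem]
    constructor
    · intro h
      simpa [mul_assoc] using conj_mem_closure_inverted hodd h2 hnorm hx h
    · intro h
      simpa [mul_assoc] using conj_mem_closure_inverted hodd h2 hnorm (inv_mem hx) h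

end Cfsg.Agent.S1124
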