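import Cfsg.Statements.S1160
import Cfsg.Agent.L.PCyc
import Cfsg.Agent.L.PGroup
import Cfsg.Agent.H9.CW2

set_option autoImplicit false
open Cfsg

namespace Cfsg.Agent.S1160

open Cfsg.Agent Cfsg.Agent.H9
open Subgroup
open scoped commutatorElement

section
variable {P E : Type*} [Group P] [AddCommGroup E] [DistribMulAction P E]

def Nm (n : ℕ) (g : P) (e : E) : E := ∑ i ∈ Finset.range n, g ^ i • e

theorem pow_fix {g : P} {e : E} (h : g • e = e) (i : ℕ) : g ^ i • e = e := by
  induction i with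
  | zero => simp
  | succ i ih => rw [pow_succ, mul_smul, h, ih]

theorem Nm_fix {n : ℕ} {g : P} {e : E} (h : g • e = e) : Nm n g e = n • e := by
  simp [Nm, pow_fix h]

theorem Nm_add (n : ℕ) (g : P) (a b : E) : Nm n g (a + b) = Nm n g a + Nm n g b := by
  simp [Nm, Finset.sum_add_distrib]

theorem Nm_sub {n : ℕ} {g : P} (h : g ^ n = 1) (e : E) : Nm n g (e - g • e) = 0 := by
  have := Finset.sum_range_sub' (fun i => g ^ i • e) n
  simp only [h, pow_zero, sub_self] at this
  simpa [Nm, smul_sub, pow_succ, mul_smul] using this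

theorem Nm_comm (n : ℕ) {g h : P} (hc : Commute g h) (e : E) : Nm n g (h • e) = h • Nm n g e := by
  simp only [Nm, Finset.smul_sum, ← mul_smul, (hc.pow_left _).eq]

theorem smul_Nm {n : ℕ} {g : P} (h : g ^ n = 1) (e : E) : g • Nm n g e = Nm n g e := by
  have h1 := Nm_add n g (e - g • e) (g • e)
  rw [sub_add_cancel, Nm_sub h, zero_add, Nm_comm n (Commute.refl g)] at h1
  exact h1.symm

theorem stab_eq [Finite P] (hconst : ∀ a b : E, a ≠ 0 → b ≠ 0 →
      Nat.card (MulAction.stabilizer P a) = Nat.card (MulAction.stabilizer P b)) {a b : E} (ha : a ≠ 0) (hab : a + b ≠ 0)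
    (h : ∀ g : P, g • (a + b) = a + b → g • a = a) {t : P} (ht : t • a = a) : t • b = b := by
  have h1 : MulAction.stabilizer P (a + b) = MulAction.stabilizer P a :=
    eq_of_le_of_card_ge (fun g hg => h g hg) (hconst _ _ ha hab).le
  have h2 : t • (a + b) = a + b := by
    have : t ∈ MulAction.stabilizer P (a + b) := h1 ▸ ht
    exact this
  rwa [smul_add, ht, add_right_inj] at h2

theorem central_fpf [Finite P] [FaithfulSMul P E] (hconst : ∀ a b : E, a ≠ 0 → b ≠ 0 →
      Nat.card (MulAction.stabilizer P a) = Nat.card (MulAction.stabilizer P b)) {z : P} (hz : z ∈ center P) (hz1 : z ≠ 1)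
    (hn : ∀ e : E, orderOf z • e = 0 → e = 0) {a : E} (ha : z • a = a) : a = 0 := by
  by_contra ha0
  obtain ⟨e, he⟩ : ∃ e : E, z • e ≠ e := by
    by_contra h
    push Not at h
    exact hz1 (FaithfulSMul.eq_of_smul_eq_smul (α := E) fun e => by rw [h, one_smul])
  have hb := Nm_sub (pow_orderOf_eq_one z) e
  have hc : ∀ h : P, Commute z h := fun h => (mem_center_iff.mp hz h).symm
  have h1 := stab_eq hconst (b := e - z • e) ha0 (fun h => ha0 (hn a (by
      have := congrArg (Nm (orderOf z) z) h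
      rwa [Nm_add, hb, add_zero, Nm_fix ha, Nm_fix (smul_zero z), smul_zero] at this)))
    (fun g hg => by
      have := congrArg (Nm (orderOf z) z) hg
      rw [Nm_comm _ (hc g), Nm_add, hb, add_zero, Nm_fix ha, smul_comm] at this
      exact sub_eq_zero.mp (hn _ (by rw [smul_sub, this, sub_self]))) ha
  rw [Nm_fix h1] at hb
  exact he (sub_eq_zero.mp (hn _ hb)).symm

theorem lemM [Finite P] (hconst : ∀ a b : E, a ≠ 0 → b ≠ 0 →
      Nat.card (MulAction.stabilizer P a) = Nat.card (MulAction.stabilizer P b)) {p : ℕ} (hp : Odd p)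
    (hn : ∀ e : E, p • e = 0 → e = 0) (hZ : ∀ z ∈ center P, z ≠ 1 → ∀ a : E, z • a = a → a = 0)
    {t : P} (ht1 : t ≠ 1) (hc : ∀ h : P, ∃ c ∈ center P, c ^ p = 1 ∧ h * t * h⁻¹ = t * c) {a : E} (ha : t • a = a) : a = 0 := by
  by_contra ha0
  have hne : ∀ u ∈ center P, ∀ v ∈ center P, u ^ p = 1 → v ^ p = 1 → u ≠ v → ∀ e : E, (t * u) • e = e → Nm p (t * v) e = 0 := by
    intro u hu v hv hup hvp huv e he
    have hw : v * u⁻¹ ∈ center P := mul_mem hv (inv_mem hu)
    have h1 : ∀ i : ℕ, (t * v) ^ i • e = (v * u⁻¹) ^ i • e := fun i => by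
      have h2 : t * v = (v * u⁻¹) * (t * u) := by
        rw [← mem_center_iff.mp hw (t * u), mul_assoc t u, ← mul_assoc u, mem_center_iff.mp hv u]; simp
      rw [h2, Commute.mul_pow (mem_center_iff.mp hw (t * u)).symm, mul_smul, pow_fix he]
    have h3 : Nm p (t * v) e = Nm p (v * u⁻¹) e := by simp only [Nm, h1]
    rw [h3]
    refine hZ _ hw (fun h => huv (mul_inv_eq_one.mp h).symm) _ (smul_Nm ?_ e)
    rw [Commute.mul_pow (mem_center_iff.mp (inv_mem hu) v), hvp, inv_pow, hup]; simp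
  obtain ⟨g, hg⟩ : ∃ g : P, g * t * g⁻¹ ≠ t := by
    by_contra h
    push Not at h
    exact ha0 (hZ t (mem_center_iff.mpr fun g => mul_inv_eq_iff_eq_mul.mp (h g)) ht1 a ha)
  obtain ⟨c, hcZ, hcp, hgc⟩ := hc g
  have hc1 : c ≠ 1 := by rintro rfl; exact hg (by simpa using hgc)
  have hb : (t * c) • (g • a) = g • a := by rw [← hgc, ← mul_smul, inv_mul_cancel_right, mul_smul, ha]
  have hb0 : g • a ≠ 0 := fun h => ha0 ((smul_eq_zero_iff_eq g).mp h)
  have ha' : (t * 1) • a = a := by rwa [mul_one]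
  have hfin : t • (g • a) ≠ g • a := fun h => by
    rw [mem_center_iff.mp hcZ t, mul_smul, h] at hb
    exact hb0 (hZ c hcZ hc1 _ hb)
  refine hfin (stab_eq hconst ha0 (fun h => hfin ?_) (fun h hh => ?_) ha)
  · rw [(neg_eq_of_add_eq_zero_right h).symm, smul_neg, ha]
  obtain ⟨k, hkZ, hkp, hk⟩ := hc h
  have e1 : (t * k) • (h • a) = h • a := by rw [← hk, ← mul_smul, inv_mul_cancel_right, mul_smul, ha]
  have e2 : (t * (k * c)) • (h • g • a) = h • g • a := by
    rw [← mul_assoc, ← hk, ← mul_smul, mul_assoc, ← mem_center_iff.mp hcZ h, mul_assoc, inv_mul_cancel_left, mul_assoc, mul_smul, hb]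
  have hkc : (k * c) ^ p = 1 := by rw [Commute.mul_pow (mem_center_iff.mp hcZ k), hkp, hcp, mul_one]
  rw [smul_add] at hh
  have f1 := congrArg (Nm p (t * 1)) hh
  rw [Nm_add, Nm_add, Nm_fix ha', hne c hcZ 1 (one_mem _) hcp (one_pow p) hc1 _ hb, add_zero] at f1
  by_cases hk1 : k = 1
  · subst hk1
    rw [Nm_fix e1, hne _ (mul_mem hkZ hcZ) 1 (one_mem _) hkc (one_pow p) (by simpa using hc1) _ e2, add_zero] at f1
    exact sub_eq_zero.mp (hn _ (by rw [smul_sub, f1, sub_self]))
  exfalso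
  by_cases hkc1 : k * c = 1
  · have f2 := congrArg (Nm p (t * c)) hh
    have hkc2 : k ≠ c := by
      rintro rfl
      obtain ⟨m, rfl⟩ := hp
      rw [pow_succ, pow_mul, pow_two, hkc1, one_pow, one_mul] at hkp
      exact hk1 hkp
    rw [Nm_add, Nm_add, Nm_fix hb, hne k hkZ c hcZ hkp hcp hkc2 _ e1,
      hne _ (mul_mem hkZ hcZ) c hcZ hkc hcp (by rw [hkc1]; exact hc1.symm) _ e2,
      hne 1 (one_mem _) c hcZ (one_pow p) hcp hc1.symm _ ha', zero_add, zero_add] at f2
    exact hb0 (hn _ f2.symm)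
  · rw [hne k hkZ 1 (one_mem _) hkp (one_pow p) hk1 _ e1,
      hne _ (mul_mem hkZ hcZ) 1 (one_mem _) hkc (one_pow p) hkc1 _ e2, add_zero] at f1
    exact ha0 (hn _ f1.symm)
end

/-- Let `p ≠ 2` be prime and `P` a finite `p`-group acting faithfully by additive automorphisms on a finite elementary abelian `q`-group `E` (`q` prime), such that `|P_a|` is the same for all `a ≠ 0`. Then `P` is cyclic and every non-identity element of `P` fixes only `0`. -/
theorem result {P E : Type*} [Group P] [Finite P]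
    [AddCommGroup E] [Finite E] [DistribMulAction P E] [FaithfulSMul P E]
    {p q : ℕ} [Fact p.Prime] (hp2 : p ≠ 2) (hP : IsPGroup p P) (hq : q.Prime) (hE : ∀ e : E, q • e = 0)
    (hconst : ∀ a b : E, a ≠ 0 → b ≠ 0 →
      Nat.card (MulAction.stabilizer P a) = Nat.card (MulAction.stabilizer P b)) :
    IsCyclic P ∧ ∀ g : P, g ≠ 1 → ∀ a : E, g • a = a → a = 0 := by
  have hp : p.Prime := Fact.out
  have triv : (∀ (g : P) (e : E), g • e = e) → IsCyclic P ∧ ∀ g : P, g ≠ 1 → ∀ a : E, g • a = a → a = 0 := fun h => by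
    have h1 : ∀ g : P, g = 1 := fun g => FaithfulSMul.eq_of_smul_eq_smul (α := E) fun e => by rw [h, one_smul]
    haveI : Subsingleton P := ⟨fun a b => (h1 a).trans (h1 b).symm⟩
    exact ⟨inferInstance, fun g hg => absurd (h1 g) hg⟩
  rcases subsingleton_or_nontrivial E with hs | hs
  · exact triv fun g e => Subsingleton.elim _ _
  obtain ⟨e0, he0⟩ := exists_ne (0 : E)
  by_cases hpq : p = q
  · subst hpq
    have h1 : addOrderOf e0 = p := addOrderOf_eq_prime (hE e0) he0
    obtain ⟨b, hb, hb0⟩ := hP.exists_fixed_point_of_prime_dvd_card_of_fixed_point E (h1 ▸ addOrderOf_dvd_natCard e0)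
      (a := 0) (fun g => smul_zero g)
    refine triv fun g e => ?_
    by_cases he : e = 0
    · rw [he, smul_zero]
    have h2 : MulAction.stabilizer P b = ⊤ := eq_top_iff.mpr fun g _ => hb g
    have h3 := hconst e b he hb0.symm
    rw [h2, card_top] at h3
    have h4 : g ∈ MulAction.stabilizer P e := (eq_top_of_card_eq _ h3) ▸ mem_top g
    exact h4
  have hn : ∀ (k : ℕ) (e : E), p ^ k • e = 0 → e = 0 := fun k e he =>
    AddMonoid.addOrderOf_eq_one_iff.mp (Nat.eq_one_of_dvd_coprimes (((Nat.coprime_primes hp hq).mpr hpq).pow_left k)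
      (addOrderOf_dvd_of_nsmul_eq_zero he) (addOrderOf_dvd_of_nsmul_eq_zero (hE e)))
  have hZ : ∀ z ∈ center P, z ≠ 1 → ∀ a : E, z • a = a → a = 0 := fun z hz hz1 a ha => by
    obtain ⟨k, hk⟩ := IsPGroup.iff_orderOf.mp hP z
    exact central_fpf hconst hz hz1 (hk ▸ hn k) ha
  have hcyc : IsCyclic P := by
    by_contra hnc
    obtain ⟨A, hA, hAe, hAc⟩ := L.exists_normal_elementary_sq_of_odd hp2 hP hnc
    obtain ⟨K, hK, hKA, hKc⟩ := L.exists_normal_card_pow hP A 1 (hAc ▸ pow_dvd_pow p (by omega))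
    rw [pow_one] at hKc
    have hKZ := L.le_center_of_card_prime hP K hKc
    haveI := hP.isNilpotent
    obtain ⟨t, htA, htK, ht⟩ := L.exists_central_mod (K := K) (N := A) (fun h => by
      have := card_le_of_le h
      rw [hAc, hKc] at this
      nlinarith [hp.one_lt])
    obtain ⟨z, hz⟩ := exists_prime_orderOf_dvd_card' (G := K) p (hKc ▸ dvd_rfl)
    rw [← orderOf_coe] at hz
    have hzZ : (z : P) ∈ center P := hKZ z.2
    have hzc : ∀ i : ℕ, Commute t ((z : P) ^ i) := fun i => mem_center_iff.mp (pow_mem hzZ i) t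
    have h1 : ∀ i : ℕ, Nm p (t * (z : P) ^ i) e0 = 0 := fun i => by
      refine lemM hconst (hp.odd_of_ne_two hp2) (fun e he => hn 1 e (by rwa [pow_one])) hZ (t := t * (z : P) ^ i) (fun h => htK ?_)
        (fun h => ⟨⁅t, h⁆⁻¹, hKZ (inv_mem (ht h)), hAe.2 _ (hKA (inv_mem (ht h))), ?_⟩) (smul_Nm (hAe.2 _ (mul_mem htA (pow_mem (hKA z.2) i))) e0)
      · rw [mul_eq_one_iff_eq_inv.mp h]; exact inv_mem (pow_mem z.2 i)
      · rw [mem_center_iff.mp (hKZ (inv_mem (ht h))), mul_assoc, mul_assoc, ← mem_center_iff.mp (pow_mem hzZ i) h⁻¹]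
        simp [commutatorElement_def, mul_assoc]
    have h2 : ∑ i ∈ Finset.range p, Nm p (t * (z : P) ^ i) e0 = p • e0 := by
      simp only [Nm]
      rw [Finset.sum_comm, Finset.sum_eq_single 0 (fun j hj hj0 => ?_) (by simp [hp.pos])]
      · simp
      have h3 : ∀ i : ℕ, (t * (z : P) ^ i) ^ j • e0 = t ^ j • ((z : P) ^ j) ^ i • e0 := fun i => by
        rw [(hzc i).mul_pow, mul_smul, ← pow_mul, ← pow_mul, mul_comm]
      simp only [h3]
      rw [← Finset.smul_sum]
      have h4 : Nm p ((z : P) ^ j) e0 = 0 := hZ _ (pow_mem hzZ j)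
        (pow_ne_one_of_lt_orderOf hj0 (hz ▸ Finset.mem_range.mp hj)) _ (smul_Nm (hAe.2 _ (pow_mem (hKA z.2) j)) e0)
      rw [show ∑ i ∈ Finset.range p, ((z : P) ^ j) ^ i • e0 = 0 from h4, smul_zero]
    simp only [h1, Finset.sum_const_zero] at h2
    exact he0 (hn 1 e0 (by rw [pow_one, h2]))
  refine ⟨hcyc, fun g hg => hZ g (mem_center_iff.mpr fun h => ?_) hg⟩
  exact IsCyclic.isMulCommutative.is_comm.comm h g

end Cfsg.Agent.S1160
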