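import Cfsg.Statements.S1161
import Cfsg.Agent.L.Frob2
import Cfsg.Agent.L.PGroup
import Cfsg.Agent.L.Fitting
import Cfsg.Agent.H9.CW2
import Cfsg.Agent.S1160
import Cfsg.Agent.S0205

set_option autoImplicit false
open Cfsg

namespace Cfsg.Agent.S1161

open Cfsg.Agent Cfsg.Agent.H9
open Subgroup

/-- Let `D` be a finite group of odd order acting faithfully by additive automorphisms on a finite elementary abelian `q`-group `E ≠ 0` (`q` prime), transitively on `E ∖ {0}`. Then the Fitting subgroup `F(D)` is cyclic, its non-identity elements fix only `0`, and `D/F(D)` is abelian (the derived subgroup lies in `F(D)`). -/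
theorem result {D E : Type*} [Group D] [Finite D]
    [AddCommGroup E] [Finite E] [Nontrivial E] [DistribMulAction D E] [FaithfulSMul D E]
    (hodd : Odd (Nat.card D)) {q : ℕ} (hq : q.Prime) (hE : ∀ e : E, q • e = 0)
    (htrans : ∀ a b : E, a ≠ 0 → b ≠ 0 → ∃ d : D, d • a = b) :
    IsCyclic ↥(Cfsg.fittingSubgroup D) ∧
      (∀ g ∈ Cfsg.fittingSubgroup D, g ≠ 1 → ∀ a : E, g • a = a → a = 0) ∧
      commutator D ≤ Cfsg.fittingSubgroup D := by
  haveI := Cfsg.Agent.S0205.result hodd
  have key : ∀ (p : ℕ) [Fact p.Prime] (N : Subgroup D), N.Normal → IsPGroup p N →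
      IsCyclic N ∧ ∀ g : N, g ≠ 1 → ∀ a : E, g • a = a → a = 0 := fun p hp N hN hP => by
    by_cases hp2 : p = 2
    · subst hp2
      obtain ⟨k, hk⟩ := IsPGroup.iff_card.mp hP
      have h1 : Odd (2 ^ k) := hk ▸ hodd.of_dvd_nat (card_subgroup_dvd_card N)
      have h2 : Nat.card N = 1 := by
        rcases k with _ | k
        · exact hk
        · exact absurd h1 (by simp [Nat.odd_pow_iff])
      haveI : Subsingleton N := (Nat.card_eq_one_iff_unique.mp h2).1
      exact ⟨inferInstance, fun g hg => absurd (Subsingleton.elim _ _) hg⟩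
    have h3 : ∀ a b : E, a ≠ 0 → b ≠ 0 → Nat.card (MulAction.stabilizer N a) ≤ Nat.card (MulAction.stabilizer N b) := by
      intro a b ha hb
      obtain ⟨d, rfl⟩ := htrans a b ha hb
      refine Nat.card_le_card_of_injective (fun g => ⟨⟨d * g.1.1 * d⁻¹, hN.conj_mem _ g.1.2 d⟩, ?_⟩) fun g h hgh => ?_
      · have : (g.1.1 : D) • a = a := g.2
        show (d * g.1.1 * d⁻¹) • d • a = d • a
        rw [← mul_smul, inv_mul_cancel_right, mul_smul, this]
      · have := congrArg (fun x => x.1.1) hgh
        simp only [mul_left_inj, mul_right_inj] at this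
        exact Subtype.ext (Subtype.ext this)
    exact Cfsg.Agent.S1160.result hp2 hP hq hE fun a b ha hb => le_antisymm (h3 a b ha hb) (h3 b a hb ha)
  haveI : IsZGroup (fittingSubgroup D) := ⟨fun p hp P => by
    haveI := Fact.mk hp
    haveI : (P : Subgroup (fittingSubgroup D)).Normal := inferInstance
    haveI := P.characteristic_of_normal inferInstance
    exact L.isCyclic_of_map_subtype (key p _ (L.normal_map_subtype_of_char _) (P.isPGroup'.map _)).1⟩
  haveI hc : IsCyclic (fittingSubgroup D) := inferInstance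
  refine ⟨hc, fun g hg hg1 a ha => ?_, ?_⟩
  · obtain ⟨p, hp, hd⟩ := Nat.exists_prime_and_dvd (fun h => hg1 (orderOf_eq_one_iff.mp h))
    haveI := Fact.mk hp
    have h1 := orderOf_pow_orderOf_div (orderOf_pos g).ne' hd
    haveI : IsMulCommutative (fittingSubgroup D) := IsCyclic.isMulCommutative
    refine (key p (L.powKer (fittingSubgroup D) p) (L.powKer_normal _ p)
      (L.IsElementaryAbelian.isPGroup (L.powKer_isElementaryAbelian _ p))).2
      ⟨g ^ (orderOf g / p), L.mem_powKer.2 ⟨pow_mem hg _, orderOf_dvd_iff_pow_eq_one.mp h1.dvd⟩⟩ (fun h => ?_) a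
      (Cfsg.Agent.S1160.pow_fix ha _)
    rw [show g ^ (orderOf g / p) = 1 from congrArg Subtype.val h, orderOf_one] at h1
    exact hp.one_lt.ne h1
  · refine le_trans ?_ L.centralizer_fitting_le
    refine (Abelianization.commutator_subset_ker ((IsCyclic.mulAutMulEquiv (fittingSubgroup D)).toMonoidHom.comp
      MulAut.conjNormal)).trans fun x hx => ?_
    have h1 : (MulAut.conjNormal x : MulAut (fittingSubgroup D)) = 1 := by simpa using hx
    rw [mem_centralizer_iff]
    intro y hy
    have := congrArg Subtype.val (MulEquiv.congr_fun h1 ⟨y, hy⟩)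
    simp only [MulAut.conjNormal_apply, MulAut.one_apply] at this
    exact (mul_inv_eq_iff_eq_mul.mp this).symm

end Cfsg.Agent.S1161
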