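import Cfsg.Statements.S1131
import Cfsg.Agent.L.Fitting
import Cfsg.Agent.H9.CW2
import Cfsg.Agent.S1161
import Cfsg.Agent.S0205
import Cfsg.Agent.S1122
import Cfsg.Agent.S1123
import Cfsg.Agent.S1124
import Cfsg.Agent.S1127
import Cfsg.Agent.S1130

set_option autoImplicit false
open Cfsg

namespace Cfsg.Agent.S1131

open Cfsg.Agent Cfsg.Agent.H9
open Subgroup
open scoped IsMulCommutative

theorem core {G : Type*} [Group G] [Finite G] (D : Subgroup G) (t : G) (ht : orderOf t = 2) (hodd : Odd (Nat.card D))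
    (hnorm : ∀ x ∈ D, t * x * t⁻¹ ∈ D) {B : Type*} [Group B] [Finite B] (φ : D →* B) (hφ : Function.Surjective φ)
    (hW : ∀ d : D, φ d = 1 → (d : G) ∈ centralizer ({t} : Set G)) (hcyc : IsCyclic (fittingSubgroup B))
    (hV : ∀ d : D, (d : G) ∈ centralizer ({t} : Set G) → φ d ∈ fittingSubgroup B → φ d = 1) :
    ∃ C : Subgroup G, (C : Set G) = Cfsg.invertedBy D t ∧ IsCyclic C ∧ ∀ d ∈ D, ∀ c ∈ C, d * c * d⁻¹ ∈ C := by
  obtain ⟨hdec, -, -⟩ := Cfsg.Agent.S1124.result t ht D hodd hnorm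
  have hB : Odd (Nat.card B) := hodd.of_dvd_nat (card_dvd_of_surjective φ hφ)
  haveI := Cfsg.Agent.S0205.result hB
  let τ : D →* D := { toFun := fun d => ⟨t * d * t⁻¹, hnorm d d.2⟩, map_one' := Subtype.ext (by simp),
                      map_mul' := fun a b => Subtype.ext (by simp [mul_assoc]) }
  have hτ : Function.Surjective τ := Finite.injective_iff_surjective.mp fun a b h => Subtype.ext (by
    simpa [τ] using congrArg Subtype.val h)
  have hτV : ∀ d : D, (d : G) ∈ centralizer ({t} : Set G) → τ d = d := fun d hd => Subtype.ext (by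
    show t * d * t⁻¹ = d
    rw [← mem_centralizer_singleton_iff.mp hd]; simp)
  have hsq : ∀ b : B, b * b ∈ fittingSubgroup B → b ∈ fittingSubgroup B := fun b hb => by
    obtain ⟨m, hm⟩ := hB
    have h1 : b ^ (2 * m + 1) = 1 := hm ▸ pow_card_eq_one'
    have h2 : b = ((b * b) ^ m)⁻¹ := by rw [eq_inv_iff_mul_eq_one, ← pow_two, ← pow_mul, ← pow_succ', h1]
    rw [h2]; exact inv_mem (pow_mem hb m)
  haveI : IsMulCommutative (fittingSubgroup B) := IsCyclic.isMulCommutative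
  have hcomm : ∀ x ∈ fittingSubgroup B, ∀ y ∈ fittingSubgroup B, x * y = y * x := fun x hx y hy =>
    congrArg Subtype.val (mul_comm (⟨x, hx⟩ : fittingSubgroup B) ⟨y, hy⟩)
  have hτA : ∀ d : D, φ d ∈ fittingSubgroup B → φ (τ d) ∈ fittingSubgroup B := fun d hd => by
    haveI : ((((fittingSubgroup B).comap φ).map τ).map φ).Normal := (Subgroup.Normal.map inferInstance τ hτ).map φ hφ
    haveI : IsMulCommutative ((((fittingSubgroup B).comap φ).map τ).map φ) := ⟨⟨by
      rintro ⟨_, _, ⟨x, hx, rfl⟩, rfl⟩ ⟨_, _, ⟨y, hy, rfl⟩, rfl⟩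
      refine Subtype.ext ?_
      have h1 : φ (x * y * (y * x)⁻¹) = 1 := by rw [map_mul, map_inv, map_mul, map_mul, hcomm _ hx _ hy, mul_inv_cancel]
      have h2 := hτV _ (hW _ h1)
      rw [← h2, map_mul, map_inv, map_mul, map_inv, mul_inv_eq_one, map_mul, map_mul, map_mul, map_mul] at h1
      exact h1⟩⟩
    exact L.le_fitting (N := (((fittingSubgroup B).comap φ).map τ).map φ) inferInstance ⟨_, ⟨d, hd, rfl⟩, rfl⟩
  have hτK : ∀ d : D, (d : G) ∈ invertedBy D t → τ d = d⁻¹ := fun d hd => Subtype.ext hd.2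
  have hA : ∀ d : D, φ d ∈ fittingSubgroup B → ∃ z : D, (z : G) ∈ invertedBy D t ∧ φ z = φ d ∧ φ (τ d) = (φ d)⁻¹ := fun d hd => by
    obtain ⟨⟨v, z⟩, ⟨hv, hz, hvz⟩, -⟩ := hdec d d.2
    obtain ⟨v', hv'⟩ : ∃ v' : D, (v' : G) = v := ⟨⟨v, hv.1⟩, rfl⟩
    obtain ⟨z', hz'⟩ : ∃ z' : D, (z' : G) = z := ⟨⟨z, hz.1⟩, rfl⟩
    subst hv' hz'
    obtain rfl : d = v' * z' := Subtype.ext hvz
    have h2 : τ (v' * z') = v' * z'⁻¹ := by rw [map_mul, hτV _ hv.2, hτK _ hz]
    have h3 : φ z' ∈ fittingSubgroup B := hsq _ (by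
      have := mul_mem (inv_mem (hτA _ hd)) hd
      rw [h2] at this
      simpa [mul_assoc] using this)
    have h4 : φ v' = 1 := hV _ hv.2 (by
      have := mul_mem hd (inv_mem h3)
      simpa [mul_assoc] using this)
    exact ⟨z', hz, by rw [map_mul, h4, one_mul], by rw [h2]; simp [h4]⟩
  have hK : ∀ k : D, (k : G) ∈ invertedBy D t → φ k ∈ fittingSubgroup B := fun k hk => by
    refine hsq _ (L.centralizer_fitting_le (mem_centralizer_iff.mpr fun f hf => ?_))
    obtain ⟨d, rfl⟩ := hφ f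
    obtain ⟨-, -, -, h1⟩ := hA d hf
    obtain ⟨-, -, -, h2⟩ := hA (k * d * k⁻¹) (by
      rw [map_mul, map_mul, map_inv]; exact (inferInstance : (fittingSubgroup B).Normal).conj_mem _ hf _)
    simp only [map_mul, map_inv, hτK k hk, h1, inv_inv, mul_inv_rev] at h2
    have h3 : (φ k)⁻¹ * φ d * φ k = φ k * φ d * (φ k)⁻¹ := by
      have := congrArg (·⁻¹) h2
      simpa [mul_assoc] using this
    calc φ d * (φ k * φ k) = φ k * ((φ k)⁻¹ * φ d * φ k) * φ k := by simp [mul_assoc]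
      _ = _ := by rw [h3]; simp [mul_assoc]
  obtain ⟨⟨f, hf⟩, hgen⟩ := hcyc.exists_generator
  obtain ⟨d, rfl⟩ := hφ f
  obtain ⟨z, hz, hzd, -⟩ := hA d hf
  have hpow : ∀ n : ℤ, (z : G) ^ n ∈ invertedBy D t := fun n =>
    ⟨zpow_mem z.2 n, by rw [← conj_zpow, hz.2, inv_zpow]⟩
  have hC : ((zpowers (z : G) : Subgroup G) : Set G) = invertedBy D t := by
    refine Set.Subset.antisymm (by rintro _ ⟨n, rfl⟩; exact hpow n) fun k hk => ?_
    obtain ⟨n, hn⟩ := hgen ⟨_, hK ⟨k, hk.1⟩ hk⟩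
    have h1 : φ d ^ n = φ ⟨k, hk.1⟩ := congrArg Subtype.val hn
    have h2 : φ (⟨k, hk.1⟩ * (z ^ n)⁻¹) = 1 := by rw [map_mul, map_inv, map_zpow, hzd, h1, mul_inv_cancel]
    have h3 := (hdec k hk.1).unique (y₁ := (1, k)) (y₂ := (k * ((z : G) ^ n)⁻¹, (z : G) ^ n))
      ⟨one_mem _, hk, by simp⟩ ⟨⟨D.mul_mem hk.1 (D.inv_mem (hpow n).1), hW _ h2⟩, hpow n, by simp⟩
    exact ⟨n, (congrArg Prod.snd h3).symm⟩
  refine ⟨zpowers (z : G), hC, inferInstance, fun d hd c hc => ?_⟩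
  obtain ⟨⟨v, y⟩, ⟨hv, hy, rfl⟩, -⟩ := hdec d hd
  have hy' : y ∈ zpowers (z : G) := by rw [← SetLike.mem_coe, hC]; exact hy
  have h1 : y * c * y⁻¹ ∈ invertedBy D t := by rw [← hC]; exact mul_mem (mul_mem hy' hc) (inv_mem hy')
  rw [← SetLike.mem_coe, hC]
  have h2 : Commute v t := mem_centralizer_singleton_iff.mp hv.2
  refine ⟨mul_mem (mul_mem hd (by rw [← SetLike.mem_coe, hC] at hc; exact hc.1)) (inv_mem hd), ?_⟩
  calc t * (v * y * c * (v * y)⁻¹) * t⁻¹ = (t * v) * (y * c * y⁻¹) * (t * v)⁻¹ := by simp [mul_assoc]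
    _ = v * (t * (y * c * y⁻¹) * t⁻¹) * v⁻¹ := by rw [← h2.eq]; simp [mul_assoc]
    _ = _ := by rw [h1.2]; simp [mul_assoc]

/-- In the rank-one set-up (`G` finite and doubly transitive on `Ω`, `t` an involution moving `a`, `Q` normal in `G_a` with `G_a = Q D`, `Q ⊓ D = 1` for the two-point stabiliser `D = G_a ⊓ G_{t • a}`, `|Q|` even, `|D|` odd), with the action faithful and `G` containing two distinct commuting involutions: the set `K` of elements of `D` inverted by `t` is (the underlying set of) a cyclic subgroup normal in `D`. -/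
theorem result {G Ω : Type*} [Group G] [Finite G] [MulAction G Ω] [FaithfulSMul G Ω] {a : Ω} {t : G} {Q : Subgroup G}
    (hS : Cfsg.IsRankOneSetup G Ω a t Q)
    (h2 : ∃ x y : G, x ≠ 1 ∧ y ≠ 1 ∧ x ≠ y ∧ x * x = 1 ∧ y * y = 1 ∧ x * y = y * x) :
    ∃ C : Subgroup G, (C : Set G) = Cfsg.invertedBy (MulAction.stabilizer G a ⊓ MulAction.stabilizer G (t • a)) t ∧ IsCyclic C ∧
      ∀ d ∈ (MulAction.stabilizer G a ⊓ MulAction.stabilizer G (t • a)), ∀ c ∈ C, d * c * d⁻¹ ∈ C := by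
  obtain ⟨hZ, hmul⟩ := Cfsg.Agent.S1130.result hS h2
  obtain ⟨-, htr⟩ := Cfsg.Agent.S1122.result hS
  obtain ⟨⟨s, r⟩, ⟨hs, hr, hsr⟩, -⟩ := Cfsg.Agent.S1123.result hS
  obtain ⟨hV, hW⟩ := Cfsg.Agent.S1127.result hS
  replace hV := hV s r hs hr hsr
  set D := MulAction.stabilizer G a ⊓ MulAction.stabilizer G (t • a) with hD
  let E : Subgroup G :=
    { carrier := {x | x = 1 ∨ x ∈ involutionsIn (MulAction.stabilizer G a : Set G)}
      one_mem' := Or.inl rfl
      mul_mem' := by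
        rintro x y (rfl | hx) (rfl | hy)
        · simp
        · exact Or.inr (by simpa using hy)
        · exact Or.inr (by simpa using hx)
        · exact hmul x hx y hy
      inv_mem' := by
        rintro x (rfl | hx)
        · simp
        · rw [inv_eq_of_mul_eq_one_right hx.2.2]; exact Or.inr hx }
  haveI : IsMulCommutative E := ⟨⟨by
    rintro ⟨x, rfl | hx⟩ ⟨y, hy⟩
    · exact Subtype.ext (by simp)
    · rcases hy with rfl | hy
      · exact Subtype.ext (by simp)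
      · exact Subtype.ext ((hZ x hx).2 y (hZ y hy).1)⟩⟩
  have hDE : D ≤ normalizer (E : Set G) := L.le_normalizer_iff_conj.mpr (by
    rintro d hd x (rfl | hx)
    · exact Or.inl (by simp)
    · exact Or.inr ⟨mul_mem (mul_mem hd.1 hx.1) (inv_mem hd.1), by simpa using hx.2.1, by
        calc d * x * d⁻¹ * (d * x * d⁻¹) = d * (x * x) * d⁻¹ := by simp [mul_assoc]
          _ = 1 := by rw [hx.2.2]; simp⟩)
  let ψ : D →* MulAut E := E.normalizerMonoidHom.comp (inclusion hDE)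
  have hψ : ∀ (d : D) (x : E), ((ψ d x : E) : G) = d * x * (d : G)⁻¹ := fun d x => rfl
  letI : DistribMulAction ψ.range (Additive E) :=
    { smul := fun f x => Additive.ofMul (f.1 x.toMul), one_smul := fun _ => rfl, mul_smul := fun _ _ _ => rfl,
      smul_zero := fun f => congrArg Additive.ofMul (map_one f.1), smul_add := fun f a b => congrArg Additive.ofMul (map_mul f.1 _ _) }
  haveI : FaithfulSMul ψ.range (Additive E) := ⟨fun {f g} h => Subtype.ext (MulEquiv.ext fun x => h (Additive.ofMul x))⟩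
  have hs0 : Additive.ofMul (⟨s, Or.inr hs⟩ : E) ≠ 0 := fun h => hs.2.1 (congrArg (fun x : Additive E => ((x.toMul : E) : G)) h)
  haveI : Nontrivial (Additive E) := ⟨⟨_, _, hs0⟩⟩
  obtain ⟨hc, hf, -⟩ := Cfsg.Agent.S1161.result (D := ψ.range) (E := Additive E)
    (hS.odd_card.of_dvd_nat (card_dvd_of_surjective _ ψ.rangeRestrict_surjective)) Nat.prime_two (fun e => by
      rw [two_nsmul]
      obtain ⟨x, rfl | hx⟩ := e
      · exact Subtype.ext (mul_one 1)
      · exact Subtype.ext hx.2.2) (by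
      rintro ⟨x, rfl | hx⟩ ⟨y, rfl | hy⟩ h1 h3
      · exact absurd rfl h1
      · exact absurd rfl h1
      · exact absurd rfl h3
      obtain ⟨k, hk, hkx⟩ := htr x hx y hy
      refine ⟨ψ.rangeRestrict ⟨k⁻¹, inv_mem hk.1⟩, Subtype.ext ?_⟩
      exact (hψ _ _).trans (show k⁻¹ * x * k⁻¹⁻¹ = y by rw [inv_inv]; exact hkx))
  have htt : t⁻¹ = t := inv_eq_of_mul_eq_one_right hS.mul_self
  refine core D t (orderOf_eq_prime (by rw [pow_two, hS.mul_self]) hS.ne_one) hS.odd_card (fun x hx => ⟨?_, ?_⟩) ψ.rangeRestrict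
    ψ.rangeRestrict_surjective (fun d hd => ?_) hc (fun d hd hd' => ?_)
  · have : x • t • a = t • a := hx.2
    show (t * x * t⁻¹) • a = a
    rw [htt, mul_smul, mul_smul, this, ← mul_smul, hS.mul_self, one_smul]
  · have : x • a = a := hx.1
    show (t * x * t⁻¹) • t • a = t • a
    rw [mul_smul, inv_smul_smul, mul_smul, this]
  · have h1 : ψ d = 1 := congrArg Subtype.val hd
    have h3 : (d : G) ∈ D ⊓ centralizer (involutionsIn (MulAction.stabilizer G a : Set G)) := ⟨d.2, mem_centralizer_iff.mpr fun x hx => by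
      have := hψ d ⟨x, Or.inr hx⟩
      rw [h1] at this
      exact (mul_inv_eq_iff_eq_mul.mp this.symm).symm⟩
    rw [← hW] at h3
    exact h3.1.2
  · by_contra h1
    have h3 : (d : G) ∈ D ⊓ centralizer {s} := hV ▸ ⟨d.2, hd⟩
    refine hs0 (hf _ hd' h1 _ (Subtype.ext ((hψ d _).trans ?_)))
    exact mul_inv_eq_iff_eq_mul.mpr (mem_centralizer_singleton_iff.mp h3.2)

end Cfsg.Agent.S1131
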