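import Cfsg.Statements.S1132
import Cfsg.Agent.L.Fitting
import Cfsg.Agent.H9.CW2
import Cfsg.Agent.S1131
import Cfsg.Agent.S1118
import Cfsg.Agent.S1121
import Cfsg.Agent.S1122
import Cfsg.Agent.S1123
import Cfsg.Agent.S1128
import Cfsg.Agent.S1129
import Cfsg.Agent.S1130

set_option autoImplicit false
open Cfsg

namespace Cfsg.Agent.S1132

open Cfsg.Agent Cfsg.Agent.H9
open Subgroup

/-- In the rank-one set-up (`G` finite and doubly transitive on `Ω`, `t` an involution moving `a`, `Q` normal in `G_a` with `G_a = Q D`, `Q ⊓ D = 1` for the two-point stabiliser `D = G_a ⊓ G_{t • a}`, `|Q|` even, `|D|` odd), with the action faithful and `G` containing two distinct commuting involutions: a Sylow 2-subgroup of `Q` is abelian or a Suzuki 2-group. -/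
theorem result {G Ω : Type*} [Group G] [Finite G] [MulAction G Ω] [FaithfulSMul G Ω] {a : Ω} {t : G} {Q : Subgroup G}
    (hS : Cfsg.IsRankOneSetup G Ω a t Q)
    (h2 : ∃ x y : G, x ≠ 1 ∧ y ≠ 1 ∧ x ≠ y ∧ x * x = 1 ∧ y * y = 1 ∧ x * y = y * x)
    (S : Sylow 2 ↥Q) : IsMulCommutative (S : Subgroup ↥Q) ∨ Cfsg.IsSuzukiTwoGroup ↥(S : Subgroup ↥Q) := by
  by_cases hc : IsMulCommutative (S : Subgroup Q)
  · exact Or.inl hc
  right
  obtain ⟨C, hC, hCc, -⟩ := Cfsg.Agent.S1131.result hS h2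
  obtain ⟨hZ, -⟩ := Cfsg.Agent.S1130.result hS h2
  obtain ⟨-, htr⟩ := Cfsg.Agent.S1122.result hS
  obtain ⟨⟨s, r⟩, ⟨hs, -, -⟩, -⟩ := Cfsg.Agent.S1123.result hS
  haveI := Cfsg.Agent.S1129.result hS h2
  haveI : (S : Subgroup Q).Normal := inferInstance
  haveI := S.characteristic_of_normal inferInstance
  have hin : ∀ u : Q, u * u = 1 → u ∈ (S : Subgroup Q) := fun u hu => by
    have h1 : IsPGroup 2 (zpowers u) := fun g => ⟨1, Subtype.ext (by
      obtain ⟨_, n, rfl⟩ := g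
      show (u ^ n) ^ (2 ^ 1) = 1
      rw [← zpow_natCast, ← zpow_mul, mul_comm, zpow_mul, zpow_natCast, pow_one, pow_two, hu, one_zpow])⟩
    obtain ⟨T, hT⟩ := h1.exists_le_sylow
    haveI := Sylow.unique_of_normal S inferInstance
    rw [Subsingleton.elim S T]
    exact hT (mem_zpowers u)
  have hmem : ∀ c ∈ C, c ∈ invertedBy (MulAction.stabilizer G a ⊓ MulAction.stabilizer G (t • a)) t := fun c hc => by
    rw [← hC]; exact hc
  have hCQ : C ≤ normalizer (Q : Set G) := L.le_normalizer_iff_conj.mpr fun c hc x hx => hS.conj_mem c (hmem c hc).1.1 x hx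
  let ρ : C →* MulAut (S : Subgroup Q) := (MulAut.characteristic (S : Subgroup Q)).comp (Q.normalizerMonoidHom.comp (inclusion hCQ))
  have hρ : ∀ (c : C) (x : (S : Subgroup Q)), (((ρ c x : (S : Subgroup Q)) : Q) : G) = c * ((x : Q) : G) * (c : G)⁻¹ := fun c x => rfl
  refine ⟨inferInstance, S.isPGroup', ?_, ?_, ρ.range, isCyclic_of_surjective _ ρ.rangeRestrict_surjective, fun x y hx1 hx hy1 hy => ?_⟩
  · by_contra h
    push Not at h
    exact hc ⟨⟨h⟩⟩
  · obtain ⟨x, y, hx1, hy1, hxy, hx, hy, hcm⟩ := h2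
    obtain ⟨g, hg⟩ := (Cfsg.Agent.S1121.result hS).2 x s hx1 hx hs.2.1 hs.2.2
    have h1 : (g * y * g⁻¹) * (g * y * g⁻¹) = 1 := by
      calc _ = g * (y * y) * g⁻¹ := by simp [mul_assoc]
        _ = 1 := by rw [hy]; simp
    have h3 : (g * y * g⁻¹) * s * (g * y * g⁻¹)⁻¹ = s := by
      rw [mul_inv_eq_iff_eq_mul, ← hg]
      calc _ = g * (y * x) * g⁻¹ := by simp [mul_assoc]
        _ = _ := by rw [← hcm]; simp [mul_assoc]
    have h4 : g * y * g⁻¹ ∈ MulAction.stabilizer G a := (Cfsg.Agent.S1118.result hS).1 {s} (by simpa using (hZ s hs).1)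
      ⟨s, rfl, hs.2.1⟩ (mem_set_normalizer_iff.mpr fun n => ⟨fun h => by rw [h]; exact h3, fun h => by
        have h5 : (g * y * g⁻¹) * n * (g * y * g⁻¹)⁻¹ = s := h
        rw [← h3] at h5
        exact mul_left_cancel (mul_right_cancel h5)⟩)
    have h6 : g * y * g⁻¹ ≠ 1 := by simpa using hy1
    have h7 := (hZ _ ⟨h4, h6, h1⟩).1
    refine ⟨⟨⟨s, (hZ s hs).1⟩, hin _ (Subtype.ext hs.2.2)⟩, ⟨⟨_, h7⟩, hin _ (Subtype.ext h1)⟩, fun h => hxy ?_,
      fun h => hs.2.1 (congrArg (fun z : (S : Subgroup Q) => ((z : Q) : G)) h), Subtype.ext (Subtype.ext hs.2.2),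
      fun h => h6 (congrArg (fun z : (S : Subgroup Q) => ((z : Q) : G)) h), Subtype.ext (Subtype.ext h1)⟩
    have h8 : s = g * y * g⁻¹ := congrArg (fun z : (S : Subgroup Q) => ((z : Q) : G)) h
    rw [← hg] at h8
    exact mul_left_cancel (mul_right_cancel h8)
  · have hI : ∀ x : (S : Subgroup Q), x ≠ 1 → x * x = 1 → ((x : Q) : G) ∈ involutionsIn (MulAction.stabilizer G a : Set G) :=
      fun x h1 h3 => ⟨hS.le x.1.2, fun h => h1 (Subtype.ext (Subtype.ext h)), congrArg (fun z : (S : Subgroup Q) => ((z : Q) : G)) h3⟩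
    obtain ⟨k, hk, hkx⟩ := htr _ (hI x hx1 hx) _ (hI y hy1 hy)
    have hkC : k ∈ C := by rw [← SetLike.mem_coe, hC]; exact hk
    have h1 : ρ ⟨k⁻¹, inv_mem hkC⟩ x = y := Subtype.ext (Subtype.ext ((hρ _ _).trans (by simpa using hkx)))
    refine ⟨⟨ρ ⟨k⁻¹, inv_mem hkC⟩, _, rfl⟩, h1, ?_⟩
    rintro ⟨_, c, rfl⟩ h3
    have h4 : (c : G) * ((x : Q) : G) * (c : G)⁻¹ = ((y : Q) : G) := (hρ c x).symm.trans (congrArg (fun z : (S : Subgroup Q) => ((z : Q) : G)) h3)
    have h5 : k * c = 1 := by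
      by_contra h6
      have h7 := Cfsg.Agent.S1128.result hS h2 _ (hmem _ (mul_mem hkC c.2)) h6
      have h8 : ((x : Q) : G) ∈ Q ⊓ centralizer {k * (c : G)} := ⟨x.1.2, mem_centralizer_singleton_iff.mpr (by
        rw [← hkx, mul_inv_eq_iff_eq_mul] at h4
        rw [mul_assoc k, h4]; simp [mul_assoc])⟩
      rw [h7] at h8
      exact (hI x hx1 hx).2.1 (mem_bot.mp h8)
    refine Subtype.ext (congrArg ρ (Subtype.ext ?_))
    exact eq_inv_of_mul_eq_one_right h5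

end Cfsg.Agent.S1132
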