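import Cfsg.Statements.S1133
import Cfsg.Agent.L.Fitting
import Cfsg.Agent.H9.CW2
import Cfsg.Agent.H4.Aut6
import Cfsg.Agent.S1131
import Cfsg.Agent.S1128

set_option autoImplicit false
open Cfsg

namespace Cfsg.Agent.S1133

open Cfsg.Agent Cfsg.Agent.H9
open Subgroup
open scoped IsMulCommutative

theorem cyc_aut (R : Type*) [Ring R] [Finite R] [IsDomain R] : IsCyclic (R ≃+* R) := by
  letI := (Finite.isDomain_to_isField R).toField
  letI := Fintype.ofFinite R
  exact H4.isCyclic_ringAut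

theorem core2 {D M : Type*} [Group D] [AddCommGroup M] [Finite M] [Nontrivial M] [DistribMulAction D M] (K V : Subgroup D)
    (hK : ∀ k ∈ K, ∀ l ∈ K, k * l = l * k) (hn : ∀ v ∈ V, ∀ k ∈ K, v * k * v⁻¹ ∈ K)
    (htr : ∀ x y : M, x ≠ 0 → y ≠ 0 → ∃ k ∈ K, k • x = y) :
    ∃ v ∈ V, ∀ u ∈ V, ∃ n : ℤ, ∀ k ∈ K, ∀ x : M, (u * (v ^ n)⁻¹ * k * (u * (v ^ n)⁻¹)⁻¹) • x = k • x := by
  let σ := DistribMulAction.toAddMonoidEnd D M
  have hσ : ∀ d x, σ d x = d • x := fun _ _ => rfl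
  let R : Subring (AddMonoid.End M) := Subring.centralizer (σ '' K)
  have hR : ∀ {r : AddMonoid.End M}, r ∈ R ↔ ∀ k ∈ K, σ k * r = r * σ k := fun {r} => by
    simp [R, Subring.mem_centralizer_iff]
  haveI : Finite (AddMonoid.End M) := Finite.of_injective (fun f : AddMonoid.End M => (f : M → M)) DFunLike.coe_injective
  obtain ⟨e, he⟩ := exists_ne (0 : M)
  haveI : Nontrivial R := ⟨⟨1, 0, fun h => he (congrArg (fun r : R => (r : AddMonoid.End M) e) h)⟩⟩
  haveI : NoZeroDivisors R := ⟨fun {r s} h => by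
    by_contra h1
    push Not at h1
    obtain ⟨y, hy⟩ : ∃ y, (s : AddMonoid.End M) y ≠ 0 := by
      by_contra h2
      push Not at h2
      exact h1.2 (Subtype.ext (AddMonoidHom.ext h2))
    have h3 : (r : AddMonoid.End M) ((s : AddMonoid.End M) y) = 0 := congrArg (fun r : R => (r : AddMonoid.End M) y) h
    refine h1.1 (Subtype.ext (AddMonoidHom.ext fun z => ?_))
    by_cases hz : z = 0
    · rw [hz]; exact map_zero _
    obtain ⟨k, hk, rfl⟩ := htr _ z hy hz
    have h4 : σ k ((r : AddMonoid.End M) ((s : AddMonoid.End M) y)) = (r : AddMonoid.End M) (σ k ((s : AddMonoid.End M) y)) :=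
      congrArg (fun f : AddMonoid.End M => f ((s : AddMonoid.End M) y)) (hR.mp r.2 k hk)
    rw [h3, map_zero] at h4
    exact h4.symm⟩
  haveI : IsDomain R := NoZeroDivisors.to_isDomain R
  haveI := cyc_aut R
  have e1 : ∀ v : D, σ v * σ v⁻¹ = 1 := fun v => by rw [← map_mul, mul_inv_cancel, map_one]
  have e2 : ∀ v : D, σ v⁻¹ * σ v = 1 := fun v => by rw [← map_mul, inv_mul_cancel, map_one]
  have e3 : ∀ (v : D) (x : AddMonoid.End M), σ v⁻¹ * (σ v * x) = x := fun v x => by rw [← mul_assoc, e2, one_mul]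
  have e4 : ∀ (v : D) (x : AddMonoid.End M), σ v * (σ v⁻¹ * x) = x := fun v x => by rw [← mul_assoc, e1, one_mul]
  have hc : ∀ v ∈ V, ∀ r ∈ R, σ v * r * σ v⁻¹ ∈ R := fun v hv r hr => hR.mpr fun k hk => by
    have h1 := hR.mp hr _ (hn _ (inv_mem hv) k hk)
    rw [inv_inv, map_mul, map_mul] at h1
    calc σ k * (σ v * r * σ v⁻¹) = σ v * (σ v⁻¹ * σ k * σ v * r) * σ v⁻¹ := by simp only [mul_assoc, e4]
      _ = _ := by rw [h1]; simp only [mul_assoc, e1, mul_one]
  let χ : V →* (R ≃+* R) :=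
    { toFun := fun v =>
        { toFun := fun r => ⟨σ v * r * σ (v : D)⁻¹, hc v v.2 r r.2⟩
          invFun := fun r => ⟨σ (v : D)⁻¹ * r * σ (v : D)⁻¹⁻¹, hc _ (inv_mem v.2) r r.2⟩
          left_inv := fun r => Subtype.ext (by simp only [inv_inv, mul_assoc, e2, e3, mul_one])
          right_inv := fun r => Subtype.ext (by simp only [inv_inv, mul_assoc, e1, e4, mul_one])
          map_mul' := fun r s => Subtype.ext (by simp only [Subring.coe_mul, mul_assoc, e3])
          map_add' := fun r s => Subtype.ext (by simp only [Subring.coe_add, mul_add, add_mul]) }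
      map_one' := RingEquiv.ext fun r => Subtype.ext (by simp)
      map_mul' := fun u v => RingEquiv.ext fun r => Subtype.ext (by
        show σ ((u : D) * v) * r * σ ((u : D) * v)⁻¹ = σ u * (σ v * r * σ (v : D)⁻¹) * σ (u : D)⁻¹
        simp only [mul_inv_rev, map_mul, mul_assoc]) }
  obtain ⟨⟨_, v, rfl⟩, hv⟩ := IsCyclic.exists_generator (α := χ.range)
  refine ⟨v, v.2, fun u hu => ?_⟩
  obtain ⟨n, hn'⟩ := hv ⟨_, ⟨u, hu⟩, rfl⟩
  refine ⟨n, fun k hk x => ?_⟩
  have h1 : χ v ^ n = χ ⟨u, hu⟩ := congrArg Subtype.val hn'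
  have h2 : χ (⟨u, hu⟩ * (v ^ n)⁻¹) = 1 := by rw [map_mul, map_inv, map_zpow, h1, mul_inv_cancel]
  have h3 : σ k ∈ R := hR.mpr fun l hl => by rw [← map_mul, ← map_mul, hK l hl k hk]
  have h4 : σ (u * ((v : D) ^ n)⁻¹) * σ k * σ (u * ((v : D) ^ n)⁻¹)⁻¹ = σ k :=
    congrArg Subtype.val (RingEquiv.congr_fun h2 ⟨σ k, h3⟩)
  rw [← map_mul, ← map_mul] at h4
  exact congrArg (fun f : AddMonoid.End M => f x) h4

/-- In the rank-one set-up (`G` finite and doubly transitive on `Ω`, `t` an involution moving `a`, `Q` normal in `G_a` with `G_a = Q D`, `Q ⊓ D = 1` for the two-point stabiliser `D = G_a ⊓ G_{t • a}`, `|Q|` even, `|D|` odd), with the action faithful and `G` containing two distinct commuting involutions, with `V = C_D(t)`, `K` the elements of `D` inverted by `t` and `W = C_V(K)`: `V/W` is cyclic, i.e. `V = W ⟨v⟩` for some `v ∈ V`. -/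
theorem result {G Ω : Type*} [Group G] [Finite G] [MulAction G Ω] [FaithfulSMul G Ω] {a : Ω} {t : G} {Q : Subgroup G}
    (hS : Cfsg.IsRankOneSetup G Ω a t Q)
    (h2 : ∃ x y : G, x ≠ 1 ∧ y ≠ 1 ∧ x ≠ y ∧ x * x = 1 ∧ y * y = 1 ∧ x * y = y * x) :
    ∃ v ∈ (MulAction.stabilizer G a ⊓ MulAction.stabilizer G (t • a)) ⊓ Subgroup.centralizer {t},
      ((MulAction.stabilizer G a ⊓ MulAction.stabilizer G (t • a)) ⊓ Subgroup.centralizer {t} ⊓ Subgroup.centralizer (Cfsg.invertedBy (MulAction.stabilizer G a ⊓ MulAction.stabilizer G (t • a)) t)) ⊔ Subgroup.closure {v} =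
        (MulAction.stabilizer G a ⊓ MulAction.stabilizer G (t • a)) ⊓ Subgroup.centralizer {t} := by
  obtain ⟨hZ, hmul⟩ := Cfsg.Agent.S1130.result hS h2
  obtain ⟨-, htr⟩ := Cfsg.Agent.S1122.result hS
  obtain ⟨⟨s, r⟩, ⟨hs, hr, hsr⟩, -⟩ := Cfsg.Agent.S1123.result hS
  obtain ⟨C, hC, hCc, hCn⟩ := Cfsg.Agent.S1131.result hS h2
  set D := MulAction.stabilizer G a ⊓ MulAction.stabilizer G (t • a) with hD
  let E : Subgroup G :=
    { carrier := {x | x = 1 ∨ x ∈ involutionsIn (MulAction.stabilizer G a : Set G)}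
      one_mem' := Or.inl rfl
      mul_mem' := by
        rintro x y (rfl | hx) (rfl | hy)
        · simp
        · exact Or.inr (by simpa using hy)
        · exact Or.inr (by simpa using hx)
        · exact hmul x hx y hy
      inv_mem' := by
        rintro x (rfl | hx)
        · simp
        · rw [inv_eq_of_mul_eq_one_right hx.2.2]; exact Or.inr hx }
  haveI : IsMulCommutative E := ⟨⟨by
    rintro ⟨x, rfl | hx⟩ ⟨y, hy⟩
    · exact Subtype.ext (by simp)
    · rcases hy with rfl | hy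
      · exact Subtype.ext (by simp)
      · exact Subtype.ext ((hZ x hx).2 y (hZ y hy).1)⟩⟩
  have hDE : D ≤ normalizer (E : Set G) := L.le_normalizer_iff_conj.mpr (by
    rintro d hd x (rfl | hx)
    · exact Or.inl (by simp)
    · exact Or.inr ⟨mul_mem (mul_mem hd.1 hx.1) (inv_mem hd.1), by simpa using hx.2.1, by
        calc d * x * d⁻¹ * (d * x * d⁻¹) = d * (x * x) * d⁻¹ := by simp [mul_assoc]
          _ = 1 := by rw [hx.2.2]; simp⟩)
  let ψ : D →* MulAut E := E.normalizerMonoidHom.comp (inclusion hDE)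
  have hψ : ∀ (d : D) (x : E), ((ψ d x : E) : G) = d * x * (d : G)⁻¹ := fun d x => rfl
  letI : DistribMulAction D (Additive E) :=
    { smul := fun f x => Additive.ofMul (ψ f x.toMul), one_smul := fun x => congrArg (fun f : MulAut E => Additive.ofMul (f x.toMul)) (map_one ψ),
      mul_smul := fun f g x => congrArg (fun f : MulAut E => Additive.ofMul (f x.toMul)) (map_mul ψ f g),
      smul_zero := fun f => congrArg Additive.ofMul (map_one (ψ f)), smul_add := fun f a b => congrArg Additive.ofMul (map_mul (ψ f) _ _) }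
  have hsm : ∀ (d : D) (x : E), (((d • Additive.ofMul x).toMul : E) : G) = d * x * (d : G)⁻¹ := fun d x => hψ d x
  have hs0 : Additive.ofMul (⟨s, Or.inr hs⟩ : E) ≠ 0 := fun h => hs.2.1 (congrArg (fun x : Additive E => ((x.toMul : E) : G)) h)
  haveI : Nontrivial (Additive E) := ⟨⟨_, _, hs0⟩⟩
  have hmem : ∀ {c}, c ∈ C ↔ c ∈ invertedBy D t := fun {c} => by rw [← hC]; rfl
  haveI : IsMulCommutative C := IsCyclic.isMulCommutative
  obtain ⟨v, hv, hgen⟩ := core2 (M := Additive E) (C.subgroupOf D) ((centralizer {t}).subgroupOf D)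
    (fun k hk l hl => Subtype.ext (congrArg (fun z : C => (z : G)) (mul_comm (⟨k, hk⟩ : C) ⟨l, hl⟩))) (fun v _ k hk => hCn v v.2 k hk) (by
      rintro ⟨x, rfl | hx⟩ ⟨y, rfl | hy⟩ h1 h3
      · exact absurd rfl h1
      · exact absurd rfl h1
      · exact absurd rfl h3
      obtain ⟨k, hk, hkx⟩ := htr x hx y hy
      refine ⟨⟨k⁻¹, inv_mem hk.1⟩, C.inv_mem (hmem.mpr hk), Subtype.ext ?_⟩
      exact (hψ _ _).trans (show k⁻¹ * x * k⁻¹⁻¹ = y by rw [inv_inv]; exact hkx))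
  have hvV : (v : G) ∈ D ⊓ centralizer {t} := ⟨v.2, hv⟩
  refine ⟨v, hvV, le_antisymm (sup_le inf_le_left ((closure_le _).mpr (Set.singleton_subset_iff.mpr hvV))) fun u hu => ?_⟩
  obtain ⟨n, hn⟩ := hgen ⟨u, hu.1⟩ hu.2
  have hw : u * ((v : G) ^ n)⁻¹ ∈ D ⊓ centralizer {t} := mul_mem hu (inv_mem (zpow_mem hvV n))
  have key : ∀ w : D, (∀ k ∈ C.subgroupOf D, ∀ x : Additive E, (w * k * w⁻¹) • x = k • x) → (w : G) ∈ centralizer (invertedBy D t) := by
    intro w hn
    rw [mem_centralizer_iff]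
    intro k hk
    have hkC : k ∈ C := hmem.mpr hk
    have h3 := hn ⟨k, hk.1⟩ hkC (Additive.ofMul ⟨s, Or.inr hs⟩)
    have h5 : ((w : G) * k * (w : G)⁻¹) * s * ((w : G) * k * (w : G)⁻¹)⁻¹ = k * s * k⁻¹ :=
      (hsm (w * ⟨k, hk.1⟩ * w⁻¹) ⟨s, Or.inr hs⟩).symm.trans ((congrArg (fun x : Additive E => ((x.toMul : E) : G)) h3).trans
        (hsm ⟨k, hk.1⟩ ⟨s, Or.inr hs⟩))
    have h6 : k⁻¹ * ((w : G) * k * (w : G)⁻¹) = 1 := by
      by_contra h7
      have h8 := Cfsg.Agent.S1128.result hS h2 _ (hmem.mp (C.mul_mem (C.inv_mem hkC) (hCn w w.2 k hkC))) h7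
      have h9 : s ∈ Q ⊓ centralizer {k⁻¹ * ((w : G) * k * (w : G)⁻¹)} := ⟨(hZ s hs).1, mem_centralizer_singleton_iff.mpr (by
        rw [mul_inv_eq_iff_eq_mul] at h5
        rw [mul_assoc k⁻¹, h5]; simp [mul_assoc])⟩
      rw [h8] at h9
      exact hs.2.1 (mem_bot.mp h9)
    rw [inv_mul_eq_one, eq_mul_inv_iff_mul_eq] at h6
    exact h6
  have h0 := key _ hn
  rw [Subgroup.coe_mul, Subgroup.coe_inv, Subgroup.coe_zpow] at h0
  have h1 : u * ((v : G) ^ n)⁻¹ ∈ D ⊓ centralizer {t} ⊓ centralizer (invertedBy D t) := mem_inf.mpr ⟨hw, h0⟩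
  have h4 : (v : G) ^ n ∈ closure ({(v : G)} : Set G) := Subgroup.zpow_mem _ (Subgroup.subset_closure (Set.mem_singleton _)) n
  rw [← inv_mul_cancel_right u ((v : G) ^ n)]
  exact Subgroup.mul_mem_sup h1 h4

end Cfsg.Agent.S1133
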