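import Cfsg.Statements.S1137
import Mathlib
import Cfsg.Agent.H7.Hig6

set_option autoImplicit false
open Cfsg

namespace Cfsg.Agent.S1137

open Cfsg.Agent.H7.Hig

/-- In a Suzuki 2-group `P` (a finite non-abelian 2-group with more than one involution admitting a cyclic group of automorphisms regular on its involutions) the involutions are exactly the non-identity central elements, and `Z(P)` is elementary abelian. -/
theorem result {P : Type*} [Group P] (hP : Cfsg.IsSuzukiTwoGroup P) :
    (∀ x : P, (x ≠ 1 ∧ x * x = 1) ↔ (x ∈ Subgroup.center P ∧ x ≠ 1)) ∧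
      ∀ z ∈ Subgroup.center P, z * z = 1 := by
  obtain ⟨_, h2, hna, htwo, K, hK, hreg⟩ := hP
  obtain ⟨F, _, _, _, ξ, g, m, H, -⟩ := exists_HS h2 htwo hK hreg
  exact ⟨fun x => ⟨fun h => ⟨H.cen x h.2, h.1⟩, fun h => ⟨h.2, H.center_sq hna h.1⟩⟩,
    fun z hz => H.center_sq hna hz⟩

end Cfsg.Agent.S1137
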