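import Cfsg.Statements.S1138
import Mathlib
import Cfsg.Agent.H7.Hig6

set_option autoImplicit false
open Cfsg

namespace Cfsg.Agent.S1138

open Cfsg.Agent.H7.Hig

/-- Let `P` be a Suzuki 2-group with `|Z(P)| = q`. Then every square lies in `Z(P)` and `P/Z(P)` is abelian (so elementary abelian), `|P| = q²` or `|P| = q³`, and `P` has exponent 4. -/
theorem result {P : Type*} [Group P] (hP : Cfsg.IsSuzukiTwoGroup P) :
    (∀ x : P, x * x ∈ Subgroup.center P) ∧ (∀ x y : P, x⁻¹ * y⁻¹ * x * y ∈ Subgroup.center P) ∧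
      (Nat.card P = Nat.card (Subgroup.center P) ^ 2 ∨ Nat.card P = Nat.card (Subgroup.center P) ^ 3) ∧
      Monoid.exponent P = 4 := by
  obtain ⟨_, h2, hna, htwo, K, hK, hreg⟩ := hP
  obtain ⟨F, _, _, _, ξ, g, m, H, -⟩ := exists_HS h2 htwo hK hreg
  refine ⟨fun x => H.cen _ (H.pow_four hna x), fun x y => H.cen _ (H.cm_sq_one hna x y),
    by rw [H.card_center hna]; exact H.card_eq hna, ?_⟩
  have h4 : Monoid.exponent P ∣ 2 ^ 2 := Monoid.exponent_dvd_of_forall_pow_eq_one fun x => by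
    rw [show 2 ^ 2 = 2 + 2 from rfl, pow_add, pow_two, H.pow_four hna]
  obtain ⟨x, hx⟩ := H.exists_sq_ne hna
  obtain ⟨i, hi, e⟩ := (Nat.dvd_prime_pow Nat.prime_two).1 h4
  have := Monoid.pow_exponent_eq_one x
  rw [e] at this ⊢
  interval_cases i
  · exact absurd (by simp [show x = 1 by simpa using this]) hx
  · exact absurd (by simpa [pow_two] using this) hx
  · rfl

end Cfsg.Agent.S1138
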