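import Cfsg.Statements.S1141
import Mathlib
import Cfsg.Agent.H7.U3S

set_option autoImplicit false
open Cfsg

namespace Cfsg.Agent.S1141

open Cfsg.Agent.H4 Cfsg.Agent.H7 Subgroup

theorem suz_congr {G H : Type*} [Group G] [Group H] (e : G ≃* H) (h : Cfsg.IsSuzukiTwoGroup G) :
    Cfsg.IsSuzukiTwoGroup H := by
  obtain ⟨h1, h2, ⟨x, y, h3⟩, ⟨a, b, hab, a1, a2, b1, b2⟩, K, hK, h5⟩ := h
  refine ⟨Finite.of_equiv _ e.toEquiv, h2.of_equiv e, ⟨e x, e y, fun h => h3 (e.injective (by simpa using h))⟩,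
    ⟨e a, e b, e.injective.ne hab, by simpa using a1, by rw [← map_mul, a2, map_one], by simpa using b1,
      by rw [← map_mul, b2, map_one]⟩, K.map (MulAut.congr e).toMonoidHom,
    isCyclic_of_surjective _ ((MulAut.congr e).toMonoidHom.subgroupMap_surjective K), fun u v u1 u2 v1 v2 => ?_⟩
  obtain ⟨u, rfl⟩ := e.surjective u
  obtain ⟨v, rfl⟩ := e.surjective v
  obtain ⟨k, hk, hk'⟩ := h5 u v (by simpa using u1) (e.injective (by simpa using u2)) (by simpa using v1)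
    (e.injective (by simpa using v2))
  refine ⟨⟨MulAut.congr e k, mem_map_of_mem _ k.2⟩, by simp [hk], ?_⟩
  rintro ⟨_, l, hl, rfl⟩ h
  have := hk' ⟨l, hl⟩ (e.injective (by simpa using h))
  exact Subtype.ext (congrArg (MulAut.congr e) (congrArg Subtype.val this))

/-- Let `q = 2^n ≥ 4` and `|F| = q²`. A Sylow 2-subgroup `S` of `PSU₃(q)` has order `q³`, its centre has order `q`, and `S` is a Suzuki 2-group. -/
theorem result {F : Type*} [Field F] [Fintype F] {n : ℕ} (hn : 2 ≤ n)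
    (hF : Fintype.card F = (2 ^ n) ^ 2) (S : Sylow 2 (Cfsg.PSU 3 F (2 ^ n))) :
    Nat.card S = (2 ^ n) ^ 3 ∧ Nat.card (Subgroup.center ↥(S : Subgroup (Cfsg.PSU 3 F (2 ^ n)))) = 2 ^ n ∧
      Cfsg.IsSuzukiTwoGroup ↥(S : Subgroup (Cfsg.PSU 3 F (2 ^ n))) := by
  haveI : CharP F 2 := charP_of_card_eq_prime_pow (p := 2) (f := n * 2) (by rw [hF, pow_mul])
  haveI : Fact (∀ x, frobq hF (frobq hF x) = x) := ⟨frobq_frobq hF⟩
  obtain ⟨e⟩ := exists_U3_equiv hF S
  have hc : Nat.card {t : F // frobq hF t = t} = 2 ^ n := card_fixed_frobq hF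
  refine ⟨?_, ?_, suz_congr e (U3.suzuki (frobq_ne hF) ?_)⟩
  · rw [← Nat.card_congr e.toEquiv, U3.card_eq (frobq_ne hF), hc, Nat.card_eq_fintype_card, hF, pow_succ _ 2]
  · rw [← Nat.card_congr (centerCongr e).toEquiv, U3.card_center (frobq_ne hF), hc]
  · rw [hc]
    have : 2 ^ 2 ≤ 2 ^ n := Nat.pow_le_pow_right two_pos hn
    omega

end Cfsg.Agent.S1141
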