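import Cfsg.Statements.S1150
import Cfsg.Agent.H5.TwG2

set_option autoImplicit false
open Cfsg

namespace Cfsg.Agent.S1150

/-- In the small Ree group ²G₂(q), q = 3^(2m+1), realised as G¹ inside the Chevalley group G₂ over the field with q elements (θ the 3^m-th power map), with H¹ = G¹ ∩ H and U¹ = G¹ ∩ U the intersections with the ambient diagonal and positive unipotent subgroups: `H¹` is cyclic. -/
theorem result {K : Type*} [Field K] [Fintype K] {m : ℕ} (hK : Fintype.card K = 3 ^ (2 * m + 1)) :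
    IsCyclic ↥(Cfsg.Lie.chevG2.diagonalSubgroup K ⊓ Cfsg.Lie.twistedG2 K (3 ^ m)) := by
  haveI := H5.charP_of_card Nat.prime_three hK
  obtain ⟨θ, hθ, h2⟩ := H5.exists_theta Nat.prime_three hK
  have h3 := H5.StN.rel3_of_inj (H5.rsG2.adj_inj K)
  rw [H5.StN.Tw.inf_Γ (H5.eq2G2 h2 hθ), ← H5.rsG2.adj_H]
  have hle : (H5.rsG2.adj K).H ⊓ (H5.tw2G2 θ).G1 H5.orb2G2.orb ≤ ((H5.StN.hpHom h3).comp (MonoidHom.mk'
      (fun a : Kˣ => (![Units.map (θ : K →* K) a, a] : Fin 2 → Kˣ)) fun a b => by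
        funext i; fin_cases i <;> first | exact map_mul _ _ _ | rfl)).range := fun g hg => by
    have h4 : g ∈ (H5.rsG2.adj K).H ⊓ (H5.tw2G2 θ).Fix := ⟨hg.1, (H5.tw2G2 θ).G1_le_Fix _ hg.2⟩
    rw [(H5.tw2G2 θ).H_inf_Fix h3 (H5.StN.hp_inj_of_ker h3 H5.kerG2.ker_eq_bot)] at h4
    obtain ⟨c, hc, rfl⟩ := h4
    obtain ⟨a, rfl⟩ := (H5.ac2G2 (H5.act2G2 θ) h2).1 hc
    exact ⟨a, rfl⟩
  haveI := isCyclic_of_surjective _ (MonoidHom.rangeRestrict_surjective ((H5.StN.hpHom h3).comp (MonoidHom.mk'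
      (fun a : Kˣ => (![Units.map (θ : K →* K) a, a] : Fin 2 → Kˣ)) fun a b => by
        funext i; fin_cases i <;> first | exact map_mul _ _ _ | rfl)))
  haveI := Subgroup.isCyclic_of_le hle
  exact isCyclic_of_surjective _ (Subgroup.equivMapOfInjective _ _ Subtype.val_injective).surjective

end Cfsg.Agent.S1150
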