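import Cfsg.Statements.S1151
import Cfsg.Agent.H5.Re3

set_option autoImplicit false
open Cfsg

namespace Cfsg.Agent.S1151

/-- In the small Ree group ²G₂(q), q = 3^(2m+1), realised as G¹ inside the Chevalley group G₂ over the field with q elements (θ the 3^m-th power map), with H¹ = G¹ ∩ H and U¹ = G¹ ∩ U the intersections with the ambient diagonal and positive unipotent subgroups: `H¹` has exactly `(q - 1)/2` elements of odd order, and each non-identity one centralises no non-identity element of `U¹`. -/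
theorem result {K : Type*} [Field K] [Fintype K] {m : ℕ} (hK : Fintype.card K = 3 ^ (2 * m + 1)) :
    2 * Nat.card {h : ↥(Cfsg.Lie.chevG2.diagonalSubgroup K ⊓ Cfsg.Lie.twistedG2 K (3 ^ m)) // Odd (orderOf h)} = 3 ^ (2 * m + 1) - 1 ∧
      ∀ h ∈ (Cfsg.Lie.chevG2.diagonalSubgroup K ⊓ Cfsg.Lie.twistedG2 K (3 ^ m)), h ≠ 1 → Odd (orderOf h) →
        (Cfsg.Lie.chevG2.posUnipotent K ⊓ Cfsg.Lie.twistedG2 K (3 ^ m)) ⊓ Subgroup.centralizer {h} = ⊥ := by
  obtain ⟨a, -, hq, _, X, h1, h2, -⟩ := H5.exists_ree hK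
  refine ⟨?_, fun h hh h3 h4 => (Subgroup.eq_bot_iff_forall _).2 fun u hu => ?_⟩
  · obtain ⟨y, hy⟩ := IsCyclic.exists_ofOrder_eq_natCard (α := Kˣ)
    rw [Nat.card_units, Nat.card_eq_fintype_card, hK] at hy
    have hk : 3 ^ (2 * m + 1) - 1 = 2 * H5.Ree.kk a 0 := by rw [hq]; simp [H5.Ree.kk, H5.Ree.qq]; omega
    have ho : Odd (H5.Ree.kk a 0) := (X.tor 0).odd
    have h5 : orderOf (y ^ 2) = H5.Ree.kk a 0 := by rw [orderOf_pow' _ two_ne_zero, hy, hk]; simp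
    rw [hk, ← h5, ← Nat.card_zpowers]
    refine congrArg _ (Nat.card_congr (Equiv.ofBijective (fun c : Subgroup.zpowers (y ^ 2) => ⟨⟨(X.hh c).1, (h2 _).1 ⟨_, rfl⟩, (X.hh c).2⟩, by
      erw [Subgroup.orderOf_mk, Subgroup.orderOf_coe, orderOf_injective _ X.inj]
      exact ho.of_dvd_nat (h5 ▸ orderOf_dvd_of_mem_zpowers c.2)⟩) ⟨?_, ?_⟩).symm)
    · exact fun c d e => Subtype.ext (X.inj (Subtype.ext (congrArg (·.1.1) e)))
    · rintro ⟨⟨g, g1, g2⟩, g3⟩
      obtain ⟨c, hc⟩ := (h2 ⟨g, g2⟩).2 g1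
      obtain rfl : _ = g := congrArg Subtype.val hc
      erw [Subgroup.orderOf_mk, Subgroup.orderOf_coe, orderOf_injective _ X.inj] at g3
      obtain ⟨k, hk⟩ := g3
      obtain ⟨j, hj⟩ : c ^ (k + 1) ∈ Subgroup.zpowers y := by
        rw [(Subgroup.eq_top_of_card_eq _ (by rw [Nat.card_zpowers, hy, Nat.card_units, Nat.card_eq_fintype_card, hK]) : Subgroup.zpowers y = ⊤)]; trivial
      refine ⟨⟨c, j, ?_⟩, rfl⟩
      simp only at hj ⊢
      rw [sq, mul_zpow, hj, ← pow_add, show k + 1 + (k + 1) = 2 * k + 1 + 1 by ring, ← hk, pow_succ, pow_orderOf_eq_one, one_mul]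
  · obtain ⟨c, hc⟩ := (h2 ⟨h, hh.2⟩).2 hh.1
    obtain rfl : _ = h := congrArg Subtype.val hc
    refine congrArg Subtype.val (X.fpf c (fun e => H5.Ree.sq_ne h4 h3 ?_) ⟨u, hu.1.2⟩ ((h1 _).2 hu.1.1) (Subtype.ext ?_))
    · rw [← Subgroup.coe_mul, ← map_mul, e, map_one]; rfl
    · exact mul_inv_eq_iff_eq_mul.2 (Subgroup.mem_centralizer_singleton_iff.1 hu.2).symm

end Cfsg.Agent.S1151
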