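import Cfsg.Statements.S1167
import Mathlib
import Cfsg.Agent.H7.Sh3

set_option autoImplicit false
open Cfsg

namespace Cfsg.Agent.S1167

open Cfsg.Agent.H7 Cfsg.Agent.H2

/-- Let `G` be a finite simple Zassenhaus group on `Ω`, `U` a normal subgroup of `G_a` regular on `Ω` minus `a` which is an abelian 2-group, and `v` an involution with `v • a ≠ a`. Then there is a unique `u₀ ∈ U`, `u₀ ≠ 1`, with `v u₀ v = u₀ v u₀`. -/
theorem result {G Ω : Type*} [Group G] [Finite G] [MulAction G Ω] [Finite Ω]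
    (hZ : Cfsg.IsZassenhausGroup G Ω) [IsSimpleGroup G] {a : Ω}
    (U : Subgroup G) (hUle : U ≤ MulAction.stabilizer G a)
    (hUn : ∀ h ∈ MulAction.stabilizer G a, ∀ u ∈ U, h * u * h⁻¹ ∈ U)
    (hreg : ∀ c d : Ω, c ≠ a → d ≠ a → ∃! u : U, (u : G) • c = d)
    (hU2 : IsPGroup 2 U) (hUab : ∀ u ∈ U, ∀ u' ∈ U, u * u' = u' * u)
    (v : G) (hv1 : v ≠ 1) (hv2 : v * v = 1) (hva : v • a ≠ a) :
    ∃! u₀ : G, u₀ ∈ U ∧ u₀ ≠ 1 ∧ v * u₀ * v = u₀ * v * u₀ := by
  have z := zass_z3 hZ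
  have h3 := zass_three_le hZ
  have k : Ker a U := ⟨hUle, hUn, hreg⟩
  have hab := hva.symm
  have c1 := k.card hva
  have he : Even (Nat.card U) := by
    obtain ⟨n, hn⟩ := IsPGroup.iff_card.1 hU2
    rw [hn]
    exact Nat.even_pow.2 ⟨even_two, by rintro rfl; omega⟩
  obtain ⟨m, hm⟩ := z.card_St_dvd hab
  have h1 : Odd (Nat.card (St G a (v • a)) * m) := by
    rw [← hm, Nat.odd_iff]; rw [Nat.even_iff] at he; omega
  have o := zo_of_simple hZ hab k (Nat.odd_mul.1 h1).1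
  have hS := o.ro he rfl (by rw [← mul_smul, hv2, one_smul])
  have h2 : Nat.card (St G a (v • a)) = Nat.card U - 1 := by
    rcases o.feit with h | ⟨-, ⟨x, y, h⟩, -⟩
    · obtain ⟨j, rfl⟩ := (Nat.odd_mul.1 h1).2
      have := o.three_le
      rcases j with _ | j
      · omega
      · rw [show Nat.card U - 1 = Nat.card Ω - 2 by omega, hm] at h; nlinarith
    · exact absurd (Subtype.ext (hUab x x.2 y y.2)) h
  have h4 : ∀ u ∈ U, u * u = 1 := fun u hu => by
    have a1 := o.card_inv_N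
    rw [if_pos he, h2] at a1
    have a2 : {i : G | orderOf i = 2 ∧ i • a = a} = (U : Set G) \ {1} :=
      Set.eq_of_subset_of_ncard_le (fun i hi => ⟨RO.inv_mem_Q hS hi.2 (ord2_mul_self hi.1),
        ord2_ne_one hi.1⟩) (by
          rw [Set.ncard_diff_singleton_of_mem U.one_mem]; exact a1.ge)
    by_cases h : u = 1
    · simp [h]
    · exact ord2_mul_self (a2.ge ⟨hu, h⟩).1
  obtain ⟨s, r, s1, s2, s3, e⟩ := RO.struct_exists hS
  have s4 := RO.inv_mem_Q hS s1 (ord2_mul_self s2)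
  rw [inv_eq_of_sq (h4 r s3)] at e
  have h5 : v * r * v = s * v * r := by
    rw [show s = v * (v * s * v) * v by rw [← mul_assoc, ← mul_assoc, hv2, mul_assoc, mul_assoc, hv2]; simp,
      e, show v * (r * v * r) * v * v * r = v * r * v * (r * (v * v) * r) by group, hv2, mul_one,
      h4 r s3, mul_one]
  have h6 : s * v * r = r * v * s := by
    have := congrArg (·⁻¹) h5
    simp only [mul_inv_rev, inv_eq_of_sq hv2, inv_eq_of_sq (h4 r s3), inv_eq_of_sq (h4 s s4),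
      ← mul_assoc] at this
    exact h5.symm.trans this
  obtain rfl := (RO.canon_unique hS s1 (k.fix r s3) s3 s4 h6).1
  refine ⟨s, ⟨s4, ord2_ne_one s2, e⟩, fun u ⟨u1, u2, u3⟩ => (RO.struct_unique hS (k.fix u u1)
    (ord2_of (h4 u u1) u2) u1 (by rwa [inv_eq_of_sq (h4 u u1)]) s1 s2 s4
      (by rwa [inv_eq_of_sq (h4 s s4)])).1⟩

end Cfsg.Agent.S1167
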