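import Cfsg.Statements.S1176
import Mathlib
import Cfsg.Agent.H2.Invol2
import Cfsg.Agent.H8.Basic

set_option autoImplicit false
open Cfsg

namespace Cfsg.Agent.S1176

open Cfsg.Agent.H2 Subgroup
open scoped commutatorElement

/-- Let x₀ be an involution of the finite group G and D its conjugacy class. Assume (a) for each x ∈ D the subgroup W(x) generated by the members of D commuting with x is a 2-group of nilpotency class at most 2, and (b) the product of two distinct commuting members of D again lies in D. Then for all x, y ∈ D, if xy has even order greater than 2, its order is 4. -/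
theorem result {G : Type*} [Group G] [Finite G] (x₀ : G) (hx₀ : orderOf x₀ = 2) (ha : ∀ x : G, IsConj x₀ x → IsPGroup 2 ↥(Subgroup.closure {y : G | IsConj x₀ y ∧ Commute y x}) ∧ ⁅⁅Subgroup.closure {y : G | IsConj x₀ y ∧ Commute y x}, Subgroup.closure {y : G | IsConj x₀ y ∧ Commute y x}⁆, Subgroup.closure {y : G | IsConj x₀ y ∧ Commute y x}⁆ = ⊥) (hb : ∀ x y : G, IsConj x₀ x → IsConj x₀ y → x ≠ y → Commute x y → IsConj x₀ (x * y)) (x y : G) (hx : IsConj x₀ x) (hy : IsConj x₀ y) (heven : Even (orderOf (x * y))) (hgt : 2 < orderOf (x * y)) : orderOf (x * y) = 4 := by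
  have x2 := ord2_mul_self ((orderOf_of_isConj hx).symm.trans hx₀)
  have y2 := ord2_mul_self ((orderOf_of_isConj hy).symm.trans hx₀)
  obtain ⟨a, b, c⟩ := half_spec x2 y2 heven
  have h1 : IsConj x₀ (x * (x * y) ^ (orderOf (x * y) / 2)) := by
    obtain ⟨j, h | h⟩ := refl_conj x2 y2 (orderOf (x * y) / 2)
    · exact hx.trans (isConj_iff.2 ⟨_, by rw [← h, inv_inv]⟩)
    · exact hy.trans (isConj_iff.2 ⟨_, by rw [← h, inv_inv]⟩)
  have h2 := hb _ _ hx h1 (fun e => ord2_ne_one a (left_eq_mul.1 e))
    ((Commute.refl x).mul_right b.symm)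
  rw [← mul_assoc, x2, one_mul] at h2
  have h3 := H8.commute_of_commutator_eq_bot (ha _ h2).2 (commutator_mem_commutator
    (Subgroup.subset_closure ⟨hx, b.symm⟩) (Subgroup.subset_closure ⟨hy, c.symm⟩))
    (Subgroup.subset_closure ⟨hx, b.symm⟩)
  have h4 : ⁅x, y⁆ = (x * y) ^ 2 := by
    rw [commutatorElement_def, inv_eq_of_mul_eq_one_right x2, inv_eq_of_mul_eq_one_right y2,
      pow_two, mul_assoc]
  have h5 := inv_conj_pow (inverts_left x2 y2) 2
  rw [h4] at h3
  rw [← h3, mul_inv_cancel_right, eq_inv_iff_mul_eq_one, ← pow_add] at h5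
  have := Nat.le_of_dvd (by norm_num) (orderOf_dvd_of_pow_eq_one h5)
  obtain ⟨k, hk⟩ := heven
  omega

end Cfsg.Agent.S1176
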