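import Cfsg.Statements.S1177
import Mathlib
import Cfsg.Agent.H2.Syl
import Cfsg.Agent.H8.Basic

set_option autoImplicit false
open Cfsg

namespace Cfsg.Agent.S1177

open Cfsg.Agent.H2 Subgroup

/-- Let A be a nontrivial elementary abelian 2-subgroup of a finite group G which is a T.I. set (each conjugate of A meets A trivially or equals A) and which does not commute elementwise with any conjugate of A other than A itself. Then for every a ∈ A, a ≠ 1, every conjugate of A contained in C_G(a) is equal to A (A is weakly closed in C_G(a)). -/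
theorem result {G : Type*} [Group G] [Finite G] (A : Subgroup G) (hA : Cfsg.IsElementaryAbelian 2 A) (hA1 : A ≠ ⊥) (hTI : ∀ g : G, A.map (MulAut.conj g).toMonoidHom ⊓ A = ⊥ ∨ A.map (MulAut.conj g).toMonoidHom = A) (hb : ∀ g : G, (∀ a ∈ A, ∀ b ∈ A.map (MulAut.conj g).toMonoidHom, a * b = b * a) → A.map (MulAut.conj g).toMonoidHom = A) (a : G) (ha : a ∈ A) (ha1 : a ≠ 1) (g : G) (hg : A.map (MulAut.conj g).toMonoidHom ≤ Subgroup.centralizer ({a} : Set G)) : A.map (MulAut.conj g).toMonoidHom = A := by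
  change cj g A = A
  by_contra hne
  have h0 : cj g A ⊓ A = ⊥ := (hTI g).resolve_right hne
  have hT : ∀ x, ∀ b ∈ A, b ≠ 1 → x * b = b * x → x ∈ normalizer (A : Set G) := fun x b h h1 e =>
    mem_normalizer_iff_cj.2 ((hTI x).resolve_left fun e' => h1 (mem_bot.1 (e'.le
      (mem_inf.2 ⟨by simpa only [e, mul_inv_cancel_right] using conj_mem_cj x h, h⟩))))
  have h1 : ∀ b ∈ cj g A, b ∈ normalizer (A : Set G) := fun b h =>
    hT b a ha ha1 (mem_centralizer_singleton_iff.1 (hg h))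
  have h2 : ∀ x ∈ A, ∀ b ∈ cj g A, x * b * x⁻¹ * b⁻¹ ∈ A := fun x hx b h => by
    simpa only [mul_assoc] using mul_mem hx (H8.conj_mem_of_mem_normalizer (h1 b h) (inv_mem hx))
  have h3 : ∀ x ∈ A, ∀ b ∈ cj g A, b ≠ 1 → x * b = b * x → ∀ c ∈ cj g A, x * c = c * x := by
    intro x hx b h b1 e c hc
    have h4 := hT (g⁻¹ * x * g) _ (mem_cj.1 h) (fun e => b1 (by
      rw [← mul_inv_cancel_left g b, ← mul_inv_cancel_right (g⁻¹ * b) g, e]; group)) (by
      simp only [mul_assoc, mul_inv_cancel_left]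
      rw [← mul_assoc x, e, mul_assoc])
    rw [← mem_cj, cj_normalizer] at h4
    have h5 := h0.le (mem_inf.2 ⟨mul_mem (H8.conj_mem_of_mem_normalizer h4 hc) (inv_mem hc),
      h2 x hx c hc⟩)
    rwa [mem_bot, mul_inv_eq_one, mul_inv_eq_iff_eq_mul] at h5
  refine hne (hb g fun x hx => ?_)
  by_contra hc
  let f : cj g A → A := fun b => ⟨_, h2 x hx b b.2⟩
  have h4 : Function.Injective f := fun b c e => by
    by_contra h
    refine hc (h3 x hx (c⁻¹ * b) (mul_mem (inv_mem c.2) b.2)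
      (fun e => h (Subtype.ext (inv_mul_eq_one.1 e).symm)) ?_)
    have e : x * b * x⁻¹ * (b : G)⁻¹ = x * c * x⁻¹ * (c : G)⁻¹ := congrArg Subtype.val e
    calc x * ((c : G)⁻¹ * b) = (c : G)⁻¹ * (x * c * x⁻¹ * (c : G)⁻¹)⁻¹ * (x * b) := by group
      _ = (c : G)⁻¹ * b * x := by rw [← e]; group
  obtain ⟨b, e⟩ := (Finite.injective_iff_surjective_of_equiv (H8.cjEquiv A g).symm.toEquiv).1 h4
    ⟨x, hx⟩
  have e : x * b * x⁻¹ * (b : G)⁻¹ = x := congrArg Subtype.val e
  have : x = 1 := by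
    rw [mul_assoc, mul_assoc, mul_eq_left, ← mul_assoc, conj_eq_one_iff, inv_eq_one] at e
    exact e
  exact hc (by simp [this])

end Cfsg.Agent.S1177
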