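import Cfsg.Statements.S1178
import Mathlib
import Cfsg.Agent.H2.Transfer

set_option autoImplicit false
open Cfsg

namespace Cfsg.Agent.S1178

open Cfsg.Agent.H2 Subgroup

/-- Let A be a subgroup of a Sylow 2-subgroup S of the finite group G which is weakly closed in S. If a conjugate g A g⁻¹ commutes elementwise with A, then g A g⁻¹ = A. -/
theorem result {G : Type*} [Group G] [Finite G] (S : Sylow 2 G) (A : Subgroup G) (hW : Cfsg.IsWeaklyClosed A (S : Subgroup G)) (g : G) (hc : ∀ a ∈ A, ∀ b ∈ A.map (MulAut.conj g).toMonoidHom, a * b = b * a) : A.map (MulAut.conj g).toMonoidHom = A := by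
  have hA : IsPGroup 2 A := S.2.to_le hW.1
  have h1 : IsPGroup 2 ↥(A ⊔ cj g A) := H8.isPGroup_sup
    (H8.le_normalizer_of_le_centralizer fun a ha b hb => (hc a ha b hb).symm) hA (isPGroup_cj g hA)
  obtain ⟨h, hh⟩ := exists_cj_le_sylow S h1
  have e1 : cj h A = A := hW.2 h ((cj_mono h le_sup_left).trans hh)
  have e2 : cj (h * g) A = A := hW.2 _ (by rw [← cj, cj_mul]; exact (cj_mono h le_sup_right).trans hh)
  rw [cj_mul] at e2
  exact cj_inj.1 (e2.trans e1.symm)

end Cfsg.Agent.S1178
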