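import Cfsg.Statements.S1181
import Cfsg.Agent.B.ZStar

set_option autoImplicit false
open Cfsg

namespace Cfsg.Agent.S1181

open Cfsg.Agent Cfsg.Agent.B Cfsg.Agent.H2 Cfsg.Agent.H3 Cfsg.Agent.L Subgroup MonoidAlgebra
open scoped Pointwise commutatorElement

/-- Let z be an isolated involution of the finite group G and N a normal subgroup with z ∉ N. Then the centralizer of zN in G/N is the image of C_G(z), and zN is an isolated involution of G/N. -/
theorem result {G : Type*} [Group G] [Finite G] (z : G) (hz : Cfsg.IsIsolatedInvolution z) (N : Subgroup G) [N.Normal] (hzN : z ∉ N) : Subgroup.centralizer ({(QuotientGroup.mk z : G ⧸ N)} : Set (G ⧸ N)) = (Subgroup.centralizer ({z} : Set G)).map (QuotientGroup.mk' N) ∧ Cfsg.IsIsolatedInvolution (QuotientGroup.mk z : G ⧸ N) := by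
  refine ⟨le_antisymm (fun x hx => ?_) ?_, isolated_map hz (QuotientGroup.mk' N)
    (QuotientGroup.mk'_surjective N) fun e => hzN ((QuotientGroup.eq_one_iff z).1 e)⟩
  · obtain ⟨g, rfl⟩ := QuotientGroup.mk'_surjective N x
    obtain ⟨k, hk⟩ := conj_of_odd (ord2_mul_self hz.1) (ord2_mul_self (ord2_conj hz.1 g))
      (isolated_odd hz g)
    have h1 : QuotientGroup.mk' N (z * (g * z * g⁻¹)) = 1 := by
      rw [map_mul, map_mul, map_mul, map_inv, show QuotientGroup.mk' N g * QuotientGroup.mk' N z =
        QuotientGroup.mk' N z * QuotientGroup.mk' N g from mem_centralizer_singleton_iff.1 hx,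
        mul_inv_cancel_right, ← map_mul, ord2_mul_self hz.1, map_one]
    refine ⟨((z * (g * z * g⁻¹)) ^ k)⁻¹ * g, mem_centralizer_singleton_iff.2 ?_, by
      rw [map_mul, map_inv, map_pow, h1, one_pow, inv_one, one_mul]⟩
    generalize (z * (g * z * g⁻¹)) ^ k = d at hk
    calc d⁻¹ * g * z = d⁻¹ * (g * z * g⁻¹) * g := by group
      _ = z * (d⁻¹ * g) := by rw [← hk]; group
  · rintro _ ⟨g, hg, rfl⟩
    exact mem_centralizer_singleton_iff.2 (congrArg (QuotientGroup.mk' N)
      (mem_centralizer_singleton_iff.1 hg))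

end Cfsg.Agent.S1181
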