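import Cfsg.Statements.S1182
import Cfsg.Agent.B.ZStar

set_option autoImplicit false
open Cfsg

namespace Cfsg.Agent.S1182

open Cfsg.Agent Cfsg.Agent.B Cfsg.Agent.H2 Cfsg.Agent.H3 Cfsg.Agent.L Subgroup MonoidAlgebra
open scoped Pointwise commutatorElement

/-- Let z be an isolated involution of the finite group G and H a subgroup normalized by z. If x, y ∈ H both commute with z and y = h x h⁻¹ for some h ∈ H, then y = c x c⁻¹ for some c ∈ H commuting with z. -/
theorem result {G : Type*} [Group G] [Finite G] (z : G) (hz : Cfsg.IsIsolatedInvolution z) (H : Subgroup G) (hzH : z ∈ Subgroup.normalizer (H : Set G)) (x y : G) (hx : x ∈ H) (hy : y ∈ H) (hxz : Commute x z) (hyz : Commute y z) (h : G) (hh : h ∈ H) (hconj : h * x * h⁻¹ = y) : ∃ c ∈ H, Commute c z ∧ c * x * c⁻¹ = y := by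
  subst hconj
  obtain ⟨k, hk⟩ := conj_of_odd (ord2_mul_self hz.1) (ord2_mul_self (ord2_conj hz.1 h⁻¹))
    (isolated_odd hz h⁻¹)
  have h4 : Commute x (h⁻¹ * z * h⁻¹⁻¹) := by
    have := hyz.map (MulAut.conj h⁻¹).toMonoidHom
    simpa [mul_assoc] using this
  have h5 := (hxz.mul_right h4).pow_right k
  have h6 : z * (h⁻¹ * z * h⁻¹⁻¹) ∈ H := by
    have := mul_mem ((mem_normalizer_iff.1 hzH _).1 (inv_mem hh)) hh
    simpa [ord2_inv hz.1, mul_assoc] using this
  have h7 := pow_mem h6 k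
  generalize (z * (h⁻¹ * z * h⁻¹⁻¹)) ^ k = d at hk h5 h7
  refine ⟨h * d, mul_mem hh h7, ?_, ?_⟩
  · change h * d * z = z * (h * d)
    calc h * d * z = h * (d * z * d⁻¹) * d := by group
      _ = z * (h * d) := by rw [hk]; group
  · calc h * d * x * (h * d)⁻¹ = h * (d * x) * d⁻¹ * h⁻¹ := by group
      _ = h * x * h⁻¹ := by rw [← h5.eq]; group

end Cfsg.Agent.S1182
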