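import Cfsg.Statements.S1183
import Mathlib
import Cfsg.Agent.H2.Transfer
import Cfsg.Agent.H2.Invol2
import Cfsg.Agent.H1.Basic

set_option autoImplicit false
open Cfsg

namespace Cfsg.Agent.S1183

open Cfsg.Agent.H2 Subgroup

/-- Let z be an isolated involution of the finite group G and C = C_G(z). Then the subgroup of G generated by its elements of odd order is all of G if and only if the subgroup of C generated by its elements of odd order is all of C. -/
theorem result {G : Type*} [Group G] [Finite G] (z : G) (hz : Cfsg.IsIsolatedInvolution z) : Cfsg.pResidual 2 G = ⊤ ↔ Cfsg.pResidual 2 ↥(Subgroup.centralizer ({z} : Set G)) = ⊤ := by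
  obtain ⟨P, hP⟩ := (isPGroup_zpowers_ord2 hz.1).exists_le_sylow
  have hzP : z ∈ (P : Subgroup G) := hP (mem_zpowers z)
  have hPC : (P : Subgroup G) ≤ centralizer ({z} : Set G) := fun g hg =>
    mem_centralizer_singleton_iff.2 (isolated_commute_of_mem hz P.2 hzP hg)
  have hPC' : (P : Subgroup G) ≤ centralizer ((zpowers z : Subgroup G) : Set G) := by
    rwa [H1.centralizer_zpowers]
  have hW : ∀ g ∈ (⊤ : Subgroup G), cj g (zpowers z) ≤ P → cj g (zpowers z) = zpowers z := by
    intro g _ hg
    rw [cj_zpowers] at hg ⊢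
    rw [isolated_eq_of_mem hz P.2 hzP (hg (mem_zpowers _))]
  have h1 := (sylIn_top P).inf_resOf_eq_of_control hPC le_top (fun x hx u hu hux => by
    obtain ⟨v, -, hv, e⟩ := (sylIn_top P).conj_of_weaklyClosed hP hW (mem_top u)
      (hPC' hx.1) (hPC' hux)
    refine ⟨v, mem_centralizer_singleton_conj.2 ?_, e⟩
    exact isolated_eq_of_mem hz P.2 hzP (hP ((mem_normalizer_iff.1 hv z).1 (mem_zpowers z))))
  rw [pResidual_eq_top_iff, ← resOf_top]
  constructor
  · intro h
    rw [h, inf_top_eq, eq_comm, inf_eq_left] at h1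
    exact (sup_eq_left.2 h1).symm.trans (sylIn_of_le P hPC).resOf_sup
  · intro h
    rw [h, inf_eq_left.2 hPC, inf_eq_left] at h1
    exact (sup_eq_left.2 h1).symm.trans (sylIn_top P).resOf_sup

end Cfsg.Agent.S1183
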