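import Cfsg.Statements.S1184
import Cfsg.Agent.B.ZStar

set_option autoImplicit false
open Cfsg

namespace Cfsg.Agent.S1184

open Cfsg.Agent Cfsg.Agent.B Cfsg.Agent.H2 Cfsg.Agent.H3 Cfsg.Agent.L Subgroup MonoidAlgebra
open scoped Pointwise commutatorElement

/-- Let z be an isolated involution of the finite group G. If s and t are distinct conjugates of z, then st does not commute with z. -/
theorem result {G : Type*} [Group G] [Finite G] (z : G) (hz : Cfsg.IsIsolatedInvolution z) (g h : G) (hne : g * z * g⁻¹ ≠ h * z * h⁻¹) : ¬ Commute (g * z * g⁻¹ * (h * z * h⁻¹)) z := by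
  intro hc
  have h1 := zstar hz g
  have h2 := zstar hz h
  have hs := ord2_conj hz.1 g
  have ht := ord2_conj hz.1 h
  have h3 := isolated_odd' hz g h
  have h4 : ∀ g : G, ∃ k : ℕ, (z * (g * z * g⁻¹)) ^ k * z * ((z * (g * z * g⁻¹)) ^ k)⁻¹ =
    g * z * g⁻¹ := fun g => conj_of_odd (ord2_mul_self hz.1) (ord2_mul_self (ord2_conj hz.1 g))
      (isolated_odd hz g)
  have h5 : Odd (orderOf (z * (g * z * g⁻¹))) := isolated_odd hz g
  generalize g * z * g⁻¹ = s at *
  generalize h * z * h⁻¹ = t at *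
  -- `z s` inverts `s t` and has odd order
  have h6 : z * s * (s * t) * (z * s)⁻¹ = (s * t)⁻¹ := by
    rw [show z * s * (s * t) * (z * s)⁻¹ = z * (s * (s * t) * s⁻¹) * z⁻¹ by group,
      inverts_left (ord2_mul_self hs) (ord2_mul_self ht), ← hc.inv_left.eq, mul_inv_cancel_right]
  have h7 : z * s ∈ centralizer {s * t} := by
    refine mem_of_pow_mem_of_coprime (n := 2) ?_ (Nat.coprime_two_right.2 h5)
    rw [mem_centralizer_singleton_iff, ← mul_inv_eq_iff_eq_mul,
      show (z * s) ^ 2 * (s * t) * ((z * s) ^ 2)⁻¹ =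
        z * s * (z * s * (s * t) * (z * s)⁻¹) * (z * s)⁻¹ by rw [pow_two]; group, h6,
      show z * s * (s * t)⁻¹ * (z * s)⁻¹ = (z * s * (s * t) * (z * s)⁻¹)⁻¹ by group, h6, inv_inv]
  rw [mem_centralizer_singleton_iff.1 h7, mul_inv_cancel_right, ← mul_eq_one_iff_eq_inv,
    ← pow_two] at h6
  have h8 := (Nat.coprime_two_right.2 h3).eq_one_of_dvd (orderOf_dvd_of_pow_eq_one h6)
  rw [orderOf_eq_one_iff, mul_eq_one_iff_eq_inv, ord2_inv ht] at h8
  exact hne h8

end Cfsg.Agent.S1184
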