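import Cfsg.Statements.S1186
import Mathlib
import Cfsg.Agent.H2.Iso

set_option autoImplicit false
open Cfsg

namespace Cfsg.Agent.S1186

open Cfsg.Agent.H2 Subgroup

/-- Let z be an isolated involution of the finite group G, C = C_G(z), K the set of elements of odd order inverted by z, and s an involution of C. Then |G| = |C| · |C_K(sz)| · |C_K(s)|. -/
theorem result {G : Type*} [Group G] [Finite G] (z : G) (hz : Cfsg.IsIsolatedInvolution z) (s : G) (hs : orderOf s = 2) (hsz : Commute s z) : Nat.card G = Nat.card (Subgroup.centralizer ({z} : Set G)) * Nat.card {k : G // Odd (orderOf k) ∧ z * k * z⁻¹ = k⁻¹ ∧ Commute k (s * z)} * Nat.card {k : G // Odd (orderOf k) ∧ z * k * z⁻¹ = k⁻¹ ∧ Commute k s} := by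
  rw [card_eq_mul_Kz hz, mul_assoc]
  congr 1
  rw [← Nat.card_prod]
  have s2 := ord2_mul_self hs
  have z2 := ord2_mul_self hz.1
  have h1 : ∀ b, Kz z b → (Commute b (s * z) ↔ s * b * s⁻¹ = b⁻¹) := by
    intro b hb
    have h2 : z * b⁻¹ * z⁻¹ = b := by simpa using hb.inv.2
    constructor
    · intro h
      have h3 : s * z * b⁻¹ * (s * z)⁻¹ = b⁻¹ := by rw [← h.inv_left.eq]; group
      rw [← h3]
      conv_lhs => rw [← h2]
      group
    · intro h
      calc b * (s * z) = (s * b⁻¹ * s⁻¹) * (s * z) := by rw [← conj_inv, h, inv_inv]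
        _ = s * (z * b * z⁻¹) * z := by rw [hb.2]; group
        _ = _ := by group
  refine (Nat.card_eq_of_bijective (fun x => ⟨x.2.1 * x.1.1 * x.2.1,
    Kz.sandwich hz ⟨x.2.2.1, x.2.2.2.1⟩ ⟨x.1.2.1, x.1.2.2.1⟩⟩) ⟨?_, ?_⟩).symm
  · rintro ⟨⟨b, b1, b2, b3⟩, ⟨a, a1, a2, a3⟩⟩ ⟨⟨b', b1', b2', b3'⟩, ⟨a', a1', a2', a3'⟩⟩ e
    have e : a * b * a = a' * b' * a' := congrArg Subtype.val e
    have h2 : ∀ a b, Kz z a → Kz z b → Commute a s → Commute b (s * z) →
        a ^ 2 * (a * b * a)⁻¹ * (a ^ 2 * (a * b * a)⁻¹) =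
          s * (a * b * a) * s⁻¹ * (a * b * a)⁻¹ := by
      intro a b ha hb c d
      have h3 : s * a * s⁻¹ = a := by rw [← c.eq]; group
      rw [← conj_mul, ← conj_mul, h3, (h1 b hb).1 d]
      group
    have ha : Kz z a := ⟨a1, a2⟩
    have ha' : Kz z a' := ⟨a1', a2'⟩
    have hk := (Kz.sandwich hz ha ⟨b1, b2⟩).inv
    have h4 := eq_of_sq_odd (Kz.odd_mul hz (ha.pow 2) hk) (Kz.odd_mul hz (ha'.pow 2) hk) (by
      rw [h2 a b ha ⟨b1, b2⟩ a3 b3, e, h2 a' b' ha' ⟨b1', b2'⟩ a3' b3'])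
    rw [mul_left_inj, pow_two, pow_two] at h4
    obtain rfl := eq_of_sq_odd a1 a1' h4
    rw [mul_left_inj, mul_right_inj] at e
    subst e
    rfl
  · rintro ⟨k, hk⟩
    have hk' := hk.conj hsz
    have hu := Kz.odd_mul hz hk' hk.inv
    obtain ⟨i, hi⟩ := exists_sqrt_odd hu
    obtain ⟨j, hj⟩ := exists_sqrt_odd (hu.of_dvd_nat (orderOf_pow_dvd i))
    have h2 : k * z * (s * k * s⁻¹ * k⁻¹) * (k * z)⁻¹ = (s * k * s⁻¹ * k⁻¹)⁻¹ := by
      calc _ = k * (z * (s * k * s⁻¹) * z⁻¹) * (z * k⁻¹ * z⁻¹) * k⁻¹ := by group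
        _ = _ := by rw [hk'.2, hk.inv.2]; group
    have h3 : s * (s * k * s⁻¹ * k⁻¹) * s⁻¹ = (s * k * s⁻¹ * k⁻¹)⁻¹ := by
      calc _ = (s * s) * k * (s * s)⁻¹ * (s * k⁻¹ * s⁻¹) := by group
        _ = _ := by rw [s2]; group
    have h4 := inv_conj_pow (inv_conj_pow h2 i) j
    have h5 := inv_conj_pow h3 i
    generalize (s * k * s⁻¹ * k⁻¹) ^ i = r at hi hj h4 h5
    generalize r ^ j = v at hj h4
    obtain ⟨g, hg⟩ := hk.exists_conj
    have h6 : Kz z (r * k) := kz_of_conj hz (g := v * g) (by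
      calc r * k * z = v * (k * z * v⁻¹ * (k * z)⁻¹) * (k * z) := by
            rw [← conj_inv, h4, inv_inv, hj, mul_assoc]
        _ = _ := by rw [hg]; group)
    have h7 : Commute (r * k) s := by
      have : s * (r * k) * s⁻¹ = r * k := by
        rw [← conj_mul, h5, ← inv_mul_cancel_right (s * k * s⁻¹) k, ← hi]; group
      exact (mul_inv_eq_iff_eq_mul.1 this).symm
    obtain ⟨l, hl⟩ := exists_sqrt_odd h6.1
    have h8 := h6.pow l
    have h9 := h7.pow_left l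
    generalize (r * k) ^ l = a at hl h8 h9
    have h10 := Kz.sandwich hz h8.inv hk
    refine ⟨⟨⟨_, h10.1, h10.2, (h1 _ h10).2 ?_⟩, ⟨a, h8.1, h8.2, h9⟩⟩, Subtype.ext (by simp [mul_assoc])⟩
    have h11 : s * a⁻¹ * s⁻¹ = a⁻¹ := by rw [← h9.inv_left.eq]; group
    rw [← conj_mul, ← conj_mul, h11, ← inv_mul_cancel_right (s * k * s⁻¹) k, ← hi,
      ← mul_inv_cancel_right r k, ← hl]
    group

end Cfsg.Agent.S1186
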