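import Cfsg.Statements.S1187
import Mathlib
import Cfsg.Agent.H2.Iso

set_option autoImplicit false
open Cfsg

namespace Cfsg.Agent.S1187

open Cfsg.Agent.H2 Subgroup

/-- Let z be an isolated involution of the finite group G and p a prime. If Q is a p-subgroup normalized by z that is maximal among p-subgroups normalized by z, then Q is a Sylow p-subgroup of G. -/
theorem result {G : Type*} [Group G] [Finite G] (z : G) (hz : Cfsg.IsIsolatedInvolution z) {p : ℕ} [Fact p.Prime] (Q : Subgroup G) (hQ : IsPGroup p Q) (hzQ : z ∈ Subgroup.normalizer (Q : Set G)) (hmax : ∀ R : Subgroup G, IsPGroup p R → z ∈ Subgroup.normalizer (R : Set G) → Q ≤ R → R = Q) : ∃ P : Sylow p G, (P : Subgroup G) = Q := by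
  obtain ⟨P, a, b, c⟩ := exists_inv_sylow_ge hz hQ hzQ
  exact hmax P a.pgrp c b ▸ a.exists_sylow_top

end Cfsg.Agent.S1187
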