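import Cfsg.Statements.S1224
import Mathlib
import Cfsg.Agent.H7.SE

set_option autoImplicit false
open Cfsg

namespace Cfsg.Agent.S1224

open Cfsg.Agent.H7 MulAction Subgroup

/-- Let H be a strongly embedded subgroup of the finite group G and x ≠ y two cosets in G/H. Then the number of involutions i of G with i • x = y equals the number of involutions lying in H. -/
theorem result {G : Type*} [Group G] [Finite G] (H : Subgroup G) (hH : Cfsg.IsStronglyEmbedded H) (x y : G ⧸ H) (hxy : x ≠ y) : Nat.card {i : G // orderOf i = 2 ∧ i • x = y} = Nat.card {t : G // orderOf t = 2 ∧ t ∈ H} := by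
  induction x using QuotientGroup.induction_on with | H x => ?_
  induction y using QuotientGroup.induction_on with | H y => ?_
  have hw : x⁻¹ * y ∉ H := fun h => hxy (QuotientGroup.eq.2 h)
  rw [← se_card_coset hH hw]
  refine Nat.card_congr (Equiv.subtypeEquiv (MulAut.conj x⁻¹).toEquiv fun i => ?_)
  simp only [MulEquiv.toEquiv_eq_coe, EquivLike.coe_coe, MulAut.conj_apply, H2.orderOf_conj',
    MulAction.Quotient.smul_mk, smul_eq_mul]
  refine and_congr_right fun _ => ?_
  rw [eq_comm, QuotientGroup.eq, show (x⁻¹ * y)⁻¹ * (x⁻¹ * i * x⁻¹⁻¹) = y⁻¹ * (i * x) by group]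

end Cfsg.Agent.S1224
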