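import Cfsg.Statements.S1228
import Mathlib
import Cfsg.Agent.H7.EA

set_option autoImplicit false
open Cfsg

namespace Cfsg.Agent.S1228

open Cfsg.Agent.H7 MulAction Subgroup

/-- Let G be a finite group with a Sylow 2-subgroup T that is neither cyclic nor normal, such that the centralizer of every involution is an elementary abelian 2-group; put H = N_G(T), let u be an involution outside H and D = H ∩ uHu⁻¹. Then N_G(D) = D ⊔ ⟨u⟩, and a coset gH is fixed by every element of D exactly when gH = H or gH = uH. -/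
theorem result {G : Type*} [Group G] [Finite G] (T : Sylow 2 G) (hnc : ¬ IsCyclic (T : Subgroup G)) (hnn : ¬ (T : Subgroup G).Normal) (hC : ∀ t : G, orderOf t = 2 → IsMulCommutative (Subgroup.centralizer ({t} : Set G)) ∧ ∀ c ∈ Subgroup.centralizer ({t} : Set G), c ^ 2 = 1) (u : G) (hu : orderOf u = 2) (huH : u ∉ Subgroup.normalizer ((T : Subgroup G) : Set G)) : Subgroup.normalizer ((Subgroup.normalizer ((T : Subgroup G) : Set G) ⊓ (Subgroup.normalizer ((T : Subgroup G) : Set G)).map (MulAut.conj u).toMonoidHom : Subgroup G) : Set G) = (Subgroup.normalizer ((T : Subgroup G) : Set G) ⊓ (Subgroup.normalizer ((T : Subgroup G) : Set G)).map (MulAut.conj u).toMonoidHom) ⊔ Subgroup.zpowers u ∧ ∀ g : G, ((∀ d ∈ Subgroup.normalizer ((T : Subgroup G) : Set G) ⊓ (Subgroup.normalizer ((T : Subgroup G) : Set G)).map (MulAut.conj u).toMonoidHom, d • (QuotientGroup.mk g : G ⧸ Subgroup.normalizer ((T : Subgroup G) : Set G)) = QuotientGroup.mk g) ↔ (QuotientGroup.mk g : G ⧸ Subgroup.normalizer ((T : Subgroup G) : Set G)) = QuotientGroup.mk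 1 ∨ (QuotientGroup.mk g : G ⧸ Subgroup.normalizer ((T : Subgroup G) : Set G)) = QuotientGroup.mk u) := by
  have h : EA T := ⟨hnc, hnn, hC⟩
  have h2 := H2.ord2_mul_self hu
  have hi := H2.ord2_inv hu
  obtain ⟨d, a1, a2, a3⟩ := h.exists_ne_one huH
  have hd : d ∈ normalizer ((T : Subgroup G) : Set G) ⊓
    (normalizer ((T : Subgroup G) : Set G)).map (MulAut.conj u).toMonoidHom :=
    ⟨a1, H2.mem_map_conj_iff.2 a2⟩
  constructor
  · refine le_antisymm (fun g hg => ?_) (sup_le le_normalizer ((zpowers_le).2
      (L.mem_normalizer_of_forall fun x hx => ⟨?_, H2.conj_mem_map_conj u hx.1⟩)))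
    · have b1 := L.inv_conj_mem_of_mem_normalizer hg hd
      have b2 := h.fix3 h2 huH a1 a2 a3 b1.1
      have b3 := h.fix3 h2 huH a1 a2 a3 (g := g * u) (by
        simpa [mul_assoc] using H2.mem_map_conj_iff.1 b1.2)
      rcases b2 with b2 | b2 <;> rcases b3 with b3 | b3
      · exact absurd (by simpa using mul_mem (inv_mem b2) b3) huH
      · exact mem_sup_left ⟨b2, H2.mem_map_conj_iff.2 (by simpa [mul_assoc] using b3)⟩
      · have : g * u ∈ normalizer ((T : Subgroup G) : Set G) ⊓
            (normalizer ((T : Subgroup G) : Set G)).map (MulAut.conj u).toMonoidHom :=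
          ⟨b3, H2.mem_map_conj_iff.2 (by rwa [mul_assoc, mul_assoc, h2, mul_one])⟩
        simpa using mul_mem (mem_sup_left this) (inv_mem (mem_sup_right (mem_zpowers u)))
      · exact absurd (by simpa using mul_mem (inv_mem b2) b3) huH
    · have := H2.mem_map_conj_iff.1 hx.2
      rwa [hi] at this ⊢
  · intro g
    constructor
    · intro hg
      have := hg d hd
      rw [MulAction.Quotient.smul_mk, eq_comm, QuotientGroup.eq] at this
      rcases h.fix3 h2 huH a1 a2 a3 (g := g) (by simpa [mul_assoc] using this) with e | e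
      · exact Or.inl (QuotientGroup.eq.2 (by simpa using e))
      · exact Or.inr (QuotientGroup.eq.2 e).symm
    · rintro (e | e) x hx <;> rw [e, MulAction.Quotient.smul_mk, eq_comm, QuotientGroup.eq]
      · simpa using hx.1
      · simpa [mul_assoc] using H2.mem_map_conj_iff.1 hx.2

end Cfsg.Agent.S1228
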