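import Cfsg.Statements.S1229
import Mathlib
import Cfsg.Agent.H7.EA

set_option autoImplicit false
open Cfsg

namespace Cfsg.Agent.S1229

open Cfsg.Agent.H7 MulAction Subgroup

/-- Let G be a finite group with a Sylow 2-subgroup T that is neither cyclic nor normal, such that the centralizer of every involution is an elementary abelian 2-group; put H = N_G(T) and X = G/H. Then G is triply transitive on X, an element fixing three distinct points of X is the identity, and T acts regularly on X minus the point H. -/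
theorem result {G : Type*} [Group G] [Finite G] (T : Sylow 2 G) (hnc : ¬ IsCyclic (T : Subgroup G)) (hnn : ¬ (T : Subgroup G).Normal) (hC : ∀ t : G, orderOf t = 2 → IsMulCommutative (Subgroup.centralizer ({t} : Set G)) ∧ ∀ c ∈ Subgroup.centralizer ({t} : Set G), c ^ 2 = 1) : (∀ x₁ x₂ x₃ y₁ y₂ y₃ : G ⧸ Subgroup.normalizer ((T : Subgroup G) : Set G), x₁ ≠ x₂ → x₁ ≠ x₃ → x₂ ≠ x₃ → y₁ ≠ y₂ → y₁ ≠ y₃ → y₂ ≠ y₃ → ∃ g : G, g • x₁ = y₁ ∧ g • x₂ = y₂ ∧ g • x₃ = y₃) ∧ (∀ g : G, ∀ x₁ x₂ x₃ : G ⧸ Subgroup.normalizer ((T : Subgroup G) : Set G), x₁ ≠ x₂ → x₁ ≠ x₃ → x₂ ≠ x₃ → g • x₁ = x₁ → g • x₂ = x₂ → g • x₃ = x₃ → g = 1) ∧ (∀ x y : G ⧸ Subgroup.normalizer ((T : Subgroup G) : Set G), x ≠ QuotientGroup.mk 1 → y ≠ QuotientGroup.mk 1 → ∃! t : G, t ∈ T ∧ t • x = y) := by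
  have h : EA T := ⟨hnc, hnn, hC⟩
  refine ⟨fun x₁ x₂ x₃ y₁ y₂ y₃ a1 a2 a3 b1 b2 b3 => mt_three (three_of_card_St h.z3 a1 ?_).1
    a1 a2 a3 b1 b2 b3, fun g x₁ x₂ x₃ a1 a2 a3 => h.z3.three g x₁ x₂ x₃ a1 a3 a2, fun x y hx hy => ?_⟩
  · have h1 := h.z3.card_eq a1
    rw [card_eq_card_quotient_mul_card_subgroup (normalizer ((T : Subgroup G) : Set G)), h.card_H,
      h.card_Ω, Nat.add_sub_cancel] at h1
    rw [← Nat.eq_of_mul_eq_mul_left Nat.card_pos (Nat.eq_of_mul_eq_mul_left (by omega) h1), h.card_Ω]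
    omega
  · obtain ⟨u, hu, h1⟩ := h.ker.reg x y hx hy
    exact ⟨u, ⟨u.2, hu⟩, fun v hv => congrArg Subtype.val (h1 ⟨v, hv.1⟩ hv.2)⟩

end Cfsg.Agent.S1229
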