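import Cfsg.Statements.S1230
import Mathlib
import Cfsg.Agent.H7.EA

set_option autoImplicit false
open Cfsg

namespace Cfsg.Agent.S1230

open Cfsg.Agent.H7 MulAction Subgroup

/-- Let G be a finite group with a Sylow 2-subgroup T that is neither cyclic nor normal, such that the centralizer of every involution is an elementary abelian 2-group. Then G ≅ PSL(2,F) for a finite field F with |F| = |T|. -/
theorem result {G : Type*} [Group G] [Finite G] (T : Sylow 2 G) (hnc : ¬ IsCyclic (T : Subgroup G)) (hnn : ¬ (T : Subgroup G).Normal) (hC : ∀ t : G, orderOf t = 2 → IsMulCommutative (Subgroup.centralizer ({t} : Set G)) ∧ ∀ c ∈ Subgroup.centralizer ({t} : Set G), c ^ 2 = 1) : ∃ (F : Type) (_ : Field F) (_ : Fintype F), Fintype.card F = Nat.card T ∧ Nonempty (G ≃* Matrix.ProjectiveSpecialLinearGroup (Fin 2) F) := by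
  have h : EA T := ⟨hnc, hnn, hC⟩
  obtain ⟨n, hn⟩ := IsPGroup.iff_card.1 T.isPGroup'
  have hn0 : n ≠ 0 := by
    rintro rfl
    exact h.ne_bot (Subgroup.card_eq_one.1 hn)
  letI := Fintype.ofFinite (GaloisField 2 n)
  have h1 : Fintype.card (GaloisField 2 n) = Nat.card (T : Subgroup G) := by
    rw [← Nat.card_eq_fintype_card, GaloisField.card 2 n hn0, hn]
  exact ⟨GaloisField 2 n, inferInstance, inferInstance, h1, (h.z3.psl_two _ (by rw [h1, h.card_Ω])
    (by rw [h1, hn]; exact (Nat.even_pow' hn0).2 even_two) (by rw [h1, h.card_G])).1⟩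

end Cfsg.Agent.S1230
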