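import Cfsg.Statements.S1231
import Mathlib
import Cfsg.Agent.H2.SL23

set_option autoImplicit false
open Cfsg

namespace Cfsg.Agent.S1231

open Cfsg.Agent.H2 Subgroup

/-- Let H be a subgroup of the finite group G, p a prime, k ≥ 1, and P a Sylow p-subgroup of H whose p-rank is at least k. Then N_G(X) ≤ H for every subgroup X of P of p-rank at least k if and only if H ∩ gHg⁻¹ has p-rank less than k for every g ∉ H. -/
theorem result {G : Type*} [Group G] [Finite G] {p : ℕ} [Fact p.Prime] (k : ℕ) (hk : 1 ≤ k) (H : Subgroup G) (P : Sylow p ↥H) (hP : ¬ Cfsg.PRankLE p (k - 1) ↥(P : Subgroup ↥H)) : (∀ X : Subgroup G, X ≤ (P : Subgroup ↥H).map H.subtype → ¬ Cfsg.PRankLE p (k - 1) ↥X → Subgroup.normalizer (X : Set G) ≤ H) ↔ (∀ g : G, g ∉ H → Cfsg.PRankLE p (k - 1) ↥(H ⊓ H.map (MulAut.conj g).toMonoidHom)) := by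
  have hS := sylIn_map_subtype P
  have hr : ¬ PRankLE p (k - 1) ↥((P : Subgroup H).map H.subtype) := by
    obtain ⟨E, hE⟩ := SF.not_rank_iff.1 hP
    exact SF.not_rank_iff.2 ⟨E.map H.subtype, map_mono hE.1, SF.elem_map_subtype_iff.2 hE.2,
      by rw [H8.card_map_subtype]; exact hE.3⟩
  constructor
  · intro h g hg
    by_contra hn
    obtain ⟨E, hE⟩ := SF.not_rank_iff.1 hn
    have h1 : SylIn p ((P : Subgroup H).map H.subtype) ⊤ := sylIn_of_sylIn_normalizer
      (hS.mono (le_inf le_top le_normalizer) (inf_le_right.trans (h _ le_rfl hr)))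
    exact hg (inv_mem_iff.1 (SF.mem_of_Gam h1 hS.le (SF.Gam_le h) (hE.1.trans inf_le_left) hE.pg
      (hE.not_rank le_rfl) (le_cj_iff.1 (hE.1.trans inf_le_right))))
  · intro h X hX hXr g hg
    by_contra hn
    obtain ⟨E, hE⟩ := SF.not_rank_iff.1 hXr
    refine hE.not_rank (hE.1.trans (le_inf (hX.trans hS.le) ?_)) (h g hn)
    rw [← cj_eq_of_mem_normalizer hg]
    exact cj_mono g (hX.trans hS.le)

end Cfsg.Agent.S1231
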