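import Cfsg.Statements.S1236
import Mathlib
import Cfsg.Agent.H2.MC
import Cfsg.Agent.H2.Inv3

set_option autoImplicit false
open Cfsg

namespace Cfsg.Agent.S1236

open Cfsg.Agent.H2 Subgroup

/-- Let R be a finite group, t a central involution of R such that R ⧸ ⟨t⟩ is dihedral (of order ≥ 4) or quasi-dihedral, and A ≤ R an elementary abelian subgroup of order 8 containing t. Then C_R(A) = A. -/
theorem result {R : Type*} [Group R] [Finite R] (t : R) (ht : orderOf t = 2) (htz : t ∈ Subgroup.center R) [(Subgroup.zpowers t).Normal] (hq : (∃ m : ℕ, 2 ≤ m ∧ Nonempty (R ⧸ Subgroup.zpowers t ≃* DihedralGroup m)) ∨ Cfsg.IsQuasiDihedral (R ⧸ Subgroup.zpowers t)) (A : Subgroup R) (hA : Cfsg.IsElementaryAbelian 2 A) (hA8 : Nat.card A = 8) (htA : t ∈ A) : Subgroup.centralizer (A : Set R) = A := by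
  set f := QuotientGroup.mk' (zpowers t)
  obtain ⟨x, h1, h2⟩ : ∃ x : R ⧸ zpowers t, Ix2 (zpowers x) ⊤ ∧ ∀ v, v ∉ zpowers x →
      ∀ a ∈ zpowers x, Commute a v → a * a = 1 := by
    rcases hq with ⟨m, -, ⟨e⟩⟩ | h
    · obtain ⟨x, -, y, -, a, -, b, c, d⟩ := exists_dih_gens (topEquiv.trans e)
      have h1 := ix2_of_relIndex (relIndex_eq_two_of_card (A := zpowers x) le_top
        (by rw [d, Nat.card_zpowers, a]))
      refine ⟨x, h1, fun v hv => ?_⟩
      rintro _ ⟨i, rfl⟩ h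
      obtain ⟨j, hj⟩ := h1.inv_mul (mem_top y) (mem_top v) c hv
      simp only at hj h ⊢
      have h2 : v * x ^ i * v⁻¹ = y * x ^ i * y⁻¹ := by
        rw [← mul_inv_cancel_left y v, ← hj]; group
      rw [← h.eq, mul_inv_cancel_right, inv_conj_zpow b, zpow_neg] at h2
      exact mul_eq_one_iff_eq_inv.2 h2
    · obtain ⟨n, x, y, -, h⟩ := exists_sdp_top h
      refine ⟨x, h.mc.ix2, fun v hv a ha e => ?_⟩
      rcases (h.mc.of_not_mem (mem_top v) hv).cent_A ha e with rfl | rfl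
      · exact mul_one 1
      · exact h.mc.z_mul_self
  have h3 : Nat.card (A.map f) = 4 := by
    have := card_eq_relIndex_mul (zpowers_le.2 htA)
    have h3 : (zpowers t).relIndex A = Nat.card (A.map f) := by
      rw [← relIndex_ker, QuotientGroup.ker_mk']
    rw [hA8, Nat.card_zpowers, ht, h3] at this
    omega
  have h4 : ∀ a ∈ A.map f, a * a = 1 := by
    rintro _ ⟨a, ha, rfl⟩
    rw [← map_mul, ← pow_two, hA.2 a ha, map_one]
  have h5 : ∀ a b, a ∈ zpowers x → b ∈ zpowers x → a * a = 1 → b * b = 1 → a ≠ 1 → b ≠ 1 → a = b :=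
    fun a b ha hb a2 b2 a1 b1 =>
      eq_of_ord2_of_isCyclic inferInstance ha hb (ord2_of a2 a1) (ord2_of b2 b1)
  obtain ⟨a, ha, a1⟩ := exists_not_mem_of_card_lt (A := ⊥) (X := A.map f) (by rw [h3]; simp)
  rw [mem_bot] at a1
  obtain ⟨b, hb, b1⟩ := exists_not_mem_of_card_lt (A := zpowers a) (X := A.map f)
    (by rw [h3, Nat.card_zpowers, ord2_of (h4 a ha) a1]; norm_num)
  rw [mem_zpowers_invol (h4 a ha), not_or] at b1
  obtain ⟨v, hv, v1⟩ : ∃ v ∈ A.map f, v ∉ zpowers x := by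
    by_contra! h
    exact b1.2 (h5 _ _ (h b hb) (h a ha) (h4 b hb) (h4 a ha) b1.1 a1)
  obtain ⟨w, hw, w1, w2⟩ : ∃ w ∈ A.map f, w ≠ 1 ∧ w ∈ zpowers x := by
    by_contra! h
    exact h _ (mul_mem (inv_mem ha) hb) (fun e => b1.2 (inv_mul_eq_one.1 e).symm)
      (h1.inv_mul trivial trivial (h a ha a1) (h b hb b1.1))
  have h6 : ∀ c ∈ zpowers x, Commute c v → c ∈ A.map f := fun c hc e => by
    by_cases c1 : c = 1
    · exact c1 ▸ one_mem _
    · exact h5 _ _ w2 hc (h4 w hw) (h2 v v1 c hc e) w1 c1 ▸ hw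
  haveI := hA.1
  refine le_antisymm (fun c hc => ?_) le_centralizer_self_of_comm
  have h7 : Commute (f c) v := by
    obtain ⟨u, hu, rfl⟩ := hv
    exact (Commute.map (hc u hu) f).symm
  have h8 : f c ∈ A.map f := by
    by_cases h : f c ∈ zpowers x
    · exact h6 _ h h7
    · have := h6 _ (h1.mul_inv trivial trivial h v1) (h7.mul_left (Commute.refl v).inv_left)
      simpa using mul_mem this hv
  rwa [← mem_comap, comap_map_eq_self (by rw [QuotientGroup.ker_mk']; exact zpowers_le.2 htA)] at h8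

end Cfsg.Agent.S1236
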