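import Cfsg.Statements.S1242
import Mathlib
import Cfsg.Agent.H2.Transfer

set_option autoImplicit false
open Cfsg

namespace Cfsg.Agent.S1242

open Cfsg.Agent.H2 Subgroup

/-- Let G be a finite group, p a prime and H a subgroup of index prime to p such that any two elements of H of p-power order that are conjugate in G are conjugate in H. Then (O^p(G)·G') ∩ H = O^p(H)·H', where O^p denotes the subgroup generated by the elements of order prime to p. -/
theorem result {G : Type*} [Group G] [Finite G] {p : ℕ} [Fact p.Prime] (H : Subgroup G) (hidx : Nat.Coprime p H.index) (hfus : ∀ g ∈ H, (∃ k : ℕ, orderOf g = p ^ k) → ∀ a : G, a * g * a⁻¹ ∈ H → ∃ h ∈ H, h * g * h⁻¹ = a * g * a⁻¹) : (Cfsg.pResidual p G ⊔ commutator G) ⊓ H = (Cfsg.pResidual p ↥H ⊔ commutator ↥H).map H.subtype := by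
  rw [Subgroup.map_sup, pResidual_map_subtype, L.map_subtype_commutator']
  refine le_antisymm ?_ (le_inf (sup_le_sup ?_ (commutator_mono le_top le_top))
    (sup_le (resOf_le p H) (commutator_le_self H)))
  · rintro x ⟨h1, h2⟩
    obtain ⟨a, b, e, ⟨k, hk⟩, h3⟩ := exists_pparts (p := p) x
    rw [← e]
    refine mul_mem ?_ (mem_sup_left (mem_resOf (H.pow_mem h2 b) h3))
    by_contra hne
    have hp' : ∀ m : ℕ, ∃ j, orderOf ((x ^ a) ^ m) = p ^ j := fun m =>
      orderOf_eq_pow_of_mem (isPGroup_zpowers_iff.2 ⟨k, hk⟩) (pow_mem (mem_zpowers _) m)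
    obtain ⟨M, hM, a1, a2, a3⟩ := not_mem_of_transfer (p := p) (H := H)
      (D := resOf p H ⊔ ⁅H, H⁆) (j := k) le_sup_right
      ((Fact.out : p.Prime).coprime_iff_not_dvd.1 hidx) (H.pow_mem h2 a) hne
      (by rw [hk]; exact one_mem _) (fun m c hc => by
        obtain ⟨h, hh, e⟩ := hfus _ (H.pow_mem (H.pow_mem h2 a) m) (hp' m) c hc
        rw [← e]
        exact mem_sup_right (commutator_mem_commutator hh (H.pow_mem (H.pow_mem h2 a) m)))
    obtain ⟨j, hj⟩ := relIndex_resOf (p := p) H
    have a4 : M.index ∣ p ^ j := a2.trans (hj ▸ relIndex_dvd_of_le_left H le_sup_left)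
    obtain ⟨i, -, hi⟩ := (Nat.dvd_prime_pow Fact.out).1 a4
    exact a3 (M.pow_mem (sup_le (pResidual_le_of_index hi) a1 h1) a)
  · rw [← resOf_top]
    exact resOf_mono le_top

end Cfsg.Agent.S1242
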