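import Cfsg.Statements.S1244
import Mathlib
import Cfsg.Agent.H2.Two2
import Cfsg.Agent.H2.BG0
import Cfsg.Agent.H8.Sig0

set_option autoImplicit false
open Cfsg

namespace Cfsg.Agent.S1244

open Cfsg.Agent.H2 Subgroup
open scoped commutatorElement

/-- Let G be a finite group with no subgroup of index 2 whose Sylow 2-subgroup S is commutative, and let R ≤ S be a subgroup whose 2-rank is exactly one less than the 2-rank r of S. Then every involution of S is conjugate, by an element of N_G(S), to an element of R. -/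
theorem result {G : Type*} [Group G] [Finite G] (hG : ∀ H : Subgroup G, H.index ≠ 2) (S : Sylow 2 G) (hS : IsMulCommutative (S : Subgroup G)) (r : ℕ) (hr1 : 1 ≤ r) (hSr : Cfsg.PRankLE 2 r (S : Subgroup G) ∧ ¬ Cfsg.PRankLE 2 (r - 1) (S : Subgroup G)) (R : Subgroup G) (hRS : R ≤ S) (hRr : Cfsg.PRankLE 2 (r - 1) R ∧ (r = 1 ∨ ¬ Cfsg.PRankLE 2 (r - 2) R)) (t : G) (ht : orderOf t = 2) (htS : t ∈ S) : ∃ n ∈ Subgroup.normalizer ((S : Subgroup G) : Set G), n * t * n⁻¹ ∈ R := by
  by_contra hn
  push Not at hn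
  have hS' := sylIn_top S
  have htR : t ∉ R := by simpa using hn 1 (one_mem _)
  have t2 := ord2_mul_self ht
  let E := omegaOne 2 (S : Subgroup G)
  have hE := omegaOne_elem_of_comm (p := 2) hS
  have h1 := H8.pRankLE_iff.1 hSr.1 E (omegaOne_le _ _) hE
  have hm : ∀ x ∈ (S : Subgroup G), x * x = 1 → x ∈ E := fun x hx e =>
    mem_omegaOne hx (by rwa [pow_two])
  have h2 : 2 ^ (r - 1) ≤ Nat.card ↥(R ⊓ E) := by
    rcases hRr.2 with rfl | h
    · exact Nat.card_pos
    · obtain ⟨A, a, b, c⟩ := H8.not_pRankLE_iff.1 h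
      refine le_trans (Nat.pow_le_pow_right two_pos (by omega)) (c.trans (card_le_of_le ?_))
      exact le_inf a (le_omegaOne (a.trans hRS) b.2)
  have h3 : Ix2 R E := by
    refine ix2_of_relIndex ?_
    have h4 := card_eq_relIndex_mul (A := R ⊓ E) inf_le_right
    rw [inf_relIndex_right] at h4
    have h5 : R.relIndex E ≠ 1 := fun e => htR (relIndex_eq_one.1 e (hm t htS t2))
    have h6 : R.relIndex E ≠ 0 := fun e => by
      rw [e, zero_mul] at h4; exact Nat.card_pos.ne' h4
    have h7 : R.relIndex E * 2 ^ (r - 1) ≤ 2 * 2 ^ (r - 1) := by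
      rw [← pow_succ', Nat.sub_add_cancel hr1]
      exact (Nat.mul_le_mul_left _ h2).trans (h4.ge.trans h1)
    have := Nat.le_of_mul_le_mul_right h7 (by positivity)
    omega
  have h8 : ⁅(S : Subgroup G), (S : Subgroup G)⁆ ≤ R := by
    rw [commutator_eq_bot_iff_le_centralizer.2 le_centralizer_self_of_comm]
    exact bot_le
  obtain ⟨M, a, -, b, c⟩ := not_mem_of_transfer (p := 2) (j := 1)
    h8 (relIndex_top_right (S : Subgroup G) ▸ hS'.not_dvd_relIndex) htS htR (by rw [pow_one, pow_two, t2]; exact R.one_mem) (by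
      intro k a ha
      rcases Nat.even_or_odd' k with ⟨m, rfl | rfl⟩
      · have : t ^ (2 * m) = 1 := by rw [pow_mul, pow_two, t2, one_pow]
        simp [this]
      · have : t ^ (2 * m + 1) = t := by rw [pow_succ, pow_mul, pow_two, t2, one_pow, one_mul]
        rw [this] at ha ⊢
        obtain ⟨v, hv, e⟩ := hS'.control_of_comm htS (mem_top a) ha
        exact h3.mul_inv (hm _ ha (ord2_mul_self (ord2_conj ht a))) (hm t htS t2)
          (by rw [← e]; exact hn v hv.2) htR)
  obtain ⟨k, hk⟩ := IsPGroup.iff_card.1 S.2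
  obtain ⟨l, -, hl⟩ := (Nat.dvd_prime_pow Nat.prime_two).1
    (b.trans ((relIndex_dvd_card R S).trans hk.dvd))
  have h5 : IsPGroup 2 (G ⧸ M) := IsPGroup.of_card (by rw [← hl, index_eq_card])
  have h4 := resOf_le_ker (p := 2) (QuotientGroup.mk' M) (H := ⊤) (h5.to_subgroup _)
  rw [resOf_top, pResidual_two_eq_top_iff.2 hG, QuotientGroup.ker_mk'] at h4
  exact c (h4 trivial)

end Cfsg.Agent.S1244
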