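import Cfsg.Statements.S1246
import Cfsg.Agent.H8.Spe

set_option autoImplicit false
open Cfsg

namespace Cfsg.Agent.S1246

open Subgroup Cfsg.Agent.H1 Cfsg.Agent.BG Cfsg.Agent.SF
open Cfsg.Agent.H2 hiding card_lt_of_lt card_lt_of_ne_top isMulCommutative_of_le isPGroup_zpowers_iff mem_of_pow_mem_of_coprime
open Cfsg.Agent.H8 (Op Opp Fit Fs Lay PLay SN Comp PComp Op_le Opp_le Opp_coprime Op_isPGroup le_normalizer_Op le_normalizer_Opp
  le_normalizer_Opp_of le_normalizer_Op_of le_Op le_Opp inf_Opp_le le_of_centralizers)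


/-- Let V ≤ U be p-subgroups of the finite group G. If the generalized Fitting subgroup of C_G(V) is a p-group, then so is that of C_G(U). -/
theorem result {G : Type*} [Group G] [Finite G] {p : ℕ} [Fact p.Prime] (U V : Subgroup G) (hVU : V ≤ U) (hU : IsPGroup p U) (hV : IsPGroup p ↥(Cfsg.generalizedFittingSubgroup ↥(Subgroup.centralizer (V : Set G)))) : IsPGroup p ↥(Cfsg.generalizedFittingSubgroup ↥(Subgroup.centralizer (U : Set G))) := by
  have h1 : Fs (⊤ ⊓ 𝒞 V) = Op p (⊤ ⊓ 𝒞 V) := by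
    rw [top_inf_eq]; exact H8.Fs_eq_Op_iff_isPGroup.2 (H8.isPGroup_map_subtype_iff.2 hV)
  have h2 := H8.Fs_eq_Op_centralizer_of_le hU hVU h1 (H8.le_normalizer_top U)
  rw [top_inf_eq] at h2
  exact H8.isPGroup_map_subtype_iff.1 (H8.Fs_eq_Op_iff_isPGroup.1 h2)

end Cfsg.Agent.S1246
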