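import Cfsg.Statements.S1247
import Cfsg.Agent.H8.Bender

set_option autoImplicit false
open Cfsg

namespace Cfsg.Agent.S1247

open Subgroup Cfsg.Agent.H1 Cfsg.Agent.BG Cfsg.Agent.SF
open Cfsg.Agent.H2 hiding card_lt_of_lt card_lt_of_ne_top isMulCommutative_of_le isPGroup_zpowers_iff mem_of_pow_mem_of_coprime
open Cfsg.Agent.H8 (Op Opp Fit Fs Lay PLay SN Comp PComp Op_le Opp_le Opp_coprime Op_isPGroup le_normalizer_Op le_normalizer_Opp
  le_normalizer_Opp_of le_normalizer_Op_of le_Op le_Opp inf_Opp_le le_of_centralizers)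


/-- Let G be a non-abelian finite simple group, A a maximal subgroup, F = F*(A) its generalized Fitting subgroup (viewed in G), and S ≤ F a subgroup subnormal in F with C_F(S) ≤ S. Let B be any subgroup of G containing S. Then (a) for every prime q not dividing |F(A)|, O_q(B) ∩ A = 1; and (b) for every prime p dividing |F(A)|, O_p(B) commutes elementwise with the subgroup of F generated by its elements of order prime to p. -/
theorem result {G : Type*} [Group G] [Finite G] [IsSimpleGroup G] (hna : ¬ IsMulCommutative G) (A : Subgroup G) (hA : IsCoatom A) (S : Subgroup G) (hSF : S ≤ (Cfsg.generalizedFittingSubgroup ↥A).map A.subtype) (hSsn : (S.subgroupOf ((Cfsg.generalizedFittingSubgroup ↥A).map A.subtype)).IsSubnormal) (hSC : (Cfsg.generalizedFittingSubgroup ↥A).map A.subtype ⊓ Subgroup.centralizer (S : Set G) ≤ S) (B : Subgroup G) (hSB : S ≤ B) : (∀ q : ℕ, q.Prime → ¬ q ∣ Nat.card (Cfsg.fittingSubgroup ↥A) → (Cfsg.pCore q ↥B).map B.subtype ⊓ A = ⊥) ∧ (∀ p : ℕ, p.Prime → p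 ∣ Nat.card (Cfsg.fittingSubgroup ↥A) → ∀ x ∈ (Cfsg.pCore p ↥B).map B.subtype, ∀ y ∈ (Cfsg.pResidual p ↥(Cfsg.generalizedFittingSubgroup ↥A)).map ((Cfsg.generalizedFittingSubgroup ↥A).subtype) , x * (A.subtype y) = (A.subtype y) * x) := by
  have hS : SN (Fs A) S := H8.sn_iff.2 ⟨hSF, hSsn⟩
  refine ⟨fun q hq h => ?_, fun p hp h x hx y hy => ?_⟩
  · have := Fact.mk hq
    exact bender_a hS hSC hSB (by rwa [H8.card_map_subtype])
  · have := Fact.mk hp
    have h0 : Op p A ≠ ⊥ := by
      rw [← H8.Op_Fit]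
      exact (sylIn_Op_of_nil (H8.Fit_nilpotent A)).ne_bot (by rwa [H8.card_map_subtype])
    refine (mem_centralizer_iff.1 (bender_b (coatom_loc hA) hS hSC hSB h0 hx) _ ?_).symm
    rw [pResidual_map_subtype] at hy
    rw [← map_resOf_injective _ A.subtype_injective]
    exact mem_map_of_mem _ hy

end Cfsg.Agent.S1247
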