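import Cfsg.Statements.S1248
import Mathlib
import Cfsg.Agent.H7.U3S

set_option autoImplicit false
open Cfsg

namespace Cfsg.Agent.S1248

open Cfsg.Agent.H4 Cfsg.Agent.H7 Subgroup

/-- Let F be a field with 16 elements and S a Sylow 2-subgroup of PSU(3) over F (the unitary group U₃(4)). Then |S| = 64; the centre Z(S) is a Klein four-group and coincides with the subgroup generated by the involutions of S and with the derived subgroup; and every element of S ⧸ Z(S) squares to the identity, S ⧸ Z(S) having order 16. -/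
theorem result {F : Type*} [Field F] [Fintype F] (hF : Fintype.card F = 16) (S : Sylow 2 (Cfsg.PSU 3 F 4)) : Nat.card S = 64 ∧ IsKleinFour (Subgroup.center (S : Subgroup (Cfsg.PSU 3 F 4))) ∧ Subgroup.center (S : Subgroup (Cfsg.PSU 3 F 4)) = Subgroup.closure {x : (S : Subgroup (Cfsg.PSU 3 F 4)) | orderOf x = 2} ∧ Subgroup.center (S : Subgroup (Cfsg.PSU 3 F 4)) = commutator (S : Subgroup (Cfsg.PSU 3 F 4)) ∧ Nat.card ((S : Subgroup (Cfsg.PSU 3 F 4)) ⧸ Subgroup.center (S : Subgroup (Cfsg.PSU 3 F 4))) = 16 ∧ ∀ x : (S : Subgroup (Cfsg.PSU 3 F 4)) ⧸ Subgroup.center (S : Subgroup (Cfsg.PSU 3 F 4)), x ^ 2 = 1 := by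
  haveI : CharP F 2 := charP_of_card_eq_prime_pow (p := 2) (f := 4) hF
  have hF' : Fintype.card F = (2 ^ 2) ^ 2 := hF
  haveI : Fact (∀ x, frobq hF' (frobq hF' x) = x) := ⟨frobq_frobq hF'⟩
  obtain ⟨e⟩ : Nonempty (U3 (frobq hF') ≃* ↥(S : Subgroup (Cfsg.PSU 3 F 4))) := exists_U3_equiv hF' S
  have hne := frobq_ne hF'
  have hc : Nat.card {t : F // frobq hF' t = t} = 4 := card_fixed_frobq hF'
  have h1 : Nat.card S = 64 := by
    rw [← Nat.card_congr e.toEquiv, U3.card_eq hne, hc, Nat.card_eq_fintype_card, hF]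
  have h2 : Nat.card (center S) = 4 := by rw [← Nat.card_congr (centerCongr e).toEquiv, U3.card_center hne, hc]
  have key : ∀ x : S, x ∈ center S ↔ x * x = 1 := fun x => by
    obtain ⟨x, rfl⟩ := e.surjective x
    rw [← map_mul, MulEquiv.map_eq_one_iff, U3.sq_eq_one, ← U3.mem_center hne, mem_center_iff]
    refine (mem_center_iff (z := e x)).trans ?_
    rw [e.surjective.forall]
    simp only [← map_mul, e.injective.eq_iff]
  refine ⟨h1, isKleinFour_of_card h2 fun h => ?_, le_antisymm (fun x hx => ?_) ((closure_le _).2 fun x hx => ?_), ?_,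
    ?_, fun x => ?_⟩
  · obtain ⟨g, hg⟩ := IsCyclic.exists_ofOrder_eq_natCard (α := center S)
    have : g ^ 2 = 1 := Subtype.ext (by rw [sq]; exact (key g).1 g.2)
    have := Nat.le_of_dvd two_pos (orderOf_dvd_of_pow_eq_one this)
    omega
  · by_cases x1 : x = 1
    · rw [x1]; exact one_mem _
    · exact subset_closure (orderOf_eq_prime (by rw [sq]; exact (key x).1 hx) x1)
  · exact (key x).2 (by rw [← sq]; exact orderOf_dvd_iff_pow_eq_one.1 (dvd_of_eq hx))
  · have h3 : (commutator (U3 (frobq hF'))).map e.toMonoidHom = commutator S := by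
      rw [_root_.commutator_def, map_commutator, map_top_of_surjective _ e.surjective, _root_.commutator_def]
    rw [← h3, U3.commutator_eq hne]
    ext x
    obtain ⟨x, rfl⟩ := e.surjective x
    rw [key, ← map_mul, MulEquiv.map_eq_one_iff, U3.sq_eq_one, ← U3.mem_center hne]
    exact (mem_map_iff_mem (f := e.toMonoidHom) e.injective).symm
  · have := (center S).card_eq_card_quotient_mul_card_subgroup
    rw [h1, h2] at this
    exact (Nat.eq_of_mul_eq_mul_right (m := 4) (by norm_num) this).symm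
  · obtain ⟨x, rfl⟩ := QuotientGroup.mk_surjective x
    obtain ⟨x, rfl⟩ := e.surjective x
    rw [← QuotientGroup.mk_pow, QuotientGroup.eq_one_iff, key, ← pow_add, ← map_pow, U3.pow_four, map_one]

end Cfsg.Agent.S1248
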