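import Cfsg.Statements.S1253
import Mathlib
import Cfsg.Agent.H2.Iso
import Cfsg.Agent.H7.SE

set_option autoImplicit false
open Cfsg

namespace Cfsg.Agent.S1253

open Cfsg.Agent.H2 Subgroup

/-- Let z be an isolated involution of the finite group G with centralizer C, p an odd prime and P a Sylow p-subgroup of G normalized by z. Then P ∩ C has p-power-free index in C (it is a Sylow p-subgroup of C), and |P : C_P(z)| equals the number of elements x ∈ P with z x z⁻¹ = x⁻¹. -/
theorem result {G : Type*} [Group G] [Finite G] (z : G) (hz : Cfsg.IsIsolatedInvolution z) {p : ℕ} [Fact p.Prime] (hp : p ≠ 2) (P : Sylow p G) (hzP : z ∈ Subgroup.normalizer ((P : Subgroup G) : Set G)) : ¬ p ∣ ((P : Subgroup G) ⊓ Subgroup.centralizer ({z} : Set G)).relIndex (Subgroup.centralizer ({z} : Set G)) ∧ ((P : Subgroup G) ⊓ Subgroup.centralizer ({z} : Set G)).relIndex (P : Subgroup G) = Nat.card {x : G // x ∈ P ∧ z * x * z⁻¹ = x⁻¹} := by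
  have hP := sylIn_top P
  constructor
  · obtain ⟨Q, hQ⟩ := exists_sylIn p (centralizer ({z} : Set G))
    obtain ⟨R, a, b, c⟩ := exists_inv_sylow_ge hz hQ.pgrp (mem_normalizer_of_cj_le
      (cj_le_iff_forall.2 fun x hx => by
        rwa [← mem_centralizer_singleton_iff.1 (hQ.le hx), mul_inv_cancel_right]))
    obtain ⟨g, -, rfl⟩ := hP.exists_cj_eq a
    obtain ⟨c, hc, e⟩ := exists_cent_cj hz hzP c
    refine (hQ.of_card_le (P.2.to_le inf_le_left) inf_le_right ?_).not_dvd_relIndex
    rw [← card_cj c ((P : Subgroup G) ⊓ _), cj_inf, e, cj_eq_of_mem hc]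
    exact card_le_of_le (le_inf b hQ.le)
  · have h1 := H7.card_eq_cent_mul_inv (X := P) (Nat.coprime_two_right.1 (H8.coprime_of_isPGroup P.2
      ((Nat.coprime_primes Nat.prime_two Fact.out).2 (Ne.symm hp)))) (ord2_mul_self hz.1)
      fun x hx => H8.conj_mem_of_mem_normalizer hzP hx
    rw [card_eq_relIndex_mul (A := (P : Subgroup G) ⊓ centralizer {z}) inf_le_left, mul_comm] at h1
    exact Nat.eq_of_mul_eq_mul_left Nat.card_pos h1

end Cfsg.Agent.S1253
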