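import Cfsg.Statements.S1254
import Mathlib
import Cfsg.Agent.H2.MCF

set_option autoImplicit false
open Cfsg

namespace Cfsg.Agent.S1254

open Cfsg.Agent.H2 Cfsg.Agent.L Subgroup

/-- Let X be a finite group whose Sylow 2-subgroup S is dihedral (of order at least 4). Then X has a normal 2-complement if and only if, for every Klein four-subgroup U ≤ S, the normalizer N_X(U) is generated by C_X(U) and N_S(U). -/
theorem result {X : Type*} [Group X] [Finite X] (S : Sylow 2 X) (m : ℕ) (hm : 2 ≤ m) (eS : (S : Subgroup X) ≃* DihedralGroup m) : Cfsg.HasNormalPComplement 2 X ↔ ∀ U : Subgroup X, U ≤ S → IsKleinFour U → Subgroup.normalizer (U : Set X) = Subgroup.centralizer (U : Set X) ⊔ ((S : Subgroup X) ⊓ Subgroup.normalizer (U : Set X)) := by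
  rw [hasNPC_iff_top]
  refine ⟨fun h U hU _ => h.normalizer_eq (sylIn_top S) hU,
    fun h => (sylIn_top S).pNil_of_not_oddN fun U hU _ ho => ?_⟩
  obtain ⟨g, -, -, hf, hne⟩ := ho.exists_aut
  exact not_oddN_of_eq S.2 (h U hU (isKleinFour_of_dih S.2 eS hU hf hne)) ho

end Cfsg.Agent.S1254
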