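import Cfsg.Statements.S1255
import Mathlib
import Cfsg.Agent.H2.MCF

set_option autoImplicit false
open Cfsg

namespace Cfsg.Agent.S1255

open Cfsg.Agent.H2 Cfsg.Agent.L Subgroup

/-- Let X be a finite group whose Sylow 2-subgroup S is dihedral of order 2m ≥ 4. Then X has no subgroup of index 2 and no isolated involution if and only if either all involutions of X are conjugate, or for every Klein four-subgroup U ≤ S the index |N_X(U) : C_X(U)| equals 3 when |S| = 4 and equals 6 when |S| > 4. -/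
theorem result {X : Type*} [Group X] [Finite X] (S : Sylow 2 X) (m : ℕ) (hm : 2 ≤ m) (eS : (S : Subgroup X) ≃* DihedralGroup m) : ((∀ H : Subgroup X, H.index ≠ 2) ∧ (∀ z : X, ¬ Cfsg.IsIsolatedInvolution z)) ↔ ((∀ a b : X, orderOf a = 2 → orderOf b = 2 → IsConj a b) ∨ (∀ U : Subgroup X, U ≤ S → IsKleinFour U → (Subgroup.centralizer (U : Set X)).relIndex (Subgroup.normalizer (U : Set X)) = (if Nat.card S = 4 then 3 else 6))) := by
  have hS := sylIn_top S
  have key : (∀ a b : X, orderOf a = 2 → orderOf b = 2 → IsConj a b) →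
      (∀ H : Subgroup X, H.index ≠ 2) ∧ (∀ z : X, ¬ Cfsg.IsIsolatedInvolution z) := by
    intro hc
    obtain ⟨x, hx, y, hy, h1, h2, h3, h4, h5⟩ := exists_dih_gens eS
    have hi := ix2_of_relIndex (relIndex_eq_two_of_card (zpowers_le.2 hx)
      (by rw [h5, Nat.card_zpowers, h1]))
    have o1 : orderOf y = 2 := ord2_of h2 fun e => h4 (e ▸ one_mem _)
    have o2 : orderOf (y * x) = 2 := ord2_of (by simpa using refl_mul_self h2 h3 1)
      fun e => h4 (by rw [eq_inv_of_mul_eq_one_left e]; simp)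
    have hev : Even (orderOf x) := by
      obtain ⟨j, hj⟩ := orderOf_eq_pow_of_mem S.2 hx
      rw [hj] at h1 ⊢
      rcases j with _ | j
      · omega
      · simp [Nat.even_pow]
    have o3 := orderOf_pow_half (by omega) hev
    constructor
    · intro H hH
      haveI := normal_of_index_eq_two hH
      have hI : Ix2 H ⊤ := ix2_of_relIndex (by rw [relIndex_top_right, hH])
      have h6 : ∃ t ∈ H, orderOf t = 2 := by
        by_cases e1 : y ∈ H
        · exact ⟨y, e1, o1⟩
        by_cases e2 : y * x ∈ H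
        · exact ⟨_, e2, o2⟩
        · exact ⟨_, pow_mem (by simpa using hI.inv_mul (mem_top _) (mem_top _) e1 e2) _, o3⟩
      obtain ⟨t, ht, ot⟩ := h6
      have h7 : ∀ s, orderOf s = 2 → s ∈ H := fun s hs => by
        obtain ⟨g, rfl⟩ := isConj_iff.1 (hc t s ot hs)
        exact Normal.conj_mem inferInstance t ht g
      have h8 : (S : Subgroup X) ≤ H := hi.le_of_mem (inf_le_left.trans (zpowers_le.2
        (by simpa using mul_mem (inv_mem (h7 y o1)) (h7 _ o2)))) hy h4 (h7 y o1)
      have h9 := index_dvd_of_le h8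
      rw [hH] at h9
      exact S.not_dvd_index h9
    · intro z hz
      obtain ⟨g, hg⟩ := isConj_iff.1 (hc z y hz.1 o1)
      have hy' := hg ▸ isolated_conj hz g
      obtain ⟨g', hg'⟩ := isConj_iff.1 (hc y _ o1 o3)
      have := hy'.2 g' (hg' ▸ (commute_half h3 (by omega) hev).symm)
      rw [hg'] at this
      exact h4 (this ▸ pow_mem (mem_zpowers x) _)
  have key2 : (∀ U : Subgroup X, U ≤ S → IsKleinFour U → OddN U) →
      ∀ a b : X, orderOf a = 2 → orderOf b = 2 → IsConj a b := by
    intro ho a b ha hb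
    rcases hm.eq_or_lt with rfl | hm
    · have h4 := isKleinFour_of_dihedral eS
      obtain ⟨s, hs, h1, h2⟩ := hS.exists_isConj (k := 1) ha
      obtain ⟨t, ht, h3, h5⟩ := hS.exists_isConj (k := 1) hb
      exact h2.symm.trans (((ho _ le_rfl h4).isConj h4 hs ht (ord2_ne_one h1)
        (ord2_ne_one h3)).trans h5)
    · obtain ⟨k, x, y, h, hy, -⟩ := exists_mc_of_dihedral S.2 eS hm
      have hyx : y * x * (y * x) = 1 := by rw [h.yx_sq, hy, one_mul]
      have l1 := (h.k4 hy).le h.z_mem h.y_mem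
      have l2 := (h.swap.k4 hyx).le h.z_mem h.swap.y_mem
      have h1 : Act S x y := ⟨_, l1, ho _ l1 (h.k4 hy).isKleinFour, y, (h.k4 hy).b_mem, by simp⟩
      have h2 : Act S x (y * x) :=
        ⟨_, l2, ho _ l2 (h.swap.k4 hyx).isKleinFour, _, (h.swap.k4 hyx).b_mem, by simp⟩
      exact (h.isConj_of_act hS h1 h2 ha).symm.trans (h.isConj_of_act hS h1 h2 hb)
  refine ⟨fun h => Or.inl ?_, fun h => key (h.elim id fun h => key2 fun U h1 h2 =>
    oddN_of_three_dvd le_rfl (by rw [h U h1 h2]; split_ifs <;> norm_num))⟩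
  have hG := pResidual_two_eq_top_iff.2 h.1
  rcases hm.eq_or_lt with rfl | hm
  · have h4 := isKleinFour_of_dihedral eS
    refine key2 fun U h1 h2 => ?_
    obtain rfl : U = S := eq_of_le_of_card_ge h1 (by rw [h2.card_four, h4.card_four])
    by_contra hn
    have h5 : PNil 2 (⊤ : Subgroup X) := hS.pNil_of_not_oddN fun V hV _ ho => by
      obtain ⟨g, -, -, hf, hne⟩ := ho.exists_aut
      have h6 := isKleinFour_of_dih S.2 eS hV hf hne
      exact hn (eq_of_le_of_card_ge hV (by rw [h6.card_four, h4.card_four]) ▸ ho)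
    have h6 := hS.pNil_iff.1 h5
    rw [resOf_top, hG, inf_top_eq] at h6
    have := h4.card_four
    rw [h6, card_bot] at this; omega
  · obtain ⟨k, x, y, h, hy, -⟩ := exists_mc_of_dihedral S.2 eS hm
    obtain ⟨h1, h2⟩ := h.act_of_res hS hG
    exact fun a b ha hb => (h.isConj_of_act hS h1 h2 ha).symm.trans (h.isConj_of_act hS h1 h2 hb)

end Cfsg.Agent.S1255
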