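import Cfsg.Statements.S1256
import Mathlib
import Cfsg.Agent.H2.MCF

set_option autoImplicit false
open Cfsg

namespace Cfsg.Agent.S1256

open Cfsg.Agent.H2 Cfsg.Agent.L Subgroup

/-- Let X be a finite group whose Sylow 2-subgroup S is dihedral of order 2m ≥ 4. If |S| = 4, any two Klein four-subgroups of X are conjugate; if |S| > 4, there are Klein four-subgroups U₁, U₂ of X that are not conjugate, and every Klein four-subgroup of X is conjugate to U₁ or to U₂. -/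
theorem result {X : Type*} [Group X] [Finite X] (S : Sylow 2 X) (m : ℕ) (hm : 2 ≤ m) (eS : (S : Subgroup X) ≃* DihedralGroup m) : (Nat.card S = 4 → ∀ U V : Subgroup X, IsKleinFour U → IsKleinFour V → (∃ x : X, U.map (MulAut.conj x).toMonoidHom = V)) ∧ (4 < Nat.card S → ∃ U₁ U₂ : Subgroup X, IsKleinFour U₁ ∧ IsKleinFour U₂ ∧ ¬ (∃ x : X, U₁.map (MulAut.conj x).toMonoidHom = U₂) ∧ ∀ V : Subgroup X, IsKleinFour V → (∃ x : X, V.map (MulAut.conj x).toMonoidHom = U₁) ∨ (∃ x : X, V.map (MulAut.conj x).toMonoidHom = U₂)) := by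
  have hS := sylIn_top S
  have hc : ∀ V : Subgroup X, IsKleinFour V → ∃ g, cj g V ≤ S := fun V hV => by
    obtain ⟨a, b, hk⟩ := exists_k4 hV
    exact exists_cj_le_sylow S hk.isPGroup
  constructor
  · intro h4 U V hU hV
    obtain ⟨g, hg⟩ := hc U hU
    obtain ⟨g', hg'⟩ := hc V hV
    have e1 := eq_of_le_of_card_ge hg (by rw [card_cj, hU.card_four, h4])
    have e2 := eq_of_le_of_card_ge hg' (by rw [card_cj, hV.card_four, h4])
    exact ⟨g'⁻¹ * g, show cj _ U = V by rw [cj_mul, e1, ← e2, cj_inv_cj]⟩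
  intro h4
  rw [Nat.card_congr eS.toEquiv, DihedralGroup.nat_card] at h4
  obtain ⟨k, x, y, h, hy, -⟩ := exists_mc_of_dihedral S.2 eS (by omega)
  have hyx : y * x * (y * x) = 1 := by rw [h.yx_sq, hy, one_mul]
  have l1 := (h.k4 hy).le h.z_mem h.y_mem
  have l2 := (h.swap.k4 hyx).le h.z_mem h.swap.y_mem
  refine ⟨_, _, (h.k4 hy).isKleinFour, (h.swap.k4 hyx).isKleinFour, fun ⟨g, hg⟩ =>
    h.not_cj_k4 hS (fun t ht htA => ?_) (h.k4 hy).isKleinFour l1 l2 (h.k4 hy).b_mem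
      (h.swap.k4 hyx).b_mem g hg, fun V hV => ?_⟩
  · rcases h.outer ht htA with e | e
    · rw [h.sq_eq e, hy]
    · rw [h.swap.sq_eq e, hyx]
  obtain ⟨g, hg⟩ := hc V hV
  have hV' := isKleinFour_cj hV g
  obtain ⟨t, ht, htA, -⟩ := h.exists_of_isKleinFour hV' hg
  rcases h.outer (hg ht) htA with e | e
  · obtain ⟨s, -, e'⟩ := h.exists_cj_eq hg l1 (hV'.card_four.trans (h.k4 hy).card.symm) ht
      (h.k4 hy).b_mem e (by simp)
    exact Or.inl ⟨s * g, show cj _ V = _ by rw [cj_mul, e']⟩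
  · obtain ⟨s, -, e'⟩ := h.swap.exists_cj_eq hg l2 (hV'.card_four.trans (h.swap.k4 hyx).card.symm)
      ht (h.swap.k4 hyx).b_mem e (by simp)
    exact Or.inr ⟨s * g, show cj _ V = _ by rw [cj_mul, e']⟩

end Cfsg.Agent.S1256
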