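import Cfsg.Statements.S1258
import Cfsg.Agent.H8.FStar

set_option autoImplicit false
open Cfsg

namespace Cfsg.Agent.S1258

open Cfsg.Agent.H8

open Subgroup

/-- If the central quotient of a finite group X is non-abelian simple, then X = X' Z(X) and the commutator subgroup X' is quasisimple. -/
theorem result {X : Type*} [Group X] [Finite X] (hs : IsSimpleGroup (X ⧸ Subgroup.center X)) (hna : ¬ IsMulCommutative (X ⧸ Subgroup.center X)) : commutator X ⊔ Subgroup.center X = ⊤ ∧ Cfsg.IsQuasisimple ↥(commutator X) := by
  have hs' := QuotientGroup.mk'_surjective (center X)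
  have hq : Cfsg.IsQuasisimple (X ⧸ center X) := qs_of_simple hna
  have h0 : (commutator X).map (QuotientGroup.mk' (center X)) = ⊤ := by
    rw [commutator_def, map_commutator, map_top_of_surjective _ hs', ← commutator_def]
    exact hq.1.commutator_eq_top
  have h1 : commutator X ⊔ center X = ⊤ := by
    have := congrArg (comap (QuotientGroup.mk' (center X))) h0
    rwa [comap_map_eq, QuotientGroup.ker_mk', comap_top] at this
  have hz : ∀ K : Subgroup X, ⁅center X, K⁆ = ⊥ := fun K =>
    commutator_eq_bot_iff_le_centralizer.2 (center_le_centralizer _)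
  refine ⟨h1, qs_of_map (QuotientGroup.mk' (center X)) ?_ ?_ ?_⟩
  · refine le_antisymm (commutator_le_self _) ?_
    have h2 : ⁅(⊤ : Subgroup X), commutator X⁆ ≤ ⁅commutator X, commutator X⁆ := by
      rw [← h1]
      exact commutator_sup_le_of_norm le_rfl (hz _ ▸ bot_le) le_normalizer_of_normal
    refine le_trans ?_ h2
    have h3 : ⁅commutator X ⊔ center X, (⊤ : Subgroup X)⁆ ≤ ⁅(⊤ : Subgroup X), commutator X⁆ :=
      commutator_sup_le_of_norm (commutator_comm_le _ _) (hz _ ▸ bot_le) le_normalizer_of_normal
    rwa [h1] at h3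
  · rw [QuotientGroup.ker_mk']
    exact commutator_eq_bot_mono (hz _) inf_le_left le_rfl
  · rw [h0]
    exact qs_of_equiv topEquiv.symm hq

end Cfsg.Agent.S1258
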