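import Cfsg.Statements.S1259
import Cfsg.Agent.H8.FStar

set_option autoImplicit false
open Cfsg

namespace Cfsg.Agent.S1259

open Cfsg.Agent.H8

open Subgroup

/-- In a quasisimple group, every subnormal subgroup is either the whole group or central. -/
theorem result {X : Type*} [Group X] [Finite X] (hX : Cfsg.IsQuasisimple X) (H : Subgroup X) (hH : H.IsSubnormal) : H = ⊤ ∨ H ≤ Subgroup.center X := by
  rcases qs_sn (K := ⊤) (qs_of_equiv topEquiv.symm hX) (SN.of_isSubnormal hH) with h | h
  · exact Or.inl h
  · right
    rwa [commutator_eq_bot_iff_le_centralizer, coe_top, centralizer_univ] at h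

end Cfsg.Agent.S1259
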