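import Cfsg.Statements.S1263
import Cfsg.Agent.H8.FStar

set_option autoImplicit false
open Cfsg

namespace Cfsg.Agent.S1263

open Cfsg.Agent.H8

open Subgroup

/-- For a finite group G, Z(E(G)) is the subgroup generated by the centres Z(L) of the components L of G (all viewed as subgroups of G). -/
theorem result {G : Type*} [Group G] [Finite G] : (Subgroup.center ↥(Cfsg.layer G)).map (Cfsg.layer G).subtype = ⨆ L : {K : Subgroup G // Cfsg.IsComponent K}, (Subgroup.center ↥(L : Subgroup G)).map (L : Subgroup G).subtype := by
  simp only [center_map_subtype]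
  apply le_antisymm
  · refine (center_sSup_comp_le (X := ⊤) {K : Subgroup G | Cfsg.IsComponent K}
      fun K hK => comp_top_iff.2 hK).trans (iSup₂_le fun K hK => ?_)
    exact le_iSup_of_le (⟨K, hK⟩ : {K : Subgroup G // Cfsg.IsComponent K}) le_rfl
  · refine iSup_le fun K => ?_
    rw [← Lay_top, center_Lay]
    exact le_inf (center_le_Fit_of_sn (comp_top_iff.2 K.2).sn)
      (inf_le_left.trans (comp_top_iff.2 K.2).le_Lay)

end Cfsg.Agent.S1263
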