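import Cfsg.Statements.S1264
import Cfsg.Agent.H8.FStar

set_option autoImplicit false
open Cfsg

namespace Cfsg.Agent.S1264

open Cfsg.Agent.H8

open Subgroup

/-- Let G be finite, C = C_G(F(G)) the centralizer of the Fitting subgroup, and N a solvable subgroup of C normalized by C. Then N ≤ Z(F(G)). -/
theorem result {G : Type*} [Group G] [Finite G] (N : Subgroup G) (hN : N ≤ Subgroup.centralizer (Cfsg.fittingSubgroup G : Set G)) (hnorm : Subgroup.centralizer (Cfsg.fittingSubgroup G : Set G) ≤ Subgroup.normalizer (N : Set G)) (hsolv : Group.IsSolvable ↥N) : N ≤ (Subgroup.center ↥(Cfsg.fittingSubgroup G)).map (Cfsg.fittingSubgroup G).subtype := by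
  rw [center_map_subtype]
  refine le_inf ?_ hN
  rw [← Fit_top] at hN hnorm ⊢
  refine le_Fit_of_sn_solvable_of_comm ?_ hsolv ?_
  · exact (SN.of_norm le_top (le_normalizer_centralizer (le_normalizer_Fit ⊤))).trans
      (SN.of_norm hN hnorm)
  · exact commutator_eq_bot_symm (commutator_eq_bot_mono
      (commutator_eq_bot_iff_le_centralizer.2 hN) le_rfl inf_le_right)

end Cfsg.Agent.S1264
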