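import Cfsg.Statements.S1266
import Cfsg.Agent.H8.Local

set_option autoImplicit false
open Cfsg

namespace Cfsg.Agent.S1266

open Cfsg.Agent.H8

open Subgroup

/-- Let P be a p-subgroup of the finite group G and N = N_G(P). Then the preimage in N of E(N / O_{p'}(N)) centralizes O_p(G). -/
theorem result {G : Type*} [Group G] [Finite G] (p : ℕ) [Fact p.Prime] (P : Subgroup G) (hP : IsPGroup p ↥P) : (((Cfsg.layer (↥(Subgroup.normalizer ((P : Subgroup G) : Set G)) ⧸ Cfsg.pPrimeCore p ↥(Subgroup.normalizer ((P : Subgroup G) : Set G)))).comap (QuotientGroup.mk' (Cfsg.pPrimeCore p ↥(Subgroup.normalizer ((P : Subgroup G) : Set G))))).map (Subgroup.normalizer ((P : Subgroup G) : Set G)).subtype) ≤ Subgroup.centralizer (Cfsg.pCore p G : Set G) := by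
  have h := commutator_Op_local (X := ⊤) hP (le_normalizer_top _)
  rw [← PLay_normalizer_eq hP le_top, ← Opp_normalizer_eq hP le_top, top_inf_eq, Op_top,
    ← pre_mk'_layer] at h
  exact commutator_eq_bot_iff_le_centralizer.1 (commutator_eq_bot_symm h)

end Cfsg.Agent.S1266
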