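import Cfsg.Statements.S1270
import Cfsg.Agent.H8.Local2

set_option autoImplicit false
open Cfsg

namespace Cfsg.Agent.S1270

open Cfsg.Agent.H8

open Subgroup

/-- Let G be finite with O_{p'}(G) = 1, x of order p, and L a component with ⁅L, ⟨x⟩⁆ ≠ L. Then ⁅L, O_{p'}(C_G(x))⁆ = 1. -/
theorem result {G : Type*} [Group G] [Finite G] (p : ℕ) [Fact p.Prime] (hO : Cfsg.pPrimeCore p G = ⊥) (x : G) (hx : orderOf x = p) (L : Subgroup G) (hL : Cfsg.IsComponent L) (hne : ⁅L, Subgroup.zpowers x⁆ ≠ L) : ⁅L, Cfsg.centralizerPPrimeCore p x⁆ = ⊥ := by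
  rw [← Opp_top] at hO
  have := (comp_top_iff.2 hL).comm_Opp_centralizer hO hx (le_normalizer_top ⊤ (mem_top x)) hne
  rwa [top_inf_eq] at this

end Cfsg.Agent.S1270
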