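import Cfsg.Statements.S1271
import Cfsg.Agent.H8.Local2

set_option autoImplicit false
open Cfsg

namespace Cfsg.Agent.S1271

open Cfsg.Agent.H8

open Subgroup

/-- Let G be finite with O_{p'}(G) = 1. Suppose that for every component L of G and every subgroup H ≥ L in which L is normal, the quotient H / C_H(L) is balanced for the prime p. Then G is balanced for p. -/
theorem result {G : Type*} [Group G] [Finite G] (p : ℕ) [Fact p.Prime] (hO : Cfsg.pPrimeCore p G = ⊥) (h : ∀ L : Subgroup G, Cfsg.IsComponent L → ∀ H : Subgroup G, L ≤ H → (L.subgroupOf H).Normal → ∀ [((Subgroup.centralizer (L : Set G)).subgroupOf H).Normal], Cfsg.IsBalancedFor p (↥H ⧸ (Subgroup.centralizer (L : Set G)).subgroupOf H)) : Cfsg.IsBalancedFor p G := by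
  intro x hx
  rw [hO, le_bot_iff]
  rw [← Opp_top] at hO
  have hx' : orderOf x = p ^ 1 := by simpa using hx
  have hY : Cfsg.centralizerPPrimeCore p x = Opp p (⊤ ⊓ centralizer {x}) := by
    rw [top_inf_eq]; rfl
  rw [hY]
  set Y := Opp p (⊤ ⊓ centralizer {x})
  refine eq_bot_of_comm_Lay hO (isPGroup_zpowers hx') (le_normalizer_top _)
    (by rw [centralizer_zpowers]) fun K hK => ?_
  by_cases h1 : ⁅K, zpowers x⁆ = K
  swap
  · exact hK.comm_Opp_centralizer hO hx (le_normalizer_top ⊤ (mem_top x)) h1
  have hxK : zpowers x ≤ normalizer (K : Set G) := by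
    rw [← h1]; exact normalizer_commutator_ge_right _ _
  have hYK : Y ≤ normalizer (K : Set G) := le_sup_right.trans
    (local_le_normalizer' hO hx' (le_normalizer_top ⊤ (mem_top x)) hK)
  set H := K ⊔ (Y ⊔ zpowers x)
  have hHK : H ≤ normalizer (K : Set G) := sup_le le_normalizer (sup_le hYK hxK)
  have hn : ((centralizer (K : Set G)).subgroupOf H).Normal :=
    normal_subgroupOf_of_le_normalizer (le_normalizer_centralizer hHK)
  have h2 := h K (comp_top_iff.1 hK) H le_sup_left (normal_subgroupOf_of_le_normalizer hHK)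
  let f := QuotientGroup.mk' ((centralizer (K : Set G)).subgroupOf H)
  have hf : Function.Surjective f := QuotientGroup.mk'_surjective _
  have hk : kr f = centralizer (K : Set G) ⊓ H := kr_mk'_subgroupOf'
  have hxH : x ∈ H := mem_sup_right (mem_sup_right (mem_zpowers x))
  have hYH : Y ≤ H := le_sup_left.trans le_sup_right
  have h3 := im_Opp_le_Opp hO hK f (hk.le.trans inf_le_left) le_rfl le_top hHK le_sup_left hxH hx'
    (sup_le_sup_left (sup_le (le_inf hYH ((Opp_le p _).trans inf_le_right))
      (le_inf (zpowers_le_of_mem hxH) (zpowers_le_centralizer x))) _)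
  have h4 : orderOf (f ⟨x, hxH⟩) = p := by
    refine orderOf_eq_prime ?_ fun e => ?_
    · rw [← map_pow, show (⟨x, hxH⟩ : H) ^ p = 1 from Subtype.ext (hx ▸ pow_orderOf_eq_one x), map_one]
    · have h5 := (hk.le ((mem_kr f).2 ⟨hxH, e⟩)).1
      rw [commutator_zpowers_eq_bot_iff.2 (le_centralizer_singleton_iff.2 h5)] at h1
      exact hK.ne_bot h1.symm
  rw [inf_eq_left.2 hYH, im_self_of_surj f hf, top_inf_eq] at h3
  have h5 := h3.trans (h2 _ h4)
  have hKk : ¬ K ≤ kr f := fun e => hK.not_le_centralizer (e.trans (hk.le.trans inf_le_left))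
  have h6 := (hK.of_le le_sup_left le_top : Comp H K).im f le_sup_left hKk
  rw [im_self_of_surj f hf] at h6
  rw [← Opp_top] at h5
  rcases h6.le_or_comm (sn_Opp p ⊤) with h7 | h7
  · exfalso
    refine coprime_iff_not_dvd.1 (coprime_of_le h7 (Opp_coprime p _)) ?_
    have h8 := hK.dvd_relIndex_center hO
    have h9 := card_im_mul f (le_sup_left : K ≤ H)
    rw [hk, inf_assoc, inf_eq_right.2 (le_sup_left : K ≤ H), inf_comm,
      ← L.card_mul_relIndex (inf_le_left : K ⊓ centralizer (K : Set G) ≤ K), mul_comm] at h9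
    rwa [Nat.eq_of_mul_eq_mul_left Nat.card_pos h9]
  · have h8 := commutator_eq_bot_mono h7 h5 le_rfl
    rw [commutator_im_eq_bot_iff f hYH le_sup_left] at h8
    exact commutator_eq_bot_symm (commutator_eq_bot_of_perfect hK.perfect
      (commutator_eq_bot_iff_le_centralizer.2 (h8.trans (hk.le.trans inf_le_left))))

end Cfsg.Agent.S1271
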