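import Cfsg.Statements.S1272
import Cfsg.Agent.H8.PComp

set_option autoImplicit false
open Cfsg

namespace Cfsg.Agent.S1272

open Cfsg.Agent.H8

open Subgroup

/-- Let X be finite and Q = X / O_{p'}(X). For every component Kbar of Q there is a unique p-component K of X whose image in Q is Kbar; and the image of the p-layer L_{p'}(X) in Q is E(Q). -/
theorem result {X : Type*} [Group X] [Finite X] (p : ℕ) [Fact p.Prime] : (∀ Kbar : Subgroup (X ⧸ Cfsg.pPrimeCore p X), Cfsg.IsComponent Kbar → ∃! K : Subgroup X, Cfsg.IsPComponent p K ∧ K.map (QuotientGroup.mk' (Cfsg.pPrimeCore p X)) = Kbar) ∧ (Cfsg.pLayer p X).map (QuotientGroup.mk' (Cfsg.pPrimeCore p X)) = Cfsg.layer (X ⧸ Cfsg.pPrimeCore p X) := by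
  refine ⟨fun Kbar hK => ?_, map_mk'_pLayer p X⟩
  have h1 := comp_top_iff.2 hK
  have h2 := h1.pcomp (h1.dvd_of_Opp (p := p) (by rw [Opp_top, L.pPrimeCore_quotient_eq_bot]))
  rw [← map_top_of_surjective _ (QuotientGroup.mk'_surjective (Cfsg.pPrimeCore p X))] at h2
  obtain ⟨K, h3, h4⟩ := exists_pcomp_map _ (by
    rw [QuotientGroup.ker_mk', inf_top_eq]; exact L.pPrimeCore_coprime p) h2
  refine ⟨K, ⟨pcomp_top_iff.1 h3, h4⟩, fun K' h5 => ?_⟩
  refine (pcomp_top_iff.2 h5.1).eq_of_sup_Opp h3 ?_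
  have := (h5.2.trans h4.symm).le
  rwa [Subgroup.map_le_map_iff, QuotientGroup.ker_mk', ← Opp_top] at this

end Cfsg.Agent.S1272
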