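import Cfsg.Statements.S1276
import Cfsg.Agent.H8.PComp

set_option autoImplicit false
open Cfsg

namespace Cfsg.Agent.S1276

open Cfsg.Agent.H8


/-- Let K be a 2-component of the finite group X. Then K is quasisimple if and only if ⁅K, O(K)⁆ = 1. -/
theorem result {X : Type*} [Group X] [Finite X] (K : Subgroup X) (hK : Cfsg.IsPComponent 2 K) : Cfsg.IsQuasisimple ↥K ↔ ⁅K, ((Cfsg.oddCore ↥K).map K.subtype)⁆ = ⊥ := by
  exact ⟨fun h => commutator_eq_bot_symm ((pcomp_top_iff.2 hK).pqs.comm_of_qs h),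
    fun h => (pcomp_top_iff.2 hK).pqs.qs_of_comm (commutator_eq_bot_symm h)⟩

end Cfsg.Agent.S1276
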