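import Cfsg.Statements.S1277
import Cfsg.Agent.H8.PComp

set_option autoImplicit false
open Cfsg

namespace Cfsg.Agent.S1277

open Cfsg.Agent.H8

open Subgroup

/-- For a finite group X with core O(X): the image of E(X) in X / O(X) is all of E(X / O(X)) if and only if every 2-component of X is a component, i.e. L_{2'}(X) ≤ E(X). -/
theorem result {X : Type*} [Group X] [Finite X] : (Cfsg.layer X).map (QuotientGroup.mk' (Cfsg.oddCore X)) = Cfsg.layer (X ⧸ Cfsg.oddCore X) ↔ Cfsg.pLayer 2 X ≤ Cfsg.layer X := by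
  rw [← map_mk'_pLayer]
  constructor
  · intro h
    have h1 := h.ge
    rw [Subgroup.map_le_map_iff, QuotientGroup.ker_mk', ← PLay_top, ← Lay_top] at h1
    rw [← PLay_top, ← Lay_top, ← Rp_PLay]
    refine (Rp_mono h1).trans ?_
    rw [Rp_sup_of_sn ((sn_Lay ⊤).of_le le_sup_left le_top) le_normalizer_of_normal
      (L.pPrimeCore_coprime 2)]
    exact Rp_le _ _
  · intro h
    refine le_antisymm ?_ (map_mono h)
    rw [Subgroup.map_le_map_iff, QuotientGroup.ker_mk', ← PLay_top, ← Lay_top]
    exact (Lay_le_PLay_sup_Opp (p := 2) ⊤).trans (by rw [Opp_top])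

end Cfsg.Agent.S1277
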