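import Cfsg.Statements.S1279
import Cfsg.Agent.H8.Sig0

set_option autoImplicit false
open Cfsg

namespace Cfsg.Agent.S1279

open Cfsg.Agent.H8

open Subgroup

/-- Let A be a noncyclic elementary abelian p-subgroup of the finite group G such that C_G(a) is solvable for every non-identity a ∈ A. Then a ↦ O_{p'}(C_G(a)) is a solvable A-signalizer functor on G. -/
theorem result {G : Type*} [Group G] [Finite G] (p : ℕ) [Fact p.Prime] (A : Subgroup G) (hA : Cfsg.IsElementaryAbelian p A) (hA2 : p ^ 2 ≤ Nat.card ↥A) (hsolv : ∀ a ∈ A, a ≠ 1 → Group.IsSolvable ↥(Subgroup.centralizer ({a} : Set G))) : Cfsg.IsSolvableSignalizerFunctor p A (fun a => Cfsg.centralizerPPrimeCore p a) := by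
  refine ⟨⟨fun a _ _ => Opp_le p _, fun a _ _ => coprime_iff_not_dvd.1 (Opp_coprime p _),
    fun a ha _ b hb x hx => conj_mem_of_mem_normalizer
      (le_normalizer_Opp p _ (elem_le_centralizer hA ha hb)) hx, fun a ha h1 b hb h2 => ?_⟩,
    fun a ha h1 => solvable_of_le (Opp_le p _) (hsolv a ha h1)⟩
  have h3 := Opp_centralizer_le_of_solvable (hsolv b hb h2)
    ((elem_isPGroup hA).to_le (zpowers_le_of_mem ha))
    ((zpowers_le_of_mem (elem_le_centralizer hA hb ha)).trans le_normalizer)
  rw [centralizer_zpowers] at h3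
  refine le_trans ?_ h3
  refine le_trans ?_ (inf_Opp_le p inf_le_right)
  exact le_inf inf_le_left (le_inf inf_le_right (inf_le_left.trans (Opp_le p _)))

end Cfsg.Agent.S1279
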