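import Cfsg.Statements.S1286
import Cfsg.Agent.H8.Sig2

set_option autoImplicit false
open Cfsg

namespace Cfsg.Agent.S1286

open Cfsg.Agent.H8

open Subgroup Equiv

abbrev P5 := Perm (Fin 5)
def s : P5 := swap 0 1
def t : P5 := swap 3 4
def c : P5 := swap 2 3 * swap 3 4
def d : P5 := swap 0 1 * swap 1 2

def A4 : Subgroup P5 where
  carrier := {x | x = 1 ∨ x = s ∨ x = t ∨ x = s * t}
  one_mem' := Or.inl rfl
  mul_mem' := by
    rintro a b (rfl | rfl | rfl | rfl) (rfl | rfl | rfl | rfl) <;> simp only [Set.mem_ofPred_eq] <;> decide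
  inv_mem' := by
    rintro a (rfl | rfl | rfl | rfl) <;> simp only [Set.mem_ofPred_eq] <;> decide

theorem mem3 {x y : P5} (h : orderOf x = 3) : y ∈ zpowers x ↔ y = 1 ∨ y = x ∨ y = x * x := by
  rw [mem_zpowers_iff_mem_range_orderOf, h]
  simp [Finset.range_add_one, pow_two, eq_comm, or_comm, or_left_comm, or_assoc]

theorem oc : orderOf c = 3 := orderOf_eq_prime (by decide) (by decide)
theorem od : orderOf d = 3 := orderOf_eq_prime (by decide) (by decide)

noncomputable def th (a : P5) : Subgroup P5 :=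
  if a = s then zpowers c else if a = t then zpowers d else ⊥

theorem th_s : th s = zpowers c := if_pos rfl
theorem th_t : th t = zpowers d := by rw [th, if_neg (by decide), if_pos rfl]
theorem th_st : th (s * t) = ⊥ := by rw [th, if_neg (by decide), if_neg (by decide)]

/-- There exist a finite group X, an elementary abelian subgroup A of order 4 and a solvable A-signalizer functor θ on X for the prime 2 which is not complete. -/
theorem result : ∃ (X : Type) (_ : Group X) (_ : Finite X) (A : Subgroup X) (θ : X → Subgroup X), Cfsg.IsElementaryAbelian 2 A ∧ Nat.card ↥A = 4 ∧ Cfsg.IsSolvableSignalizerFunctor 2 A θ ∧ ¬ Cfsg.IsCompleteSignalizerFunctor 2 A θ := by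
  refine ⟨P5, inferInstance, inferInstance, A4, th, ⟨⟨⟨?_⟩⟩, ?_⟩, ?_, ⟨⟨?_, ?_, ?_, ?_⟩, ?_⟩, ?_⟩
  · rintro ⟨a, rfl | rfl | rfl | rfl⟩ ⟨b, rfl | rfl | rfl | rfl⟩ <;> apply Subtype.ext <;>
      simp only [coe_mul] <;> decide
  · rintro a (rfl | rfl | rfl | rfl) <;> decide
  · have : (A4 : Set P5) = ({1, s, t, s * t} : Finset P5) := by ext; simp [A4]
    change Nat.card (A4 : Set P5) = 4
    rw [this, Nat.card_coe_set_eq, Set.ncard_coe_finset]
    decide
  · rintro a (rfl | rfl | rfl | rfl) h1
    · exact absurd rfl h1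
    · rw [th_s, zpowers_le, mem_centralizer_singleton_iff]; decide
    · rw [th_t, zpowers_le, mem_centralizer_singleton_iff]; decide
    · rw [th_st]; exact bot_le
  · rintro a (rfl | rfl | rfl | rfl) h1
    · exact absurd rfl h1
    · rw [th_s, Nat.card_zpowers, oc]; decide
    · rw [th_t, Nat.card_zpowers, od]; decide
    · rw [th_st, card_bot]; decide
  · rintro a (rfl | rfl | rfl | rfl) h1 b hb x hx
    · exact absurd rfl h1
    · rw [th_s, mem3 oc] at hx ⊢
      rcases hb with rfl | rfl | rfl | rfl <;> rcases hx with rfl | rfl | rfl <;> decide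
    · rw [th_t, mem3 od] at hx ⊢
      rcases hb with rfl | rfl | rfl | rfl <;> rcases hx with rfl | rfl | rfl <;> decide
    · rw [th_st, mem_bot] at hx ⊢; simp [hx]
  · rintro a (rfl | rfl | rfl | rfl) h1 b hb h2 x hx
    · exact absurd rfl h1
    · obtain ⟨h3, h4⟩ := mem_inf.1 hx
      rw [th_s, mem3 oc] at h3
      rw [mem_centralizer_singleton_iff] at h4
      rcases hb with rfl | rfl | rfl | rfl
      · exact absurd rfl h2
      · rwa [th_s, mem3 oc]
      all_goals rcases h3 with rfl | rfl | rfl <;> first | exact one_mem _ | exact absurd h4 (by decide)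
    · obtain ⟨h3, h4⟩ := mem_inf.1 hx
      rw [th_t, mem3 od] at h3
      rw [mem_centralizer_singleton_iff] at h4
      rcases hb with rfl | rfl | rfl | rfl
      · exact absurd rfl h2
      · rcases h3 with rfl | rfl | rfl <;> first | exact one_mem _ | exact absurd h4 (by decide)
      · rwa [th_t, mem3 od]
      · rcases h3 with rfl | rfl | rfl <;> first | exact one_mem _ | exact absurd h4 (by decide)
    · rw [th_st, bot_inf_eq, mem_bot] at hx; rw [hx]; exact one_mem _
  · rintro a (rfl | rfl | rfl | rfl) h1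
    · exact absurd rfl h1
    · rw [th_s]; exact H1.isSolvable_zpowers _
    · rw [th_t]; exact H1.isSolvable_zpowers _
    · rw [th_st]; infer_instance
  · rintro ⟨-, X, -, h2, h3⟩
    have hc : c ∈ X := ((h3 s (Or.inr (Or.inl rfl)) (by decide)).ge.trans inf_le_left)
      (by rw [th_s]; exact mem_zpowers c)
    have hd : d ∈ X := ((h3 t (Or.inr (Or.inr (Or.inl rfl))) (by decide)).ge.trans inf_le_left)
      (by rw [th_t]; exact mem_zpowers d)
    have h4 : orderOf (c * d * c⁻¹ * d) = 2 := orderOf_eq_prime (by decide) (by decide)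
    exact h2 (h4 ▸ orderOf_dvd_natCard X (mul_mem (mul_mem (mul_mem hc hd) (inv_mem hc)) hd))

end Cfsg.Agent.S1286
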