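import Cfsg.Statements.S1289
import Cfsg.Agent.H8.PComp

set_option autoImplicit false
open Cfsg

namespace Cfsg.Agent.S1289

open Cfsg.Agent.H8

open Subgroup

/-- A p-component K of the finite group X is subnormal, perfect, of order divisible by p, and minimal among the subnormal perfect subgroups of X of order divisible by p. -/
theorem result {X : Type*} [Group X] [Finite X] (p : ℕ) [Fact p.Prime] (K : Subgroup X) (hK : Cfsg.IsPComponent p K) : K.IsSubnormal ∧ ⁅K, K⁆ = K ∧ p ∣ Nat.card ↥K ∧ ∀ H : Subgroup X, H ≤ K → H.IsSubnormal → ⁅H, H⁆ = H → p ∣ Nat.card ↥H → H = K := by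
  have h := pcomp_top_iff.2 hK
  refine ⟨hK.1, h.perfect, h.pqs.dvd, fun H h1 h2 h3 h4 => ?_⟩
  refine (h.pqs.sn (SN.of_top h2 h1)).resolve_right fun h5 => ?_
  refine coprime_iff_not_dvd.1 (coprime_of_le ?_ (Opp_coprime p K)) h4
  rw [← h3]
  exact (commutator_mono le_rfl h1).trans h5

end Cfsg.Agent.S1289
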