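import Cfsg.Statements.S1298
import Cfsg.Agent.H8.Local2

set_option autoImplicit false
open Cfsg

namespace Cfsg.Agent.S1298

open Cfsg.Agent.H8

open Subgroup

/-- Let G be finite and k ≥ 1. Suppose that for every x of order p, writing C = C_G(x), every component K of C / O_{p'}(C) has K / Z(K) locally k-balanced for p. Then G is k-balanced for p. -/
theorem result {G : Type*} [Group G] [Finite G] (p k : ℕ) [Fact p.Prime] (hk : 1 ≤ k) (h : ∀ x : G, orderOf x = p → ∀ K : Subgroup (↥(Subgroup.centralizer ({x} : Set G)) ⧸ Cfsg.pPrimeCore p ↥(Subgroup.centralizer ({x} : Set G))), Cfsg.IsComponent K → Cfsg.IsLocallyKBalanced p k (↥K ⧸ Subgroup.center ↥K)) : Cfsg.IsKBalanced p k G := by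
  intro A hA hAk b hb hAb
  set C := centralizer ({b} : Set G)
  let f := QuotientGroup.mk' (Cfsg.pPrimeCore p C)
  have hf : Function.Surjective f := QuotientGroup.mk'_surjective _
  have hkr : kr f = Opp p C := kr_mk' _
  have hc : ∀ H : Subgroup G, (Nat.card ↥(kr f ⊓ H)).Coprime p := fun H => by
    rw [hkr]; exact coprime_of_le inf_le_left (Opp_coprime p C)
  have hAC : A ≤ C := fun a ha => mem_centralizer_singleton_iff.2 (hAb a ha)
  have hO := Opp_im_eq_bot f le_rfl hkr
  have h1 := eq_bot_of_locallyKBalanced hk hO (isElementaryAbelian_im f hA)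
    (by rw [card_im_of_inf_eq_bot f hAC (eq_bot_of_pgroup_coprime
      (L.IsElementaryAbelian.isPGroup hA).to_inf_right (hc A)), hAk]) (im_mono f hAC)
    (D := im f (Cfsg.signalizerDelta p A ⊓ C)) (by
      rintro _ ⟨a, ha, rfl⟩ h1
      have h2 : (a : G) ≠ 1 := fun e => h1 (by rw [show a = 1 from Subtype.ext e, map_one])
      have h3 : zpowers (a : G) ≤ C := zpowers_le_of_mem a.2
      rw [← centralizer_zpowers, ← im_zpowers f a.2, ← im_inf_centralizer f
        ((L.IsElementaryAbelian.isPGroup hA).to_le (zpowers_le_of_mem (g := (a : G)) ha)) h3 le_rfl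
        (h3.trans le_normalizer) (hc _), ← im_Opp_eq f inf_le_left (hc _), centralizer_zpowers]
      refine im_mono f (le_trans ?_ (inf_Opp_le p inf_le_right))
      exact le_inf (inf_le_left.trans (iInf_le _ (⟨a, ha, h2⟩ : {a : G // a ∈ A ∧ a ≠ 1})))
        (le_inf inf_le_right ((inf_le_left.trans (iInf_le _
          (⟨a, ha, h2⟩ : {a : G // a ∈ A ∧ a ≠ 1}))).trans (Opp_le p _))))
    (fun K hK => h b hb K (comp_top_iff.1 (by rwa [im_self_of_surj f hf] at hK)))
  rwa [im_eq_bot_iff f inf_le_right, hkr] at h1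

end Cfsg.Agent.S1298
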