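import Cfsg.Statements.S1297
import Cfsg.Agent.H8.Sig0
import Cfsg.Agent.S1298

set_option autoImplicit false
open Cfsg

namespace Cfsg.Agent.S1297

open Cfsg.Agent.H8


/-- Let G be finite. Suppose that for every involution x, writing C = C_G(x), every component K of C / O(C) has K / Z(K) locally balanced. Then G is balanced. -/
theorem result {G : Type*} [Group G] [Finite G] (h : ∀ x : G, orderOf x = 2 → ∀ K : Subgroup (↥(Subgroup.centralizer ({x} : Set G)) ⧸ Cfsg.oddCore ↥(Subgroup.centralizer ({x} : Set G))), Cfsg.IsComponent K → Cfsg.IsLocallyBalanced (↥K ⧸ Subgroup.center ↥K)) : Cfsg.IsBalanced G := by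
  rw [isBalanced_iff]
  refine Cfsg.Agent.S1298.result 2 1 le_rfl fun x hx K hK H hH A hA hA2 => ?_
  obtain ⟨y, hy, rfl⟩ := exists_zpowers_of_card_prime (hA2.trans (pow_one 2))
  rw [signalizerDelta_zpowers hy]
  exact h x hx K hK H hH y hy

end Cfsg.Agent.S1297
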