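import Cfsg.Statements.S1299
import Cfsg.Agent.H8.Sig2

set_option autoImplicit false
open Cfsg

namespace Cfsg.Agent.S1299

open Cfsg.Agent.H8

open Subgroup

/-- Let G be finite and k-balanced for the prime p (k ≥ 1), A an elementary abelian p-subgroup of order at least p^(k+2) such that O_{p'}(C_G(a)) is solvable for every non-identity a ∈ A. For a ∈ A put θ a = the subgroup generated by the Δ_G(D) ∩ C_G(a) over the subgroups D ≤ A of order p^k. Then θ is an A-signalizer functor. -/
theorem result {G : Type*} [Group G] [Finite G] (p k : ℕ) [Fact p.Prime] (hk : 1 ≤ k) (hbal : Cfsg.IsKBalanced p k G) (A : Subgroup G) (hA : Cfsg.IsElementaryAbelian p A) (hAk : p ^ (k + 2) ≤ Nat.card ↥A) (hsolv : ∀ a ∈ A, a ≠ 1 → Group.IsSolvable ↥(Cfsg.centralizerPPrimeCore p a)) : Cfsg.IsSignalizerFunctor p A (fun a => ⨆ D : {D : Subgroup G // D ≤ A ∧ Nat.card ↥D = p ^ k}, Cfsg.signalizerDelta p (D : Subgroup G) ⊓ Subgroup.centralizer {a}) := by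
  have hb : ∀ D : Subgroup G, D ≤ A → Nat.card D = p ^ k → ∀ b ∈ A, b ≠ 1 →
      Cfsg.signalizerDelta p D ⊓ centralizer {b} ≤ Opp p (centralizer {b}) := fun D h1 h2 b h3 h4 =>
    hbal D (elem_of_le hA h1) h2 b (orderOf_eq_of_elem hA h3 h4) fun a ha =>
      mem_centralizer_singleton_iff.1 (elem_le_centralizer hA h3 (h1 ha))
  have hle : ∀ a ∈ A, a ≠ 1 → (⨆ D : {D : Subgroup G // D ≤ A ∧ Nat.card ↥D = p ^ k},
      Cfsg.signalizerDelta p (D : Subgroup G) ⊓ centralizer {a}) ≤ Opp p (centralizer {a}) :=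
    fun a ha h1 => iSup_le fun D => hb _ D.2.1 D.2.2 a ha h1
  refine sf_mk (fun a ha h1 => iSup_le fun _ => inf_le_right)
    (fun a ha h1 => coprime_of_le (hle a ha h1) (Opp_coprime _ _))
    (fun a ha h1 => le_normalizer_iSup fun D => le_normalizer_inf
      ((elem_le_centralizer_of_le hA D.2.1).trans (centralizer_le_normalizer_signalizerDelta p _))
      (comm_le_normalizer_centralizer_singleton hA.1 ha)) fun a ha h1 b hb' h2 => ?_
  refine le_trans (inf_le_inf_right _ (iSup_mono fun D => ?_)) (delta_balanced hk hA hAk hb hb'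
    (M := Opp p (centralizer {a})) (hsolv a ha h1) (Opp_coprime _ _)
    (le_normalizer_Opp_of p (comm_le_normalizer_centralizer_singleton hA.1 ha)))
  exact le_inf inf_le_left (hb _ D.2.1 D.2.2 a ha h1)

end Cfsg.Agent.S1299
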