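import Cfsg.Statements.S1303
import Mathlib
import Cfsg.Agent.H2.SL23
import Cfsg.Agent.H9.GT
import Cfsg.Agent.H1.Burnside

set_option autoImplicit false
open Cfsg

namespace Cfsg.Agent.S1303

open Cfsg.Agent.H2 Subgroup

/-- The group X = SL(2, 3): it is 2-constrained, O_{2'}(X) = 1, its centre A = Z(X) contains every involution of X = C_X(A), and X has a subgroup of order 3 (normalized by A) not contained in O_{2'}(X). -/
theorem result : Cfsg.IsPConstrained 2 (Matrix.SpecialLinearGroup (Fin 2) (ZMod 3)) ∧ Cfsg.pPrimeCore 2 (Matrix.SpecialLinearGroup (Fin 2) (ZMod 3)) = ⊥ ∧ (∀ t : Matrix.SpecialLinearGroup (Fin 2) (ZMod 3), orderOf t = 2 → t ∈ Subgroup.center (Matrix.SpecialLinearGroup (Fin 2) (ZMod 3))) ∧ ∃ Q : Subgroup (Matrix.SpecialLinearGroup (Fin 2) (ZMod 3)), Nat.card ↥Q = 3 ∧ ¬ (Q ≤ Cfsg.pPrimeCore 2 (Matrix.SpecialLinearGroup (Fin 2) (ZMod 3))) := by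
  have h20 : (2 : ZMod 3) ≠ 0 := by decide
  haveI := Fact.mk Nat.prime_three
  have h1 : pPrimeCore 2 SL23 = ⊥ := by
    have h := H8.Opp_coprime 2 (⊤ : Subgroup SL23)
    rw [H8.Opp_top] at h
    rcases normal_SL23 (pPrimeCore 2 SL23) with e | e | e | e
    · exact e
    · rw [e, card_top, card_SL23] at h; norm_num at h
    · rw [e, card_center_SL23] at h; norm_num at h
    · rw [e, card_Q23] at h; norm_num at h
  refine ⟨?_, h1, fun t ht => H4.mem_center_SL2.2 ((H4.sq_eq_one_iff_SL (K := ZMod 3) h20).1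
    (orderOf_dvd_iff_pow_eq_one.1 ht.dvd)), ?_⟩
  · rw [H8.isPConstrained_iff]
    rw [← H8.PLay_top]
    exact H8.PLay_top_eq_bot_of_isPSolvable (H9.pSolv_of_solvable
      (H1.isSolvable_of_card_eq_two_primes (p := 2) (q := 3) (a := 3) (b := 1) Nat.prime_two
        Nat.prime_three card_SL23))
  · obtain ⟨g, hg⟩ := exists_prime_orderOf_dvd_card' (G := SL23) 3 (by rw [card_SL23]; norm_num)
    refine ⟨zpowers g, by rw [Nat.card_zpowers, hg], ?_⟩
    rw [h1, le_bot_iff, zpowers_eq_bot]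
    rintro rfl; simp at hg

end Cfsg.Agent.S1303
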