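import Cfsg.Statements.S1314
import Cfsg.Agent.H8.Local2

set_option autoImplicit false
open Cfsg

namespace Cfsg.Agent.S1314

open Cfsg.Agent.H8

open Subgroup

/-- Let x be an involution of a group G and L a perfect subgroup with ⁅L, x L x⁻¹⁆ = 1. Then l ↦ l (x l x⁻¹) is a group homomorphism π from L to G whose kernel is central in L and whose image lies in C_G(x); and the commutator subgroup of C_{L ⊔ xLx⁻¹}(x) equals the image of π. -/
theorem result {G : Type*} [Group G] [Finite G] (x : G) (hx : orderOf x = 2) (L : Subgroup G) (hperf : ⁅L, L⁆ = L) (hcomm : ⁅L, L.map (MulAut.conj x).toMonoidHom⁆ = ⊥) : ∃ π : ↥L →* G, (∀ l : ↥L, π l = (l : G) * (x * (l : G) * x⁻¹)) ∧ π.ker ≤ Subgroup.center ↥L ∧ π.range ≤ Subgroup.centralizer ({x} : Set G) ∧ ⁅(L ⊔ L.map (MulAut.conj x).toMonoidHom) ⊓ Subgroup.centralizer ({x} : Set G), (L ⊔ L.map (MulAut.conj x).toMonoidHom) ⊓ Subgroup.centralizer ({x} : Set G)⁆ = π.range := by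
  have hx2 : x ^ 2 = 1 := hx ▸ pow_orderOf_eq_one x
  have hxi : x⁻¹ = x := by rw [inv_eq_iff_mul_eq_one, ← pow_two, hx2]
  obtain ⟨δ, h1, h2, h3, h4⟩ := exists_diag (L := L) hx2 two_pos (fun i h0 h2 => by
    rw [show i = 1 by omega, pow_one]; exact hcomm)
  have h5 : ∀ l : L, δ l = (l : G) * (x * (l : G) * x⁻¹) := fun l => by
    rw [h1, pow_two, hxi]; group
  have hLc : cj L x ≤ centralizer (L : Set G) :=
    commutator_eq_bot_iff_le_centralizer.1 (commutator_eq_bot_symm hcomm)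
  have hr : δ.range ≤ (L ⊔ cj L x) ⊓ centralizer {x} := by
    rintro _ ⟨l, rfl⟩
    exact ⟨h5 l ▸ mul_mem (mem_sup_left l.2) (mem_sup_right (conj_mem_cj l.2)), h4 l⟩
  refine ⟨δ, h5, fun l hl => ?_, hr.trans inf_le_right, le_antisymm ?_ ?_⟩
  · have := h3 l
    rw [MonoidHom.mem_ker.1 hl, mul_one, inv_mem_iff] at this
    rwa [← centralizer_subgroupOf_self]
  · set D := L ⊔ cj L x
    have h6 : D ⊓ centralizer {x} ≤ δ.range ⊔ (D ⊓ centralizer (D : Set G)) := by
      intro c hc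
      obtain ⟨a, ha, b, hb, rfl⟩ := mem_sup_of_norm_right
        (le_normalizer_of_commutator_eq_bot hcomm) hc.1
      have hc2 := mem_centralizer_singleton_iff.1 hc.2
      have hb' : x * b * x⁻¹ ∈ L := by
        have := mem_cj.1 hb
        rw [hxi] at this ⊢
        exact this
      have e : (x * a * x⁻¹)⁻¹ * b = a⁻¹ * (x * b * x⁻¹) := by
        have h7 : a * (x * a * x⁻¹)⁻¹ = (x * a * x⁻¹)⁻¹ * a := hLc (inv_mem (conj_mem_cj ha)) a ha
        calc (x * a * x⁻¹)⁻¹ * b = a⁻¹ * (a * (x * a * x⁻¹)⁻¹) * b := by group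
          _ = a⁻¹ * ((x * a * x⁻¹)⁻¹ * (a * b * x) * x⁻¹) := by rw [h7]; group
          _ = _ := by rw [hc2]; group
      have h8 : (x * a * x⁻¹)⁻¹ * b ∈ cj L x := mul_mem (inv_mem (conj_mem_cj ha)) hb
      have h9 : (x * a * x⁻¹)⁻¹ * b ∈ L := e ▸ mul_mem (inv_mem ha) hb'
      have e2 : a * b = δ ⟨a, ha⟩ * ((x * a * x⁻¹)⁻¹ * b) := by rw [h5]; group
      rw [e2]
      refine mul_mem (mem_sup_left ⟨_, rfl⟩) (mem_sup_right ⟨mem_sup_left h9, ?_⟩)
      rw [centralizer_sup_eq]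
      exact ⟨hLc h8, le_centralizer_iff.1 hLc h9⟩
    refine (commutator_mono h6 h6).trans ?_
    have hz : ∀ K : Subgroup G, K ≤ D → ⁅D ⊓ centralizer (D : Set G), K⁆ = ⊥ := fun K hK =>
      commutator_eq_bot_mono (commutator_center_self D) le_rfl hK
    have hrD : δ.range ≤ D := hr.trans inf_le_left
    have hn : δ.range ⊔ D ⊓ centralizer (D : Set G) ≤ normalizer (δ.range : Set G) :=
      sup_le le_normalizer (le_normalizer_of_commutator_eq_bot (hz _ hrD))
    refine commutator_sup_le_of_norm (commutator_le_left_of_norm hn) ?_ hn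
    rw [hz _ (sup_le hrD inf_le_left)]; exact bot_le
  · have : ⁅δ.range, δ.range⁆ = δ.range := by
      rw [← im_self, ← im_commutator δ le_rfl le_rfl, hperf]
    rw [← this]
    exact commutator_mono hr hr

end Cfsg.Agent.S1314
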