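import Cfsg.Statements.S1316
import Cfsg.Agent.H8.FStar

set_option autoImplicit false
open Cfsg

namespace Cfsg.Agent.S1316

open Cfsg.Agent.H8

open Subgroup

theorem aux {G : Type*} [Group G] (X : Subgroup G) (n : ℕ) :
    (derivedSeries X (n + 1)).map X.subtype =
      ⁅(derivedSeries X n).map X.subtype, (derivedSeries X n).map X.subtype⁆ := by
  rw [derivedSeries_succ, map_commutator]

/-- For a finite group X, E(X) equals the intersection of the derived series of F*(X) (its last term). -/
theorem result {X : Type*} [Group X] [Finite X] : (⨅ n : ℕ, (derivedSeries ↥(Cfsg.generalizedFittingSubgroup X) n).map (Cfsg.generalizedFittingSubgroup X).subtype) = Cfsg.layer X := by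
  rw [← Fs_top, ← Lay_top]
  apply le_antisymm
  · obtain ⟨n, hn⟩ := (solvable_of_nilpotent (Fit_nilpotent (⊤ : Subgroup X))).solvable
    have : ∀ m, (derivedSeries (Fs (⊤ : Subgroup X)) m).map (Fs ⊤).subtype ≤
        Lay ⊤ ⊔ (derivedSeries (Fit (⊤ : Subgroup X)) m).map (Fit ⊤).subtype := by
      intro m
      induction m with
      | zero => rw [derivedSeries_zero, derivedSeries_zero, map_subtype_top, map_subtype_top, Fs_eq]
      | succ m ih =>
        rw [aux, aux]
        refine (commutator_mono ih ih).trans ?_
        set A := (derivedSeries (Fit (⊤ : Subgroup X)) m).map (Fit ⊤).subtype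
        have hn : Lay ⊤ ⊔ A ≤ normalizer ((Lay ⊤ ⊔ ⁅A, A⁆ : Subgroup X) : Set X) :=
          le_normalizer_sup (le_top.trans (le_normalizer_Lay ⊤)) (sup_le
            (le_normalizer_of_commutator_eq_bot (commutator_eq_bot_mono (commutator_Lay_Fit ⊤)
              le_rfl ((commutator_le_self A).trans (map_subtype_le _))))
            (normalizer_commutator_ge_left A A))
        refine commutator_sup_le_of_norm ?_ ?_ hn
        · exact (commutator_le_left_of_norm (le_top.trans (le_normalizer_Lay ⊤))).trans le_sup_left
        · rw [commutator_comm]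
          refine commutator_sup_le_of_norm ?_ le_sup_right hn
          exact (commutator_le_left_of_norm (le_top.trans (le_normalizer_Lay ⊤))).trans le_sup_left
    refine (iInf_le _ n).trans ((this n).trans ?_)
    rw [hn, Subgroup.map_bot, sup_bot_eq]
  · refine le_iInf fun n => ?_
    induction n with
    | zero => rw [derivedSeries_zero, map_subtype_top]; exact Lay_le_Fs ⊤
    | succ n ih => rw [aux, ← Lay_perfect ⊤]; exact commutator_mono ih ih

end Cfsg.Agent.S1316
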