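import Cfsg.Statements.S1319
import Cfsg.Agent.H8.FStar

set_option autoImplicit false
open Cfsg

namespace Cfsg.Agent.S1319

open Cfsg.Agent.H8

open Subgroup

/-- Let A be a subnormal subgroup of the finite group X with E(A) = A. Then A ≤ E(X) and A is normal in E(X). -/
theorem result {X : Type*} [Group X] [Finite X] (A : Subgroup X) (hsn : A.IsSubnormal) (hA : Cfsg.layer ↥A = ⊤) : A ≤ Cfsg.layer X ∧ (A.subgroupOf (Cfsg.layer X)).Normal := by
  have h1 : Lay A = A := map_subtype_eq_self_iff.2 hA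
  have h2 := Lay_eq_of_sn (SN.of_isSubnormal hsn)
  rw [h1] at h2
  rw [← Lay_top]
  refine ⟨h2 ▸ LayP_le_Lay, normal_subgroupOf_of_le_normalizer ?_⟩
  rw [h2]; exact Lay_le_normalizer_LayP

end Cfsg.Agent.S1319
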