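import Cfsg.Statements.S1321
import Cfsg.Agent.H8.FStar

set_option autoImplicit false
open Cfsg

namespace Cfsg.Agent.S1321

open Cfsg.Agent.H8

open Subgroup

/-- Let X be finite and U ≤ X. Then E(X) is generated by C_{E(X)}(U) together with ⁅E(X), U⁆ (indeed it is their product, ⁅E(X), U⁆ being normal in E(X)). -/
theorem result {X : Type*} [Group X] [Finite X] (U : Subgroup X) : Cfsg.layer X = (Cfsg.layer X ⊓ Subgroup.centralizer (U : Set X)) ⊔ ⁅Cfsg.layer X, U⁆ ∧ ⁅Cfsg.layer X, U⁆ ≤ Cfsg.layer X := by
  have := layer_normal (G := X)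
  refine ⟨le_antisymm ?_ (sup_le inf_le_left (commutator_le_left _ _)), commutator_le_left _ _⟩
  refine sSup_le fun K hK => ?_
  rcases (comp_top_iff.2 hK).le_commutator_or_comm (U := U) (le_normalizer_top _) with h | h
  · exact h.trans ((commutator_mono (le_layer hK) le_rfl).trans le_sup_right)
  · exact (le_inf (le_layer hK) (commutator_eq_bot_iff_le_centralizer.1 h)).trans le_sup_left

end Cfsg.Agent.S1321
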