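import Cfsg.Statements.S1328
import Cfsg.Agent.H8.Local2

set_option autoImplicit false
open Cfsg

namespace Cfsg.Agent.S1328

open Cfsg.Agent.H8

open Subgroup

/-- Let G be finite, H ≤ G with O(H) = 1, t an involution of G normalizing H, and Y a nontrivial subgroup of O(C_H(t)). Then some component E of H is normalized by t and by Y and centralized by neither t nor Y. -/
theorem result {G : Type*} [Group G] [Finite G] (H : Subgroup G) (hO : Cfsg.oddCore ↥H = ⊥) (t : G) (ht : orderOf t = 2) (htH : t ∈ Subgroup.normalizer (H : Set G)) (Y : Subgroup G) (hY1 : Y ≠ ⊥) (hY : Y ≤ (Cfsg.oddCore ↥(H ⊓ Subgroup.centralizer ({t} : Set G))).map (H ⊓ Subgroup.centralizer ({t} : Set G)).subtype) : ∃ E : Subgroup ↥H, Cfsg.IsComponent E ∧ (E.map H.subtype).map (MulAut.conj t).toMonoidHom = E.map H.subtype ∧ Y ≤ Subgroup.normalizer ((E.map H.subtype : Subgroup G) : Set G) ∧ ¬ (t ∈ Subgroup.centralizer ((E.map H.subtype : Subgroup G) : Set G)) ∧ ¬ (Y ≤ Subgroup.centralizer ((E.map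 H.subtype : Subgroup G) : Set G)) := by
  have hO' : Opp 2 H = ⊥ := map_subtype_eq_bot_iff.2 hO
  have ht' : orderOf t = 2 ^ 1 := by simpa using ht
  have h1 : ¬ ∀ K, Comp H K → ⁅K, Y⁆ = ⊥ := fun h => hY1 (eq_bot_of_comm_Lay hO' (isPGroup_zpowers ht')
    (zpowers_le_of_mem htH) (by rwa [centralizer_zpowers]) h)
  push Not at h1
  obtain ⟨K, hK, h1⟩ := h1
  have h2 : ⁅K, zpowers t⁆ = K := by
    by_contra h2
    exact h1 (commutator_eq_bot_mono (hK.comm_Opp_centralizer hO' ht htH h2) le_rfl hY)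
  refine ⟨K.subgroupOf H, (comp_iff.1 hK).2, ?_⟩
  rw [map_subgroupOf_eq_of_le hK.le]
  refine ⟨mem_normalizer_iff_cj.1 ?_, hY.trans (le_sup_right.trans
    (local_le_normalizer' hO' ht' htH hK)), fun h => ?_, fun h => h1 ?_⟩
  · rw [← h2]; exact normalizer_commutator_ge_right _ _ (mem_zpowers t)
  · rw [commutator_zpowers_eq_bot_iff.2 (le_centralizer_singleton_iff.2 h)] at h2
    exact hK.ne_bot h2.symm
  · exact commutator_eq_bot_symm (commutator_eq_bot_iff_le_centralizer.2 h)

end Cfsg.Agent.S1328
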