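import Cfsg.Statements.S1336
import Cfsg.Agent.H8.Conn

set_option autoImplicit false
open Cfsg

namespace Cfsg.Agent.S1336

open Cfsg.Agent.H8

open Subgroup Cfsg.Agent.SF Cfsg.Agent.BG Cfsg.Agent.H2

/-- Let G be finite and p prime. Then G has a proper subgroup H with p ∣ |H| and p ∤ |H ∩ gHg⁻¹| for every g ∉ H (a strongly p-embedded subgroup) if and only if G is not 1-connected for p. -/
theorem result {G : Type*} [Group G] [Finite G] (p : ℕ) [Fact p.Prime] : (∃ H : Subgroup G, H ≠ ⊤ ∧ p ∣ Nat.card ↥H ∧ ∀ g : G, g ∉ H → ¬ p ∣ Nat.card ↥(H ⊓ H.map (MulAut.conj g).toMonoidHom)) ↔ ¬ Cfsg.IsKConnected p 1 G := by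
  obtain ⟨S, hS⟩ := exists_sylIn p (⊤ : Subgroup G)
  rw [kConn_iff']
  have e : (∃ H : Subgroup G, H ≠ ⊤ ∧ p ∣ Nat.card ↥H ∧ ∀ g : G, g ∉ H →
      ¬ p ∣ Nat.card ↥(H ⊓ H.map (MulAut.conj g).toMonoidHom)) ↔ ∃ H : Subgroup G, IsStronglyPEmbedded p H :=
    exists_congr fun _ => spe_iff_inf.symm
  rw [e]
  constructor
  · rintro ⟨H, hH⟩ hc
    obtain ⟨P, hP⟩ := exists_sylIn p H
    have h1 := Gam_eq_top_of_allConn (spe_sylIn hH hP)
      (not_rank_zero_iff.2 (BL.dvd_card_of_pgroup hP.pgrp (hP.ne_bot (spe_dvd hH)) le_rfl)) hc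
    exact (spe_iff.1 hH).1 (top_le_iff.1 (h1 ▸ Gam_le fun Q h2 h3 =>
      spe_normalizer_le' hH (not_rank_zero_iff.1 h3) (h2.trans hP.le)))
  · intro hc
    have h1 : Gam p 0 S ≠ ⊤ := fun e => hc (allConn_of_Gam hS (allConn_one hS.pgrp) e)
    have h2 : ¬ PRankLE p 0 S := fun e => hc fun A B hA _ =>
      (not_rank_iff.2 (exists_vx_sylIn hS (hA.not_rank le_top)) e).elim
    have h3 : S ≤ Gam p 0 S := le_normalizer.trans (le_Gam le_rfl h2)
    refine ⟨_, spe_iff.2 ⟨h1, (not_rank_zero_iff.1 h2).trans (card_dvd_of_le h3), fun g x hx h4 h5 => ?_⟩⟩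
    exact mem_of_Gam hS h3 le_rfl (zpowers_le.2 hx) (isPGroup_zpowers_of_eq h4)
      (not_rank_zero_iff.2 (dvd_card_of_orderOf_eq (mem_zpowers x) h4))
      (by rw [H2.cj_zpowers]; exact zpowers_le.2 h5)

end Cfsg.Agent.S1336
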