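import Cfsg.Statements.S1337
import Cfsg.Agent.H8.Conn

set_option autoImplicit false
open Cfsg

namespace Cfsg.Agent.S1337

open Cfsg.Agent.H8

open Subgroup Cfsg.Agent.SF Cfsg.Agent.BG Cfsg.Agent.H2

/-- Let P be a finite p-group of p-rank greater than 2. Then P has a normal elementary abelian subgroup U of order p², and for every elementary abelian X ≤ P with |X| ≥ p²: X is joined to U by a chain of pairwise commuting elementary abelian subgroups of order ≥ p² if and only if C_P(X) has p-rank greater than 2. -/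
theorem result {P : Type*} [Group P] [Finite P] (p : ℕ) [Fact p.Prime] (hP : IsPGroup p P) (hrk : ¬ Cfsg.PRankLE p 2 P) : ∃ U : Subgroup P, U.Normal ∧ Cfsg.IsElementaryAbelian p U ∧ Nat.card ↥U = p ^ 2 ∧ ∀ X : Subgroup P, Cfsg.IsElementaryAbelian p X → p ^ 2 ≤ Nat.card ↥X → (Relation.ReflTransGen (fun A B : Subgroup P => Cfsg.IsElementaryAbelian p A ∧ p ^ 2 ≤ Nat.card ↥A ∧ Cfsg.IsElementaryAbelian p B ∧ p ^ 2 ≤ Nat.card ↥B ∧ ∀ a ∈ A, ∀ b ∈ B, a * b = b * a) X U ↔ ¬ Cfsg.PRankLE p 2 ↥(Subgroup.centralizer (X : Set P))) := by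
  obtain ⟨U, h1, h2, h3⟩ := exists_normal_p2 hP hrk
  have hU : Vx p 2 ⊤ U := ⟨le_top, h2, h3.ge⟩
  have key : ∀ E : Subgroup P, Vx p 3 ⊤ E → Vx p 2 ⊤ (E ⊓ 𝒞 U) := fun E hE =>
    ⟨le_top, elem_of_le hE.elem inf_le_left, pow_le_card_inf_cent hE.pg hE.card
      (le_top.trans (normal_iff_top_le.1 h1)) h3.dvd⟩
  refine ⟨U, h1, h2, h3, fun X h4 h5 => ?_⟩
  have hX : Vx p 2 ⊤ X := ⟨le_top, h4, h5⟩
  rw [← conn_top_iff]
  constructor
  · intro hc
    refine hc.symm.ind (I := fun X => ¬ PRankLE p 2 (𝒞 X)) ?_ fun A B hA hB h6 h7 => ?_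
    · obtain ⟨E, hE⟩ := not_rank_iff'.1 hrk
      rcases (key E hE).eq_or hU inf_le_right with e | e
      · exact hE.not_rank (le_cent_of_comm hE.elem.1 le_rfl (e ▸ inf_le_left))
      · exact e.not_rank (sup_le inf_le_right (le_cent_self h2.1))
    · rcases hA.eq_or hB h6 with e | e
      · exact e ▸ h7
      · exact e.not_rank (sup_le h6 (le_cent_self hB.elem.1))
  · intro hc
    obtain ⟨E, hE⟩ := not_rank_iff.1 hc
    exact (Conn.single (key E hE.top) hX (inf_le_left.trans hE.le)).symm.trans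
      (Conn.single (key E hE.top) hU inf_le_right)

end Cfsg.Agent.S1337
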