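import Cfsg.Statements.S1343
import Cfsg.Agent.H8.ExtLayer

set_option autoImplicit false
open Cfsg

namespace Cfsg.Agent.S1343

open Cfsg.Agent.H8

open Subgroup

/-- Let X be finite. Then L*_{2'}(X) = L_{2'}(X) ⊔ F for some subgroup F of odd order normalized by a Sylow 2-subgroup of X. -/
theorem result {X : Type*} [Group X] [Finite X] : ∃ F : Subgroup X, Odd (Nat.card ↥F) ∧ (∃ S : Sylow 2 X, (S : Subgroup X) ≤ Subgroup.normalizer (F : Set X)) ∧ Cfsg.extendedTwoLayer X = Cfsg.pLayer 2 X ⊔ F := by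
  have := pLayer_normal (p := 2) (G := X)
  have := pPrimePCore_normal (G := X) 2
  let S : Sylow 2 X := default
  have hT := H2.sylow_inf_normal S (Cfsg.pLayer 2 X ⊔ Cfsg.pPrimePCore 2 X)
  refine ⟨_, ?_, ⟨S, ?_⟩, (extLayer_eq hT).trans (sup_assoc _ _ _)⟩
  · rw [← Nat.coprime_two_right, sup_comm]
    exact coprime_sup le_normalizer_of_normal (Opp_coprime 2 _) (L.pPrimeCore_coprime 2)
  · exact le_normalizer_sup le_normalizer_of_normal (le_normalizer_Opp_of 2
      (le_normalizer_centralizer (le_normalizer_inf le_normalizer le_normalizer_of_normal)))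

end Cfsg.Agent.S1343
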