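import Cfsg.Statements.S1344
import Cfsg.Agent.H8.ExtLayer

set_option autoImplicit false
open Cfsg

namespace Cfsg.Agent.S1344

open Cfsg.Agent.H8

open Subgroup

/-- Let K be a 2-component of the finite group X. Then K ≤ L*_{2'}(X) and K is normal in L*_{2'}(X). -/
theorem result {X : Type*} [Group X] [Finite X] (K : Subgroup X) (hK : Cfsg.IsPComponent 2 K) : K ≤ Cfsg.extendedTwoLayer X ∧ (K.subgroupOf (Cfsg.extendedTwoLayer X)).Normal := by
  have h := pcomp_top_iff.2 hK
  have h1 := h.le_PLay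
  have h2 := PLay_le_normalizer h
  have h3 := h.Opp_le_normalizer
  rw [PLay_top] at h1 h2
  rw [Opp_top] at h3
  refine ⟨h1.trans (extLayer_le_iff.1 le_rfl).1, normal_subgroupOf_of_le_normalizer
    (extLayer_le_iff.2 ⟨h2, h3, fun T hT => ?_⟩)⟩
  have := le_sup_right.trans (local_le_normalizer_pcomp hT.pgrp (le_normalizer_top _) h)
  rwa [top_inf_eq] at this

end Cfsg.Agent.S1344
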