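import Cfsg.Statements.S1346
import Mathlib
import Cfsg.Agent.H2.LBal

set_option autoImplicit false
open Cfsg

namespace Cfsg.Agent.S1346

open Cfsg.Agent.H2 Subgroup

/-- Let G be a finite group all of whose 2-local subgroups have known non-abelian composition factors, and x, y commuting involutions. Then the extended 2-layer of L*_{2'}(C_G(x)) ∩ C_G(y) (as a group) is contained in L*_{2'}(C_G(y)). -/
theorem result {G : Type*} [Group G] [Finite G] (hK : ∀ T : Subgroup G, IsPGroup 2 ↥T → T ≠ ⊥ → Cfsg.IsCompositionKGroup ↥(Subgroup.normalizer (T : Set G))) (x y : G) (hx : orderOf x = 2) (hy : orderOf y = 2) (hxy : x * y = y * x) : (Cfsg.extendedTwoLayer ↥((Cfsg.extendedTwoLayer ↥(Subgroup.centralizer ({x} : Set G))).map (Subgroup.centralizer ({x} : Set G)).subtype ⊓ Subgroup.centralizer ({y} : Set G))).map ((Cfsg.extendedTwoLayer ↥(Subgroup.centralizer ({x} : Set G))).map (Subgroup.centralizer ({x} : Set G)).subtype ⊓ Subgroup.centralizer ({y} : Set G)).subtype ≤ (Cfsg.extendedTwoLayer ↥(Subgroup.centralizer ({y} : Set G))).map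 (Subgroup.centralizer ({y} : Set G)).subtype := by
  have h1 := ELay_cent_le (X := centralizer ({y} : Set G)) (isPGroup_zpowers_ord2 hx)
    (zpowers_le.2 (mem_centralizer_singleton_iff.2 hxy))
  rw [H8.centralizer_zpowers, inf_comm] at h1
  exact (ELay_le_of_sn ((sn_ELay _).inf_right _)).trans h1

end Cfsg.Agent.S1346
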