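import Cfsg.Statements.S1348
import Cfsg.Agent.H4.Std1
import Cfsg.Agent.H4.Bridge

set_option autoImplicit false
open Cfsg

namespace Cfsg.Agent.S1348

/-- Let F be a finite field of odd order, n ≥ 7 odd, and t ∈ SL(n, F) the diagonal matrix with entries −1, …, −1, 1. Then E(C(t)) is a standard subgroup of SL(n, F). -/
theorem result {F : Type*} [Field F] [Fintype F] [DecidableEq F] (hF : Odd (Fintype.card F)) (n : ℕ) (hn : 7 ≤ n) (hodd : Odd n) (t : Matrix.SpecialLinearGroup (Fin n) F) (ht : (t : Matrix (Fin n) (Fin n) F) = Matrix.diagonal (fun i : Fin n => if (i : ℕ) + 1 = n then (1 : F) else -1)) : Cfsg.IsStandardSubgroup ((Cfsg.layer ↥(Subgroup.centralizer ({t} : Set (Matrix.SpecialLinearGroup (Fin n) F)))).map (Subgroup.centralizer ({t} : Set (Matrix.SpecialLinearGroup (Fin n) F))).subtype) := by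
  obtain ⟨m, rfl⟩ := Nat.exists_eq_add_one_of_ne_zero (by omega : n ≠ 0)
  have hm : Even m := by simpa [Nat.odd_add_one] using hodd
  obtain rfl : t = H4.ebkS (F := F) (m := m) (-1) := Subtype.ext (by
    rw [ht, H4.ebkS_coe, ← H4.ebk_scalar]
    simp [-Matrix.scalar_apply, Matrix.det_neg, hm])
  exact H4.standard_ebkS (H4.two_ne_zero_of_odd hF) hm (by omega)

end Cfsg.Agent.S1348
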