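import Cfsg.Statements.S1396
import Cfsg.Agent.BG.S07

set_option autoImplicit false
open Cfsg

namespace Cfsg.Agent.S1396

open Cfsg.Agent.H1

/-- Let G be a minimal simple group of odd order, p a prime dividing the order of G and A an abelian p-subgroup. Suppose either (1) A consists exactly of the elements x of C_G(A) with x^p = 1, and every proper subgroup of G has p-length at most one, or (2) A is normal and self-centralizing in some Sylow p-subgroup of G and has rank at least 2. Then A satisfies the transitivity hypothesis. -/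
theorem result {G : Type*} [Group G] [Finite G] (hG : Cfsg.IsMinSimpleOddOrder G)
    (p : ℕ) [Fact p.Prime] (hp : p ∣ Nat.card G) (A : Subgroup G) (hAp : IsPGroup p A) (hAc : IsMulCommutative A)
    (h : (∀ x ∈ Subgroup.centralizer (A : Set G), x ^ p = 1 ↔ x ∈ A) ∧ (∀ H : Subgroup G, H ≠ ⊤ → Cfsg.PLengthLE p 1 H) ∨
      ∃ P : Sylow p G, Cfsg.IsSCN (P : Subgroup G) A ∧ ¬ Cfsg.PRankLE p 1 A) :
    Cfsg.TransitivityHypothesis A := by
  rcases h with ⟨h1, h2⟩ | ⟨P, h1, h2⟩
  · have hc := Cfsg.Agent.BG.le_cent_self hAc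
    refine Cfsg.Agent.BG.plength_1_normed_constrained hG ?_ (Cfsg.Agent.BG.maxElem_of_forall le_top
      ⟨hAc, fun a ha => (h1 a (hc ha)).2 ha⟩ fun x _ hx e => (h1 x hx).1 e) h2
    rintro rfl
    obtain ⟨x, hx⟩ := exists_prime_orderOf_dvd_card' p hp
    have := (h1 x (by simp [Subgroup.mem_centralizer_iff])).1 (hx ▸ pow_orderOf_eq_one x)
    rw [Subgroup.mem_bot.1 this, orderOf_one] at hx
    exact (Fact.out : p.Prime).one_lt.ne hx
  · exact Cfsg.Agent.BG.SCN_normed_constrained hG (Cfsg.Agent.H2.sylIn_top P) h1 h2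

end Cfsg.Agent.S1396
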