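import Cfsg.Statements.S1411
import Cfsg.Agent.BG.S10
import Cfsg.Agent.BG.Wrap

set_option autoImplicit false
open Cfsg

namespace Cfsg.Agent.S1411

open Cfsg.Agent.H1

/-- Let G be a minimal simple group of odd order, p a prime, P a Sylow p-subgroup of G and V a complement to P in its normalizer N_G(P). Then P equals the commutator subgroup [P, V], and P is contained in the derived subgroup of N_G(P). -/
theorem result {G : Type*} [Group G] [Finite G] (hG : Cfsg.IsMinSimpleOddOrder G) (p : ℕ) [Fact p.Prime] (P : Sylow p G)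
    (V : Subgroup G) (hV : Cfsg.IsComplIn (P : Subgroup G) V (Subgroup.normalizer ((P : Subgroup G) : Set G))) :
    (P : Subgroup G) = ⁅(P : Subgroup G), V⁆ ∧
      (P : Subgroup G) ≤ ⁅Subgroup.normalizer ((P : Subgroup G) : Set G), Subgroup.normalizer ((P : Subgroup G) : Set G)⁆ := by
  exact ⟨(Cfsg.Agent.BG.mFT_Sylow_sdprod_commg hG (Cfsg.Agent.H2.sylIn_top P)
    (Cfsg.Agent.BG.SD.of_isComplIn hV hV.2.1)).symm, Cfsg.Agent.BG.mFT_Sylow_der1 hG (Cfsg.Agent.H2.sylIn_top P)⟩

end Cfsg.Agent.S1411
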