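import Cfsg.Statements.S1414
import Cfsg.Agent.BG.S10
import Cfsg.Agent.BG.Wrap

set_option autoImplicit false
open Cfsg

namespace Cfsg.Agent.S1414

open Cfsg.Agent.H1

/-- Let G be a minimal simple group of odd order, M a maximal subgroup, β(M) the set of ideal primes in α(M), and M_β = O_{β(M)}(M). Then M_β is a Hall β(M)-subgroup of M and of G; M' and M_σ each have a nilpotent Hall β(M)'-subgroup; and for each prime p dividing the order of M with p ∉ β(M), both M' and M_σ have normal p-complements and every prime dividing the index of O_{p'}(M) in M is at most p. -/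
theorem result {G : Type*} [Group G] [Finite G] (hG : Cfsg.IsMinSimpleOddOrder G)
    (M : Subgroup G) (hM : IsCoatom M) :
    Cfsg.IsPiHallOf (Cfsg.beta M) (Cfsg.piCoreOf (Cfsg.beta M) M) M ∧ Cfsg.IsPiHall (Cfsg.beta M) (Cfsg.piCoreOf (Cfsg.beta M) M) ∧
      (∃ H : Subgroup G, Cfsg.IsPiHallOf {q | q.Prime ∧ q ∉ Cfsg.beta M} H ⁅M, M⁆ ∧ Group.IsNilpotent H) ∧
      (∃ H : Subgroup G, Cfsg.IsPiHallOf {q | q.Prime ∧ q ∉ Cfsg.beta M} H (Cfsg.sigmaCore M) ∧ Group.IsNilpotent H) ∧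
      ∀ p : ℕ, p.Prime → p ∣ Nat.card M → p ∉ Cfsg.beta M →
        Cfsg.HasNormalPComplement p ↥⁅M, M⁆ ∧ Cfsg.HasNormalPComplement p ↥(Cfsg.sigmaCore M) ∧
        ∀ q : ℕ, q.Prime → q ∣ (Cfsg.pPrimeCore p ↥M).index → q ≤ p := by
  have key : ∀ K : Subgroup G, K ≤ ⁅M, M⁆ → ∃ H : Subgroup G, Cfsg.IsPiHallOf {q | q.Prime ∧ q ∉ Cfsg.beta M} H K ∧ Group.IsNilpotent H := by
    intro K hK
    obtain ⟨H, a, -⟩ := Cfsg.Agent.BG.hall_exists_ge (Cfsg.beta M)ᶜ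
      (Cfsg.Agent.BG.mFT_sol_of_le hG hM (hK.trans (Cfsg.Agent.BG.der_le M))) bot_le Cfsg.Agent.BG.piG_bot
    exact ⟨H, Cfsg.Agent.BG.hall_prime_compl_iff.2 a, Cfsg.Agent.BG.beta'_der1_nil hG hM a.2.1 (a.1.trans hK)⟩
  refine ⟨Cfsg.Agent.BG.Mbeta_Hall hG hM, Cfsg.Agent.BG.isPiHall_of_top (Cfsg.Agent.BG.Mbeta_Hall_G hG hM),
    key _ le_rfl, key _ (Cfsg.Agent.BG.Msigma_der1 hG hM), fun p hp _ h => ?_⟩
  haveI := Fact.mk hp
  obtain ⟨a, b⟩ := Cfsg.Agent.BG.beta'_pNil_der1 hG hM h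
  refine ⟨Cfsg.Agent.H2.hasNPC_iff.2 a, Cfsg.Agent.H2.hasNPC_iff.2 (a.mono (Cfsg.Agent.BG.Msigma_der1 hG hM)), fun q c d => b q c ?_⟩
  rwa [Cfsg.Agent.BG.relIndex_map_subtype']

end Cfsg.Agent.S1414
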