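import Cfsg.Statements.S1451
import Mathlib
import Cfsg.Agent.H2.BG4b

set_option autoImplicit false
open Cfsg

namespace Cfsg.Agent.S1451

open Cfsg.Agent.H2 Subgroup

/-- Let G be a solvable group of odd order such that G, or its Fitting subgroup, has no elementary abelian subgroup of order q ^ 3 for any prime q. Then G' is nilpotent; for every Sylow subgroup S of G, every characteristic subgroup T of S with T ≤ [S, S] is normal in G; and for every prime p, G has a characteristic subgroup that is a Hall subgroup for the set of primes greater than p. -/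
theorem result {G : Type*} [Group G] [Finite G] [Group.IsSolvable G] (hodd : Odd (Nat.card G)) (hr : Cfsg.RankLE 2 G ∨ Cfsg.RankLE 2 (Cfsg.fittingSubgroup G)) :
    Group.IsNilpotent ↥(commutator G) ∧
      (∀ (q : ℕ) [Fact q.Prime] (S : Sylow q G) (T : Subgroup ↥(S : Subgroup G)), T.Characteristic → T.map (S : Subgroup G).subtype ≤ ⁅(S : Subgroup G), (S : Subgroup G)⁆ →
        (T.map (S : Subgroup G).subtype).Normal) ∧
      ∀ p : ℕ, ∃ N : Subgroup G, N.Characteristic ∧ Cfsg.IsPiHall {q | q.Prime ∧ p < q} N := by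
  have hs : Group.IsSolvable (⊤ : Subgroup G) := inferInstance
  have ho : Odd (Nat.card (⊤ : Subgroup G)) := by rwa [card_top]
  have hr' : RankLE 2 (H8.Fit (⊤ : Subgroup G)) := by
    rcases hr with h | h
    · exact fun p hp => haveI := Fact.mk hp; H8.PRankLE_mono le_top (H8.pRankLE_top_iff.2 (h p hp))
    · rwa [H8.Fit_top]
  refine ⟨H1.isNilpotent_of_le (rank2_der1_sub_Fitting hs ho hr') (H8.Fit_nilpotent _),
    fun q _ S T hT h => H8.normal_of_top_le (rank2_char_Sylow_normal hs ho hr' (sylIn_top S) h
      (inf_le_right.trans (H1.normalizer_le_normalizer_map_subtype _ T))), fun p => ?_⟩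
  have h1 := rank2_ge_pcore_Hall hs ho hr' (p + 1)
  rw [L.piCoreOf_top] at h1
  refine ⟨piCore {r | p + 1 ≤ r} G, ?_, H1.isPiHallOf_top.1 (BG.hall_congr h1 fun r hr _ => ?_)⟩
  · refine characteristic_iff_map_le.2 fun φ => ?_
    rw [← L.piCoreOf_top]
    haveI : ((piCoreOf {r | p + 1 ≤ r} (⊤ : Subgroup G)).map φ.toMonoidHom).Normal := by
      rw [L.piCoreOf_top]
      exact Subgroup.Normal.map inferInstance _ φ.surjective
    exact BG.le_piCoreOf le_top le_normalizer_of_normal ((BG.piG_piCoreOf _ _).map _)
  · simp [hr, Nat.succ_le_iff]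

end Cfsg.Agent.S1451
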