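import Cfsg.Statements.S1453
import Mathlib
import Cfsg.Agent.H2.BG5

set_option autoImplicit false
open Cfsg

namespace Cfsg.Agent.S1453

open Cfsg.Agent.H2 Subgroup

/-- Let p be an odd prime and R a finite p-group with an elementary abelian subgroup of order p ^ 3 and an elementary abelian subgroup E of order p ^ 2 contained in no larger elementary abelian subgroup. Let Z₂ be the second centre of R, W the subgroup generated by the elements of Z₂ of order dividing p, and T = C_R(W). Then E is not contained in T; the elements of order dividing p of the centre of R generate a group of order p; W is elementary abelian of order p ^ 2; and T is characteristic in R of index p. -/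
theorem result {R : Type*} [Group R] [Finite R] (p : ℕ) [Fact p.Prime] (hp : p ≠ 2) (hR : IsPGroup p R) (hr : ¬ Cfsg.PRankLE p 2 R)
    (E : Subgroup R) (hE : Cfsg.IsElementaryAbelian p E) (hE2 : Nat.card E = p ^ 2)
    (hEmax : ∀ B : Subgroup R, Cfsg.IsElementaryAbelian p B → E ≤ B → B = E) :
    ¬ E ≤ Subgroup.centralizer ((Subgroup.closure {x : R | x ∈ Subgroup.upperCentralSeries R 2 ∧ x ^ p = 1} : Subgroup R) : Set R) ∧
      Nat.card ↥(Subgroup.closure {x : R | x ∈ Subgroup.center R ∧ x ^ p = 1}) = p ∧
      (Cfsg.IsElementaryAbelian p (Subgroup.closure {x : R | x ∈ Subgroup.upperCentralSeries R 2 ∧ x ^ p = 1}) ∧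
        Nat.card ↥(Subgroup.closure {x : R | x ∈ Subgroup.upperCentralSeries R 2 ∧ x ^ p = 1}) = p ^ 2) ∧
      (Subgroup.centralizer ((Subgroup.closure {x : R | x ∈ Subgroup.upperCentralSeries R 2 ∧ x ^ p = 1} : Subgroup R) : Set R)).Characteristic ∧
      (Subgroup.centralizer ((Subgroup.closure {x : R | x ∈ Subgroup.upperCentralSeries R 2 ∧ x ^ p = 1} : Subgroup R) : Set R)).index = p := by
  obtain ⟨h1, h2, h3, h4, h5⟩ := Ohm1_ucn_p2maxElem hp (hR.to_subgroup ⊤) (mt H8.pRankLE_top_iff.1 hr)
    ⟨le_top, hE, fun B _ => hEmax B⟩ hE2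
  rw [Zc_top] at h2
  simp only [narrowT, Z2_top, top_inf_eq, relIndex_top_right] at h1 h3 h4 h5
  refine ⟨h1, h2, ⟨h3, h4⟩, ?_, h5⟩
  haveI : (omegaOne p (Subgroup.upperCentralSeries R 2)).Characteristic := by
    refine characteristic_iff_map_eq.2 fun φ => ?_
    rw [map_omegaOne_inj _ φ.injective, characteristic_iff_map_eq.1 inferInstance φ]
  exact characteristic_centralizer (H := omegaOne p (Subgroup.upperCentralSeries R 2))

end Cfsg.Agent.S1453
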