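import Cfsg.Statements.S1454
import Cfsg.Agent.H9.TJ
import Cfsg.Agent.H2.BG5
import Cfsg.Agent.H2.BG4

set_option autoImplicit false
open Cfsg

namespace Cfsg.Agent.S1454

open Cfsg.Agent Cfsg.Agent.H9
open Subgroup in
theorem cent_cyclic {G : Type*} [Group G] [Finite G] {p : ℕ} [hp : Fact p.Prime] {C A : Subgroup G}
    (hC : IsPGroup p C) (hc : IsCyclic C) (hA : A ≤ normalizer (C : Set G))
    (hq : (Nat.card A).Prime) (hd : ¬ Nat.card A ∣ p * (p - 1)) : ∀ a ∈ A, ∀ c ∈ C, a * c * a⁻¹ = c := by
  intro a ha c hcC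
  set f := C.normalizerMonoidHom ⟨a, hA ha⟩ with hf
  have h1 : orderOf f ∣ Nat.card A := by
    apply orderOf_dvd_of_pow_eq_one
    rw [hf, ← map_pow]
    have : (⟨a, hA ha⟩ : normalizer (C : Set G)) ^ Nat.card A = 1 := by
      apply Subtype.ext
      have := congrArg Subtype.val (pow_card_eq_one' (x := (⟨a, ha⟩ : A)))
      exact this
    rw [this, map_one]
  have h2 : orderOf f ∣ Nat.card (MulAut C) := orderOf_dvd_natCard f
  rw [IsCyclic.card_mulAut] at h2
  obtain ⟨k, hk⟩ := hC.exists_card_eq
  have h3 : orderOf f = 1 := by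
    rcases (Nat.dvd_prime hq).1 h1 with h | h
    · exact h
    · exfalso
      rw [h, hk] at h2
      rcases k with _ | k
      · rw [pow_zero, Nat.totient_one, Nat.dvd_one] at h2; exact hq.one_lt.ne' h2
      · rw [Nat.totient_prime_pow_succ hp.out] at h2
        rcases (Nat.Prime.dvd_mul hq).1 h2 with h4 | h4
        · exact hd ((hq.dvd_of_dvd_pow h4).mul_right _)
        · exact hd (h4.mul_left _)
  have h4 : f = 1 := orderOf_eq_one_iff.1 h3
  have := congrArg (fun g : MulAut C => (g ⟨c, hcC⟩ : G)) h4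
  simpa [hf] using this

/-- Let G be a finite group, p an odd prime, R a narrow p-subgroup and A a solvable subgroup of odd order normalizing R with A ∩ C_G(R) = 1. Then [A, A] ≤ O_p(A) and the index of O_p(A) in A is coprime to p; if R has an elementary abelian subgroup of order p ^ 3 then the order of every element of A of order coprime to p divides p − 1; and if the order of A is a prime not dividing p(p − 1), then 2·#A divides p + 1, and if in addition [R, A] = R and R is non-abelian then #R = p ^ 3. -/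
theorem result {G : Type*} [Group G] [Finite G] (p : ℕ) [Fact p.Prime] (hp : p ≠ 2) (R A : Subgroup G) (hR : IsPGroup p R) (hRn : Cfsg.IsNarrow p R)
    (hA : (A ≤ Subgroup.normalizer (R : Set G))) (hAs : Group.IsSolvable A) (hAodd : Odd (Nat.card A)) (hfaith : A ⊓ Subgroup.centralizer (R : Set G) = ⊥) :
    (commutator ↥A ≤ Cfsg.pCore p ↥A ∧ ((Cfsg.pCore p ↥A).index).Coprime p) ∧
      (¬ Cfsg.PRankLE p 2 R → ∀ a ∈ A, (orderOf a).Coprime p → orderOf a ∣ p - 1) ∧
      ((Nat.card A).Prime → ¬ Nat.card A ∣ p * (p - 1) →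
        2 * Nat.card A ∣ p + 1 ∧ (⁅R, A⁆ = R → ¬ IsMulCommutative R → Nat.card R = p ^ 3)) := by
  have hCA : ∀ a ∈ A, a ∈ Subgroup.centralizer (R : Set G) → a = 1 := fun a ha hc => by
    have : a ∈ A ⊓ Subgroup.centralizer (R : Set G) := ⟨ha, hc⟩
    rwa [hfaith] at this
  refine ⟨?_, ?_, ?_⟩
  · have h1 : H2.resOf p ⁅A, A⁆ = ⊥ := by
      rw [eq_bot_iff]
      intro x hx
      exact hCA x (Subgroup.commutator_le_self A (H2.resOf_le _ _ hx))
        (H2.Aut_narrow_der1 hp hR hRn hA hAodd hx)
    have h2 := H2.isPGroup_of_resOf_eq_bot h1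
    have h3 : IsPGroup p (commutator A) := by
      have e : (commutator A).map A.subtype = ⁅A, A⁆ := Subgroup.map_subtype_commutator A
      rw [← e] at h2
      exact h2.of_equiv (Subgroup.equivMapOfInjective _ _ A.subtype_injective).symm
    have h4 : commutator A ≤ Cfsg.pCore p A := L.le_pCore h3
    refine ⟨h4, ?_⟩
    obtain ⟨P⟩ : Nonempty (Sylow p A) := inferInstance
    have h5 : commutator A ≤ P := h4.trans (L.pCore_le_sylow P)
    haveI : (P : Subgroup A).Normal := Subgroup.Normal.of_commutator_le _ h5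
    rw [L.pCore_eq_of_normal_sylow P]
    exact ((Nat.Prime.coprime_iff_not_dvd Fact.out).2 P.not_dvd_index).symm
  · intro hr a ha hc
    apply orderOf_dvd_of_pow_eq_one
    refine hCA _ (pow_mem ha _) (H2.Aut_narrow_order hp hR hRn hr (hA ha) ?_ hc)
    exact Odd.of_dvd_nat hAodd (Subgroup.orderOf_dvd_natCard A ha)
  · intro hq hd
    have hqp : Nat.card A ≠ p := fun h => hd (h ▸ dvd_mul_right _ _)
    have hq1 : ¬ Nat.card A ∣ p - 1 := fun h => hd (h.mul_left _)
    have hi : Nat.card A ∣ (Subgroup.centralizer (R : Set G)).relIndex A := by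
      have : (Subgroup.centralizer (R : Set G)).subgroupOf A = ⊥ := by
        rw [eq_bot_iff]; intro x hx; exact Subtype.ext (hCA x x.2 hx)
      rw [Subgroup.relIndex, this, Subgroup.index_bot]
    have hr : Cfsg.PRankLE p 2 R := by
      by_contra hr
      exact hq1 (H2.Aut_narrow_pdiv hp hR hRn hr hA hq hqp hi)
    obtain ⟨m, hm⟩ := (Fact.out : p.Prime).odd_of_ne_two hp
    refine ⟨?_, ?_⟩
    · rcases (H2.pi_Aut_rank2_pgroup hp hR hr hA hq hqp hi).2.2 with h | h
      · rw [show p + 1 = 2 * ((p + 1) / 2) by omega]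
        exact Nat.mul_dvd_mul_left 2 h
      · exact absurd (h.trans ⟨2, by omega⟩) hq1
    · intro hRA hnc
      have hR1 : R ≠ ⊥ := by rintro rfl; exact hnc inferInstance
      have hco : (Nat.card A).Coprime p := (Nat.coprime_primes hq Fact.out).2 hqp
      obtain ⟨-, h | ⟨S, C, hSC, hcen, hS, hS3, hSp, hC, hO⟩⟩ :=
        H2.rank2_coprime_comm_cprod hp hR hR1 hr hA hco hAodd hRA
      · exact absurd h hnc
      have hcomm : ∀ s ∈ S, ∀ c ∈ C, s * c = c * s := fun s hs c hc => (hcen hs c hc).symm
      have hCC : ∀ c ∈ C, ∀ d ∈ C, c * d = d * c := fun c hc d hd => by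
        haveI := hC
        exact congrArg Subtype.val (IsCyclic.commutative.1.1 (⟨c, hc⟩ : C) ⟨d, hd⟩)
      have hdec : ∀ x ∈ R, ∃ s ∈ S, ∃ c ∈ C, x = s * c := by
        intro x hx
        rw [← hSC, Subgroup.sup_eq_closure] at hx
        induction hx using Subgroup.closure_induction with
        | mem x hx =>
          rcases hx with hx | hx
          · exact ⟨x, hx, 1, one_mem _, by simp⟩
          · exact ⟨1, one_mem _, x, hx, by simp⟩
        | one => exact ⟨1, one_mem _, 1, one_mem _, by simp⟩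
        | mul x y _ _ hx hy =>
          obtain ⟨a, ha, b, hb, rfl⟩ := hx
          obtain ⟨c, hc', d, hd, rfl⟩ := hy
          refine ⟨a * c, mul_mem ha hc', b * d, mul_mem hb hd, ?_⟩
          calc a * b * (c * d) = a * (b * c) * d := by group
            _ = _ := by rw [← hcomm c hc' b hb]; group
        | inv x _ hx =>
          obtain ⟨a, ha, b, hb, rfl⟩ := hx
          exact ⟨a⁻¹, inv_mem ha, b⁻¹, inv_mem hb, by rw [hcomm a ha b hb, _root_.mul_inv_rev]⟩
      have hSR : S ≤ R := hSC ▸ le_sup_left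
      have hCR : C ≤ R := hSC ▸ le_sup_right
      have hZ : H2.Zc R = C := by
        apply le_antisymm
        · intro z hz
          rw [H2.mem_Zc] at hz
          obtain ⟨s, hs, c, hc, rfl⟩ := hdec z hz.1
          have : s ∈ H2.Zc S := by
            rw [H2.mem_Zc]
            refine ⟨hs, fun x hx => ?_⟩
            have := hz.2 x (hSR hx)
            rw [mul_assoc s c x, ← hcomm x hx c hc, ← mul_assoc, ← mul_assoc] at this
            exact mul_right_cancel this
          rw [← (H2.p3_center hS3 hS).2, ← hO] at this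
          exact mul_mem (H2.omegaOne_le _ _ this) hc
        · intro c hc
          rw [H2.mem_Zc]
          refine ⟨hCR hc, fun x hx => ?_⟩
          obtain ⟨s, hs, d, hd, rfl⟩ := hdec x hx
          rw [mul_assoc, hCC d hd c hc, ← mul_assoc, hcomm s hs c hc, mul_assoc]
      have hAC : A ≤ Subgroup.normalizer (C : Set G) := hZ ▸ hA.trans (H2.normalizer_le_Zc R)
      have hfix := cent_cyclic (hR.to_le hCR) hC hAC hq hd
      have hSinv : ∀ x ∈ R, x ^ p = 1 → x ∈ S := by
        intro x hx hxp
        obtain ⟨s, hs, c, hc, rfl⟩ := hdec x hx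
        rw [(show Commute s c from hcomm s hs c hc).mul_pow, hSp s hs, one_mul] at hxp
        have := H2.mem_omegaOne hc hxp
        rw [hO] at this
        exact mul_mem hs (Subgroup.commutator_le_self S this)
      have hRS : R ≤ S := by
        rw [← hRA, Subgroup.commutator_le]
        intro x hx a ha
        obtain ⟨s, hs, c, hc, rfl⟩ := hdec x hx
        have e1 : a * s⁻¹ * a⁻¹ ∈ S := by
          apply hSinv _ ((Subgroup.mem_normalizer_iff.1 (hA ha) _).1 (hSR (inv_mem hs)))
          rw [conj_pow, hSp _ (inv_mem hs)]; simp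
        have e2 := hfix a ha c⁻¹ (inv_mem hc)
        have : s * c * a * (s * c)⁻¹ * a⁻¹ = s * (a * s⁻¹ * a⁻¹) := by
          calc s * c * a * (s * c)⁻¹ * a⁻¹ = s * c * (a * c⁻¹ * a⁻¹) * (a * s⁻¹ * a⁻¹) := by group
            _ = _ := by rw [e2]; group
        rw [commutatorElement_def, this]
        exact mul_mem hs e1
      rw [le_antisymm hRS hSR, hS3]

end Cfsg.Agent.S1454
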