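import Cfsg.Statements.S1458
import Cfsg.Agent.H9.Quad

set_option autoImplicit false
open Cfsg

namespace Cfsg.Agent.S1458

open Cfsg.Agent Cfsg.Agent.H9

/-- Let G be a solvable group of odd order, p a prime and S a Sylow p-subgroup of G. Then the subgroup generated by the centre of the Thompson subgroup of S and O_{p'}(G) is normal in G. -/
theorem result {G : Type*} [Group G] [Finite G] [Group.IsSolvable G] (hodd : Odd (Nat.card G)) (p : ℕ) [Fact p.Prime] (S : Sylow p G) :
    (Cfsg.centerThompsonOf p (S : Subgroup G) ⊔ Cfsg.pPrimeCore p G).Normal := by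
  haveI : Fact (Nat.Prime 2) := ⟨Nat.prime_two⟩
  have hS := H2.sylIn_top_iff.2 ⟨S, rfl⟩
  have h2 : ¬ 2 ∣ Nat.card G := hodd.not_two_dvd_nat
  by_cases hp : p = 2
  · subst hp
    have : (S : Subgroup G) = ⊥ := hS.eq_bot_iff.2 (by rwa [Subgroup.card_top])
    have h3 : Cfsg.centerThompsonOf 2 (S : Subgroup G) = ⊥ :=
      by rw [← ZJ_eq]; exact le_bot_iff.1 (inf_le_left.trans ((JJ_le _ _).trans this.le))
    rw [h3, bot_sup_eq]; infer_instance
  have h := zw_opp hp (Or.inr rfl) true hS (scl_self _ _)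
    (PSt.pStO (pSt_of_abSyl hp (abSyl_of_not_dvd h2))) (H8.PLay_eq_bot_of_solvable inferInstance)
  rwa [ZW_true, ZJ_eq, sup_comm] at h

end Cfsg.Agent.S1458
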