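import Cfsg.Statements.S1464
import Mathlib
import Cfsg.Agent.H2.BGA

set_option autoImplicit false
open Cfsg

namespace Cfsg.Agent.S1464

open Cfsg.Agent.H2 Subgroup

/-- Let p be an odd prime and G a solvable group of odd order, P a p-subgroup with O_{p'}(G)P normal in G, and A a p-subgroup of N_G(P) with [[P, A], A] = 1. Then the image of A in the quotient N_G(P)/C_G(P) is contained in the p-core of that quotient. -/
theorem result {G : Type*} [Group G] [Finite G] [Group.IsSolvable G] (hodd : Odd (Nat.card G)) (p : ℕ) [Fact p.Prime] (hp : p ≠ 2) (P A : Subgroup G) (hP : IsPGroup p P) (hPn : (Cfsg.pPrimeCore p G ⊔ P).Normal)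
    (hA : IsPGroup p A) (hAN : A ≤ Subgroup.normalizer (P : Set G)) (hquad : ⁅⁅P, A⁆, A⁆ = ⊥) :
    (A.subgroupOf (Subgroup.normalizer (P : Set G))).map
        (QuotientGroup.mk' ((Subgroup.centralizer (P : Set G)).subgroupOf (Subgroup.normalizer (P : Set G))))
      ≤ Cfsg.pCore p _ := by
  obtain ⟨D, h1, h2, -, h4, h5⟩ := odd_p_stable_gen (X := normalizer (P : Set G))
    (hodd.of_dvd_nat (card_subgroup_dvd_card _)) hP le_rfl
  have hA : A ≤ D := fun a ha => h5 a (hAN ha) (eq_bot_iff.2 ((commutator_mono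
    (commutator_mono le_rfl ((zpowers_le).2 ha)) ((zpowers_le).2 ha)).trans hquad.le))
  refine (H8.im_mono _ hA).trans ?_
  rw [← H8.Op_top]
  haveI := H8.im_normal _ (QuotientGroup.mk'_surjective
    ((centralizer (P : Set G)).subgroupOf (normalizer (P : Set G)))) h2
  refine H8.le_Op le_top le_normalizer_of_normal ((H8.isPGroup_im_iff _ h1).2 ?_)
  intro x hx
  exact (H8.mem_kr _).2 ⟨h1 (resOf_le p D hx), (QuotientGroup.eq_one_iff _).2 (h4 hx)⟩

end Cfsg.Agent.S1464
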