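import Cfsg.Statements.S1465
import Mathlib
import Cfsg.Agent.H2.BGA

set_option autoImplicit false
open Cfsg

namespace Cfsg.Agent.S1465

open Cfsg.Agent.H2 Subgroup

/-- Let p be an odd prime, G a solvable group of odd order, P a normal p-subgroup of G, and X the subgroup generated by a family of abelian p-subgroups of G each normalized by P. Then the image of X in G/C_G(P) lies in O_p(G/C_G(P)); and if O_{p'}(G) = 1 and O_p(G) ∩ C_G(P) ≤ P then X ≤ O_p(G). -/
theorem result {G : Type*} [Group G] [Finite G] [Group.IsSolvable G] (hodd : Odd (Nat.card G)) (p : ℕ) [Fact p.Prime] (hp : p ≠ 2) (P : Subgroup G) [P.Normal] (hP : IsPGroup p P)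
    (S : Set (Subgroup G)) (hS : ∀ B ∈ S, IsMulCommutative B ∧ IsPGroup p B ∧ P ≤ Subgroup.normalizer (B : Set G)) :
    (sSup S).map (QuotientGroup.mk' (Subgroup.centralizer (P : Set G))) ≤ Cfsg.pCore p (G ⧸ Subgroup.centralizer (P : Set G)) ∧
      (Cfsg.pPrimeCore p G = ⊥ → Cfsg.pCore p G ⊓ Subgroup.centralizer (P : Set G) ≤ P → sSup S ≤ Cfsg.pCore p G) := by
  refine ⟨?_, fun h1 h2 => sSup_le fun B hB => ?_⟩
  · obtain ⟨D, h1, h2, -, h4, h5⟩ := odd_p_stable_gen (X := ⊤) (by rwa [card_top]) hP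
      le_normalizer_of_normal
    have hA : sSup S ≤ D := sSup_le fun B hB a ha =>
      h5 a (mem_top a) (quad_of_abelian (hS B hB).1 (hS B hB).2.2 ha)
    refine (map_mono hA).trans ?_
    haveI := H8.normal_of_top_le h2
    haveI := Subgroup.Normal.map this _ (QuotientGroup.mk'_surjective (centralizer (P : Set G)))
    rw [← H8.Op_top]
    refine H8.le_Op le_top le_normalizer_of_normal (isPGroup_of_resOf_eq_bot ?_)
    rw [← map_resOf, H1.map_mk'_eq_bot_iff]
    exact h4
  · rw [← H8.Op_top] at h2 ⊢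
    exact odd_abelian_constrained inferInstance (by rwa [card_top]) (by rwa [H8.Opp_top]) hP
      le_normalizer_of_normal h2 le_top (hS B hB).1 (hS B hB).2.2

end Cfsg.Agent.S1465
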