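import Cfsg.Statements.S1466
import Mathlib
import Cfsg.Agent.H2.BGA

set_option autoImplicit false
open Cfsg

namespace Cfsg.Agent.S1466

open Cfsg.Agent.H2 Subgroup

/-- Let p be a prime and R a nontrivial finite p-group. Then for every i > 0, Z(R) ≤ C_R(L_i(R)) ≤ L_i(R); likewise Z(R) ≤ C_R(L_*(R)) ≤ L_*(R) and Z(R) ≤ C_R(L(R)) ≤ L(R); and L(R) ≠ 1, L_*(R) ≠ 1. -/
theorem result {R : Type*} [Group R] [Finite R] (p : ℕ) [Fact p.Prime] (hR : IsPGroup p R) [Nontrivial R] :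
    (∀ i : ℕ, 0 < i → Subgroup.center R ≤ Subgroup.centralizer ((Cfsg.puigSeq R i : Subgroup R) : Set R) ∧
        Subgroup.centralizer ((Cfsg.puigSeq R i : Subgroup R) : Set R) ≤ Cfsg.puigSeq R i) ∧
      (Subgroup.center R ≤ Subgroup.centralizer ((Cfsg.puigLower R : Subgroup R) : Set R) ∧ Subgroup.centralizer ((Cfsg.puigLower R : Subgroup R) : Set R) ≤ Cfsg.puigLower R) ∧
      (Subgroup.center R ≤ Subgroup.centralizer ((Cfsg.puigSubgroup R : Subgroup R) : Set R) ∧ Subgroup.centralizer ((Cfsg.puigSubgroup R : Subgroup R) : Set R) ≤ Cfsg.puigSubgroup R) ∧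
      Cfsg.puigSubgroup R ≠ ⊥ ∧ Cfsg.puigLower R ≠ ⊥ := by
  have hn : Group.IsNilpotent (⊤ : Subgroup R) := (hR.to_subgroup ⊤).isNilpotent
  have h1 := sub_cent_PuigL hn
  have h2 := sub_cent_Puig (hR.to_subgroup ⊤)
  rw [PuigL_top, top_inf_eq] at h1
  rw [Puig_top, top_inf_eq] at h2
  refine ⟨fun i hi => ⟨center_le_centralizer _, ?_⟩, ⟨center_le_centralizer _, h1⟩,
    ⟨center_le_centralizer _, h2⟩, fun h => ?_, fun h => ?_⟩
  · obtain ⟨j, rfl⟩ := Nat.exists_eq_succ_of_ne_zero hi.ne'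
    have := sub_cent_psq hn j
    rwa [psq_top, top_inf_eq] at this
  · rw [h, centralizer_bot_eq] at h2
    exact absurd (le_bot_iff.1 h2) top_ne_bot
  · rw [h, centralizer_bot_eq] at h1
    exact absurd (le_bot_iff.1 h1) top_ne_bot

end Cfsg.Agent.S1466
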