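import Cfsg.Statements.S1475
import Cfsg.Agent.H9.CNg

set_option autoImplicit false
open Cfsg

namespace Cfsg.Agent.S1475

open Cfsg.Agent Cfsg.Agent.H9
open Subgroup L in
theorem not_comm {G : Type*} [Group G] [Finite G] (h : ∀ g : G, IsPrimePow (orderOf g) ∨ g = 1) {a b : G}
    (hab : a * b = b * a) (hc : (orderOf a).Coprime (orderOf b)) : a = 1 ∨ b = 1 := by
  have e := (show Commute a b from hab).orderOf_mul_eq_mul_orderOf_of_coprime hc
  rcases h (a * b) with h1 | h1
  · rw [e] at h1
    rcases (Nat.Coprime.isPrimePow_dvd_mul hc h1).1 dvd_rfl with h2 | h2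
    · right
      have h3 := Nat.le_of_dvd (orderOf_pos a) h2
      have := orderOf_pos a
      have := orderOf_pos b
      exact orderOf_eq_one_iff.1 (by nlinarith)
    · left
      have h3 := Nat.le_of_dvd (orderOf_pos b) h2
      have := orderOf_pos a
      have := orderOf_pos b
      exact orderOf_eq_one_iff.1 (by nlinarith)
  · rw [h1, orderOf_one] at e
    exact Or.inl (orderOf_eq_one_iff.1 (Nat.eq_one_of_mul_eq_one_right e.symm))

/-- Let G be a finite solvable group such that the order of every element is a prime power (1 included). Then at most two distinct primes divide the order of G. -/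
theorem result {G : Type*} [Group G] [Finite G] [Group.IsSolvable G] (h : ∀ g : G, IsPrimePow (orderOf g) ∨ g = 1) :
    (Nat.card G).primeFactors.card ≤ 2 := by
  rcases subsingleton_or_nontrivial G with hG | hG
  · simp [Nat.card_of_subsingleton (1 : G)]
  obtain ⟨p, hp, hO⟩ := L.exists_pCore_ne_bot (G := G)
  obtain ⟨K, hK⟩ := H1.exists_hall (G := G) {p}ᶜ inferInstance
  obtain ⟨hKc, n, hKi⟩ := (H1.isPiHall_compl_iff hp).1 hK
  have hcop := L.coprime_card_of_isPGroup hp (L.pCore_isPGroup p G) hKc
  have hf : L.FPF (Cfsg.pCore p G) K := by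
    refine L.FPF.of_forall fun x hx hx1 k hk hxk => ?_
    exact (not_comm h hxk (CN.cop_of_mem hcop.symm hx hk)).resolve_left hx1
  have : ∃ r : ℕ, ∀ s : ℕ, s.Prime → s ∣ Nat.card K → s = r := by
    by_cases hK1 : K = ⊥
    · exact ⟨0, fun s hs hd => by rw [hK1] at hd; simp at hd; exact absurd hd hs.one_lt.ne'⟩
    obtain ⟨⟨z, hz⟩, hz1⟩ := Subgroup.ne_bot_iff_exists_ne_one.1
      (hf.inf_centralizer_self_ne_bot Subgroup.le_normalizer_of_normal hO hK1)
    obtain ⟨r, hr, y, hy, hyr⟩ := CN.exists_pow_prime (x := z) (fun h => hz1 (Subtype.ext h))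
    refine ⟨r, fun s hs hd => ?_⟩
    by_contra hne
    haveI := Fact.mk hs
    obtain ⟨t, ht⟩ := exists_prime_orderOf_dvd_card' s hd
    have ht' : orderOf (t : G) = s := by rw [Subgroup.orderOf_coe, ht]
    have hc : (t : G) * y = y * t := by
      obtain ⟨m, rfl⟩ := hy
      exact ((show Commute (t : G) z from hz.2 t t.2).zpow_right m).eq
    rcases not_comm h hc (by rw [ht', hyr]; exact (Nat.coprime_primes hs hr).2 hne) with e | e
    · rw [e] at ht'; exact hs.one_lt.ne (by simpa using ht')
    · rw [e] at hyr; exact hr.one_lt.ne (by simpa using hyr)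
  obtain ⟨r, hr⟩ := this
  refine le_trans (Finset.card_le_card (t := {p, r}) ?_) Finset.card_le_two
  intro s hs
  have hs1 := Nat.prime_of_mem_primeFactors hs
  have hs2 := Nat.dvd_of_mem_primeFactors hs
  rw [← K.card_mul_index, hKi] at hs2
  rcases (Nat.Prime.dvd_mul hs1).1 hs2 with h1 | h1
  · simp [hr s hs1 h1]
  · simp [(Nat.prime_dvd_prime_iff_eq hs1 hp).1 (hs1.dvd_of_dvd_pow h1)]

end Cfsg.Agent.S1475
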