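import Cfsg.Statements.S1476
import Cfsg.Agent.H9.CNg

set_option autoImplicit false
open Cfsg

namespace Cfsg.Agent.S1476

open Cfsg.Agent Cfsg.Agent.H9

/-- Let G be a finite solvable group in which every non-identity element has nilpotent centralizer. Then either G is nilpotent; or G has a normal subgroup K with a Frobenius complement E (K E = G, K ∩ E = 1, E meets its conjugates by outside elements trivially) such that E is cyclic or E is generated by two elementwise-commuting subgroups, one cyclic of odd order and one isomorphic to a generalized quaternion group; or G is a three-step group with respect to some prime p. -/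
theorem result {G : Type*} [Group G] [Finite G] [Group.IsSolvable G] (hCN : Cfsg.IsCNGroup G) :
    Group.IsNilpotent G ∨
      (∃ K E : Subgroup G, K.Normal ∧ Subgroup.IsComplement' K E ∧ Cfsg.IsFrobeniusComplement E ∧
        (IsCyclic E ∨ ∃ C Q : Subgroup G, C ⊔ Q = E ∧ (∀ a ∈ C, ∀ b ∈ Q, a * b = b * a) ∧ IsCyclic C ∧ Odd (Nat.card C) ∧
          ∃ n : ℕ, Nonempty (↥Q ≃* QuaternionGroup (2 ^ n)))) ∨
      ∃ p : ℕ, p.Prime ∧ Cfsg.IsThreeStepGroup p G := by
  by_cases hnn : Group.IsNilpotent G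
  · exact Or.inl hnn
  right
  by_cases hS : ∃ p : ℕ, p.Prime ∧ ∃ P : Sylow p G, (P : Subgroup G) ≠ ⊥ ∧ (P : Subgroup G).Normal
  · obtain ⟨p, hp, P, hP1, hPn⟩ := hS
    obtain ⟨h1, h2, E, hE, hF, hf, hn⟩ := CN.frob hCN hnn hp P hP1 hPn
    exact Or.inl ⟨_, E, inferInstance, hE, hF, CN.frob_nil_struct hf Subgroup.le_normalizer_of_normal h1 hn⟩
  right
  push Not at hS
  haveI : Nontrivial G := by
    by_contra h
    rw [not_nontrivial_iff_subsingleton] at h
    exact hnn inferInstance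
  obtain ⟨p, hp, hO⟩ := L.exists_pCore_ne_bot (G := G)
  haveI := Fact.mk hp
  obtain ⟨P⟩ : Nonempty (Sylow p G) := inferInstance
  set F := Cfsg.pCore p G with hF
  have hFp : IsPGroup p F := L.pCore_isPGroup p G
  have hFP : F ≤ P := L.pCore_le_sylow P
  have hP1 : (P : Subgroup G) ≠ ⊥ := fun h => hO (eq_bot_iff.2 (h ▸ hFP))
  have hPn := hS p hp P hP1
  have hO' : Cfsg.pPrimeCore p G = ⊥ := by
    by_contra h
    obtain ⟨M, q, hM, hMn, hM1, hq, -, -, hMq, -⟩ := L.exists_elementary_normal_le _ h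
    have hc : (Nat.card M).Coprime p := (L.pPrimeCore_coprime p).coprime_dvd_left (Subgroup.card_dvd_of_le hM)
    obtain ⟨⟨x, hx⟩, hx1⟩ := Subgroup.ne_bot_iff_exists_ne_one.1 hO
    obtain ⟨⟨y, hy⟩, hy1⟩ := Subgroup.ne_bot_iff_exists_ne_one.1 hM1
    have hy1' : y ≠ 1 := fun e => hy1 (Subtype.ext e)
    have h3 := CN.comm hCN (CN.nil_p hp P.isPGroup') (CN.nil_p hq hMq)
      (L.coprime_card_of_isPGroup hp P.isPGroup' hc) (hFP hx) hy (fun e => hx1 (Subtype.ext e)) hy1'
      (L.pCore_le_centralizer_pPrimeCore hp hx y (hM hy)).symm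
    exact hPn (CN.sylow_normal_of_le hp P (CN.nil hCN hy1' (Subgroup.centralizer_le (by simpa using hy))) h3)
  have hCF : Subgroup.centralizer (F : Set G) ≤ F := L.centralizer_pCore_le hp hO'
  obtain ⟨K, hK⟩ := H1.exists_hall (G := G) {p}ᶜ inferInstance
  obtain ⟨hKc, n, hKi⟩ := (H1.isPiHall_compl_iff hp).1 hK
  have hcop : (Nat.card F).Coprime (Nat.card K) := L.coprime_card_of_isPGroup hp hFp hKc
  have hKF : ∀ k ∈ K, k ∈ F → k = 1 := fun k h1 h2 =>
    orderOf_eq_one_iff.1 ((Nat.coprime_self _).1 (CN.cop_of_mem hcop h2 h1))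
  have hf : L.FPF F K := by
    refine L.FPF.of_forall fun x hx hx1 k hk hxk => ?_
    by_contra hk1
    have h3 := CN.comm hCN (P := Subgroup.zpowers x) (Q := F) (L.isNilpotent_of_isMulCommutative _) (CN.nil_p hp hFp)
      (hcop.symm.coprime_dvd_left (Subgroup.card_dvd_of_le (Subgroup.zpowers_le.2 hx)))
      (Subgroup.mem_zpowers x) hk hx1 hk1 hxk
    exact hx1 (hKF x hx (hCF (h3 (Subgroup.mem_zpowers x))))
  have hFn : K ≤ Subgroup.normalizer (F : Set G) := Subgroup.le_normalizer_of_normal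
  set π := QuotientGroup.mk' F with hπ
  have hπs : Function.Surjective π := QuotientGroup.mk'_surjective F
  have hπ1 : ∀ g, π g = 1 ↔ g ∈ F := fun g => QuotientGroup.eq_one_iff g
  have hCN' : Cfsg.IsCNGroup (G ⧸ F) := CN.quot_p hCN hp F hFp
  set B := Cfsg.fittingSubgroup (G ⧸ F) with hB
  have hBn : Group.IsNilpotent B := inferInstance
  have hBc : (Nat.card B).Coprime p := by
    have h1 := L.fitting_le_pCore_sup_pPrimeCore (G := G ⧸ F) hp
    rw [L.pCore_quotient_eq_bot, bot_sup_eq] at h1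
    exact (L.pPrimeCore_coprime p).coprime_dvd_left (Subgroup.card_dvd_of_le h1)
  have hCB : Subgroup.centralizer (B : Set (G ⧸ F)) ≤ B := L.centralizer_fitting_le
  have hBK : B ≤ K.map π := H1.le_of_isPiHall_of_normal (H1.isPiHall_map hK hπs)
    ((L.isPi_compl_singleton_iff hp).2 hBc)
  obtain ⟨u, huP, huF⟩ : ∃ u ∈ (P : Subgroup G), u ∉ F := by
    by_contra hno
    push Not at hno
    apply hPn
    rw [← le_antisymm hFP hno]; infer_instance
  have hu1 : π u ≠ 1 := fun h => huF ((hπ1 u).1 h)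
  have hup : IsPGroup p (Subgroup.zpowers (π u)) := by
    rw [← MonoidHom.map_zpowers]; exact (P.isPGroup'.to_le (Subgroup.zpowers_le.2 huP)).map π
  have hucop := L.coprime_card_of_isPGroup hp hup hBc
  have huB : π u ∉ B := fun h =>
    hu1 (orderOf_eq_one_iff.1 ((Nat.coprime_self _).1 (CN.cop_of_mem hucop (Subgroup.mem_zpowers _) h)))
  have hufix : ∀ b ∈ B, π u * b = b * π u → b = 1 := by
    intro b hb h
    by_contra hb1
    exact huB (hCB (CN.comm hCN' (CN.nil_p hp hup) hBn hucop (Subgroup.mem_zpowers _) hb hu1 hb1 h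
      (Subgroup.mem_zpowers _)))
  haveI : Nontrivial (G ⧸ F) := ⟨⟨_, _, hu1⟩⟩
  have hB1 : B ≠ ⊥ := L.fitting_ne_bot
  set A := K ⊓ B.comap π with hA
  have hAB : A.map π = B := by
    apply le_antisymm
    · rintro _ ⟨a, ha, rfl⟩; exact ha.2
    · intro b hb
      obtain ⟨k, hk, rfl⟩ := hBK hb
      exact ⟨k, ⟨hk, hb⟩, rfl⟩
  have hA1 : A ≠ ⊥ := by rintro h; rw [h, Subgroup.map_bot] at hAB; exact hB1 hAB.symm
  have hFA : F ⊔ A = B.comap π := by
    rw [← hAB, Subgroup.comap_map_eq, hπ, QuotientGroup.ker_mk', sup_comm]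
  have hK1 : K ≠ ⊥ := fun h => hA1 (by rw [hA, h, bot_inf_eq])
  obtain ⟨⟨z, hz⟩, hz1⟩ := Subgroup.ne_bot_iff_exists_ne_one.1 (hf.inf_centralizer_self_ne_bot hFn hO hK1)
  have hz1 : z ≠ 1 := fun e => hz1 (Subtype.ext e)
  have hKn : Group.IsNilpotent K := CN.nil hCN hz1 fun a ha => CN.mem_c1.2 (hz.2 a ha)
  have hAo : Odd (Nat.card A) := by
    rw [← Nat.not_even_iff_odd, even_iff_two_dvd]
    intro hd
    haveI := Fact.mk Nat.prime_two
    obtain ⟨s, hs⟩ := exists_prime_orderOf_dvd_card' 2 hd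
    have hs' : orderOf (s : G) = 2 := by rw [Subgroup.orderOf_coe, hs]
    have hs1 : π s ≠ 1 := fun h => by
      rw [hKF s s.2.1 ((hπ1 s).1 h)] at hs'; simp at hs'
    have h1 : π u * π s * (π u)⁻¹ ∈ B := (inferInstance : B.Normal).conj_mem _ s.2.2 _
    obtain ⟨t, ht, hte⟩ := hBK h1
    have ht2 : orderOf t = 2 := by
      apply orderOf_eq_prime
      · apply hKF _ (pow_mem ht 2)
        rw [← hπ1, map_pow, hte, conj_pow, ← map_pow, ← hs', pow_orderOf_eq_one]; simp
      · rintro rfl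
        apply hs1
        have : π u * π s * (π u)⁻¹ = 1 := by rw [← hte, map_one]
        simpa using this
    rw [hf.unique_involution hFn hO s.2.1 ht hs' ht2] at hte
    exact hs1 (hufix _ s.2.2 (by rw [← mul_inv_eq_iff_eq_mul]; exact hte.symm))
  have hAc : IsCyclic A := by
    haveI := (hf.mono le_rfl (inf_le_left : A ≤ K)).isZGroup_of_odd (inf_le_left.trans hFn) hO hAo
    haveI : Group.IsNilpotent A := L.isNilpotent_of_le (inf_le_left : A ≤ K)
    infer_instance
  have hBcy : IsCyclic B := by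
    rw [← hAB]; exact isCyclic_of_surjective _ (π.subgroupMap_surjective A)
  have hcent : ∀ b ∈ B, b ≠ 1 → Subgroup.centralizer ({b} : Set (G ⧸ F)) ≤ B := by
    intro b hb hb1
    haveI : (Subgroup.centralizer ({b} : Set (G ⧸ F))).Normal := ⟨fun c hc g => by
      obtain ⟨m, hm⟩ := MonoidHom.map_cyclic (MulAut.conjNormal (H := B) g⁻¹).toMonoidHom
      have h1 : g⁻¹ * b * g = b ^ m := by simpa using congrArg Subtype.val (hm ⟨b, hb⟩)
      have h2 := ((show Commute c b from CN.mem_c1.1 hc).zpow_right m).eq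
      rw [← h1] at h2
      apply CN.mem_c1.2
      calc g * c * g⁻¹ * b = g * (c * (g⁻¹ * b * g)) * g⁻¹ := by group
        _ = _ := by rw [h2]; group⟩
    exact L.le_fitting (hCN' b hb1)
  have hzB : π z ∈ B := by
    apply hCB
    intro b hb
    obtain ⟨k, hk, rfl⟩ := hBK hb
    rw [← map_mul, ← map_mul, hz.2 k hk]
  have hKN : K ≤ B.comap π := fun k hk =>
    hcent _ hzB (fun h => hz1 (hKF z hz.1 ((hπ1 z).1 h)))
      (CN.mem_c1.2 (by rw [← map_mul, ← map_mul, hz.2 k hk]))
  refine ⟨p, hp, hO, A, hA1, hAc, hAo, hKc.coprime_dvd_left (Subgroup.card_dvd_of_le inf_le_left), ?_, ?_, ?_,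
    fun a ha ha1 => hf a ha.1 ha1, ?_⟩
  · rw [hFA]; infer_instance
  · rw [hFA]; intro h; exact huB (show u ∈ B.comap π from h ▸ Subgroup.mem_top u)
  · rw [hFA]
    have := Subgroup.index_dvd_of_le hKN
    rw [hKi] at this
    obtain ⟨m, -, hm⟩ := (Nat.dvd_prime_pow hp).1 this
    exact ⟨m, hm⟩
  · intro x hx a ha ha1 h
    rw [hFA] at hx
    apply hx
    refine hcent (π a) ha.2 (fun e => ha1 (hKF a ha.1 ((hπ1 a).1 e))) (CN.mem_c1.2 ?_)
    have := (hπ1 _).2 h
    simp only [map_mul, map_inv] at this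
    calc π x * π a = π x * π a * (π x)⁻¹ * (π a)⁻¹ * (π a * π x) := by group
      _ = _ := by rw [this, one_mul]

end Cfsg.Agent.S1476
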