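import Cfsg.Statements.S1477
import Cfsg.Agent.H9.CNg

set_option autoImplicit false
open Cfsg

namespace Cfsg.Agent.S1477

open Cfsg.Agent Cfsg.Agent.H9
open Subgroup L in
theorem ex_cent {G : Type*} [Group G] [Finite G] {H : Subgroup G} (hH : Group.IsNilpotent H) {q : ℕ}
    (hq : q.Prime) (hd : q ∣ Nat.card H) :
    ∃ w ∈ H, w ≠ 1 ∧ IsPGroup q (zpowers w) ∧ H ≤ centralizer ({w} : Set G) := by
  haveI := Fact.mk hq
  obtain ⟨t, ht⟩ := exists_prime_orderOf_dvd_card' q hd
  have h1 : (pCore q H).map H.subtype ≠ ⊥ := by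
    refine CN.ne_bot_of_mem (x := t) ⟨t, le_pCore_of_isNilpotent hq (CN.isPGroup_zpowers_of_orderOf ht)
      (mem_zpowers t), rfl⟩ ?_
    intro e
    rw [show t = 1 from Subtype.ext e] at ht
    exact hq.one_lt.ne (by simpa using ht)
  obtain ⟨w, hw, hw1, hc⟩ := CN.exists_central hH (map_subtype_le _)
    (le_normalizer.trans (normalizer_le_normalizer_pCoreMap q H)) h1
  exact ⟨w, map_subtype_le _ hw, hw1, (pCoreMap_isPGroup q H).to_le (zpowers_le.2 hw), hc⟩

/-- Let G be a finite group in which every non-identity element has nilpotent centralizer, and H a nilpotent subgroup not properly contained in any nilpotent subgroup. Then the order of H is coprime to its index; if the order of H is not a prime power then H ∩ gHg⁻¹ = 1 whenever gHg⁻¹ ≠ H; and if H ∩ gHg⁻¹ = 1 whenever gHg⁻¹ ≠ H, then C_G(x) ≤ H for every non-identity x ∈ H. -/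
theorem result {G : Type*} [Group G] [Finite G] (hCN : Cfsg.IsCNGroup G) (H : Subgroup G) (hH : Group.IsNilpotent H)
    (hmax : ∀ L : Subgroup G, Group.IsNilpotent L → H ≤ L → L = H) :
    (Nat.card H).Coprime H.index ∧
      (¬ IsPrimePow (Nat.card H) → Nat.card H ≠ 1 → ∀ g : G, H.map (MulAut.conj g).toMonoidHom ≠ H → H ⊓ H.map (MulAut.conj g).toMonoidHom = ⊥) ∧
      ((∀ g : G, H.map (MulAut.conj g).toMonoidHom ≠ H → H ⊓ H.map (MulAut.conj g).toMonoidHom = ⊥) → ∀ x ∈ H, x ≠ 1 → Subgroup.centralizer ({x} : Set G) ≤ H) := by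
  have hz : ∀ z : G, z ≠ 1 → H ≤ Subgroup.centralizer ({z} : Set G) →
      Subgroup.centralizer ({z} : Set G) = H := fun z hz1 hc => hmax _ (hCN z hz1) hc
  have hall : (Nat.card H).Coprime H.index := by
    refine Nat.coprime_of_dvd fun p hp h1 h2 => ?_
    haveI := Fact.mk hp
    obtain ⟨z, hzH, hz1, hzp, hzc⟩ := ex_cent hH hp h1
    by_cases hpg : IsPGroup p H
    · obtain ⟨P, hP⟩ := hpg.exists_le_sylow
      rw [← hmax P (CN.nil_p hp P.isPGroup') hP] at h2
      exact P.not_dvd_index h2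
    · have : ∃ q : ℕ, q.Prime ∧ q ∣ Nat.card H ∧ q ≠ p := by
        by_contra hno
        push Not at hno
        exact hpg ((L.isPi_singleton_iff_isPGroup hp).1 fun q hq hd => hno q hq hd)
      obtain ⟨q, hq, hqd, hqp⟩ := this
      obtain ⟨w, hwH, hw1, hwq, hwc⟩ := ex_cent hH hq hqd
      obtain ⟨P, hP⟩ := hzp.exists_le_sylow
      have h3 := CN.comm hCN (CN.nil_p hp P.isPGroup') (CN.nil_p hq hwq) (CN.cop_pq hp hq hqp.symm P.isPGroup' hwq)
        (hP (Subgroup.mem_zpowers z)) (Subgroup.mem_zpowers w) hz1 hw1 (CN.mem_c1.1 (hwc hzH))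
      have h4 : (P : Subgroup G) ≤ H := by
        rw [← hz w hw1 hwc]
        exact h3.trans (Subgroup.centralizer_le (by simp))
      exact P.not_dvd_index (h2.trans (Subgroup.index_dvd_of_le h4))
  refine ⟨hall, ?_, ?_⟩
  · intro hnp hn1 g hg
    by_contra hne
    apply hg
    set H' := H.map (MulAut.conj g).toMonoidHom with hH'
    have hH'n : Group.IsNilpotent H' := L.isNilpotent_map _ _
    obtain ⟨⟨x0, hx0⟩, hx01⟩ := Subgroup.ne_bot_iff_exists_ne_one.1 hne
    obtain ⟨p, hp, x, hxx, hxp⟩ := CN.exists_pow_prime (x := x0) (fun h => hx01 (Subtype.ext h))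
    haveI := Fact.mk hp
    have hx : x ∈ H ⊓ H' := Subgroup.zpowers_le.2 hx0 hxx
    have hx1 : x ≠ 1 := by rintro rfl; exact hp.one_lt.ne (by simpa using hxp)
    have hxP := CN.isPGroup_zpowers_of_orderOf hxp
    have hpd : p ∣ Nat.card H := hxp ▸ H.orderOf_dvd_natCard hx.1
    have : ∃ q : ℕ, q.Prime ∧ q ∣ Nat.card H ∧ q ≠ p := by
      by_contra hno
      push Not at hno
      obtain ⟨k, hk⟩ := (L.isPi_singleton_iff hp (n := Nat.card H) Nat.card_pos.ne').1
        fun q hq hd => hno q hq hd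
      apply hnp
      rw [hk] at hn1 ⊢
      exact hp.isPrimePow.pow (by rintro rfl; simp at hn1)
    obtain ⟨q, hq, hqd, hqp⟩ := this
    obtain ⟨z, hzH, hz1, hzp, hzc⟩ := ex_cent hH hp hpd
    obtain ⟨w, hwH, hw1, hwq, hwc⟩ := ex_cent hH hq hqd
    have hcj : ∀ t : G, t ≠ 1 → H ≤ Subgroup.centralizer ({t} : Set G) → ∀ c : G,
        c * (g * t * g⁻¹) = (g * t * g⁻¹) * c ↔ c ∈ H' := by
      intro t ht1 htc c
      constructor
      · intro h
        refine ⟨g⁻¹ * c * g, ?_, by simp [mul_assoc]⟩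
        rw [← hz t ht1 htc]
        apply CN.mem_c1.2
        calc g⁻¹ * c * g * t = g⁻¹ * (c * (g * t * g⁻¹)) * g := by group
          _ = _ := by rw [h]; group
      · rintro ⟨d, hd, rfl⟩
        have := CN.mem_c1.1 (htc hd)
        show g * d * g⁻¹ * (g * t * g⁻¹) = g * t * g⁻¹ * (g * d * g⁻¹)
        calc g * d * g⁻¹ * (g * t * g⁻¹) = g * (d * t) * g⁻¹ := by group
          _ = _ := by rw [this]; group
    have key : ∀ u v : G, v ≠ 1 → IsPGroup p (Subgroup.zpowers u) → IsPGroup q (Subgroup.zpowers v) →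
        x * u = u * x → x * v = v * x → u * v = v * u := by
      intro u v hv1 hu hv h1 h2
      have hs : IsPGroup p ↥(Subgroup.zpowers x ⊔ Subgroup.zpowers u) := by
        refine IsPGroup.to_sup_of_normal_right' hxP hu (le_trans ?_ (Subgroup.centralizer_le_normalizer _))
        rintro _ ⟨i, rfl⟩ _ ⟨j, rfl⟩
        exact ((show Commute x u from h1).zpow_zpow i j).eq.symm
      exact (CN.comm hCN (CN.nil_p hp hs) (CN.nil_p hq hv) (CN.cop_pq hp hq hqp.symm hs hv)
        (Subgroup.mem_sup_left (Subgroup.mem_zpowers x)) (Subgroup.mem_zpowers v) hx1 hv1 h2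
        (Subgroup.mem_sup_right (Subgroup.mem_zpowers u)) v (Subgroup.mem_zpowers v)).symm
    have cjp : ∀ (r : ℕ) (t : G), IsPGroup r (Subgroup.zpowers t) → IsPGroup r (Subgroup.zpowers (g * t * g⁻¹)) := by
      intro r t ht
      have := ht.map (MulAut.conj g).toMonoidHom
      rwa [MonoidHom.map_zpowers] at this
    have hzH' : z ∈ H' := (hcj w hw1 hwc z).1
      (key z _ (by simpa using hw1) hzp (cjp q w hwq) (CN.mem_c1.1 (hzc hx.1)) ((hcj w hw1 hwc x).2 hx.2))
    have hwH' : w ∈ H' := (hcj z hz1 hzc w).1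
      (key _ w hw1 (cjp p z hzp) hwq ((hcj z hz1 hzc x).2 hx.2) (CN.mem_c1.1 (hwc hx.1))).symm
    have hle : H' ≤ H := by
      refine L.le_of_forall_isPGroup_le fun r hr R hR hRr => ?_
      by_cases e : r = p
      · subst e
        rw [← hz w hw1 hwc]
        exact (L.le_centralizer_of_isNilpotent_of_coprime hR (Subgroup.zpowers_le.2 hwH')
          (CN.cop_pq hr hq hqp.symm hRr hwq)).trans (Subgroup.centralizer_le (by simp))
      · rw [← hz z hz1 hzc]
        exact (L.le_centralizer_of_isNilpotent_of_coprime hR (Subgroup.zpowers_le.2 hzH')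
          (CN.cop_pq hr hp e hRr hzp)).trans (Subgroup.centralizer_le (by simp))
    exact Subgroup.eq_of_le_of_card_ge hle (Subgroup.card_map_of_injective (MulAut.conj g).injective).ge
  · intro hTI x hx hx1
    have hN : Subgroup.centralizer ({x} : Set G) ≤ Subgroup.normalizer (H : Set G) := by
      intro c hc
      have : H.map (MulAut.conj c).toMonoidHom = H := by
        by_contra hne
        have h1 : x ∈ H ⊓ H.map (MulAut.conj c).toMonoidHom :=
          ⟨hx, x, hx, by show c * x * c⁻¹ = x; rw [CN.mem_c1.1 hc]; group⟩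
        rw [hTI c hne] at h1
        exact hx1 h1
      exact L.mem_normalizer_of_forall fun y hy => this ▸ ⟨y, hy, rfl⟩
    refine L.le_of_forall_isPGroup_le fun r hr R hR hRr => ?_
    haveI := Fact.mk hr
    by_cases hd : r ∣ Nat.card H
    · have hri : (Nat.card R).Coprime H.index := by
        obtain ⟨k, hk⟩ := hRr.exists_card_eq
        rw [hk]
        exact (hall.coprime_dvd_left hd).pow_left k
      have h1 : R.subgroupOf (Subgroup.normalizer (H : Set G)) ≤ H.subgroupOf (Subgroup.normalizer (H : Set G)) := by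
        apply L.le_of_coprime_index
        rw [L.card_subgroupOf (hR.trans hN)]
        exact hri.coprime_dvd_right (Subgroup.relIndex_dvd_index_of_le Subgroup.le_normalizer)
      intro a ha
      exact h1 (show (⟨a, hN (hR ha)⟩ : Subgroup.normalizer (H : Set G)) ∈ R.subgroupOf _ from ha)
    · intro a ha
      by_cases ha1 : a = 1
      · rw [ha1]; exact H.one_mem
      obtain ⟨z, hzH, hz1, hzc⟩ := CN.exists_central hH le_rfl Subgroup.le_normalizer (CN.ne_bot_of_mem hx hx1)
      have h3 := CN.comm hCN (CN.nil_p hr hRr) hH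
        (L.coprime_card_of_isPGroup hr hRr ((Nat.Prime.coprime_iff_not_dvd hr).2 hd).symm) ha hx ha1 hx1
        (CN.mem_c1.1 (hR ha))
      rw [← hz z hz1 hzc]
      exact CN.mem_c1.2 (h3 ha z hzH).symm

end Cfsg.Agent.S1477
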