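import Cfsg.Statements.S1494
import Cfsg.Agent.H3.Brauer

set_option autoImplicit false
open Cfsg

namespace Cfsg.Agent.S1494

open Cfsg.Agent.H3
open scoped commutatorElement

/-- Let χ be a generalized character of the finite group G, p a prime, x an element of order p and y an element commuting with x. Then χ(x * y) − χ(y) = (1 − ε) * ω for some algebraic integer ω, where ε = exp(2πi/p). -/
theorem result {G : Type*} [Group G] [Finite G] (χ : G → ℂ) (hχ : Cfsg.IsGeneralizedCharacter G χ) (p : ℕ) (hp : p.Prime) (x y : G) (hx : orderOf x = p) (hxy : x * y = y * x) : ∃ ω : ℂ, IsIntegral ℤ ω ∧ χ (x * y) - χ y = (1 - Complex.exp (2 * Real.pi * Complex.I / p)) * ω := by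
  have hζ := Complex.isPrimitiveRoot_exp p hp.ne_zero
  set ζ := Complex.exp (2 * Real.pi * Complex.I / p)
  have : NeZero p := ⟨hp.ne_zero⟩
  have key : ∀ χ, IsCharacter G χ → ∃ ω : ℂ, IsIntegral ℤ ω ∧ χ (x * y) - χ y = (1 - ζ) * ω :=
    fun χ h => by
    obtain ⟨n, a, b, h1, h2, h3, h4⟩ := h.exists_eigenvalues_pair (show Commute x y from hxy)
    choose k _ hk using fun i => hζ.eq_pow_of_pow_eq_one (hx ▸ h1 i)
    refine ⟨∑ i, -(∑ j ∈ Finset.range (k i), ζ ^ j) * b i, IsIntegral.sum _ fun i _ =>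
      (IsIntegral.sum _ fun j _ => (hζ.isIntegral hp.pos).pow j).neg.mul (h2 i), ?_⟩
    rw [h3, h4, ← Finset.sum_sub_distrib, Finset.mul_sum]
    refine Finset.sum_congr rfl fun i _ => ?_
    rw [← hk i]
    linear_combination (b i) * mul_neg_geom_sum ζ (k i)
  obtain ⟨a, b, ha, hb, rfl⟩ := hχ
  obtain ⟨u, hu, h1⟩ := key a ha
  obtain ⟨v, hv, h2⟩ := key b hb
  exact ⟨u - v, hu.sub hv, by simp only [Pi.sub_apply]; linear_combination h1 - h2⟩

end Cfsg.Agent.S1494
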