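import Cfsg.Statements.S1497
import Cfsg.Agent.H3.Dade

set_option autoImplicit false
open Cfsg

namespace Cfsg.Agent.S1497

open Cfsg.Agent.H3
open scoped commutatorElement

/-- Let A be a nonempty subset of the finite group G not containing 1 and L a subgroup. Then A is a TI-subset whose normaliser is L if and only if the Dade hypothesis holds for A, L and the constant choice H(a) = ⊥. -/
theorem result {G : Type*} [Group G] [Finite G] (A : Set G) (hA : A.Nonempty) (h1 : (1 : G) ∉ A) (L : Subgroup G) : (Cfsg.IsTISubset A ∧ Subgroup.normalizer A = L) ↔ Cfsg.DadeHypothesis A L (fun _ => ⊥) := by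
  constructor
  · rintro ⟨hTI, rfl⟩
    have h2 : ∀ a ∈ A, ∀ g : G, g * a * g⁻¹ ∈ A → g ∈ Subgroup.normalizer A := fun a ha g hg => by
      by_contra h; exact h1 (hTI g h a ha hg ▸ ha)
    have h3 : ∀ a ∈ A, Subgroup.normalizer A ⊓ Subgroup.centralizer {a} = Subgroup.centralizer {a} :=
      fun a ha => inf_eq_right.2 fun g hg => h2 a ha g (by
        rwa [Subgroup.mem_centralizer_singleton_iff.1 hg, mul_inv_cancel_right])
    exact ⟨h1, fun a ha => h2 a ha a (by simpa using ha),
      fun x hx a ha => (Subgroup.mem_set_normalizer_iff.1 hx a).1 ha,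
      fun a ha g hg => ⟨g, h2 a ha g hg, rfl⟩, fun _ _ => bot_le,
      fun a ha c hc u hu => by rw [Subgroup.mem_bot] at hu ⊢; simp [hu],
      fun _ _ => bot_inf_eq _, fun a ha => by rw [bot_sup_eq, h3 a ha], fun _ _ _ _ => by simp⟩
  · intro hD
    have h2 : ∀ a ∈ A, ∀ g : G, g * a * g⁻¹ ∈ A → g ∈ L := fun a ha g hg => by
      obtain ⟨x, hx, h⟩ := hD.fusion a ha g hg
      have h3 : x⁻¹ * g ∈ Subgroup.centralizer {a} :=
        Subgroup.mem_centralizer_singleton_iff.2 (by
          calc _ = x⁻¹ * (g * a * g⁻¹) * g := by group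
            _ = _ := by rw [← h]; group)
      rw [← hD.sup_eq a ha, bot_sup_eq] at h3
      simpa using L.mul_mem hx h3.1
    have h3 : Subgroup.normalizer A = L := le_antisymm
      (fun g hg => h2 _ hA.some_mem g ((Subgroup.mem_set_normalizer_iff.1 hg _).1 hA.some_mem))
      fun x hx => Subgroup.mem_set_normalizer_iff.2 fun a => (hD.conj_mem_iff hx).symm
    exact ⟨fun g hg a ha h => absurd (h3 ▸ h2 a ha g h) hg, h3⟩

end Cfsg.Agent.S1497
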