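import Cfsg.Statements.S1499
import Cfsg.Agent.H3.Dade

set_option autoImplicit false
open Cfsg

namespace Cfsg.Agent.S1499

open Cfsg.Agent.H3
open scoped commutatorElement

/-- Under the Dade hypothesis for (A, L, H), let a, b ∈ A. If an element of the coset a·H(a) is conjugate in G to an element of b·H(b), then a and b are conjugate by an element of L. Moreover the set normaliser of the coset a·H(a) is the centraliser of a. -/
theorem result {G : Type*} [Group G] [Finite G] (A : Set G) (L : Subgroup G) (H : G → Subgroup G) (hD : Cfsg.DadeHypothesis A L H) (a b : G) (ha : a ∈ A) (hb : b ∈ A) : ((∃ u ∈ H a, ∃ v ∈ H b, ∃ g : G, g * (a * u) * g⁻¹ = b * v) → ∃ x ∈ L, x * a * x⁻¹ = b) ∧ Subgroup.normalizer ((fun u : G => a * u) '' (H a : Set G)) = Subgroup.centralizer ({a} : Set G) := by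
  refine ⟨fun ⟨u, hu, v, hv, g, h⟩ => hD.fusion_mul ha hb hu hv (isConj_iff.2 ⟨g, h⟩), ?_⟩
  have key : ∀ c ∈ Subgroup.centralizer ({a} : Set G), ∀ y ∈ (fun u : G => a * u) '' (H a : Set G),
      c * y * c⁻¹ ∈ (fun u : G => a * u) '' (H a : Set G) := by
    rintro c hc _ ⟨u, hu, rfl⟩
    refine ⟨_, hD.conj_mem_H a ha c hc u hu, ?_⟩
    have := Subgroup.mem_centralizer_singleton_iff.1 hc
    simp only [← mul_assoc, this]
  refine le_antisymm (fun g hg => ?_) fun c hc => Subgroup.mem_set_normalizer_iff.2 fun y =>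
    ⟨key c hc y, fun h => by simpa [mul_assoc] using key _ (Subgroup.inv_mem _ hc) _ h⟩
  obtain ⟨v, hv, h⟩ := (Subgroup.mem_set_normalizer_iff.1 hg (a * 1)).1 ⟨1, (H a).one_mem, rfl⟩
  have := hD.conj_eq_of_conj_mul ha ha (H a).one_mem hv h.symm
  exact Subgroup.mem_centralizer_singleton_iff.2 (mul_inv_eq_iff_eq_mul.1 this)

end Cfsg.Agent.S1499
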