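import Cfsg.Statements.S1502
import Cfsg.Agent.H3.CTI2

set_option autoImplicit false
open Cfsg

namespace Cfsg.Agent.S1502

open Cfsg.Agent.H3
open scoped commutatorElement

/-- Let W₁, W₂ be nontrivial subgroups of the finite group G generating a cyclic subgroup W = W₁ ⊔ W₂ of odd order that is the normaliser of every nonempty set of its elements outside W₁ ∪ W₂. Then there is a family attaching to each linear character ω of W an irreducible character of G up to sign, orthonormal, sending the trivial character to the principal character, with χ ω = ω on W outside W₁ ∪ W₂, and such that inducing (1 − φ)(1 − ψ) to G gives 1 − χ φ − χ ψ + χ (φψ) whenever φ ≠ 1 is trivial on W₂ and ψ ≠ 1 is trivial on W₁. -/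
theorem result {G : Type*} [Group G] [Fintype G] (W₁ W₂ : Subgroup G) (hW : Cfsg.IsSelfNormalizingCyclic W₁ W₂) (hodd : Odd (Nat.card ↥(W₁ ⊔ W₂))) : ∃ χ : (↥(W₁ ⊔ W₂) →* ℂˣ) → (G → ℂ), Cfsg.IsCyclicTIFamily W₁ W₂ χ := by
  classical
  have h := hW.cycTI hodd
  have hd := hW.2.2.1
  have hc := hW.2.2.2.1
  refine ⟨fun ω => eta W₁.subtype W₂.subtype (linL ω) (linR ω), fun ω => h.sirr _ _,
    fun ω ω' => ?_, h.eta_one, fun ω w h1 h2 => ?_, fun φ ψ _ _ h1 h2 => ?_⟩
  · rw [h.inner_eq]
    simp only [show linL ω = linL ω' ∧ linR ω = linR ω' ↔ ω = ω' from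
      ⟨fun h => eq_of_linL hd hc h.1 h.2, fun h => by simp [h]⟩]
    congr
  · obtain ⟨p, rfl⟩ := (prodEquivSup hd hc).surjective w
    rw [apply_prodEquivSup]
    exact h.apply _ _ ((mul_not_mem_right hd _).1 h2) ((mul_not_mem_left hd _).1 h1)
  · have h1 := (linR_eq_iff (ω' := 1)).2 h1
    have h2 := (linL_eq_iff (ω' := 1)).2 h2
    rw [indFun_alp hW h1 h2, h.fam.ind_alp, linL_mul, linR_mul, h1, h2, h.eta_one, linL_one,
      linR_one, mul_one, one_mul]
    rfl

end Cfsg.Agent.S1502
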