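import Cfsg.Statements.S1504
import Cfsg.Agent.H3.CTI2

set_option autoImplicit false
open Cfsg

namespace Cfsg.Agent.S1504

open Cfsg.Agent.H3
open scoped commutatorElement

/-- Let W₁, W₂ be subgroups of a finite group with W₁ ⊓ W₂ = ⊥ whose elements commute, and W = W₁ ⊔ W₂. For linear characters φ, ψ of W with φ trivial on W₂ and ψ trivial on W₁, the function (1 − φ)(1 − ψ) vanishes on W₁ ∪ W₂; and the family of these functions, indexed by pairs (φ, ψ) with φ ≠ 1 ≠ ψ, is linearly independent over ℂ. -/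
theorem result {G : Type*} [Group G] [Finite G] (W₁ W₂ : Subgroup G) (hdisj : W₁ ⊓ W₂ = ⊥) (hcomm : ∀ a ∈ W₁, ∀ b ∈ W₂, a * b = b * a) : (∀ φ ψ : ↥(W₁ ⊔ W₂) →* ℂˣ, (∀ w : ↥(W₁ ⊔ W₂), (w : G) ∈ W₂ → φ w = 1) → (∀ w : ↥(W₁ ⊔ W₂), (w : G) ∈ W₁ → ψ w = 1) → ∀ w : ↥(W₁ ⊔ W₂), ((w : G) ∈ W₁ ∨ (w : G) ∈ W₂) → (1 - (φ w : ℂ) - (ψ w : ℂ) + (φ w : ℂ) * (ψ w : ℂ)) = 0) ∧ LinearIndependent ℂ (fun p : {p : (↥(W₁ ⊔ W₂) →* ℂˣ) × (↥(W₁ ⊔ W₂) →* ℂˣ) // p.1 ≠ 1 ∧ p.2 ≠ 1 ∧ (∀ w : ↥(W₁ ⊔ W₂), (w : G) ∈ W₂ → p.1 w = 1) ∧ (∀ w : ↥(W₁ ⊔ W₂), (w : G) ∈ W₁ → p.2 w = 1)} => fun w : ↥(W₁ ⊔ W₂) => 1 - (p.1.1 w : ℂ) - (p.1.2 w : ℂ) + (p.1.1 w : ℂ) * (p.1.2 w : ℂ)) := by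
  classical
  refine ⟨fun φ ψ h1 h2 w hw => by rcases hw with h | h <;> simp [h1 w, h2 w, h], ?_⟩
  have := Fintype.ofFinite ↥(W₁ ⊔ W₂)
  rw [linearIndependent_iff']
  intro s c h p hp
  have h1 := congrArg (fun f => classInner f (fun w => ((p.1.1 * p.1.2) w : ℂ))) h
  have key : ∀ φ ψ : ↥(W₁ ⊔ W₂) →* ℂˣ, (∀ w : ↥(W₁ ⊔ W₂), (w : G) ∈ W₂ → φ w = 1) →
      (∀ w : ↥(W₁ ⊔ W₂), (w : G) ∈ W₁ → ψ w = 1) → linL (φ * ψ) = linL φ ∧ linR (φ * ψ) = linR ψ :=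
    fun φ ψ a b => by
      rw [linL_mul, linR_mul, (linR_eq_iff (ω' := 1)).2 a, (linL_eq_iff (ω' := 1)).2 b, linL_one,
        linR_one, mul_one, one_mul]; exact ⟨rfl, rfl⟩
  have h2 : ∀ φ ψ : ↥(W₁ ⊔ W₂) →* ℂˣ, (∀ w : ↥(W₁ ⊔ W₂), (w : G) ∈ W₂ → φ w = 1) →
      (∀ w : ↥(W₁ ⊔ W₂), (w : G) ∈ W₁ → ψ w = 1) → φ * ψ = p.1.1 * p.1.2 →
      φ = p.1.1 ∧ ψ = p.1.2 := fun φ ψ a b e => by
    have k1 := key _ _ a b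
    have k2 := key _ _ p.2.2.2.1 p.2.2.2.2
    rw [e] at k1
    exact ⟨eq_of_linL hdisj hcomm (k1.1.symm.trans k2.1)
      (linR_eq_iff.2 fun w hw => (a w hw).trans (p.2.2.2.1 w hw).symm),
      eq_of_linL hdisj hcomm (linL_eq_iff.2 fun w hw => (b w hw).trans (p.2.2.2.2 w hw).symm)
      (k1.2.symm.trans k2.2)⟩
  have h3 : ∀ q : {p : (↥(W₁ ⊔ W₂) →* ℂˣ) × (↥(W₁ ⊔ W₂) →* ℂˣ) // p.1 ≠ 1 ∧ p.2 ≠ 1 ∧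
      (∀ w : ↥(W₁ ⊔ W₂), (w : G) ∈ W₂ → p.1 w = 1) ∧ (∀ w : ↥(W₁ ⊔ W₂), (w : G) ∈ W₁ → p.2 w = 1)},
      classInner (fun w : ↥(W₁ ⊔ W₂) => 1 - (q.1.1 w : ℂ) - (q.1.2 w : ℂ) + (q.1.1 w : ℂ) * (q.1.2 w : ℂ))
        (fun w => ((p.1.1 * p.1.2) w : ℂ)) = if q = p then 1 else 0 := fun q => by
    rw [show (fun w : ↥(W₁ ⊔ W₂) => 1 - (q.1.1 w : ℂ) - (q.1.2 w : ℂ) + (q.1.1 w : ℂ) * (q.1.2 w : ℂ)) =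
      (fun w => (((1 * 1 : ↥(W₁ ⊔ W₂) →* ℂˣ)) w : ℂ)) - (fun w => ((q.1.1 * 1 : ↥(W₁ ⊔ W₂) →* ℂˣ) w : ℂ)) -
      (fun w => ((1 * q.1.2 : ↥(W₁ ⊔ W₂) →* ℂˣ) w : ℂ)) + (fun w => ((q.1.1 * q.1.2) w : ℂ)) by ext; simp]
    isimp [classInner_linear]
    rw [if_neg fun e => p.2.1 (h2 _ _ (by simp) (by simp) e).1.symm,
      if_neg fun e => p.2.2.1 (h2 _ _ q.2.2.2.1 (by simp) e).2.symm,
      if_neg fun e => p.2.1 (h2 _ _ (by simp) q.2.2.2.2 e).1.symm, sub_zero, sub_zero, zero_add]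
    exact if_congr ⟨fun e => Subtype.ext (Prod.ext_iff.2 (h2 _ _ q.2.2.2.1 q.2.2.2.2 e)),
      fun e => e ▸ rfl⟩ rfl rfl
  simp only [classInner_sum_left, classInner_smul_left, h3] at h1
  simpa [hp, classInner_zero_left] using h1

end Cfsg.Agent.S1504
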