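import Cfsg.Statements.S1505
import Cfsg.Agent.H3.CTI2

set_option autoImplicit false
open Cfsg

namespace Cfsg.Agent.S1505

open Cfsg.Agent.H3
open scoped commutatorElement

open Classical in
/-- Let W₁, W₂ ≤ G form a self-normalising cyclic subgroup W = W₁ ⊔ W₂. For nontrivial linear characters φ, φ' of W trivial on W₂ and ψ, ψ' trivial on W₁, put α = (1 − φ)(1 − ψ) and α' = (1 − φ')(1 − ψ'). Then the function induced from α to G has inner product 1 with the principal character, and the inner product of the functions induced from α and α' is 1 + a + b + ab where a = 1 if φ = φ' (else 0) and b = 1 if ψ = ψ' (else 0). -/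
theorem result {G : Type*} [Group G] [Fintype G] (W₁ W₂ : Subgroup G) (hW : Cfsg.IsSelfNormalizingCyclic W₁ W₂) (φ φ' ψ ψ' : ↥(W₁ ⊔ W₂) →* ℂˣ) (hφ : φ ≠ 1) (hφ' : φ' ≠ 1) (hψ : ψ ≠ 1) (hψ' : ψ' ≠ 1) (hφ₂ : ∀ w : ↥(W₁ ⊔ W₂), (w : G) ∈ W₂ → φ w = 1 ∧ φ' w = 1) (hψ₁ : ∀ w : ↥(W₁ ⊔ W₂), (w : G) ∈ W₁ → ψ w = 1 ∧ ψ' w = 1) : Cfsg.classInner (Cfsg.indFun (W₁ ⊔ W₂) (fun w => 1 - (φ w : ℂ) - (ψ w : ℂ) + (φ w : ℂ) * (ψ w : ℂ))) (fun _ => 1) = 1 ∧ Cfsg.classInner (Cfsg.indFun (W₁ ⊔ W₂) (fun w => 1 - (φ w : ℂ) - (ψ w : ℂ) + (φ w : ℂ) * (ψ w : ℂ))) (Cfsg.indFun (W₁ ⊔ W₂) (fun w => 1 - (φ' w : ℂ) - (ψ' w : ℂ) + (φ' w : ℂ) * (ψ' w : ℂ))) = 1 + (if φ = φ' then 1 else 0) + (if ψ = ψ' then 1 else 0) + (if φ = φ' then 1 else 0) * (if ψ = ψ' then 1 else 0) := by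
  have := Fintype.ofFinite (W₁ × W₂)
  have hd := hW.2.2.1
  have hc := hW.2.2.2.1
  have h1 := (linR_eq_iff (ω' := 1)).2 fun w h => (hφ₂ w h).1
  have h2 := (linR_eq_iff (ω' := 1)).2 fun w h => (hφ₂ w h).2
  have h3 := (linL_eq_iff (ω' := 1)).2 fun w h => (hψ₁ w h).1
  have h4 := (linL_eq_iff (ω' := 1)).2 fun w h => (hψ₁ w h).2
  have a1 : linL φ ≠ 1 := fun h => hφ (eq_of_linL hd hc h h1)
  have a2 : linL φ' ≠ 1 := fun h => hφ' (eq_of_linL hd hc h h2)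
  have a3 : linR ψ ≠ 1 := fun h => hψ (eq_of_linL hd hc h3 h)
  have a4 : linR ψ' ≠ 1 := fun h => hψ' (eq_of_linL hd hc h4 h)
  rw [indFun_alp hW h1 h3, indFun_alp hW h2 h4, hW.cycTI₀.inner_ind (alp_supp _ _) (alp_supp _ _),
    inner_alp a1 a2 a3 a4, inner_indHom hW.cycTI₀.hom_injective _ (isClassFunction_const 1)]
  refine ⟨inner_alp_one a1 a3, ?_⟩
  simp only [show linL φ = linL φ' ↔ φ = φ' from
      ⟨fun h => eq_of_linL hd hc h (h1.trans h2.symm), fun h => h ▸ rfl⟩,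
    show linR ψ = linR ψ' ↔ ψ = ψ' from
      ⟨fun h => eq_of_linL hd hc (h3.trans h4.symm) h, fun h => h ▸ rfl⟩]
  split_ifs <;> norm_num

end Cfsg.Agent.S1505
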