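import Cfsg.Statements.S1507
import Cfsg.Agent.H3.CTI2

set_option autoImplicit false
open Cfsg

namespace Cfsg.Agent.S1507

open Cfsg.Agent.H3
open scoped commutatorElement

open Classical in
/-- Let W₁, W₂ ≤ G form a self-normalising cyclic subgroup W = W₁ ⊔ W₂ of odd order with Nat.card W₁ < Nat.card W₂, and χ an orthonormal family of irreducible characters of G up to sign, indexed by the linear characters ω of W, with χ_1 = 1, χ_ω = ω on W outside W₁ ∪ W₂, and the induction identity for (1 − φ)(1 − ψ). Let θ be a class function of G vanishing on W outside W₁ ∪ W₂, and suppose fewer than 2 · Nat.card W₁ linear characters ω of W have ⟨θ, χ ω⟩ ≠ 0. Then one of: all ⟨θ, χ ω⟩ vanish; or there are ψ₀ and a with ⟨θ, χ ω⟩ = a when ω ψ₀⁻¹ is trivial on W₂ and 0 otherwise; or there are φ₀ and a with ⟨θ, χ ω⟩ = a when ω φ₀⁻¹ is trivial on W₁ and 0 otherwise. -/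
theorem result {G : Type*} [Group G] [Fintype G] (W₁ W₂ : Subgroup G) (hW : Cfsg.IsSelfNormalizingCyclic W₁ W₂) (hodd : Odd (Nat.card ↥(W₁ ⊔ W₂))) (χ : (↥(W₁ ⊔ W₂) →* ℂˣ) → (G → ℂ)) (hχ : Cfsg.IsCyclicTIFamily W₁ W₂ χ) (hlt : Nat.card W₁ < Nat.card W₂) (θ : G → ℂ) (hθ : Cfsg.IsClassFunction G θ) (hθV : ∀ w : ↥(W₁ ⊔ W₂), (w : G) ∉ W₁ → (w : G) ∉ W₂ → θ w = 0) (hfew : Nat.card {ω : ↥(W₁ ⊔ W₂) →* ℂˣ // Cfsg.classInner θ (χ ω) ≠ 0} < 2 * Nat.card W₁) : (∀ ω, Cfsg.classInner θ (χ ω) = 0) ∨ (∃ (ψ₀ : ↥(W₁ ⊔ W₂) →* ℂˣ) (a : ℂ), ∀ ω, Cfsg.classInner θ (χ ω) = if (∀ w : ↥(W₁ ⊔ W₂), (w : G) ∈ W₂ → (ω * ψ₀⁻¹) w = 1) then a else 0) ∨ (∃ (φ₀ : ↥(W₁ ⊔ W₂) →* ℂˣ) (a : ℂ), ∀ ω, Cfsg.classInner θ (χ ω) = if (∀ w : ↥(W₁ ⊔ W₂), (w : G) ∈ W₁ → (ω * φ₀⁻¹) w = 1) then a else 0) := by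
  have hd := hW.2.2.1
  have hc := hW.2.2.2.1
  have h := hW.cycTI hodd
  have h1 : ∀ ω, χ ω = eta W₁.subtype W₂.subtype (linL ω) (linR ω) := fun ω => by
    rw [← h.fam_eq (hχ.fam hW)]; simp only [linLift_linL]
  by_cases h2 : ∀ ω, Cfsg.classInner θ (χ ω) = 0
  · exact Or.inl h2
  push Not at h2
  obtain ⟨ω₀, h2⟩ := h2
  simp only [h1] at h2 hfew ⊢
  have h3 : nc W₁.subtype W₂.subtype θ < 2 * min (Nat.card W₁) (Nat.card W₂) := by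
    rw [min_eq_left hlt.le]
    refine lt_of_eq_of_lt ?_ hfew
    rw [nc, ← Fintype.card_subtype, ← Nat.card_eq_fintype_card]
    exact (Nat.card_congr ((linEquiv hd hc).subtypeEquiv fun _ => Iff.rfl)).symm
  refine Or.inr ((h.small_nc hθ (fun a ha b hb => hθV (prodEquivSup hd hc (a, b))
    ((mul_not_mem_left hd _).2 hb) ((mul_not_mem_right hd _).2 ha)) h3 h2).imp
    (fun h4 => ⟨ω₀, classInner θ (eta W₁.subtype W₂.subtype (linL ω₀) (linR ω₀)),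
      fun ω => (h4 _ _).trans ?_⟩)
    fun h4 => ⟨ω₀, classInner θ (eta W₁.subtype W₂.subtype (linL ω₀) (linR ω₀)),
      fun ω => (h4 _ _).trans ?_⟩)
  · simp [linR_eq_iff, mul_inv_eq_one]
  · simp [linL_eq_iff, mul_inv_eq_one]

end Cfsg.Agent.S1507
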