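import Cfsg.Statements.S1508
import Cfsg.Agent.H3.CTI2

set_option autoImplicit false
open Cfsg

namespace Cfsg.Agent.S1508

open Cfsg.Agent.H3
open scoped commutatorElement

/-- Let W₁, W₂ ≤ G form a self-normalising cyclic subgroup W = W₁ ⊔ W₂ of odd order and χ an orthonormal family of irreducible characters of G up to sign, indexed by the linear characters ω of W, with χ_1 = 1, χ_ω = ω on W outside W₁ ∪ W₂, and the induction identity for (1 − φ)(1 − ψ). Let ω be a linear character of W and g an element of G whose order is coprime to the order of ω. Then χ ω g is an integer. -/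
theorem result {G : Type*} [Group G] [Fintype G] (W₁ W₂ : Subgroup G) (hW : Cfsg.IsSelfNormalizingCyclic W₁ W₂) (hodd : Odd (Nat.card ↥(W₁ ⊔ W₂))) (χ : (↥(W₁ ⊔ W₂) →* ℂˣ) → (G → ℂ)) (hχ : Cfsg.IsCyclicTIFamily W₁ W₂ χ) (ω : ↥(W₁ ⊔ W₂) →* ℂˣ) (g : G) (hg : Nat.Coprime (orderOf g) (orderOf ω)) : ∃ n : ℤ, χ ω g = n := by
  have hd := hW.2.2.1
  have hc := hW.2.2.2.1
  have h := hW.cycTI hodd
  have h1 : χ ω = eta W₁.subtype W₂.subtype (linL ω) (linR ω) := by
    rw [← h.fam_eq (hχ.fam hW)]; simp only [linLift_linL]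
  have h2 : (Lin.mk ω) ^ orderOf ω = 1 := pow_orderOf_eq_one ω
  rw [h1]
  refine h.exists_int _ _ (Nat.Coprime.mul_right ?_ ?_) <;>
    refine hg.coprime_dvd_right (orderOf_dvd_of_pow_eq_one (Lin.ext fun a => ?_))
  · exact (Lin.pow_apply _ _ _).trans ((Lin.pow_apply _ _ _).symm.trans (DFunLike.congr_fun h2 _))
  · exact (Lin.pow_apply _ _ _).trans ((Lin.pow_apply _ _ _).symm.trans (DFunLike.congr_fun h2 _))

end Cfsg.Agent.S1508
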