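import Cfsg.Statements.S1511
import Cfsg.Agent.H3.PDade

set_option autoImplicit false
open Cfsg

namespace Cfsg.Agent.S1511

open Cfsg.Agent.H3
open scoped commutatorElement

/-- Let L be a finite group with K normal with complement W₁ ≠ 1 a cyclic Hall subgroup, and W₂ ≠ 1 a cyclic subgroup of K equal to C_K(x) for every non-identity x ∈ W₁, with W₁W₂ of odd order. Then there are a map μ from the linear characters of W = W₁ ⊔ W₂ to irreducible characters of L, injective, and a sign δ(ω) ∈ {1, −1} depending only on the values of ω on W₂, such that: for ω, ω' agreeing on W₂, the function induced to L from ω − ω' equals δ(ω) • (μ ω − μ ω'); μ ω x = δ(ω) ω x for x ∈ W outside W₂; every irreducible character of L not of the form μ ω vanishes on W outside W₂; and μ ω 1 − δ(ω) is an integer multiple of Nat.card W₁. -/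
theorem result {L : Type*} [Group L] [Fintype L] (K W₁ W₂ : Subgroup L) [hK : K.Normal] (hKW₁ : K ⊓ W₁ = ⊥) (hKW₁' : K ⊔ W₁ = ⊤) (hW₁ : W₁ ≠ ⊥) (hW₁c : IsCyclic W₁) (hHall : Nat.Coprime (Nat.card W₁) W₁.index) (hW₂ : W₂ ≠ ⊥) (hW₂c : IsCyclic W₂) (hW₂K : W₂ ≤ K) (hC : ∀ x ∈ W₁, x ≠ 1 → K ⊓ Subgroup.centralizer ({x} : Set L) = W₂) (hodd : Odd (Nat.card ↥(W₁ ⊔ W₂))) : ∃ (μ : (↥(W₁ ⊔ W₂) →* ℂˣ) → (L → ℂ)) (δ : (↥(W₁ ⊔ W₂) →* ℂˣ) → ℂ), Function.Injective μ ∧ (∀ ω, Cfsg.IsIrrCharacter L (μ ω)) ∧ (∀ ω, δ ω = 1 ∨ δ ω = -1) ∧ (∀ ω ω' : ↥(W₁ ⊔ W₂) →* ℂˣ, (∀ w : ↥(W₁ ⊔ W₂), (w : L) ∈ W₂ → ω w = ω' w) → δ ω = δ ω' ∧ Cfsg.indFun (W₁ ⊔ W₂) (fun w => (ω w : ℂ) - (ω' w : ℂ)) = δ ω • (μ ω - μ ω')) ∧ (∀ ω, ∀ w : ↥(W₁ ⊔ W₂), (w : L) ∉ W₂ → μ ω w = δ ω * (ω w : ℂ)) ∧ (∀ θ : L → ℂ, Cfsg.IsIrrCharacter L θ → (∀ ω, θ ≠ μ ω) → ∀ w : ↥(W₁ ⊔ W₂), (w : L) ∉ W₂ → θ w = 0) ∧ (∀ ω,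 ∃ n : ℤ, μ ω 1 - δ ω = n * (Nat.card W₁ : ℂ)) := by
  have h := pti_of_subgroups hKW₁' hW₁ hW₁c (coprime_of_compl hKW₁ hKW₁' hHall) hW₂ hW₂c hC hodd
  have hW := h.cycTI.isSelfNormalizingCyclic
  have hd := hW.2.2.1
  have hc := hW.2.2.2.1
  refine ⟨fun ω => mu2 W₁.subtype W₂.subtype (linL ω) (linR ω),
    fun ω => dl W₁.subtype W₂.subtype (linR ω),
    fun _ _ h1 => eq_of_linL hd hc (h.mu2_inj h1).1 (h.mu2_inj h1).2, fun ω => h.irr _ _,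
    fun ω => dl_cases' _ _ _, fun ω ω' h1 => ?_, fun ω w hw => ?_, fun θ hθ h1 w hw => ?_,
    fun ω => ?_⟩
  · have h2 := linR_eq_iff.2 h1
    simp only [← h2, true_and, smul_sub, dl_smul_mu2, ← h.ind_sub]
    rw [indFun_sup_eq h.cycTI.toCycTI₀ hd hc]
    congr 1; ext p; simp [apply_prodEquivSup, om, h2]
  · obtain ⟨p, rfl⟩ := (prodEquivSup hd hc).surjective w
    rw [apply_prodEquivSup]
    exact h.mu2_apply _ _ ((mul_not_mem_right hd _).1 hw) _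
  · obtain ⟨p, rfl⟩ := (prodEquivSup hd hc).surjective w
    refine h.vanish_irr hθ (fun i j h2 => h1 (linLift hd hc i j) ?_) fun h2 => ?_
    · simp only [linL_linLift, linR_linLift, h2]
    · rw [prodEquivSup_apply, K.mul_mem_cancel_right (hW₂K p.2.2)] at h2
      exact (mul_not_mem_right hd _).1 hw (h.eq_one_of_mem h2)
  · obtain ⟨n, hn⟩ := h.exists_deg (linL ω) (linR ω)
    exact ⟨n, by simp only [hn]; ring⟩

end Cfsg.Agent.S1511
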