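import Cfsg.Statements.S1512
import Cfsg.Agent.H3.PDade

set_option autoImplicit false
open Cfsg

namespace Cfsg.Agent.S1512

open Cfsg.Agent.H3
open scoped commutatorElement

/-- Let K be a normal subgroup of the finite group L and x a non-identity element whose order is coprime to the order of K, such that K ⊓ C_L(y) = W₂ for every non-identity element y of the cyclic group generated by x. Then the number of conjugacy classes of K mapped to themselves by conjugation by x is at most Nat.card W₂. -/
theorem result {L : Type*} [Group L] [Finite L] (K W₂ : Subgroup L) [hK : K.Normal] (x : L) (hx1 : x ≠ 1) (hx : Nat.Coprime (orderOf x) (Nat.card K)) (hC : ∀ y ∈ Subgroup.zpowers x, y ≠ 1 → K ⊓ Subgroup.centralizer ({y} : Set L) = W₂) : Nat.card {C : ConjClasses K // ConjClasses.map (MulEquiv.toMonoidHom ((MulAut.conjNormal x : MulAut K))) C = C} ≤ Nat.card W₂ := by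
  rw [← hC x (Subgroup.mem_zpowers x) hx1]
  refine le_trans (Nat.card_le_card_of_injective (Subtype.map id fun C hC g hg => ?_)
    (Subtype.map_injective _ Function.injective_id)) (card_fixed_classes_le hx)
  rw [id] at hg
  rw [← hg] at hC
  exact ConjClasses.mk_eq_mk_iff_isConj.1 hC

end Cfsg.Agent.S1512
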