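import Cfsg.Statements.S1513
import Cfsg.Agent.H3.PDade

set_option autoImplicit false
open Cfsg

namespace Cfsg.Agent.S1513

open Cfsg.Agent.H3
open scoped commutatorElement

/-- Let L be a finite group with K normal with complement W₁ ≠ 1 a cyclic Hall subgroup, and W₂ ≠ 1 a cyclic subgroup of K equal to C_K(x) for every non-identity x ∈ W₁, with W₁W₂ of odd order. For an irreducible character θ of K: if θ is not fixed under conjugation by some element of W₁, then the function induced from θ to L is an irreducible character of L; and the irreducible characters of K fixed by all of W₁ are exactly Nat.card W₂ in number, each inducing to the sum of Nat.card W₁ pairwise distinct irreducible characters of L. -/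
theorem result {L : Type*} [Group L] [Fintype L] (K W₁ W₂ : Subgroup L) [hK : K.Normal] (hKW₁ : K ⊓ W₁ = ⊥) (hKW₁' : K ⊔ W₁ = ⊤) (hW₁ : W₁ ≠ ⊥) (hW₁c : IsCyclic W₁) (hHall : Nat.Coprime (Nat.card W₁) W₁.index) (hW₂ : W₂ ≠ ⊥) (hW₂c : IsCyclic W₂) (hW₂K : W₂ ≤ K) (hC : ∀ x ∈ W₁, x ≠ 1 → K ⊓ Subgroup.centralizer ({x} : Set L) = W₂) (hodd : Odd (Nat.card ↥(W₁ ⊔ W₂))) : (∀ θ : K → ℂ, Cfsg.IsIrrCharacter K θ → (∃ x ∈ W₁, (fun k : K => θ ⟨x * k * x⁻¹, hK.conj_mem (k : L) k.2 x⟩) ≠ θ) → Cfsg.IsIrrCharacter L (Cfsg.indFun K θ)) ∧ Nat.card {θ : Cfsg.IrrCharacter K // ∀ x ∈ W₁, (fun k : K => (θ : K → ℂ) ⟨x * k * x⁻¹, hK.conj_mem (k : L) k.2 x⟩) = θ} = Nat.card W₂ ∧ (∀ θ : K → ℂ, Cfsg.IsIrrCharacter K θ → (∀ x ∈ W₁, (fun k : K => θ ⟨x * k * x⁻¹, hK.conj_mem (k : L) k.2 x⟩) = θ) → ∃ C : Finset (L → ℂ), C.card = Nat.card W₁ ∧ (∀ μ ∈ C, Cfsg.IsIrrCharacter L μ) ∧ Cfsg.indFun K θ = ∑ μ ∈ C, μ) := by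
  classical
  have h := pti_of_subgroups hKW₁' hW₁ hW₁c (coprime_of_compl hKW₁ hKW₁' hHall) hW₂ hW₂c hC hodd
  have := h.nt₁
  obtain ⟨a, ha⟩ := exists_ne (1 : W₁)
  refine ⟨fun θ hθ ⟨x, hx, h1⟩ => ((h.ind_cases hθ).resolve_left ?_).1, ?_, fun θ hθ h1 => ?_⟩
  · rintro ⟨j, rfl⟩
    exact h1 ((h.irr 1 j).isClassFunction.cjf_res x)
  · rw [← card_lin (A := W₂)]
    refine (Nat.card_eq_of_bijective (fun j => ⟨⟨_, h.irr_res 1 j⟩, fun x _ =>
      (h.irr 1 j).isClassFunction.cjf_res x⟩) ⟨fun j l hjl => h.res_inj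
        (congrArg (fun χ => χ.1.1) hjl), fun θ => ?_⟩).symm
    obtain ⟨j, hj⟩ := h.exists_eq_res θ.1.2 ha (θ.2 a a.2)
    exact ⟨j, Subtype.ext (Subtype.ext hj.symm)⟩
  · obtain ⟨j, rfl⟩ := h.exists_eq_res hθ ha (h1 a a.2)
    have h2 : Function.Injective fun i => mu2 W₁.subtype W₂.subtype i j :=
      fun _ _ h2 => (h.mu2_inj h2).1
    refine ⟨Finset.univ.image fun i => mu2 W₁.subtype W₂.subtype i j, ?_, fun μ hμ => ?_, ?_⟩
    · rw [Finset.card_image_of_injective _ h2, card_univ_lin]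
    · obtain ⟨i, -, rfl⟩ := Finset.mem_image.1 hμ
      exact h.irr i j
    · rw [Finset.sum_image fun _ _ _ _ h3 => h2 h3, h.ind_res, muS]

end Cfsg.Agent.S1513
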