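import Cfsg.Statements.S1514
import Cfsg.Agent.C3.Bridge

set_option autoImplicit false
open Cfsg

namespace Cfsg.Agent.S1514

open Subgroup Submodule H3 C3

/-- Let S be a nonempty set of irreducible characters of the finite group L, closed under complex conjugation and containing no real-valued member, and τ a linear isometry on the integer combinations of S vanishing at 1, with values virtual characters of G vanishing at 1. Then there is a choice R making (S, τ, R) a coherence system. -/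
theorem result {L : Type*} [Group L] [Fintype L] {G : Type*} [Group G] [Fintype G] (S : Set (L → ℂ)) (hS : S.Nonempty) (hirr : ∀ χ ∈ S, Cfsg.IsIrrCharacter L χ) (hconj : ∀ χ ∈ S, Cfsg.conjFun χ ∈ S ∧ Cfsg.conjFun χ ≠ χ) (τ : (L → ℂ) → (G → ℂ)) (hτ : Cfsg.IsLinearIsometryOn (Cfsg.zspanOn S {1}ᶜ) τ) (hτ1 : ∀ α ∈ Cfsg.zspanOn S {1}ᶜ, τ α 1 = 0) : ∃ R : (L → ℂ) → Finset (G → ℂ), Cfsg.IsCoherenceSystem S τ R := by
  obtain ⟨T, h1, h2⟩ := exists_iso0_irr hirr hτ hτ1
  have h := h1.subCoh_irr (fun χ h => (hconj χ h).1) (fun χ h => (hconj χ h).2) hirr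
  refine ⟨Rs T, hS, h.char, h.conj_mem, h.conj_ne, hτ, hτ1, h.orth, fun χ _ α a β b =>
    (orthoN_consts _).inner_eq a b, fun χ _ α a => (mem_consts.1 a).1.isGen, fun χ hχ => ?_,
    fun χ hχ φ hφ a b => h.disj χ hχ φ hφ ?_ ?_⟩
  · rw [h.sum_eq χ hχ, h2 _ (mem_zspanOn.2 ⟨sub_mem (subset_span hχ) (subset_span (h.conj_mem χ hχ)),
      (h.char χ hχ).sub_conjFun_one⟩)]
  · rintro rfl; exact one_ne_zero ((hirr _ hφ).inner_self.symm.trans a)
  · rintro rfl; exact one_ne_zero ((hirr _ hφ).inner_self.symm.trans b)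

end Cfsg.Agent.S1514
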