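import Cfsg.Statements.S1515
import Cfsg.Agent.C3.Bridge

set_option autoImplicit false
open Cfsg

namespace Cfsg.Agent.S1515

open Subgroup Submodule H3 C3

/-- Let (S, τ, R) be a coherence system from L to G, χ ∈ S, and ψ an integer combination of S with ⟨χ, ψ⟩ = ⟨conj χ, ψ⟩ = 0. Let τ₁ be a linear isometry on the integer combinations of χ − ψ and χ − conj χ, with virtual-character values, agreeing with τ on integer multiples of χ − conj χ. Then the sum over α ∈ R χ of the squared absolute values of ⟨τ₁(χ − ψ), α⟩ is at least ⟨χ, χ⟩; and if ⟨τ₁(χ − ψ), τ₁(χ − ψ)⟩ minus that sum is at least ⟨ψ, ψ⟩, then the sum equals ⟨χ, χ⟩ and every ⟨τ₁(χ − ψ), α⟩ with α ∈ R χ is 0 or 1. -/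
theorem result {L : Type*} [Group L] [Fintype L] {G : Type*} [Group G] [Fintype G] (S : Set (L → ℂ)) (τ : (L → ℂ) → (G → ℂ)) (R : (L → ℂ) → Finset (G → ℂ)) (hS : Cfsg.IsCoherenceSystem S τ R) (χ : L → ℂ) (hχ : χ ∈ S) (ψ : L → ℂ) (hψ : ψ ∈ Cfsg.zspan S) (h1 : Cfsg.classInner χ ψ = 0) (h2 : Cfsg.classInner (Cfsg.conjFun χ) ψ = 0) (τ₁ : (L → ℂ) → (G → ℂ)) (hτ₁ : Cfsg.IsLinearIsometryOn (Cfsg.zspan {χ - ψ, χ - Cfsg.conjFun χ}) τ₁) (hagree : ∀ n : ℤ, τ₁ (n • (χ - Cfsg.conjFun χ)) = τ (n • (χ - Cfsg.conjFun χ))) : (Cfsg.classInner χ χ).re ≤ ∑ α ∈ R χ, ‖Cfsg.classInner (τ₁ (χ - ψ)) α‖ ^ 2 ∧ ((Cfsg.classInner ψ ψ).re ≤ (Cfsg.classInner (τ₁ (χ - ψ)) (τ₁ (χ - ψ))).re - ∑ α ∈ R χ, ‖Cfsg.classInner (τ₁ (χ - ψ)) α‖ ^ 2 → (∑ α ∈ R χ, ‖Cfsg.classInner (τ₁ (χ - ψ)) α‖ ^ 2 = (Cfsg.classInner χ χ).re ∧ ∀ α ∈ R χ, Cfsg.classInner (τ₁ (χ - ψ)) α = 0 ∨ Cfsg.classInner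 (τ₁ (χ - ψ)) α = 1)) := by
  have m1 : χ - ψ ∈ zspan {χ - ψ, χ - conjFun χ} := subset_span (by simp)
  have m2 : χ - conjFun χ ∈ zspan {χ - ψ, χ - conjFun χ} := subset_span (by simp)
  have hZ := hτ₁.2.2.2 _ m1
  have h3 : τ₁ (χ - conjFun χ) = ∑ α ∈ R χ, α := by simpa [hS.sum_eq χ hχ] using hagree 1
  have h4 := hτ₁.2.2.1 _ m1 _ m2
  have h5 := hτ₁.2.2.1 _ m1 _ m1
  have h6 := hS.orthogonal χ hχ _ (hS.conj_mem χ hχ) (hS.conj_ne χ hχ).symm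
  rw [h3, classInner_sum_right] at h4
  isimp [h6, h1, classInner_eq_zero_comm.1 h1, classInner_eq_zero_comm.1 h2] at h4 h5
  choose! n hn using fun α (a : α ∈ R χ) => hZ.exists_int_inner (hS.virtual χ hχ α a)
  have h7 : ∑ α ∈ R χ, ‖⟪τ₁ (χ - ψ), α⟫‖ ^ 2 = ∑ α ∈ R χ, (n α : ℝ) ^ 2 :=
    Finset.sum_congr rfl fun α a => by rw [hn α a, Complex.norm_intCast, sq_abs]
  have h8 : ⟪χ, χ⟫.re = ∑ α ∈ R χ, (n α : ℝ) := by
    rw [← h4, Complex.re_sum]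
    exact Finset.sum_congr rfl fun α a => by rw [hn α a, Complex.intCast_re]
  have h9 := Finset.sum_le_sum fun α (_ : α ∈ R χ) => int_le_sq (n α)
  rw [h7, h5, sub_neg_eq_add, Complex.add_re, h8]
  refine ⟨h9, fun h => ⟨by linarith, fun α a => ?_⟩⟩
  have := (Finset.sum_eq_sum_iff_of_le fun α (_ : α ∈ R χ) => int_le_sq (n α)).1 (by linarith) α a
  rcases int_eq_zero_or_one this.ge with e | e <;> simp [hn α a, e]

end Cfsg.Agent.S1515
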