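import Cfsg.Statements.S1518
import Cfsg.Agent.C3.Bridge

set_option autoImplicit false
open Cfsg

namespace Cfsg.Agent.S1518

open Subgroup Submodule H3 C3

/-- Under the Dade hypothesis for (A, L, H): if χ is an irreducible character of L vanishing at every non-identity element of L outside A, then the Dade image of χ − conj χ equals μ − conj μ for some irreducible character μ of G. -/
theorem result {G : Type*} [Group G] [Fintype G] (A : Set G) (L : Subgroup G) [Fintype L] (H : G → Subgroup G) (hD : Cfsg.DadeHypothesis A L H) (χ : L → ℂ) (hχ : Cfsg.IsIrrCharacter L χ) (hsupp : ∀ x : L, x ≠ 1 → (x : G) ∉ A → χ x = 0) : ∃ μ : G → ℂ, Cfsg.IsIrrCharacter G μ ∧ Cfsg.dadeIsometry A L H (χ - Cfsg.conjFun χ) = μ - Cfsg.conjFun μ := by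
  exact hD.isoOn.exists_sub_conj hχ fun x hx => hsupp x (fun e => hx (Or.inl e)) fun e => hx (Or.inr e)

end Cfsg.Agent.S1518
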