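import Cfsg.Statements.S1519
import Cfsg.Agent.C3.Bridge

set_option autoImplicit false
open Cfsg

namespace Cfsg.Agent.S1519

open Subgroup Submodule H3 C3 PF

/-- Let K be a solvable normal subgroup of the finite group L and (S, τ, R) a coherence system from L to G where S is the set of functions induced from non-principal irreducible characters of K; write S(A) for those induced from characters whose kernel contains A. Let A, B, C, D be normal subgroups of L with A < K, B < K, B ≤ D ≤ C ≤ K and every commutator of D with C in B. If S(A) is coherent and 4 * [L:C]^2 * [C:D] < ([K:A] − 1)^2, then S(B) is coherent. -/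
theorem result {L : Type*} [Group L] [Fintype L] {G : Type*} [Group G] [Fintype G] (K : Subgroup L) [hK : K.Normal] (hsolv : Group.IsSolvable K) (τ : (L → ℂ) → (G → ℂ)) (R : (L → ℂ) → Finset (G → ℂ)) (hS : Cfsg.IsCoherenceSystem (Cfsg.inducedIrrAbove K ⊥) τ R) (A B C D : Subgroup L) [A.Normal] [B.Normal] [C.Normal] [D.Normal] (hAK : A < K) (hBK : B < K) (hBD : B ≤ D) (hDC : D ≤ C) (hCK : C ≤ K) (hcent : ∀ x ∈ D, ∀ y ∈ C, x * y * x⁻¹ * y⁻¹ ∈ B) (hA : Cfsg.IsCoherent (Cfsg.inducedIrrAbove K A) {1}ᶜ τ) (hlt : 4 * C.index ^ 2 * D.relIndex C < (A.relIndex K - 1) ^ 2) : Cfsg.IsCoherent (Cfsg.inducedIrrAbove K B) {1}ᶜ τ := by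
  rw [inducedIrrAbove_eq _ _ bot_le] at hS
  rw [inducedIrrAbove_eq _ _ hAK.le] at hA
  rw [inducedIrrAbove_eq _ _ hBK.le]
  obtain ⟨T, h1, h2⟩ := exists_subCoh hS
  obtain ⟨ν, h3⟩ := exists_coh h1.toIso0 h2 SI_subset_bot hA
  obtain ⟨χ, hχ⟩ := SI.nonempty le_rfl hBK.le hBK.not_ge
  exact isCoherent_of' h1 h2 SI_subset_bot (coh_bound h1 hAK.le (not_le_sup_der hsolv hAK) hBK.le hDC hCK
    hcent h3 hlt) hχ (SI.conj_mem hχ)

end Cfsg.Agent.S1519
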