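import Cfsg.Statements.S1521
import Cfsg.Agent.C3.Bridge

set_option autoImplicit false
open Cfsg

namespace Cfsg.Agent.S1521

open Subgroup Submodule H3 C3 PF

/-- Let K be a solvable normal subgroup of the finite group L of odd order and (S, τ, R) a coherence system from L to G with S the functions induced from non-principal irreducible characters of K; S(A) as before. Let M ≤ K be normal in L with K/M nilpotent, H₁ = [K, K] ⊔ M, H₁ < K < L, and suppose every element of K outside H₁ is centralised modulo H₁ only from inside K (L/H₁ is a Frobenius group with kernel K/H₁). Suppose one of the following: some normal subgroup of L lies strictly between H₁ and K; or [K:H₁] > 4[L:K]^2 + 1; or [K:M] is not a prime power; or [K,K] ≤ M; or [K:M] is a power of a prime p with [L:K] dividing p − 1. Then S(M) is coherent. -/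
theorem result {L : Type*} [Group L] [Fintype L] {G : Type*} [Group G] [Fintype G] (K : Subgroup L) [hK : K.Normal] (hsolv : Group.IsSolvable K) (τ : (L → ℂ) → (G → ℂ)) (R : (L → ℂ) → Finset (G → ℂ)) (hS : Cfsg.IsCoherenceSystem (Cfsg.inducedIrrAbove K ⊥) τ R) (hodd : Odd (Nat.card L)) (M : Subgroup L) [M.Normal] (hMK : M ≤ K) [(M.subgroupOf K).Normal] (hnil : Group.IsNilpotent (↥K ⧸ M.subgroupOf K)) (H₁ : Subgroup L) (hH₁ : H₁ = ⁅K, K⁆ ⊔ M) (hH₁K : H₁ < K) (hKL : K < ⊤) (hfrob : ∀ k ∈ K, k ∉ H₁ → ∀ x : L, x * k * x⁻¹ * k⁻¹ ∈ H₁ → x ∈ K) (hgood : (∃ N : Subgroup L, N.Normal ∧ H₁ < N ∧ N < K) ∨ 4 * K.index ^ 2 + 1 < H₁.relIndex K ∨ (¬ ∃ p m : ℕ, p.Prime ∧ M.relIndex K = p ^ m) ∨ ⁅K, K⁆ ≤ M ∨ (∃ p m : ℕ, p.Prime ∧ M.relIndex K = p ^ m ∧ K.index ∣ p - 1)) : Cfsg.IsCoherent (Cfsg.inducedIrrAbove K M) {1}ᶜ τ := by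
  subst hH₁
  have h0 : ¬ K ≤ M := (le_sup_right.trans_lt hH₁K).not_ge
  rw [inducedIrrAbove_eq _ _ bot_le] at hS
  rw [inducedIrrAbove_eq _ _ hMK]
  obtain ⟨T, h1, h2⟩ := exists_subCoh hS
  obtain ⟨χ, hχ⟩ := SI.nonempty le_rfl hMK h0
  by_contra hn
  obtain ⟨a, b, c, p, m, hp, d, e⟩ := non_coherent_chief h1 hodd hMK (nil_map_mk hnil) h0 hfrob
    fun ⟨ν, h3⟩ => hn (isCoherent_of' h1 h2 SI_subset_bot h3 hχ (SI.conj_mem hχ))
  rcases hgood with ⟨N, h4, h5, h6⟩ | h | h | h | ⟨q, n, hq, h4, h5⟩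
  · exact a N h4 h5 h6
  · exact h.not_ge b
  · exact h ⟨p, m, hp, d⟩
  · exact c h
  · have h6 : m ≠ 0 := by rintro rfl; exact h0 (relIndex_eq_one.1 d)
    obtain rfl := (Nat.prime_dvd_prime_iff_eq hp hq).1
      (hp.dvd_of_dvd_pow (h4 ▸ d ▸ dvd_pow_self p h6))
    exact e h5

end Cfsg.Agent.S1521
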