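import Cfsg.Statements.S1522
import Cfsg.Agent.C3.Bridge

set_option autoImplicit false
open Cfsg

namespace Cfsg.Agent.S1522

open Subgroup Submodule H3 C3 PF BG

/-- Let K be a nilpotent normal subgroup of the finite group L of odd order with [K,K] < K < L and L/[K,K] a Frobenius group with kernel K/[K,K] (elements of K outside [K,K] are centralised modulo [K,K] only from inside K); let (S, τ, R) be a coherence system from L to G with S the functions induced from non-principal irreducible characters of K. Let Z be a nontrivial normal subgroup of L contained in the centre of K, and suppose every member of S outside S(Z) is an irreducible character of L. Then S minus S(Z) is the set of irreducible characters χ of L with χ z ≠ χ 1 for some z ∈ Z, and it is coherent. -/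
theorem result {L : Type*} [Group L] [Fintype L] {G : Type*} [Group G] [Fintype G] (K : Subgroup L) [hK : K.Normal] (hsolv : Group.IsSolvable K) (τ : (L → ℂ) → (G → ℂ)) (R : (L → ℂ) → Finset (G → ℂ)) (hS : Cfsg.IsCoherenceSystem (Cfsg.inducedIrrAbove K ⊥) τ R) (hodd : Odd (Nat.card L)) (hnil : Group.IsNilpotent K) (hH₁K : ⁅K, K⁆ < K) (hKL : K < ⊤) (hfrob : ∀ k ∈ K, k ∉ ⁅K, K⁆ → ∀ x : L, x * k * x⁻¹ * k⁻¹ ∈ ⁅K, K⁆ → x ∈ K) (Z : Subgroup L) [Z.Normal] (hZ1 : Z ≠ ⊥) (hZK : Z ≤ K) (hZc : ∀ z ∈ Z, ∀ k ∈ K, z * k = k * z) (hirr : ∀ χ ∈ Cfsg.inducedIrrAbove K ⊥ \ Cfsg.inducedIrrAbove K Z, Cfsg.IsIrrCharacter L χ) : Cfsg.inducedIrrAbove K ⊥ \ Cfsg.inducedIrrAbove K Z = {χ | Cfsg.IsIrrCharacter L χ ∧ ∃ z ∈ Z, χ z ≠ χ 1} ∧ Cfsg.IsCoherent (Cfsg.inducedIrrAbove K ⊥ \ Cfsg.inducedIrrAbove K Z) {1}ᶜ τ := by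
  rw [inducedIrrAbove_eq _ _ bot_le, inducedIrrAbove_eq _ _ hZK] at hirr ⊢
  rw [inducedIrrAbove_eq _ _ bot_le] at hS
  have h0 : (SI K K ⊥ : Set (L → ℂ)) \ SI K K Z = SI K Z ⊥ := by
    ext χ
    simp only [Set.mem_diff, Finset.mem_coe, mem_SI, bot_le, and_true]
    exact ⟨fun h => ⟨h.1.1, fun e => h.2 ⟨h.1.1, h.1.2, e⟩⟩,
      fun h => ⟨⟨h.1, fun e => h.2 (hZK.trans e)⟩, fun e => h.2 e.2.2⟩⟩
  rw [h0] at hirr ⊢
  refine ⟨(irr_not_le_eq hZK hirr).symm, ?_⟩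
  obtain ⟨T, h1, h2⟩ := exists_subCoh hS
  have hs : (SI K Z ⊥ : Set (L → ℂ)) ⊆ SI K K ⊥ := SI_mono hZK le_rfl
  obtain ⟨χ, hχ⟩ := SI.nonempty hZK bot_le (by simpa using hZ1)
  suffices h : ∃ ν, Coh (SI K Z ⊥) T ν from
    let ⟨ν, h3⟩ := h; isCoherent_of' h1 h2 hs h3 hχ (SI.conj_mem hχ)
  by_contra hn
  have hK1 : ¬ K ≤ ⊥ := (bot_le.trans_lt hH₁K).not_ge
  obtain ⟨-, -, -, p, m, hp, d, -⟩ := non_coherent_chief h1 hodd bot_le (nil_map_bot hnil ⊥) hK1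
    (by rwa [sup_bot_eq]) fun ⟨ν, h3⟩ => hn ⟨ν, h3.mono hs⟩
  have := Fact.mk hp
  rw [relIndex_bot_left] at d
  have hP := IsPGroup.of_card d
  obtain ⟨k, hk⟩ := hP.index (⁅K, K⁆.subgroupOf K)
  have h3 := one_lt_relIndex hH₁K.not_ge
  obtain ⟨c, hc⟩ := dvd_of_irr' hH₁K.le fun φ => SI.irr_of_frob hH₁K.le hfrob
  change relIndex _ _ = _ at hk
  have h4 : k ≠ 0 := by rintro rfl; exact h3.ne' hk
  refine hn (coh_center (p := p) (h1.mono hs fun _ => SI.conj_mem) ?_ hP ?_ hZK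
    (fun z hz k hk => (hZc z hz k hk).symm) hirr)
  · rintro rfl
    have := odd_relIndex hodd ⁅K, K⁆ K
    rw [hk, Nat.odd_pow_iff h4] at this
    exact absurd this (by decide)
  · refine Nat.Coprime.coprime_dvd_right (hk ▸ dvd_pow_self p h4 : p ∣ ⁅K, K⁆.relIndex K) ?_
    rw [show ⁅K, K⁆.relIndex K = 1 + K.index * c by omega]
    simp

end Cfsg.Agent.S1522
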