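import Cfsg.Statements.S1524
import Cfsg.Agent.C3.Bridge

set_option autoImplicit false
open Cfsg

namespace Cfsg.Agent.S1524

open Subgroup Submodule H3 C3 PF BG

/-- Let G be a finite group and H ≤ L subgroups with L of odd order, H ≠ ⊥ nilpotent and normal in L with a nontrivial complement W₁ in L (H ⊓ W₁ = ⊥, H ⊔ W₁ = L) acting on H without non-identity fixed points (L is a Frobenius group with kernel H), and suppose the underlying set of H is a TI-subset of G whose normaliser is L. Let S be the set of functions on L induced from the non-principal irreducible characters of H. Then (S, L minus 1, induction to G) is coherent. -/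
theorem result {G : Type*} [Group G] [Fintype G] (H L W₁ : Subgroup G) [Fintype L] (hodd : Odd (Nat.card L)) (hHL : H ≤ L) (hW₁L : W₁ ≤ L) (hH1 : H ≠ ⊥) (hW1 : W₁ ≠ ⊥) (hnil : Group.IsNilpotent H) (hHn : ∀ x ∈ L, ∀ h ∈ H, x * h * x⁻¹ ∈ H) (hinf : H ⊓ W₁ = ⊥) (hsup : H ⊔ W₁ = L) (hfpf : ∀ w ∈ W₁, w ≠ 1 → ∀ h ∈ H, w * h = h * w → h = 1) (hTI : Cfsg.IsTISubset (H : Set G)) (hN : Subgroup.normalizer (H : Set G) = L) : Cfsg.IsCoherent (Cfsg.inducedIrrAbove (H.subgroupOf L) ⊥) {1}ᶜ (fun α : L → ℂ => Cfsg.indFun L α) := by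
  have hn : (H.subgroupOf L).Normal := hN ▸ normal_in_normalizer
  have hf : Agent.L.FPF H W₁ := Agent.L.FPF.of_forall hfpf
  have hF := frobK_of hH1 (lt_of_le_of_ne hHL fun e => hW1 (by
    rwa [inf_eq_right.2 (e ▸ hW₁L)] at hinf)) fun k a b x hx => by
      by_contra e
      have := hf.inf_centralizer_of_not_mem (hN ▸ hW₁L) (hsup ▸ hx.1) e
      exact b (this.le ⟨a, mem_centralizer_singleton_iff.2 (mem_centralizer_singleton_iff.1 hx.2).symm⟩)
  obtain ⟨ν, h⟩ := sibley hTI hN hodd hF
  rw [inducedIrrAbove_eq _ _ bot_le]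
  refine frob_isCoherent hF (iso0_TI hTI hN) (fun _ _ => rfl) h fun e => ?_
  have := hF.two_mul_index hodd
  have := hF.one_lt_index
  omega

end Cfsg.Agent.S1524
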