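import Cfsg.Statements.S1526
import Cfsg.Agent.C3.Bridge

set_option autoImplicit false
open Cfsg

namespace Cfsg.Agent.S1526

open Subgroup Submodule H3 C3 PF BG

/-- Let G be a finite group of odd order and (L i, H i), i in a finite index type with at least two elements, pairs of subgroups with H i a nontrivial proper normal subgroup of L i such that every non-identity element of H i has its centraliser within L i contained in H i (L i is a Frobenius group with kernel H i), the orders of the H i pairwise coprime, and the underlying set of each H i a TI-subset of G with normaliser L i. If every non-identity element of G is conjugate to an element of some H i, we reach a contradiction. -/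
theorem result {G : Type*} [Group G] [Finite G] (hodd : Odd (Nat.card G)) {ι : Type*} [Fintype ι] (hι : 2 ≤ Fintype.card ι) (L H : ι → Subgroup G) (hHL : ∀ i, H i < L i) (hH1 : ∀ i, H i ≠ ⊥) (hHn : ∀ i, ∀ x ∈ L i, ∀ h ∈ H i, x * h * x⁻¹ ∈ H i) (hfrob : ∀ i, ∀ h ∈ H i, h ≠ 1 → L i ⊓ Subgroup.centralizer ({h} : Set G) ≤ H i) (hcop : ∀ i j, i ≠ j → Nat.Coprime (Nat.card (H i)) (Nat.card (H j))) (hTI : ∀ i, Cfsg.IsTISubset (H i : Set G) ∧ Subgroup.normalizer (H i : Set G) = L i) (hcover : ∀ g : G, g ≠ 1 → ∃ i, ∃ x : G, x * g * x⁻¹ ∈ H i) : False := by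
  have := Fintype.ofFinite G
  have := fun i => Fintype.ofFinite (L i)
  have hn : ∀ i, ((H i).subgroupOf (L i)).Normal := fun i => (hTI i).2 ▸ normal_in_normalizer
  have hF := fun i => frobK_of (hH1 i) (hHL i) (hfrob i)
  have hc : ∀ i, ♯((H i).subgroupOf (L i)) = ♯(H i) := fun i =>
    Nat.card_congr (subgroupOfEquivOfLe (hHL i).le).toEquiv
  refine no_coherent_partition hodd hι L (fun i => (H i).subgroupOf (L i))
    (fun i => cls ((H i : Set G) \ {1})) (fun i => indLin (L i)) hF
    (fun i => have := frob_nil (hF i); inferInstance) (fun i => dadeOn_TI (hTI i).1 (hTI i).2)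
    (fun i => sibley (hTI i).1 (hTI i).2 (hodd.of_dvd_nat (card_subgroup_dvd_card _)) (hF i))
    (fun i j e => by rw [hc, hc]; exact hcop i j e) (fun i j e => disjoint_cls (hcop i j e))
    (fun i => by rw [ncard_cls (hTI i).1, (hTI i).2, hc]) fun g hg => ?_
  obtain ⟨i, x, hx⟩ := hcover g hg
  exact ⟨i, _, ⟨hx, by simpa using hg⟩, (isConj_iff.2 ⟨x, rfl⟩).symm⟩

end Cfsg.Agent.S1526
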