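import Cfsg.Statements.S1527
import Cfsg.Agent.C3.Bridge

set_option autoImplicit false
open Cfsg

namespace Cfsg.Agent.S1527

open Subgroup Submodule H3 C3 PF BG

/-- Let G be a finite group and H i (i in a finite index type) subgroups of pairwise coprime orders, each of whose underlying sets is a TI-subset of G, such that every non-identity element of G is conjugate to an element of some H i. Then Nat.card G − 1 = Σ_i [G : N_G(H i)] · (Nat.card (H i) − 1). -/
theorem result {G : Type*} [Group G] [Finite G] {ι : Type*} [Fintype ι] (H : ι → Subgroup G) (hcop : ∀ i j, i ≠ j → Nat.Coprime (Nat.card (H i)) (Nat.card (H j))) (hTI : ∀ i, Cfsg.IsTISubset (H i : Set G)) (hcover : ∀ g : G, g ≠ 1 → ∃ i, ∃ x : G, x * g * x⁻¹ ∈ H i) : Nat.card G - 1 = ∑ i, (Subgroup.normalizer (H i : Set G)).index * (Nat.card (H i) - 1) := by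
  classical
  have := Fintype.ofFinite G
  have h1 : ((⊤ : Subgroup G) : Set G) \ {1} = ⋃ i, cls ((H i : Set G) \ {1}) := by
    ext g
    simp only [Set.mem_iUnion]
    refine ⟨fun hg => ?_, ?_⟩
    · obtain ⟨i, x, hx⟩ := hcover g hg.2
      exact ⟨i, _, ⟨hx, by simpa using hg.2⟩, (isConj_iff.2 ⟨x, rfl⟩).symm⟩
    · rintro ⟨i, a, ha, h⟩
      exact ⟨trivial, fun e => ha.2 (isConj_one_left.1 (e ▸ h))⟩
  have h2 := ncard_sharp (⊤ : Subgroup G)
  rw [h1, card_top, Set.ncard_iUnion_of_finite (fun _ => Set.toFinite _)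
    fun i j e => disjoint_cls (hcop i j e), finsum_eq_sum_of_fintype] at h2
  rw [← h2, Nat.add_sub_cancel]
  exact Finset.sum_congr rfl fun i _ => by rw [ncard_cls (hTI i), mul_comm]

end Cfsg.Agent.S1527
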