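import Cfsg.Statements.S1529
import Cfsg.Agent.C3.Bridge

set_option autoImplicit false
open Cfsg

namespace Cfsg.Agent.S1529

open Subgroup Submodule H3 C3 PF BG

/-- Let N be a subgroup of the finite group G, S a set of irreducible characters of N with at least two members, and τ₁ a linear isometry on the integer combinations of S with virtual-character values such that τ₁ α vanishes at 1 whenever α ∈ ℤ[S] does. Then there is ε ∈ {1, −1} such that ε • τ₁ χ is an irreducible character of G for every χ ∈ S, and distinct members of S give distinct characters. -/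
theorem result {G : Type*} [Group G] [Fintype G] (N : Subgroup G) [Fintype N] (S : Set (N → ℂ)) (hirr : ∀ χ ∈ S, Cfsg.IsIrrCharacter N χ) (htwo : ∃ χ ∈ S, ∃ ψ ∈ S, χ ≠ ψ) (τ₁ : (N → ℂ) → (G → ℂ)) (hτ₁ : Cfsg.IsLinearIsometryOn (Cfsg.zspan S) τ₁) (h0 : ∀ α ∈ Cfsg.zspan S, α 1 = 0 → τ₁ α 1 = 0) : ∃ ε : ℂ, (ε = 1 ∨ ε = -1) ∧ (∀ χ ∈ S, Cfsg.IsIrrCharacter G (ε • τ₁ χ)) ∧ (∀ χ ∈ S, ∀ ψ ∈ S, τ₁ χ = τ₁ ψ → χ = ψ) := by
  have h1 : ∀ χ ∈ S, IsSIrr G (τ₁ χ) := fun χ h => (hτ₁.2.2.2 χ (subset_span h)).isSIrr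
    ((hτ₁.2.2.1 χ (subset_span h) χ (subset_span h)).trans (hirr χ h).inner_self)
  obtain ⟨T, h2, h3⟩ := exists_iso0_irr (τ := τ₁) hirr
    ⟨fun a h b h' => hτ₁.1 a h.1 b h'.1, fun a h => hτ₁.2.1 a h.1,
      fun a h b h' => hτ₁.2.2.1 a h.1 b h'.1, fun a h => hτ₁.2.2.2 a h.1⟩
    fun a h => h0 a h.1 (mem_zspanOn.1 h).2
  obtain ⟨ν, h4, h5⟩ := exists_coh_of h2 h3 subset_rfl hτ₁ fun _ _ => rfl
  obtain ⟨φ, hφ, -⟩ := htwo
  obtain ⟨ε, μ, hε, hμ, h6⟩ := (h1 φ hφ).exists_sign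
  refine ⟨ε, hε, fun χ hχ => ((h1 χ hχ).smul hε).irr_of_re_pos ?_, fun χ hχ ψ hψ e => ?_⟩
  · have h7 := h2.deg h4.ext (subset_span hχ) (subset_span hφ)
    rw [h5 _ hχ, h5 _ hφ, h6] at h7
    have h8 : (ε • τ₁ χ) 1 = χ 1 * μ 1 / φ 1 := by
      rw [eq_div_iff (h2.ne _ hφ), Pi.smul_apply, smul_eq_mul, mul_assoc, mul_comm _ (φ 1), h7]
      rcases hε with rfl | rfl <;> simp
    rw [h8, ← (h2.char _ hχ).cast_charDegree, ← (h2.char _ hφ).cast_charDegree,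
      ← hμ.isCharacter.cast_charDegree]
    rw [← Nat.cast_mul, ← Complex.ofReal_natCast, ← Complex.ofReal_natCast, ← Complex.ofReal_div,
      Complex.ofReal_re]
    positivity
  · refine (hirr χ hχ).eq_of_inner_ne_zero (hirr ψ hψ) ?_
    rw [← hτ₁.2.2.1 χ (subset_span hχ) ψ (subset_span hψ), e, (h1 ψ hψ).inner_self]
    exact one_ne_zero

end Cfsg.Agent.S1529
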