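import Cfsg.Statements.S1530
import Cfsg.Agent.C3.Bridge

set_option autoImplicit false
open Cfsg

namespace Cfsg.Agent.S1530

open Subgroup Submodule H3 C3 PF BG

/-- Let N be a subgroup of the finite group G and S₀ a finite set of irreducible characters of N, χ an irreducible character of N not in S₀, with degrees ξ 1 = d ξ. Let τ be a linear isometry on the integer combinations of S₀ ∪ {χ} vanishing at 1, with values virtual characters of G vanishing at 1, such that (S₀, N minus 1, τ) is coherent. If some ψ ∈ S₀ has d ψ dividing d χ and 2 · d ψ · d χ < Σ_{ξ ∈ S₀} (d ξ)², then (S₀ ∪ {χ}, N minus 1, τ) is coherent. -/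
theorem result {G : Type*} [Group G] [Fintype G] (N : Subgroup G) [Fintype N] (S₀ : Finset (N → ℂ)) (χ : N → ℂ) (hirr : ∀ ξ ∈ S₀, Cfsg.IsIrrCharacter N ξ) (hχ : Cfsg.IsIrrCharacter N χ) (hχS : χ ∉ S₀) (d : (N → ℂ) → ℕ) (hd : ∀ ξ ∈ insert χ S₀, ξ 1 = (d ξ : ℂ)) (τ : (N → ℂ) → (G → ℂ)) (hτ : Cfsg.IsLinearIsometryOn (Cfsg.zspanOn (↑(insert χ S₀) : Set (N → ℂ)) {1}ᶜ) τ) (hτ1 : ∀ α ∈ Cfsg.zspanOn (↑(insert χ S₀) : Set (N → ℂ)) {1}ᶜ, τ α 1 = 0) (hcoh : Cfsg.IsCoherent (↑S₀ : Set (N → ℂ)) {1}ᶜ τ) (ψ : N → ℂ) (hψ : ψ ∈ S₀) (hdvd : d ψ ∣ d χ) (hlt : 2 * d ψ * d χ < ∑ ξ ∈ S₀, d ξ ^ 2) : Cfsg.IsCoherent (↑(insert χ S₀) : Set (N → ℂ)) {1}ᶜ τ := by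
  have hi : ∀ ξ ∈ (↑(insert χ S₀) : Set (N → ℂ)), IsIrrCharacter N ξ := by
    simpa [hχ] using hirr
  obtain ⟨T, h1, h2⟩ := exists_iso0_irr hi hτ hτ1
  have hs : (S₀ : Set (N → ℂ)) ⊆ ↑(insert χ S₀) := by simp
  obtain ⟨ν, h3⟩ := exists_coh h1 h2 hs hcoh
  have h4 : ∀ φ ∈ insert χ S₀, charDegree φ = d φ := fun φ h => charDegree_eq (hd φ h)
  refine isCoherent_of h1 h2 subset_rfl ((feit_ext h1 hi h3 hs hψ subset_rfl fun φ a b => ?_).mono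
    Set.subset_union_right) (χ := χ) (by simp) (hs hψ) (ne_of_mem_of_not_mem hψ hχS).symm
  obtain rfl : φ = χ := by simpa [b] using a
  rw [h4 _ a, h4 _ (hs hψ), Finset.sum_congr rfl fun φ h => by rw [h4 _ (hs h)], mul_right_comm]
  exact ⟨hdvd, hlt⟩

end Cfsg.Agent.S1530
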