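import Cfsg.Statements.S1531
import Cfsg.Agent.C3.Bridge

set_option autoImplicit false
open Cfsg

namespace Cfsg.Agent.S1531

open Subgroup Submodule H3 C3 PF BG

/-- Let N be a subgroup of the finite group G, S a set of irreducible characters of N, and α a linear isometry on the integer combinations of S vanishing at 1 with values virtual characters of G vanishing at 1. Let X, Y ⊆ S be disjoint, each with at least two members, and σ, τ linear isometries on ℤ[X], ℤ[Y] into virtual characters agreeing with α on the members vanishing at 1. Then ⟨σ χ, τ η⟩ = 0 for χ ∈ X, η ∈ Y; and if for some χ₀ ∈ X, η₀ ∈ Y with degrees c = χ₀ 1, e = η₀ 1 one has α (c • η₀ − e • χ₀) = c • τ η₀ − e • σ χ₀, then (X ∪ Y, N minus 1, α) is coherent. -/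
theorem result {G : Type*} [Group G] [Fintype G] (N : Subgroup G) [Fintype N] (S X Y : Set (N → ℂ)) (hirr : ∀ ξ ∈ S, Cfsg.IsIrrCharacter N ξ) (hXS : X ⊆ S) (hYS : Y ⊆ S) (hXY : Disjoint X Y) (hX2 : ∃ a ∈ X, ∃ b ∈ X, a ≠ b) (hY2 : ∃ a ∈ Y, ∃ b ∈ Y, a ≠ b) (α : (N → ℂ) → (G → ℂ)) (hα : Cfsg.IsLinearIsometryOn (Cfsg.zspanOn S {1}ᶜ) α) (hα1 : ∀ θ ∈ Cfsg.zspanOn S {1}ᶜ, α θ 1 = 0) (σ τ : (N → ℂ) → (G → ℂ)) (hσ : Cfsg.IsLinearIsometryOn (Cfsg.zspan X) σ) (hσα : ∀ θ ∈ Cfsg.zspanOn X {1}ᶜ, σ θ = α θ) (hτ : Cfsg.IsLinearIsometryOn (Cfsg.zspan Y) τ) (hτα : ∀ θ ∈ Cfsg.zspanOn Y {1}ᶜ, τ θ = α θ) : (∀ χ ∈ X, ∀ η ∈ Y, Cfsg.classInner (σ χ) (τ η) = 0) ∧ ((∃ χ₀ ∈ X, ∃ η₀ ∈ Y, α (χ₀ 1 • η₀ - η₀ 1 • χ₀) = χ₀ 1 • τ η₀ - η₀ 1 • σ χ₀) → Cfsg.IsCoherent (X ∪ Y) {1}ᶜ α) := by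
  obtain ⟨T, h1, h2⟩ := exists_iso0_irr hirr hα hα1
  obtain ⟨μ, h3, h4⟩ := exists_coh_of h1 h2 hXS hσ hσα
  obtain ⟨ν, h5, h6⟩ := exists_coh_of h1 h2 hYS hτ hτα
  have ho : ∀ χ ∈ X, ∀ η ∈ Y, ⟪χ, η⟫ = 0 := fun χ a η b =>
    h1.orth _ (hXS a) _ (hYS b) (hXY.ne_of_mem a b)
  have key : ∀ χ ∈ X, ∀ η ∈ Y, ⟪μ χ, ν η⟫ = 0 := fun χ a η b => by
    obtain ⟨χ', a', e⟩ : ∃ χ' ∈ X, χ' ≠ χ := (show X.Nontrivial from hX2).exists_ne χ
    obtain ⟨η', b', f⟩ : ∃ η' ∈ Y, η' ≠ η := (show Y.Nontrivial from hY2).exists_ne η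
    by_contra h7
    obtain ⟨ε, hε, h8⟩ : ∃ ε : ℂ, (ε = 1 ∨ ε = -1) ∧ μ χ = ε • ν η := by
      rcases (h3.sirr a (hirr _ (hXS a))).eq_or_eq_neg (h5.sirr b (hirr _ (hYS b))) h7 with h | h
      exacts [⟨1, Or.inl rfl, by simpa using h⟩, ⟨-1, Or.inr rfl, by simpa using h⟩]
    have hε2 : ε * ε = 1 := by rcases hε with rfl | rfl <;> simp
    have h8' : ν η = ε • μ χ := by rw [h8, smul_smul, hε2, one_smul]
    have m1 := mem_zspanOn.1 (cross_mem a a' (h1.char _ (hXS a)) (h1.char _ (hXS a')))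
    have m2 := mem_zspanOn.1 (cross_mem b b' (h1.char _ (hYS b)) (h1.char _ (hYS b')))
    have h9 := h1.iso _ (span_mono hXS (mem_span_of_int m1.1)) _ (span_mono hYS (mem_span_of_int m2.1))
      m1.2 m2.2
    have h10 : ⟪μ χ, ν η'⟫ = 0 := by
      rw [h8]; isimp [h5.iso _ b _ b', h1.orth _ (hYS b) _ (hYS b') f.symm]
    have h11 : ⟪μ χ', ν η⟫ = 0 := by
      rw [h8']; isimp [h3.iso _ a' _ a, h1.orth _ (hXS a') _ (hXS a) e]
    have h12 : ⟪μ χ, ν η⟫ = ε := by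
      rw [h8]; isimp [h5.iso _ b _ b, (hirr _ (hYS b)).inner_self]
    rw [← h3.ext _ m1.2, ← h5.ext _ m2.2] at h9
    isimp [map_smul, ho _ a _ b, ho _ a _ b', ho _ a' _ b, ho _ a' _ b', h10, h11, h12,
      (h1.char _ (hYS b)).conj_apply_one, (h1.char _ (hYS b')).conj_apply_one] at h9
    have d1 := h1.deg h3.ext (subset_span (hXS a)) (subset_span (hXS a'))
    have d2 := h1.deg h5.ext (subset_span (hYS b)) (subset_span (hYS b'))
    rw [h8, Pi.smul_apply, smul_eq_mul] at d1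
    have n0 := (h5.sirr b (hirr _ (hYS b))).apply_one_ne_zero
    have n1 := h1.ne _ (hXS a)
    have n2 := h1.ne _ (hXS a')
    have n3 := h1.ne _ (hYS b)
    have n4 := h1.ne _ (hYS b')
    have p2 : ∀ x y z w : N → ℂ, x ∈ S → y ∈ S → z ∈ S → w ∈ S → x 1 * y 1 + z 1 * w 1 ≠ 0 :=
      fun x y z w hx hy hz hw => by
        have := h1.ne _ hx; have := h1.ne _ hy
        rw [← (h1.char _ hx).cast_charDegree, ← (h1.char _ hy).cast_charDegree] at *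
        rw [← (h1.char _ hz).cast_charDegree, ← (h1.char _ hw).cast_charDegree]
        norm_cast at *; positivity
    rcases (h3.sirr a' (hirr _ (hXS a'))).inner_cases (h5.sirr b' (hirr _ (hYS b'))) with
      ⟨h, h'⟩ | ⟨h, h'⟩ | h'
    · rw [h] at d1; rw [h'] at h9
      rcases hε with rfl | rfl
      · exact p2 _ _ _ _ (hYS b') (hXS a') (hYS b) (hXS a) (by linear_combination h9)
      · refine p2 _ _ _ _ (hXS a') (hYS b) (hXS a) (hYS b') (mul_right_cancel₀ n0 ?_)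
        linear_combination χ 1 * d2 - η 1 * d1
    · rw [h, Pi.neg_apply] at d1; rw [h'] at h9
      rcases hε with rfl | rfl
      · refine p2 _ _ _ _ (hXS a') (hYS b) (hXS a) (hYS b') (mul_right_cancel₀ n0 ?_)
        linear_combination χ 1 * d2 + η 1 * d1
      · exact p2 _ _ _ _ (hYS b') (hXS a') (hYS b) (hXS a) (by linear_combination -h9)
    · rw [h'] at h9
      exact mul_ne_zero n4 (mul_ne_zero n2 (left_ne_zero_of_mul_eq_one hε2)) (by linear_combination h9)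
  refine ⟨fun χ a η b => h4 χ a ▸ h6 η b ▸ key χ a η b, fun ⟨χ, a, η, b, h⟩ => ?_⟩
  have m := cross_mem (hYS b) (hXS a) (h1.char _ (hYS b)) (h1.char _ (hXS a))
  have h7 : μ η = ν η := by
    rw [← h2 _ m, ← h3.ext _ (mem_zspanOn.1 m).2, map_sub, map_smul, map_smul, h4 _ a, sub_left_inj,
      ← h6 _ b] at h
    exact smul_right_injective _ (h1.ne _ (hXS a)) h
  have h8 : ∀ φ ∈ Y, μ φ = ν φ := fun φ c => by
    have h4 : (φ - (φ 1 / η 1) • η) 1 = 0 := by simp [h1.ne _ (hYS b)]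
    have := (h3.ext _ h4).trans (h5.ext _ h4).symm
    rwa [map_sub, map_sub, map_smul, map_smul, h7, sub_left_inj] at this
  refine isCoherent_of h1 h2 (Set.union_subset hXS hYS) (h1.pivot h3.ext (Or.inl a)
    (Set.union_subset hXS hYS) ?_ ?_) (Or.inl a) (Or.inr b) (hXY.ne_of_mem a b)
  · rintro φ (c | c)
    · exact h3.iso _ c _ a
    · rw [h8 _ c, classInner_eq_zero_comm.1 (key _ a _ c), classInner_eq_zero_comm.1 (ho _ a _ c)]
  · rintro φ (c | c)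
    exacts [h3.gen _ c, h8 _ c ▸ h5.gen _ c]

end Cfsg.Agent.S1531
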