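import Cfsg.Statements.S1532
import Cfsg.Agent.C3.Bridge

set_option autoImplicit false
open Cfsg

namespace Cfsg.Agent.S1532

open Subgroup Submodule H3 C3 PF BG

/-- Let G be a finite group, p an odd prime and P a Sylow p-subgroup that is non-abelian, whose underlying set is a TI-subset of G, with P properly contained in its set normaliser N and C_G(x) ≤ P for every non-identity x ∈ P. Let Z be a nontrivial subgroup of the centre of P normalised by N. Then the set of irreducible characters χ of N with χ z ≠ χ 1 for some z ∈ Z is coherent for the map induced by induction from N to G. -/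
theorem result {G : Type*} [Group G] [Fintype G] (p : ℕ) [Fact p.Prime] (hp : p ≠ 2) (P : Sylow p G) (hna : ¬ IsMulCommutative (P : Subgroup G)) (hTI : Cfsg.IsTISubset ((P : Subgroup G) : Set G)) (hlt : (P : Subgroup G) < Subgroup.normalizer ((P : Subgroup G) : Set G)) (hC : ∀ k ∈ (P : Subgroup G), k ≠ 1 → Subgroup.centralizer ({k} : Set G) ≤ (P : Subgroup G)) [Fintype ↥(Subgroup.normalizer ((P : Subgroup G) : Set G))] (Z : Subgroup G) (hZ1 : Z ≠ ⊥) (hZP : ∀ z ∈ Z, z ∈ (P : Subgroup G) ∧ ∀ y ∈ (P : Subgroup G), z * y = y * z) (hZn : ∀ x ∈ Subgroup.normalizer ((P : Subgroup G) : Set G), ∀ z ∈ Z, x * z * x⁻¹ ∈ Z) : Cfsg.IsCoherent {χ : ↥(Subgroup.normalizer ((P : Subgroup G) : Set G)) → ℂ | Cfsg.IsIrrCharacter ↥(Subgroup.normalizer ((P : Subgroup G) : Set G)) χ ∧ ∃ z : ↥(Subgroup.normalizer ((P : Subgroup G) : Set G)), (z : G) ∈ Z ∧ χ z ≠ χ 1} {1}ᶜ (fun α => Cfsg.indFun (Subgroup.normalizer ((P : Subgroup G) : Set G)) α) := by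
  generalize hN : normalizer ((P : Subgroup G) : Set G) = N at *
  have hn : ((P : Subgroup G).subgroupOf N).Normal := hN ▸ normal_in_normalizer
  have hF := frobK_of (fun e => hna (by rw [e]; infer_instance)) hlt fun k a b => inf_le_right.trans (hC k a b)
  have hZ : Z ≤ P := fun z h => (hZP z h).1
  have hn' : (Z.subgroupOf N).Normal := ⟨fun z hz x => hZn x x.2 z hz⟩
  have hZ' : Z.subgroupOf N ≤ (P : Subgroup G).subgroupOf N := subgroupOf_mono _ hZ
  have hodd : Odd ♯N := by
    obtain ⟨m, hm⟩ := IsPGroup.iff_card.1 (P.isPGroup'.of_equiv (subgroupOfEquivOfLe hlt.le).symm)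
    rw [← index_mul_card ((P : Subgroup G).subgroupOf N), hm]
    refine (frob_odd_index hF fun e => hna ?_).mul ((Fact.out : p.Prime).odd_of_ne_two hp).pow
    rw [← map_subgroupOf_eq_of_le hlt.le]; infer_instance
  obtain ⟨ν, h⟩ := sibley hTI hN hodd hF
  have hs := SI_mono (K := (P : Subgroup G).subgroupOf N) hZ' (le_refl ⊥)
  have h1 := irr_not_le_eq hZ' fun χ hχ => hF.irr (hs hχ)
  obtain ⟨χ, hχ⟩ := SI.nonempty hZ' bot_le fun e => hZ1 (by
    rwa [le_bot_iff, subgroupOf_eq_bot, disjoint_iff, inf_eq_left.2 (hZ.trans hlt.le)] at e)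
  refine h1 ▸ isCoherent_of (iso0_TI hTI hN) (fun _ _ => rfl) hs (h.mono hs) hχ (SI.conj_mem hχ)
    (SI.conj_ne hodd hZ' hχ).symm

end Cfsg.Agent.S1532
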