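import Cfsg.Statements.S1534
import Cfsg.Agent.C3.Bridge

set_option autoImplicit false
open Cfsg

namespace Cfsg.Agent.S1534

open Subgroup Submodule H3 C3 PF BG

/-- Let G be a finite group and K a nontrivial nilpotent subgroup whose underlying set is a TI-subset of G, properly contained in its set normaliser N, with C_G(k) ≤ K for every non-identity k ∈ K; let e be the index of K in N and S the set of irreducible characters χ of N with χ k ≠ χ 1 for some k ∈ K. Then one of: S has exactly one member, Nat.card K = e + 1 and K is an elementary abelian p-group for some prime p; or K is a Sylow 2-subgroup of G (Nat.card K is the largest power of 2 dividing Nat.card G) and [K : [K,K]] < 4e²; or (S, N minus 1, induction to G) is coherent. -/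
theorem result {G : Type*} [Group G] [Fintype G] (K : Subgroup G) (hK1 : K ≠ ⊥) (hnil : Group.IsNilpotent K) (hTI : Cfsg.IsTISubset (K : Set G)) (hlt : K < Subgroup.normalizer (K : Set G)) (hC : ∀ k ∈ K, k ≠ 1 → Subgroup.centralizer ({k} : Set G) ≤ K) [Fintype ↥(Subgroup.normalizer (K : Set G))] : (Nat.card {χ : ↥(Subgroup.normalizer (K : Set G)) → ℂ // Cfsg.IsIrrCharacter ↥(Subgroup.normalizer (K : Set G)) χ ∧ ∃ k : ↥(Subgroup.normalizer (K : Set G)), (k : G) ∈ K ∧ χ k ≠ χ 1} = 1 ∧ Nat.card K = (K.subgroupOf (Subgroup.normalizer (K : Set G))).index + 1 ∧ ∃ p : ℕ, p.Prime ∧ Cfsg.IsElementaryAbelian p K) ∨ (Nat.card K = 2 ^ (Nat.card G).factorization 2 ∧ (⁅K, K⁆.subgroupOf K).index < 4 * (K.subgroupOf (Subgroup.normalizer (K : Set G))).index ^ 2) ∨ Cfsg.IsCoherent {χ : ↥(Subgroup.normalizer (K : Set G)) → ℂ | Cfsg.IsIrrCharacter ↥(Subgroup.normalizer (K : Set G)) χ ∧ ∃ k : ↥(Subgroup.normalizer (K : Set G)), (k : G) ∈ K ∧ χ k ≠ χ 1} {1}ᶜ (fun α => Cfsg.indFun (Subgroup.normalizer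 (K : Set G)) α) := by
  rcases feit_sibley hK1 hTI rfl hlt hC with ⟨a, b, c⟩ | ⟨a, b⟩ | h
  · obtain ⟨p, hp, hd⟩ := Nat.exists_prime_and_dvd (mt card_eq_one.1 hK1)
    exact Or.inl ⟨a, b, p, hp, c p hp hd⟩
  · refine Or.inr (Or.inl ⟨?_, b⟩)
    obtain ⟨P, hP⟩ := a.exists_le_sylow
    have := P.isPGroup'.isNilpotent
    obtain ⟨z, hz, z1⟩ := exists_ne_one
      (Agent.L.inf_centralizer_ne_bot_of_isNilpotent (H := P) le_rfl le_normalizer
        fun e => hK1 (eq_bot_iff.2 (e ▸ hP)))
    obtain ⟨k, hk, k1⟩ := exists_ne_one hK1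
    have h1 : z ∈ K := hC k hk k1 (mem_centralizer_singleton_iff.2 (hz.2 k (hP hk)).symm)
    rw [← P.card_eq_multiplicity, le_antisymm hP fun x hx => hC z h1 z1
      (mem_centralizer_singleton_iff.2 (hz.2 x hx))]
  · exact Or.inr (Or.inr h)

end Cfsg.Agent.S1534
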