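import Cfsg.Statements.S1546

set_option autoImplicit false
open Cfsg

namespace Cfsg.Agent.S1546

/-- Let p and q be odd primes and N = (p ^ q − 1) / (p − 1) = 1 + p + ⋯ + p^(q−1). Then N is odd; if p ≡ 1 (mod q) then q ∣ N; and if p is not ≡ 1 (mod q) then N is coprime to p − 1 and every divisor of N is ≡ 1 (mod q). -/
theorem result (p q : ℕ) (hp : p.Prime) (hq : q.Prime) (hp2 : p ≠ 2) (hq2 : q ≠ 2) : Odd ((p ^ q - 1) / (p - 1)) ∧ (p % q = 1 → q ∣ (p ^ q - 1) / (p - 1)) ∧ (p % q ≠ 1 → Nat.Coprime ((p ^ q - 1) / (p - 1)) (p - 1) ∧ ∀ x : ℕ, x ∣ (p ^ q - 1) / (p - 1) → x % q = 1) := by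
  have h1 : 1 < p := hp.one_lt
  have hN : (p ^ q - 1) / (p - 1) = ∑ i ∈ Finset.range q, p ^ i := (Nat.geomSum_eq h1 q).symm
  have hmod : ∀ m, p ≡ 1 [MOD m] → ∑ i ∈ Finset.range q, p ^ i ≡ q [MOD m] := fun m hm => by
    clear hN hq hq2
    induction q with
    | zero => rfl
    | succ n ih => rw [Finset.sum_range_succ]; exact ih.add (by simpa using hm.pow n)
  have hmul : (∑ i ∈ Finset.range q, p ^ i) * (p - 1) = p ^ q - 1 := by
    rw [← hN]; exact Nat.div_mul_cancel (Nat.sub_one_dvd_pow_sub_one p q)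
  rw [hN]
  refine ⟨?_, fun h => ?_, fun h => ?_⟩
  · have := hmod 2 (by have := hp.eq_two_or_odd; unfold Nat.ModEq; omega)
    have h2 := hq.eq_two_or_odd
    unfold Nat.ModEq at this
    exact Nat.odd_iff.2 (by omega)
  · have := hmod q (by unfold Nat.ModEq; rw [h, Nat.mod_eq_of_lt hq.one_lt])
    exact (Nat.modEq_zero_iff_dvd.1 (this.trans (Nat.modEq_zero_iff_dvd.2 dvd_rfl)))
  have hc : Nat.Coprime (∑ i ∈ Finset.range q, p ^ i) (p - 1) := by
    refine Nat.coprime_of_dvd fun r hr h2 h3 => h ?_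
    have h4 : p ≡ 1 [MOD r] := ((Nat.modEq_iff_dvd' h1.le).2 h3).symm
    have h5 : r ∣ q := Nat.modEq_zero_iff_dvd.1
      ((hmod r h4).symm.trans (Nat.modEq_zero_iff_dvd.2 h2))
    obtain rfl := (Nat.prime_dvd_prime_iff_eq hr hq).1 h5
    rw [h4, Nat.mod_eq_of_lt hq.one_lt]
  refine ⟨hc, fun x hx => ?_⟩
  have hpos : 0 < ∑ i ∈ Finset.range q, p ^ i :=
    Finset.sum_pos (fun i _ => by positivity) ⟨0, by simp [hq.pos]⟩
  have key : ∀ r, r.Prime → r ∣ ∑ i ∈ Finset.range q, p ^ i → r ≡ 1 [MOD q] := fun r hr h2 => by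
    haveI := Fact.mk hr
    have h3 : (p : ZMod r) ^ q = 1 := by
      have : ((p ^ q - 1 : ℕ) : ZMod r) = 0 := (ZMod.natCast_eq_zero_iff _ _).2 (hmul ▸ h2.mul_right _)
      rw [Nat.cast_sub (Nat.one_le_pow _ _ hp.pos)] at this
      simpa [sub_eq_zero] using this
    have h4 : (p : ZMod r) ≠ 1 := fun e => by
      have : ((p - 1 : ℕ) : ZMod r) = 0 := by rw [Nat.cast_sub h1.le, e]; simp
      exact hr.one_lt.ne' (Nat.eq_one_of_dvd_coprimes hc h2 ((ZMod.natCast_eq_zero_iff _ _).1 this))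
    haveI := Fact.mk hq
    have h5 : orderOf (p : ZMod r) = q := orderOf_eq_prime h3 h4
    have h6 : (p : ZMod r) ≠ 0 := fun e => by rw [e, zero_pow hq.ne_zero] at h3; exact zero_ne_one h3
    exact ((Nat.modEq_iff_dvd' hr.one_le).2 (h5 ▸ ZMod.orderOf_dvd_card_sub_one h6)).symm
  have : ∀ x, x ∣ ∑ i ∈ Finset.range q, p ^ i → x ≡ 1 [MOD q] := by
    intro x
    induction x using Nat.recOnPrimeCoprime with
    | zero => intro h; exact absurd (Nat.eq_zero_of_zero_dvd h) hpos.ne'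
    | prime_pow r n hr =>
      intro h
      rcases n with _ | n
      · rfl
      · simpa using (key r hr ((dvd_pow_self r n.succ_ne_zero).trans h)).pow (n + 1)
    | coprime a b _ _ _ iha ihb =>
      intro h
      simpa using (iha ((dvd_mul_right a b).trans h)).mul (ihb ((dvd_mul_left b a).trans h))
  rw [this x hx, Nat.mod_eq_of_lt hq.one_lt]

end Cfsg.Agent.S1546
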