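import Cfsg.Statements.S1551
import Cfsg.Agent.GS.Mk4

set_option autoImplicit false
open scoped Pointwise
open Cfsg

namespace Cfsg.Agent.S1551

/-- Structure of a sextet stabiliser: it induces every permutation of the six tetrads, the subgroup fixing each tetrad setwise has order 192, and there is a normal subgroup of order 64 consisting of elements squaring to the identity. -/
theorem result (S : Finset (Finset Cfsg.GolayPt)) (hS : S ∈ Cfsg.sextets) : (∀ e : Equiv.Perm ↥S, ∃ g ∈ MulAction.stabilizer Cfsg.M24 S, ∀ t : ↥S, (g : Equiv.Perm Cfsg.GolayPt) • (t : Finset Cfsg.GolayPt) = ((e t : ↥S) : Finset Cfsg.GolayPt)) ∧ Nat.card {g : ↥(MulAction.stabilizer Cfsg.M24 S) // ∀ t ∈ S, ((g : Cfsg.M24) : Equiv.Perm Cfsg.GolayPt) • t = t} = 192 ∧ ∃ N : Subgroup ↥(MulAction.stabilizer Cfsg.M24 S), N.Normal ∧ Nat.card N = 64 ∧ ∀ x ∈ N, x * x = 1 := by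
  open Finset Pointwise Cfsg.Agent.St Cfsg.Agent.H6 in focus
    have ho : S ∈ MulAction.orbit M24 (sxX 0) := by rw [orbit_sxX]; exact hS
    have := act_onto' ho (m := 192) (by norm_num) (by rw [card_Sx, sxX_0, card_ffs (by decide) (by decide)]; rfl) fix_sx
    refine ⟨this.1, this.2, ?_⟩
    obtain ⟨N, n1, n2, n3⟩ := NSx
    obtain ⟨e⟩ := equiv_stab_of_mem_orbit ho
    refine ⟨N.comap e.toMonoidHom, n1.comap _, ?_, fun x hx => e.injective ?_⟩
    · rw [← n2, Subgroup.comap_equiv_eq_map_symm', Subgroup.card_map_of_injective e.symm.injective]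
    · rw [← sq, map_pow, map_one]; exact n3 _ hx

end Cfsg.Agent.S1551
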