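import Cfsg.Statements.S1552
import Cfsg.Agent.H6.M24d

set_option autoImplicit false
open scoped Pointwise
open Cfsg

namespace Cfsg.Agent.S1552

open Cfsg.Agent
open scoped Pointwise commutatorElement

/-- A sextet stabiliser has four orbits on the 1771 sextets, of sizes 1, 90, 240, 1440; and the stabiliser is a maximal proper subgroup. -/
theorem result (S : Finset (Finset Cfsg.GolayPt)) (hS : S ∈ Cfsg.sextets) : ∃ X₁ ∈ Cfsg.sextets, ∃ X₂ ∈ Cfsg.sextets, ∃ X₃ ∈ Cfsg.sextets, (MulAction.orbit ↥(MulAction.stabilizer Cfsg.M24 S) X₁).ncard = 90 ∧ (MulAction.orbit ↥(MulAction.stabilizer Cfsg.M24 S) X₂).ncard = 240 ∧ (MulAction.orbit ↥(MulAction.stabilizer Cfsg.M24 S) X₃).ncard = 1440 ∧ Cfsg.sextets = {S} ∪ MulAction.orbit ↥(MulAction.stabilizer Cfsg.M24 S) X₁ ∪ MulAction.orbit ↥(MulAction.stabilizer Cfsg.M24 S) X₂ ∪ MulAction.orbit ↥(MulAction.stabilizer Cfsg.M24 S) X₃ ∧ IsCoatom (MulAction.stabilizer Cfsg.M24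 S) := by
  have hS' := hS
  rw [← H6.orbit_sxX] at hS'
  obtain ⟨g, rfl⟩ := hS'
  have h0 := H6.part_Sx_Sx
  rw [H6.rng_sxX] at h0
  have h := H6.OrbPart.smul (fun _ => sextets) (fun g _ _ h => H6.smul_mem_sextets g h) h0 g
  simp only [List.map] at h
  refine ⟨_, h.mem (a := (g • H6.sxX 12, 90)) (by simp), _, h.mem (a := (g • H6.sxX 1, 240)) (by simp),
    _, h.mem (a := (g • H6.sxX 3, 1440)) (by simp), h.1 (_, 90) (by simp), h.1 (_, 240) (by simp),
    h.1 (_, 1440) (by simp), ?_, H6.isCoatom_smul (H6.mSx.isCoatom H6.max_Sx (H6.inv_of_trans H6.mSx H6.tSx)) g⟩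
  ext y
  rw [h.2]
  simp [H6.orbit_stab_self, or_assoc]

end Cfsg.Agent.S1552
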