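import Cfsg.Statements.S1553
import Cfsg.Agent.GS.St7

set_option autoImplicit false
open scoped Pointwise
open Cfsg

namespace Cfsg.Agent.S1553

/-- The stabiliser of an octad in the group of the length-24 code induces on the octad exactly its alternating group. -/
theorem result (o : Finset Cfsg.GolayPt) (ho : o ∈ Cfsg.octads) : {e : Equiv.Perm ↥o | ∃ g : Equiv.Perm Cfsg.GolayPt, g ∈ Cfsg.M24 ∧ ∃ h : (∀ x, g x ∈ o ↔ x ∈ o), g.subtypePerm h = e} = (alternatingGroup ↥o : Set (Equiv.Perm ↥o)) := by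
  open Finset Pointwise Cfsg.Agent.St Cfsg.Agent.H6 in focus
    obtain ⟨φ, h1, h2⟩ := exists_res o
    rw [← range_oct ho h2]
    ext e
    constructor
    · rintro ⟨g, hg, h, rfl⟩
      have : (⟨g, hg⟩ : M24) • o = o := by
        refine eq_of_subset_of_card_le (fun x hx => ?_) (by rw [card_smul_finset])
        obtain ⟨y, hy, rfl⟩ := mem_smul_finset.1 hx
        exact (h y).2 hy
      exact ⟨⟨⟨g, hg⟩, this⟩, Equiv.ext fun a => Subtype.ext (h1 _ a).symm⟩
    · rintro ⟨g, rfl⟩
      refine ⟨g.1, g.1.2, fun x => ?_, Equiv.ext fun a => Subtype.ext (h1 _ a)⟩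
      have := smul_mem_smul_finset_iff (s := o) (b := x) g.1
      rwa [show g.1 • o = o from g.2] at this

end Cfsg.Agent.S1553
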