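import Cfsg.Statements.S1554
import Cfsg.Agent.GS.St7

set_option autoImplicit false
open scoped Pointwise
open Cfsg

namespace Cfsg.Agent.S1554

/-- An octad stabiliser is a split extension: the joint stabiliser of the octad and a point outside it is a complement to the pointwise stabiliser of the octad, and is isomorphic to the alternating group of degree 8. -/
theorem result (o : Finset Cfsg.GolayPt) (ho : o ∈ Cfsg.octads) (p : Cfsg.GolayPt) (hp : p ∉ o) : (Cfsg.M24 ⊓ fixingSubgroup (Equiv.Perm Cfsg.GolayPt) (o : Set Cfsg.GolayPt)) ⊓ (Cfsg.M24 ⊓ MulAction.stabilizer (Equiv.Perm Cfsg.GolayPt) o ⊓ MulAction.stabilizer (Equiv.Perm Cfsg.GolayPt) p) = ⊥ ∧ (Cfsg.M24 ⊓ fixingSubgroup (Equiv.Perm Cfsg.GolayPt) (o : Set Cfsg.GolayPt)) ⊔ (Cfsg.M24 ⊓ MulAction.stabilizer (Equiv.Perm Cfsg.GolayPt) o ⊓ MulAction.stabilizer (Equiv.Perm Cfsg.GolayPt) p) = (Cfsg.M24 ⊓ MulAction.stabilizer (Equiv.Perm Cfsg.GolayPt)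 o) ∧ Nonempty (↥(Cfsg.M24 ⊓ MulAction.stabilizer (Equiv.Perm Cfsg.GolayPt) o ⊓ MulAction.stabilizer (Equiv.Perm Cfsg.GolayPt) p) ≃* alternatingGroup (Fin 8)) := by
  open Finset Pointwise Cfsg.Agent.St Cfsg.Agent.H6 in focus
    have e : ∀ g : PG, g ∈ M24 ⊓ MulAction.stabilizer (Equiv.Perm GolayPt) o ⊓ MulAction.stabilizer (Equiv.Perm GolayPt) p ↔
        ∃ hg : g ∈ M24, ⟨g, hg⟩ ∈ MulAction.stabilizer M24 o ⊓ MulAction.stabilizer M24 p :=
      fun g => ⟨fun h => ⟨h.1.1, h.1.2, h.2⟩, fun ⟨h1, h2, h3⟩ => ⟨⟨h1, h2⟩, h3⟩⟩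
    refine ⟨eq_bot_iff.2 fun g hg => ?_, le_antisymm (sup_le (fun g hg => ⟨hg.1, ?_⟩) inf_le_left) fun g hg => ?_, ?_⟩
    · exact congrArg Subtype.val (eq_one_of_flag ho hp (g := ⟨g, hg.1.1⟩) (fun x hx => (mem_fixingSubgroup_iff _).1 hg.1.2 x hx) hg.2.2)
    · exact FixP.smul (g := ⟨g, hg.1⟩) fun x hx => (mem_fixingSubgroup_iff _).1 hg.2 x hx
    · have h0 : g • p ∉ o := fun h => hp (by
        have h4 : g • p ∈ g • o := by rw [show g • o = o from hg.2]; exact h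
        rwa [smul_mem_smul_finset_iff] at h4)
      obtain ⟨k, hk, h1⟩ := Fix_trans ho hp h0
      rw [← mul_inv_cancel_left (k : PG) g]
      refine Subgroup.mul_mem_sup ⟨k.2, (mem_fixingSubgroup_iff _).2 hk⟩ ⟨⟨(k⁻¹ * ⟨g, hg.1⟩ : M24).2, (MulAction.stabilizer PG o).mul_mem ((MulAction.stabilizer PG o).inv_mem (FixP.smul hk)) hg.2⟩, ?_⟩
      change ((k : PG)⁻¹ * g) • p = p
      rw [mul_smul, inv_smul_eq_iff]; exact h1.symm
    · obtain ⟨φ, h1, h2⟩ := exists_res o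
      have h3 := range_oct ho h2
      obtain ⟨ψ, -⟩ := equiv_of_induce (G := ↥(MulAction.stabilizer M24 o ⊓ MulAction.stabilizer M24 p)) (ι := fun a : o => (a : GolayPt)) (H := alternatingGroup o)
        Subtype.val_injective (fun g => ⟨φ ⟨g.1, g.2.1⟩, h3 ▸ ⟨_, rfl⟩, h1 ⟨g.1, g.2.1⟩⟩)
        (fun g h => Subtype.ext (eq_one_of_flag ho hp (fun x hx => h ⟨x, hx⟩) g.2.2)) (by
          rw [inf_comm, ← stab_prod, card_stab_of_mem_orbit (orbit_op' ho hp), stab_prod, card_P1b]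
          have := card_res h2
          rw [card_stab_oct ho, card_Fix_oct ho, h3] at this
          omega)
      exact ⟨((subEq e).trans ψ).trans (o.equivFinOfCardEq ho.2).altCongrHom⟩

end Cfsg.Agent.S1554
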