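import Cfsg.Statements.S1559
import Cfsg.Agent.H6.M24d

set_option autoImplicit false
open scoped Pointwise
open Cfsg

namespace Cfsg.Agent.S1559

open Cfsg.Agent
open scoped Pointwise commutatorElement

/-- A trio stabiliser has five orbits on the 3795 trios, of sizes 1, 42, 56, 1008, 2688; and the stabiliser is a maximal proper subgroup. -/
theorem result (T : Finset (Finset Cfsg.GolayPt)) (hT : T ∈ Cfsg.trios) : ∃ X₁ ∈ Cfsg.trios, ∃ X₂ ∈ Cfsg.trios, ∃ X₃ ∈ Cfsg.trios, ∃ X₄ ∈ Cfsg.trios, (MulAction.orbit ↥(MulAction.stabilizer Cfsg.M24 T) X₁).ncard = 42 ∧ (MulAction.orbit ↥(MulAction.stabilizer Cfsg.M24 T) X₂).ncard = 56 ∧ (MulAction.orbit ↥(MulAction.stabilizer Cfsg.M24 T) X₃).ncard = 1008 ∧ (MulAction.orbit ↥(MulAction.stabilizer Cfsg.M24 T) X₄).ncard = 2688 ∧ Cfsg.trios = {T} ∪ MulAction.orbit ↥(MulAction.stabilizer Cfsg.M24 T) X₁ ∪ MulAction.orbit ↥(MulAction.stabilizer Cfsg.M24 T) X₂ ∪ MulAction.orbit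 ↥(MulAction.stabilizer Cfsg.M24 T) X₃ ∪ MulAction.orbit ↥(MulAction.stabilizer Cfsg.M24 T) X₄ ∧ IsCoatom (MulAction.stabilizer Cfsg.M24 T) := by
  have hS' := hT
  rw [← H6.orbit_trX] at hS'
  obtain ⟨g, rfl⟩ := hS'
  have h0 := H6.part_Tr_Tr
  rw [H6.rng_trX] at h0
  have h := H6.OrbPart.smul (fun _ => trios) (fun g _ _ h => H6.smul_mem_trios g h) h0 g
  simp only [List.map] at h
  refine ⟨_, h.mem (a := (g • H6.trX 33, 42)) (by simp), _, h.mem (a := (g • H6.trX 144, 56)) (by simp),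
    _, h.mem (a := (g • H6.trX 6, 1008)) (by simp), _, h.mem (a := (g • H6.trX 1, 2688)) (by simp),
    h.1 (_, 42) (by simp), h.1 (_, 56) (by simp), h.1 (_, 1008) (by simp),
    h.1 (_, 2688) (by simp), ?_, H6.isCoatom_smul (H6.mTr.isCoatom H6.max_Tr (H6.inv_of_trans H6.mTr H6.tTr)) g⟩
  ext y
  rw [h.2]
  simp [H6.orbit_stab_self, or_assoc]

end Cfsg.Agent.S1559
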