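import Cfsg.Statements.S1560
import Cfsg.Agent.H6.M24d

set_option autoImplicit false
open scoped Pointwise
open Cfsg

namespace Cfsg.Agent.S1560

open Cfsg.Agent
open scoped Pointwise commutatorElement

/-- Intersection numbers of dodecads: a dodecad meets every other dodecad in 0, 4, 6 or 8 points, meeting 495 of them in 4 points, 1584 in 6 points and 495 in 8 points. -/
theorem result (d : Finset Cfsg.GolayPt) (hd : d ∈ Cfsg.dodecads) : (∀ d' ∈ Cfsg.dodecads, d' ≠ d → (d ∩ d').card = 0 ∨ (d ∩ d').card = 4 ∨ (d ∩ d').card = 6 ∨ (d ∩ d').card = 8) ∧ {d' : Finset Cfsg.GolayPt | d' ∈ Cfsg.dodecads ∧ (d ∩ d').card = 4}.ncard = 495 ∧ {d' : Finset Cfsg.GolayPt | d' ∈ Cfsg.dodecads ∧ (d ∩ d').card = 6}.ncard = 1584 ∧ {d' : Finset Cfsg.GolayPt | d' ∈ Cfsg.dodecads ∧ (d ∩ d').card = 8}.ncard = 495 := by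
  have := H6.classify (G := M24) (fun _ : Finset GolayPt => dodecads) (fun a y => (a ∩ y).card)
    (fun g _ _ h => H6.smul_mem_dodecads g h) (fun g a y => H6.card_inter_smul g a y) H6.part_D_C12
    (vs := [(12, 1), (0, 1), (8, 495), (4, 495), (6, 1584)]) (by simp only [List.map, H6.card_cw_inter]; decide +kernel)
    (by decide) (H6.orbit_dod hd)
  refine ⟨fun d' hd' hne => ?_, this.1 (4, 495) (by simp), this.1 (6, 1584) (by simp), this.1 (8, 495) (by simp)⟩
  obtain ⟨v, hv, e⟩ := this.2.2 d' hd'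
  simp only [List.mem_cons, List.not_mem_nil, or_false] at hv
  rcases hv with rfl | rfl | rfl | rfl | rfl
  · exfalso
    apply hne
    have h1 : d ∩ d' = d := Finset.eq_of_subset_of_card_le Finset.inter_subset_left (by rw [hd.2]; exact e.ge)
    exact (Finset.eq_of_subset_of_card_le (Finset.inter_eq_left.1 h1) (by rw [hd.2, hd'.2])).symm
  all_goals simp [e]

end Cfsg.Agent.S1560
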