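import Cfsg.Statements.S1561
import Cfsg.Agent.H6.M24d

set_option autoImplicit false
open scoped Pointwise
open Cfsg

namespace Cfsg.Agent.S1561

open Cfsg.Agent
open scoped Pointwise commutatorElement

/-- Two dodecads meeting a fixed dodecad in equally many points lie in one orbit of its stabiliser. -/
theorem result (d d' d'' : Finset Cfsg.GolayPt) (hd : d ∈ Cfsg.dodecads) (hd' : d' ∈ Cfsg.dodecads) (hd'' : d'' ∈ Cfsg.dodecads) (h : (d ∩ d').card = (d ∩ d'').card) : ∃ g : Equiv.Perm Cfsg.GolayPt, g ∈ Cfsg.M24 ∧ g • d = d ∧ g • d' = d'' := by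
  obtain ⟨g, a, b⟩ := (H6.classify (G := M24) (fun _ : Finset GolayPt => dodecads) (fun a y => (a ∩ y).card)
    (fun g _ _ h => H6.smul_mem_dodecads g h) (fun g a y => H6.card_inter_smul g a y) H6.part_D_C12
    (vs := [(12, 1), (0, 1), (8, 495), (4, 495), (6, 1584)]) (by simp only [List.map, H6.card_cw_inter]; decide +kernel)
    (by decide) (H6.orbit_dod hd)).2.1 d' hd' d'' hd'' h
  exact ⟨g, g.2, a, b⟩

end Cfsg.Agent.S1561
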