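import Cfsg.Statements.S1562
import Cfsg.Agent.GS.St7

set_option autoImplicit false
open scoped Pointwise
open Cfsg

namespace Cfsg.Agent.S1562

section
open Finset Pointwise Cfsg.Agent.St Cfsg.Agent.H6

theorem noOct {m a : ℕ} (h1 : isO a = true) (h2 : 5 ≤ pc (m &&& a)) (h3 : pc (m &&& a) < pc m) : ¬ ∃ o ∈ octads, fs m ⊆ o := by
  rintro ⟨o, ho, h⟩
  rw [← card_fs_pc, fs_and] at h2 h3
  have := octad_eq_of_inter ho (fs_mem_octads h1) (h2.trans (card_le_card (inter_subset_inter h Subset.rfl)))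
  rw [← this, inter_eq_left.2 h, card_fs_pc] at h3
  omega

end

/-- Orbits of a triad stabiliser on the triads disjoint from it: the 210 triads inside a common octad with it form one orbit and the remaining 1120 another. -/
theorem result (T : Finset Cfsg.GolayPt) (hT : T.card = 3) : {U : Finset Cfsg.GolayPt | U.card = 3 ∧ Disjoint T U ∧ (∃ o ∈ Cfsg.octads, T ∪ U ⊆ o)}.ncard = 210 ∧ {U : Finset Cfsg.GolayPt | U.card = 3 ∧ Disjoint T U ∧ ¬ (∃ o ∈ Cfsg.octads, T ∪ U ⊆ o)}.ncard = 1120 ∧ ∀ U U' : Finset Cfsg.GolayPt, U.card = 3 → U'.card = 3 → Disjoint T U → Disjoint T U' → ((∃ o ∈ Cfsg.octads, T ∪ U ⊆ o) ↔ (∃ o ∈ Cfsg.octads, T ∪ U' ⊆ o)) → ∃ g : Equiv.Perm Cfsg.GolayPt, g ∈ Cfsg.M24 ∧ g • T = T ∧ g • U = U' := by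
  open Finset Pointwise Cfsg.Agent.St Cfsg.Agent.H6 in focus
    classical
    have hφ : ∀ (g : M24) (T U : Finset GolayPt), (((g • T) ∩ g • U).card, decide (∃ o ∈ octads, g • T ∪ g • U ⊆ o)) = ((T ∩ U).card, decide (∃ o ∈ octads, T ∪ U ⊆ o)) := by
      intro g T U
      rw [H6.card_inter_smul, ← smul_finset_union]
      congr 2
      exact propext ⟨fun ⟨o, h1, h2⟩ => ⟨g⁻¹ • o, smul_mem_octads _ h1, smul_finset_subset_iff.1 h2⟩,
        fun ⟨o, h1, h2⟩ => ⟨g • o, smul_mem_octads _ h1, smul_finset_subset_smul_finset h2⟩⟩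
    have h0 := part_Tp_Tp
    rw [rng_tpX] at h0
    have s1 : tpX 1 = fs 0x800006 := tpX_eq (by decide +kernel)
    have s2 : tpX 70 = fs 0x104080 := tpX_eq (by decide +kernel)
    have s3 : tpX 5 = fs 0x80000c := tpX_eq (by decide +kernel)
    have s4 : tpX 22 = fs 0x600400 := tpX_eq (by decide +kernel)
    have y : ∀ {m a : ℕ}, isO a = true → m &&& a = m → decide (∃ o ∈ octads, fs m ⊆ o) = true :=
      fun h1 h2 => decide_eq_true ⟨_, fs_mem_octads h1, fs_subset h2⟩
    have := classify (G := M24) (fun _ : Finset GolayPt => {U : Finset GolayPt | U.card = 3}) (fun T U => ((T ∩ U).card, decide (∃ o ∈ octads, T ∪ U ⊆ o)))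
      (fun g _ _ h => by rwa [Set.mem_ofPred_eq, card_smul_finset]) hφ h0 (vs := [((3, true), 1), ((2, true), 63), ((0, true), 210), ((1, true), 630), ((0, false), 1120)]) (by
        simp only [List.map, tpX_0, s1, s2, s3, s4, ← fs_and, ← fs_or, card_fs_pc]
        rw [y (a := 0x82402f) (by decide +kernel) (by decide), y (a := 0x82402f) (by decide +kernel) (by decide),
          y (a := 0x907083) (by decide +kernel) (by decide), y (a := 0x82402f) (by decide +kernel) (by decide),
          decide_eq_false (noOct (a := 0x600527) (by decide +kernel) (by decide +kernel) (by decide +kernel))]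
        decide +kernel)
      (by decide) (orbit_tpX hT)
    refine ⟨?_, ?_, fun U U' h1 h2 h3 h4 h5 => ?_⟩
    · rw [← show _ = 210 from this.1 ((0, true), 210) (by simp)]
      congr 1; ext U; simp only [Set.mem_ofPred_eq, Prod.mk.injEq, card_eq_zero, disjoint_iff_inter_eq_empty, decide_eq_true_eq, decide_eq_false_iff_not]
    · rw [← show _ = 1120 from this.1 ((0, false), 1120) (by simp)]
      congr 1; ext U; simp only [Set.mem_ofPred_eq, Prod.mk.injEq, card_eq_zero, disjoint_iff_inter_eq_empty, decide_eq_true_eq, decide_eq_false_iff_not]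
    · obtain ⟨g, hg⟩ := this.2.1 U h1 U' h2 (by
        simp only [disjoint_iff_inter_eq_empty.1 h3, disjoint_iff_inter_eq_empty.1 h4, h5])
      exact ⟨g, g.2, hg⟩

end Cfsg.Agent.S1562
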