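import Cfsg.Statements.S1564
import Cfsg.Agent.H6.M24c

set_option autoImplicit false
open scoped Pointwise
open Cfsg

namespace Cfsg.Agent.S1564

open Cfsg.Agent
open scoped Pointwise commutatorElement

/-- The stabiliser of a set of three points (setwise) is a maximal proper subgroup of the group of the length-24 code. -/
theorem result (s : Finset Cfsg.GolayPt) (hs : s.card = 3) : IsCoatom (MulAction.stabilizer Cfsg.M24 s) := by
  exact H6.coatom_of_orbit (H6.orbit_tpX hs) (H6.mTp.isCoatom H6.max_Tp (H6.inv_of_trans H6.mTp H6.tTp))

end Cfsg.Agent.S1564
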