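import Cfsg.Statements.S1565
import Cfsg.Agent.H6.M24c

set_option autoImplicit false
open scoped Pointwise
open Cfsg

namespace Cfsg.Agent.S1565

open Cfsg.Agent
open scoped Pointwise commutatorElement

/-- The stabiliser of an octad is a maximal proper subgroup of the group of the length-24 code. -/
theorem result (o : Finset Cfsg.GolayPt) (ho : o ∈ Cfsg.octads) : IsCoatom (MulAction.stabilizer Cfsg.M24 o) := by
  refine H6.coatom_of_orbit (H6.orbit_oct ho) (H6.isCoatom_of_top (H6.mC.isCoatom_sub H6.max_O le_top le_top ?_))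
  intro g _
  rw [H6.pts_wt8, show H6.cw 47 = H6.o0 from H6.cw_o0]
  exact H6.smul_mem_octads g H6.o0_mem

end Cfsg.Agent.S1565
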