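import Cfsg.Statements.S1567
import Cfsg.Agent.H6.LeB

set_option autoImplicit false
open Cfsg

namespace Cfsg.Agent.S1567

open Cfsg.Agent
open scoped Pointwise commutatorElement

/-- The rank-24 lattice is the additive subgroup generated by its 196560 minimal vectors. -/
theorem result : AddSubgroup.closure {x : Cfsg.GolayPt → ℤ | x ∈ Cfsg.leechLattice ∧ Cfsg.sqNorm x = 32} = Cfsg.leechLattice := by
  refine le_antisymm ((AddSubgroup.closure_le _).2 fun x hx => hx.1) fun x hx => ?_
  set M := AddSubgroup.closure {x : Cfsg.GolayPt → ℤ | x ∈ Cfsg.leechLattice ∧ Cfsg.sqNorm x = 32}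
  have k : ∀ y, H6.LS y → sqNorm y = 32 → y ∈ M := fun y a b => AddSubgroup.subset_closure ⟨H6.mem_LL.2 a, b⟩
  have h2 : ∀ p, H6.ee p 4 - H6.ee none 4 ∈ M := fun p => by
    by_cases hp : p = none
    · rw [hp, sub_self]; exact M.zero_mem
    · exact k _ (H6.LS.of_four (by revert p; decide) (by revert p; decide)) (by revert p; decide)
  have h3 : H6.ee none 8 ∈ M := by
    have a : H6.ee (some 0) 4 + H6.ee none 4 ∈ M := k _ (H6.LS.of_four (by decide) (by decide)) (by decide)
    have := M.sub_mem a (h2 (some 0))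
    convert this using 1; funext i; revert i; decide
  have h0 : H6.v0 ∈ M := k _ H6.LS.v0 (by decide)
  refine H6.LS.gen h0 (fun j hj => ?_) h2 h3 (H6.mem_LL.1 hx)
  have hc := H6.fs_mem_csets ((H6.nall_eq _ _).1 H6.encQ_chk j hj)
  generalize H6.fs (H6.lk24 H6.encQT j) = c at hc
  have a : H6.sgn c H6.v0 ∈ M := k _ (H6.LS.v0.sgn hc) (by rw [H6.sqNorm_sgn]; decide)
  by_cases hn : none ∈ c
  · convert M.add_mem (M.sub_mem h0 a) h3 using 1
    funext i; simp only [H6.ind, H6.v0, H6.sgn, H6.ee, Pi.add_apply, Pi.sub_apply]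
    by_cases e : i = none
    · subst e; simp [hn]
    · by_cases i ∈ c <;> simp [*]
  · convert M.sub_mem h0 a using 1
    funext i; simp only [H6.ind, H6.v0, H6.sgn, Pi.sub_apply]
    by_cases e : i = none
    · subst e; simp [hn]
    · by_cases i ∈ c <;> simp [*]

end Cfsg.Agent.S1567
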