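import Cfsg.Statements.S1569
import Cfsg.Agent.H6.LeM

set_option autoImplicit false
open scoped Pointwise
open Cfsg

namespace Cfsg.Agent.S1569

open Cfsg.Agent
open scoped Pointwise commutatorElement

/-- The cross through a lattice vector of customary norm 8 has exactly 48 members. -/
theorem result (x : Cfsg.GolayPt → ℤ) (hx : x ∈ Cfsg.leechLattice) (hxn : Cfsg.sqNorm x = 64) : (Cfsg.cross x).ncard = 48 := by
    obtain ⟨g, e⟩ := H6.Le.ex64 (v := ⟨x, hx⟩) hxn
    refine (H6.Le.ncard_coe fun y => sqNorm y = sqNorm x ∧ ∃ z ∈ leechLattice, x - y = 2 • z).trans ?_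
    refine (H6.Le.ncard_tr g (Q := fun y => y ∈ H6.SC) fun y => ?_).trans H6.ncard_SC
    rw [H6.mem_SC, H6.co_norm, hxn]
    refine and_congr_right fun _ => ⟨fun ⟨z, a, b⟩ => ?_, fun h => ?_⟩
    · have : H6.Cg ⟨x, hx⟩ (g • y) := ⟨⟨z, a⟩, Subtype.ext b⟩
      simpa [← e] using (this.smul g⁻¹).symm
    · obtain ⟨z, b⟩ := (h.smul g).symm
      rw [e] at b
      exact ⟨z, z.2, congrArg Subtype.val b⟩

end Cfsg.Agent.S1569
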