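import Cfsg.Statements.S1570
import Cfsg.Agent.H6.LeM

set_option autoImplicit false
open Cfsg

namespace Cfsg.Agent.S1570

open Cfsg.Agent
open scoped Pointwise commutatorElement

/-- Every congruence class of the lattice modulo twice the lattice contains a vector of customary norm at most 8. -/
theorem result (x : Cfsg.GolayPt → ℤ) (hx : x ∈ Cfsg.leechLattice) : ∃ y ∈ Cfsg.leechLattice, Cfsg.sqNorm y ≤ 64 ∧ ∃ z ∈ Cfsg.leechLattice, x - y = 2 • z := by
    obtain ⟨y, ⟨z, b⟩, h⟩ := H6.Le.count.2.2 ⟨x, hx⟩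
    refine ⟨y, y.2, ?_, z, z.2, congrArg Subtype.val b⟩
    rcases h with h | h | h | h
    · rw [h]; simp [sqNorm]
    · omega
    · exact (H6.Le.orbV.le h).le.trans (by norm_num)
    · exact (H6.Le.orbE.le h).le

end Cfsg.Agent.S1570
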