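import Cfsg.Statements.S1573
import Cfsg.Agent.H6.LeM

set_option autoImplicit false
open Cfsg

namespace Cfsg.Agent.S1573

open Cfsg.Agent
open scoped Pointwise commutatorElement

/-- Census of minimal vectors by inner product with a fixed minimal vector: 4600 have customary inner product −2, 47104 have −1, and 93150 are orthogonal. -/
theorem result (v : Cfsg.GolayPt → ℤ) (hv : v ∈ Cfsg.leechLattice) (hvn : Cfsg.sqNorm v = 32) : {w : Cfsg.GolayPt → ℤ | w ∈ Cfsg.leechLattice ∧ Cfsg.sqNorm w = 32 ∧ Cfsg.dotInt v w = -16}.ncard = 4600 ∧ {w : Cfsg.GolayPt → ℤ | w ∈ Cfsg.leechLattice ∧ Cfsg.sqNorm w = 32 ∧ Cfsg.dotInt v w = -8}.ncard = 47104 ∧ {w : Cfsg.GolayPt → ℤ | w ∈ Cfsg.leechLattice ∧ Cfsg.sqNorm w = 32 ∧ Cfsg.dotInt v w = 0}.ncard = 93150 := by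
    obtain ⟨g, e⟩ := H6.Le.ex32 (v := ⟨v, hv⟩) hvn
    have k : ∀ {d : ℤ} {n : ℕ}, H6.TO [(H6.lv H6.Le.rU, d)] n →
        {w | w ∈ leechLattice ∧ sqNorm w = 32 ∧ dotInt v w = d}.ncard = n := fun h => by
      have := (h.smul g).1
      simp only [List.map_cons, List.map_nil, H6.cz1, e] at this
      exact (H6.Le.ncard_coe fun w => sqNorm w = 32 ∧ dotInt v w = _).trans this
    exact ⟨k H6.Le.t16.1, k H6.Le.t8.1, k H6.Le.t0.1⟩

end Cfsg.Agent.S1573
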