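import Cfsg.Statements.S1574
import Cfsg.Agent.H6.LeM

set_option autoImplicit false
open Cfsg

namespace Cfsg.Agent.S1574

open Cfsg.Agent
open scoped Pointwise commutatorElement

/-- The stabiliser of a minimal vector is transitive on the minimal vectors of customary inner product −2 with it. -/
theorem result (v w w' : ↥Cfsg.leechLattice) (hv : Cfsg.sqNorm (v : Cfsg.GolayPt → ℤ) = 32) (hw : Cfsg.sqNorm (w : Cfsg.GolayPt → ℤ) = 32) (hw' : Cfsg.sqNorm (w' : Cfsg.GolayPt → ℤ) = 32) (hd : Cfsg.dotInt (v : Cfsg.GolayPt → ℤ) (w : Cfsg.GolayPt → ℤ) = -16) (hd' : Cfsg.dotInt (v : Cfsg.GolayPt → ℤ) (w' : Cfsg.GolayPt → ℤ) = -16) : ∃ g : ↥Cfsg.Co0, g • v = v ∧ g • w = w' := by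
    obtain ⟨g, rfl⟩ := H6.Le.ex32 hv
    obtain ⟨k, a, b⟩ := (H6.Le.t16.1.smul g).2 _ _ (H6.cz1.2 ⟨hw, hd⟩) (H6.cz1.2 ⟨hw', hd'⟩)
    exact ⟨k, a _ List.mem_cons_self, b⟩

end Cfsg.Agent.S1574
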