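import Cfsg.Statements.S1581
import Cfsg.Agent.H6.LeN

set_option autoImplicit false
open Cfsg

namespace Cfsg.Agent.S1581

open Cfsg.Agent
open scoped Pointwise commutatorElement

/-- The McLaughlin group acts with rank 3 and subdegrees 1, 112, 162 on its 275 points: the point stabiliser has two orbits on the remaining points, distinguished by customary inner product 1 or 2 with the fixed point. -/
theorem result (u v x : ↥Cfsg.leechLattice) (hu : Cfsg.sqNorm (u : Cfsg.GolayPt → ℤ) = 48) (hv : Cfsg.sqNorm (v : Cfsg.GolayPt → ℤ) = 32 ∧ Cfsg.sqNorm ((u - v) : Cfsg.GolayPt → ℤ) = 32) (hx : x ∈ {x : ↥Cfsg.leechLattice | Cfsg.sqNorm (x : Cfsg.GolayPt → ℤ) = 32 ∧ Cfsg.sqNorm ((u - x) : Cfsg.GolayPt → ℤ) = 32 ∧ Cfsg.dotInt (v : Cfsg.GolayPt → ℤ) (x : Cfsg.GolayPt → ℤ) = 16}) : {y : ↥Cfsg.leechLattice | y ∈ {x : ↥Cfsg.leechLattice | Cfsg.sqNorm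 (x : Cfsg.GolayPt → ℤ) = 32 ∧ Cfsg.sqNorm ((u - x) : Cfsg.GolayPt → ℤ) = 32 ∧ Cfsg.dotInt (v : Cfsg.GolayPt → ℤ) (x : Cfsg.GolayPt → ℤ) = 16} ∧ Cfsg.dotInt (x : Cfsg.GolayPt → ℤ) (y : Cfsg.GolayPt → ℤ) = 8}.ncard = 112 ∧ {y : ↥Cfsg.leechLattice | y ∈ {x : ↥Cfsg.leechLattice | Cfsg.sqNorm (x : Cfsg.GolayPt → ℤ) = 32 ∧ Cfsg.sqNorm ((u - x) : Cfsg.GolayPt → ℤ) = 32 ∧ Cfsg.dotInt (v : Cfsg.GolayPt → ℤ) (x : Cfsg.GolayPt → ℤ) = 16} ∧ y ≠ x ∧ Cfsg.dotInt (x : Cfsg.GolayPt → ℤ) (y : Cfsg.GolayPt → ℤ) = 16}.ncard = 162 ∧ ∀ y ∈ {x : ↥Cfsg.leechLattice | Cfsg.sqNorm (x : Cfsg.GolayPt → ℤ) = 32 ∧ Cfsg.sqNorm ((u - x) : Cfsg.GolayPt → ℤ) = 32 ∧ Cfsg.dotInt (v : Cfsg.GolayPt → ℤ) (x : Cfsg.GolayPt → ℤ) = 16}, ∀ y' ∈ {x : ↥Cfsg.leechLattice | Cfsg.sqNorm (x : Cfsg.GolayPt → ℤ) = 32 ∧ Cfsg.sqNorm ((u - x) : Cfsg.GolayPt → ℤ) = 32 ∧ Cfsg.dotInt (v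 : Cfsg.GolayPt → ℤ) (x : Cfsg.GolayPt → ℤ) = 16}, y ≠ x → y' ≠ x → Cfsg.dotInt (x : Cfsg.GolayPt → ℤ) (y : Cfsg.GolayPt → ℤ) = Cfsg.dotInt (x : Cfsg.GolayPt → ℤ) (y' : Cfsg.GolayPt → ℤ) → ∃ g : ↥Cfsg.Co0, g • u = u ∧ g • v = v ∧ g • x = x ∧ g • y = y' := by
    obtain ⟨g, rfl, rfl⟩ := H6.Le.pair552 hu hv
    obtain ⟨k, a, rfl⟩ := H6.TO.std H6.Le.t275 g ((H6.Le.mc_iff hu).1 hx)
    simp only [List.forall_mem_cons] at a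
    obtain ⟨a1, a2, -⟩ := a
    rw [← a2] at hu
    rw [← a1, ← a2] at hx ⊢
    have h0 := H6.Le.t275.1.smul k
    have h1 := H6.Le.t112.smul k
    have h2 := H6.Le.t162.smul k
    have hx' := (H6.Le.mc_iff hu).1 hx
    simp only [List.map_cons, List.map_nil] at h0 h1 h2
    simp only [Set.mem_setOf_eq, H6.Le.mc_iff hu]
    refine ⟨by rw [← h1.1]; congr 1; ext y; exact H6.cz_cons.symm, ?_, fun y hy z hz b c e => ?_⟩
    · rw [← h2.1]; congr 1; ext y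
      rw [Set.mem_setOf_eq, Set.mem_setOf_eq, H6.cz_cons (l := [_, _])]
      refine and_congr_right fun hy => ?_
      refine ⟨fun c => c.2, fun c => ⟨fun e => ?_, c⟩⟩
      have := (H6.Le.dot32 hx' hy).2 e
      omega
    · have fin : ∀ {a b c : H6.LL} {d e f : ℤ}, (∃ q : Co0, (∀ t ∈ [(a, d), (b, e), (c, f)], q • t.1 = t.1) ∧ q • y = z) →
          ∃ q : Co0, q • c = c ∧ q • b = b ∧ q • a = a ∧ q • y = z := fun ⟨q, q1, q2⟩ => by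
        simp only [List.forall_mem_cons] at q1
        exact ⟨q, q1.2.2.1, q1.2.1, q1.1, q2⟩
      rcases H6.Le.cover h0 hx' [(8, 112), (16, 162)] (by decide) (by simp [h1, h2]) rfl hy with d | d
      · exact absurd d b
      · simp only [List.map_cons, List.map_nil, List.mem_cons, List.not_mem_nil, or_false] at d
        rcases d with d | d
        · exact fin <| h1.2 y z (H6.cz_cons.2 ⟨hy, d⟩) (H6.cz_cons.2 ⟨hz, e ▸ d⟩)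
        · exact fin <| h2.2 y z (H6.cz_cons.2 ⟨hy, d⟩) (H6.cz_cons.2 ⟨hz, e ▸ d⟩)

end Cfsg.Agent.S1581
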