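import Cfsg.Statements.S1585
import Cfsg.Agent.H6.LeM
import Cfsg.Agent.H6.LeL1

set_option autoImplicit false
open Cfsg

namespace Cfsg.Agent.S1585

open Cfsg.Agent
open scoped Pointwise commutatorElement

/-- Two vectors of customary norm 6 with inner product −4 are exchanged by some automorphism of the lattice. -/
theorem result (v w : ↥Cfsg.leechLattice) (hv : Cfsg.sqNorm (v : Cfsg.GolayPt → ℤ) = 48) (hw : Cfsg.sqNorm (w : Cfsg.GolayPt → ℤ) = 48) (hvw : Cfsg.dotInt (v : Cfsg.GolayPt → ℤ) (w : Cfsg.GolayPt → ℤ) = -32) : ∃ g : ↥Cfsg.Co0, g • v = w ∧ g • w = v := by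
    obtain ⟨g, rfl, rfl⟩ := H6.Le.pairH hv hw hvw
    exact ⟨_, H6.conj_smul' g _ H6.Le.Hs.sw1, H6.conj_smul' g _ H6.Le.Hs.sw2⟩

end Cfsg.Agent.S1585
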