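import Cfsg.Statements.S1587
import Cfsg.Agent.GS.St2

set_option autoImplicit false
open Matrix
open Cfsg

namespace Cfsg.Agent.S1587

/-- First step of the characterisation of the rank-24 lattice: in an even lattice without roots, norm-8 vectors congruent modulo 2 are equal, opposite or orthogonal. -/
theorem result (B : Matrix (Fin 24) (Fin 24) ℤ) (hsymm : B.IsSymm) (hpos : ∀ x : Fin 24 → ℤ, x ≠ 0 → 0 < x ⬝ᵥ (B *ᵥ x)) (heven : ∀ x : Fin 24 → ℤ, (2 : ℤ) ∣ x ⬝ᵥ (B *ᵥ x)) (h2 : ∀ x : Fin 24 → ℤ, x ⬝ᵥ (B *ᵥ x) ≠ 2) (x y : Fin 24 → ℤ) (hx : x ⬝ᵥ (B *ᵥ x) = 8) (hy : y ⬝ᵥ (B *ᵥ y) = 8) (hc : ∀ i, (2 : ℤ) ∣ (x - y) i) : y = x ∨ y = -x ∨ x ⬝ᵥ (B *ᵥ y) = 0 := by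
  open Finset Pointwise Cfsg.Agent.St Cfsg.Agent.H6 in focus
    open Matrix in
    choose z hz using hc
    have hs : ∀ u v : Fin 24 → ℤ, u ⬝ᵥ (B *ᵥ v) = v ⬝ᵥ (B *ᵥ u) := by
      intro u v
      rw [Matrix.dotProduct_mulVec, ← Matrix.mulVec_transpose, hsymm.eq, dotProduct_comm]
    have ex : x = y + z + z := by ext i; have := hz i; simp at this ⊢; omega
    by_cases h0 : z = 0
    · left; rw [ex, h0]; simp
    by_cases h1 : y + z = 0
    · right; left; rw [ex, h1, zero_add]; exact eq_neg_of_add_eq_zero_left h1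
    right; right
    have p0 := hpos z h0
    have p1 := hpos _ h1
    have e0 := heven z
    have e1 := heven (y + z)
    have n0 := h2 z
    have n1 := h2 (y + z)
    rw [ex] at hx ⊢
    simp only [Matrix.mulVec_add, add_dotProduct, dotProduct_add, hs y z] at *
    omega

end Cfsg.Agent.S1587
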