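import Cfsg.Statements.S1588
import Cfsg.Agent.H1.Misc

set_option autoImplicit false
open Matrix
open Cfsg

namespace Cfsg.Agent.S1588

open Cfsg.Agent.H1

/-- Second step of the characterisation: under the vector counts of the rank-24 lattice, the norm-8 vectors fall into congruence classes of exactly 48 modulo twice the lattice. -/
theorem result (B : Matrix (Fin 24) (Fin 24) ℤ) (hsymm : B.IsSymm) (hpos : ∀ x : Fin 24 → ℤ, x ≠ 0 → 0 < x ⬝ᵥ (B *ᵥ x)) (heven : ∀ x : Fin 24 → ℤ, (2 : ℤ) ∣ x ⬝ᵥ (B *ᵥ x)) (h2 : ∀ x : Fin 24 → ℤ, x ⬝ᵥ (B *ᵥ x) ≠ 2) (h4 : {x : Fin 24 → ℤ | x ⬝ᵥ (B *ᵥ x) = 4}.ncard = 196560) (h6 : {x : Fin 24 → ℤ | x ⬝ᵥ (B *ᵥ x) = 6}.ncard = 16773120) (h8 : {x : Fin 24 → ℤ | x ⬝ᵥ (B *ᵥ x) = 8}.ncard = 398034000) (x : Fin 24 → ℤ) (hx : x ⬝ᵥ (B *ᵥ x) = 8) : {y : Fin 24 → ℤ | y ⬝ᵥ (B *ᵥ y) = 8 ∧ ∀ i, (2 : ℤ) ∣ (x - y) i}.ncard = 48 := by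
  classical
  set N : (Fin 24 → ℤ) → ℤ := fun x => x ⬝ᵥ (B *ᵥ x) with hN
  have sym : ∀ x y : Fin 24 → ℤ, x ⬝ᵥ (B *ᵥ y) = y ⬝ᵥ (B *ᵥ x) := fun x y => by
    rw [Matrix.dotProduct_mulVec, ← Matrix.mulVec_transpose, hsymm.eq, dotProduct_comm]
  have neg : ∀ x, N (-x) = N x := fun x => by simp [hN, Matrix.mulVec_neg]
  let r : (Fin 24 → ℤ) → Fin 24 → ZMod 2 := fun x i => x i
  have hr : ∀ x y, r x = r y ↔ ∀ i, (2 : ℤ) ∣ (x - y) i := fun x y => funext_iff.trans (forall_congr' fun i => by
    rw [eq_comm]; exact ZMod.intCast_eq_intCast_iff_dvd_sub _ _ 2)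
  have rneg : ∀ x, r (-x) = r x := fun x => (hr _ _).2 fun i => ⟨-x i, by simp; ring⟩
  have big : ∀ x y, r x = r y → x ≠ y → 16 ≤ N x + N y - 2 * (x ⬝ᵥ (B *ᵥ y)) := fun x y h hne => by
    choose z hz using (hr x y).1 h
    have e : x - y = (2 : ℤ) • z := funext hz
    have h0 : z ≠ 0 := fun h0 => hne (sub_eq_zero.1 (by rw [e, h0, smul_zero]))
    have a := hpos z h0
    have b := h2 z
    obtain ⟨k, hk⟩ := heven z
    have c : N (x - y) = 4 * N z := by rw [e]; simp only [hN, Matrix.mulVec_smul, smul_dotProduct, dotProduct_smul, smul_eq_mul]; ring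
    simp only [hN, Matrix.mulVec_sub, sub_dotProduct, dotProduct_sub, sym y x] at c ⊢
    omega
  have key : ∀ x y, r x = r y → N x ≤ 8 → N y ≤ 8 → y = x ∨ y = -x ∨ (N x = 8 ∧ N y = 8 ∧ x ⬝ᵥ (B *ᵥ y) = 0) := fun x y h a b => by
    by_cases e1 : y = x
    · exact Or.inl e1
    by_cases e2 : y = -x
    · exact Or.inr (Or.inl e2)
    have c := big x y h (Ne.symm e1)
    have d := big x (-y) (h.trans (rneg y).symm) fun e => e2 (by rw [e, neg_neg])
    rw [neg, Matrix.mulVec_neg, dotProduct_neg] at d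
    exact Or.inr (Or.inr (by omega))
  have f4 := Set.finite_of_ncard_ne_zero (h4.trans_ne (by norm_num))
  have f6 := Set.finite_of_ncard_ne_zero (h6.trans_ne (by norm_num))
  have f8 := Set.finite_of_ncard_ne_zero (h8.trans_ne (by norm_num))
  rw [Set.ncard_eq_toFinset_card _ f4] at h4
  rw [Set.ncard_eq_toFinset_card _ f6] at h6
  rw [Set.ncard_eq_toFinset_card _ f8] at h8
  let S := insert 0 (f4.toFinset ∪ f6.toFinset ∪ f8.toFinset)
  have hS : ∀ y, y ∈ S ↔ y = 0 ∨ N y = 4 ∨ N y = 6 ∨ N y = 8 := fun y => by simp [S, hN]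
  have N0 : N 0 = 0 := by simp [hN]
  have le8 : ∀ y ∈ S, N y ≤ 8 := fun y hy => by rcases (hS y).1 hy with rfl | h | h | h <;> omega
  let μ : (Fin 24 → ℤ) → ℕ := fun y => if N y = 0 then 48 else if N y = 8 then 1 else 24
  have tot : ∑ y ∈ S, μ y = 48 * 2 ^ 24 := by
    rw [Finset.sum_insert (by simp), Finset.sum_union (Finset.disjoint_left.2 fun a => by simp; omega),
      Finset.sum_union (Finset.disjoint_left.2 fun a => by simp; omega),
      Finset.sum_const_nat (m := 24) fun a ha => by simp at ha; simp [μ, hN, ha],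
      Finset.sum_const_nat (m := 24) fun a ha => by simp at ha; simp [μ, hN, ha],
      Finset.sum_const_nat (m := 1) fun a ha => by simp at ha; simp [μ, hN, ha], h4, h6, h8]
    simp [μ, N0]
  have all8 : ∀ c, (∀ y ∈ S.filter (r · = c), N y = 8) → ∑ y ∈ S.filter (r · = c), μ y = (S.filter (r · = c)).card := fun c h => by
    rw [Finset.sum_const_nat (m := 1) fun a ha => by simp [μ, h a ha], mul_one]
  have bd : ∀ c, ∑ y ∈ S.filter (r · = c), μ y ≤ 48 := fun c => by
    by_cases h : ∀ y ∈ S.filter (r · = c), N y = 8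
    · rw [all8 c h]
      set F := S.filter (r · = c) with hF
      let P := F.filter fun y => toLex (-y) < toLex y
      have li : LinearIndependent ℤ (fun y : P => (y : Fin 24 → ℤ)) := linearIndependent_iff'.2 fun s g e i hi => by
        have := congrArg (fun v => v ⬝ᵥ (B *ᵥ (i : Fin 24 → ℤ))) e
        have hi' := Finset.mem_filter.1 i.2
        simp only [sum_dotProduct, smul_dotProduct, zero_dotProduct, smul_eq_mul] at this
        rw [Finset.sum_eq_single i (fun j _ hj => ?_) (fun a => absurd hi a), show (i : Fin 24 → ℤ) ⬝ᵥ B *ᵥ (i : Fin 24 → ℤ) = 8 from h _ hi'.1] at this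
        · omega
        have hj' := Finset.mem_filter.1 j.2
        rcases key j i ((Finset.mem_filter.1 hj'.1).2.trans (Finset.mem_filter.1 hi'.1).2.symm) (h _ hj'.1).le (h _ hi'.1).le with a | a | a
        · exact absurd (Subtype.ext a).symm hj
        · rw [a, neg_neg] at hi'
          exact absurd hi'.2 hj'.2.not_gt
        · rw [a.2.2, mul_zero]
      have c1 := li.fintype_card_le_finrank
      rw [Fintype.card_coe, Module.finrank_fin_fun] at c1
      have : F ⊆ P ∪ P.image Neg.neg := fun y hy => by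
        have hy' := Finset.mem_filter.1 hy
        rcases lt_trichotomy (toLex (-y)) (toLex y) with a | a | a
        · exact Finset.mem_union_left _ (Finset.mem_filter.2 ⟨hy, a⟩)
        · have : y = 0 := funext fun i => by have := congrFun (toLex.injective a) i; simp at this ⊢; omega
          have := h y hy
          simp_all
        · exact Finset.mem_union_right _ (Finset.mem_image.2 ⟨-y, Finset.mem_filter.2 ⟨Finset.mem_filter.2
            ⟨(hS _).2 (by simp [neg, h y hy]), (rneg y).trans hy'.2⟩, by rwa [neg_neg]⟩, neg_neg y⟩)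
      have := (Finset.card_le_card this).trans (Finset.card_union_le _ _)
      have := Finset.card_image_le (s := P) (f := Neg.neg)
      omega
    · push Not at h
      obtain ⟨y, hy, h⟩ := h
      have hy' := Finset.mem_filter.1 hy
      have : S.filter (r · = c) ⊆ {y, -y} := fun z hz => by
        have hz' := Finset.mem_filter.1 hz
        rcases key y z (hy'.2.trans hz'.2.symm) (le8 _ hy'.1) (le8 _ hz'.1) with a | a | a
        · simp [a]
        · simp [a]
        · exact absurd a.1 h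
      refine (Finset.sum_le_sum_of_subset this).trans ?_
      by_cases h0 : y = 0
      · simp [h0, μ, N0]
      · have := (hpos y h0).ne'
        refine (Finset.sum_le_card_nsmul _ _ 24 fun z hz => ?_).trans (by have := Finset.card_le_two (a := y) (b := -y); simp; omega)
        rcases Finset.mem_insert.1 hz with rfl | hz
        · simp [μ, h, show N z ≠ 0 from this]
        · simp [μ, Finset.mem_singleton.1 hz, neg, h, show N y ≠ 0 from this]
  have eq48 := (Finset.sum_eq_sum_iff_of_le (s := Finset.univ) fun c _ => bd c).1 (by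
    rw [Finset.sum_fiberwise, tot]; simp) (r x) (Finset.mem_univ _)
  have h : ∀ y ∈ S.filter (r · = r x), N y = 8 := fun y hy => by
    have hy' := Finset.mem_filter.1 hy
    rcases key x y hy'.2.symm hx.le (le8 _ hy'.1) with rfl | rfl | a
    · exact hx
    · exact (neg x).trans hx
    · exact a.2.1
  rw [all8 _ h] at eq48
  rw [← eq48, ← Set.ncard_coe_finset]
  congr 1
  ext y
  rw [Finset.mem_coe, Set.mem_ofPred_eq, ← hr]
  exact ⟨fun a => Finset.mem_filter.2 ⟨(hS y).2 (Or.inr (Or.inr (Or.inr a.1))), a.2.symm⟩, fun a => ⟨h y a, (Finset.mem_filter.1 a).2.symm⟩⟩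

end Cfsg.Agent.S1588
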