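import Cfsg.Statements.S1589
import Cfsg.Agent.S1606
import Cfsg.Agent.S0376
import Cfsg.Agent.S0364
import Cfsg.Agent.S1550

set_option autoImplicit false
open scoped Pointwise
open Cfsg

namespace Cfsg.Agent.S1589

open MulAction Cfsg.Agent.S1606

section gen
variable {G Ω : Type*} [Group G] [Finite G] [MulAction G Ω] [Finite Ω]

structure Set0 (K S E : Subgroup G) (o : Set Ω) : Prop where
  hΩ : Nat.card Ω = 24
  h6 : ∀ Q : Subgroup G, 6 ≤ (Fx Ω Q).ncard → Nat.card Q ∣ 48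
  hst : ∀ r : Ω, Nat.card (stabilizer G r) = 10200960
  hu : ∀ g : G, 5 ≤ (o ∩ g • o).ncard → g • o = o
  SK : S ≤ K
  EK : E ≤ K
  cS : Nat.card S = 1024
  cE : Nat.card E = 16
  co : o.ncard = 8
  So : ∀ g ∈ S, ∀ a ∈ o, g • a ∈ o
  Eo : ∀ g ∈ E, ∀ a ∈ o, g • a = a
  fr : ∀ g ∈ E, ∀ a ∉ o, g • a = a → g = 1

variable {K S E : Subgroup G} {o : Set Ω}

theorem Set0.cc (h : Set0 K S E o) (T : Set Ω) : T.ncard + Tᶜ.ncard = 24 := by rw [Set.ncard_add_ncard_compl, h.hΩ]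

theorem Set0.t1 (h : Set0 K S E o) {a b : Ω} (ha : a ∈ o) (hb : b ∈ o) : ∃ s ∈ S, s • a = b := by
  have s1 : orbit S a ⊆ o := fun x hx => by obtain ⟨g, hg, rfl⟩ := mem_orb.1 hx; exact h.So g hg a ha
  have l := Set.ncard_le_ncard s1
  have e := orb S a
  have d := Subgroup.card_dvd_of_le (inf_le_right : S ⊓ stabilizer G a ≤ _)
  rw [h.hst] at d
  rw [h.cS] at e
  rw [h.co] at l
  have : (orbit S a).ncard = 8 := by
    generalize (orbit S a).ncard = n at *
    generalize Nat.card ↥(S ⊓ stabilizer G a) = c at *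
    interval_cases n
    · omega
    · obtain rfl : c = 1024 := by omega
      norm_num at d
    · obtain rfl : c = 512 := by omega
      norm_num at d
    · omega
    · obtain rfl : c = 256 := by omega
      norm_num at d
    all_goals omega
  rw [← Set.eq_of_subset_of_ncard_le s1 (by rw [this, h.co])] at hb
  exact mem_orb.1 hb

theorem Set0.t2 (h : Set0 K S E o) {r : Ω} (hr : r ∉ o) : orbit E r = oᶜ := by
  have oE := orb E r
  have : E ⊓ stabilizer G r = ⊥ := (Subgroup.eq_bot_iff_forall _).2 fun g hg => h.fr g hg.1 r hr hg.2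
  rw [this, Subgroup.card_bot, h.cE] at oE
  exact Set.eq_of_subset_of_ncard_le
    (fun a ha h' => orb_ne (p := a) (fun g hg => h.Eo g hg a h') (fun e : r = a => hr (e ▸ h')) ha rfl)
    (by have := h.cc o; have := h.co; omega)

theorem Set0.t3 (h : Set0 K S E o) : (∀ g ∈ K, ∀ a ∈ o, g • a ∈ o) ∨ ∀ a b : Ω, ∃ g ∈ K, g • a = b := by
  by_cases h1 : ∀ g ∈ K, ∀ a ∈ o, g • a ∈ o
  · exact Or.inl h1
  push Not at h1
  obtain ⟨g, hg, a, ha, h1⟩ := h1
  have : ∀ b, ∃ k ∈ K, k • a = b := fun b => by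
    by_cases hb : b ∈ o
    · obtain ⟨s, hs, e⟩ := h.t1 ha hb; exact ⟨s, h.SK hs, e⟩
    · obtain ⟨s, hs, e⟩ := mem_orb.1 (show b ∈ orbit E (g • a) by rw [h.t2 h1]; exact hb)
      exact ⟨s * g, K.mul_mem (h.EK hs) hg, by rw [mul_smul, e]⟩
  refine Or.inr fun b c => ?_
  obtain ⟨k, hk, rfl⟩ := this b
  obtain ⟨l, hl, rfl⟩ := this c
  exact ⟨l * k⁻¹, K.mul_mem hl (K.inv_mem hk), by rw [mul_smul, inv_smul_smul]⟩

theorem Set0.st (h : Set0 K S E o) (ht : ∀ a b : Ω, ∃ g ∈ K, g • a = b) (r : Ω) :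
    24 * Nat.card ↥(K ⊓ stabilizer G r) = Nat.card K := by
  rw [← orb K r, Set.eq_univ_of_forall fun b => mem_orb.2 (ht r b), Set.ncard_univ, h.hΩ]

theorem Set0.t4 (h : Set0 K S E o) (ht : ∀ a b : Ω, ∃ g ∈ K, g • a = b) {r : Ω} (hr : r ∈ o)
    (h5 : 5 ∣ Nat.card ↥(K ⊓ stabilizer G r)) (hA : ∀ g ∈ K, g • r = r → ∀ a ∈ o, g • a ∈ o) : False := by
  have all : ∀ a ∈ o, ∀ g ∈ K, g • a = a → ∀ b ∈ o, g • b ∈ o := fun a ha g hg e b hb => by
    obtain ⟨s, hs, rfl⟩ := h.t1 hr ha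
    have := h.So s hs _ (hA (s⁻¹ * g * s) (K.mul_mem (K.mul_mem (K.inv_mem (h.SK hs)) hg) (h.SK hs))
      (by rw [mul_smul, mul_smul, e, inv_smul_smul]) _ (h.So s⁻¹ (S.inv_mem hs) b hb))
    simpa [mul_smul] using this
  obtain ⟨Y, hY, cY⟩ := sub (l := 5) (n := 1) (by norm_num) _ (by rwa [pow_one])
  have f := few h.hΩ h.h6 (by norm_num) Y cY (by norm_num)
  have Yo : ∀ g ∈ Y, ∀ a ∈ o, g • a ∈ o := fun g hg => hA g (hY hg).1 (hY hg).2
  have m1 := fixmod (by norm_num) Y cY o Yo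
  have m2 := fixmod (by norm_num) Y cY oᶜ fun g hg a ha h' => ha (by simpa using Yo g⁻¹ (Y.inv_mem hg) _ h')
  have c1 := h.cc o
  have c2 := h.co
  obtain ⟨r', hr', fr'⟩ : (oᶜ ∩ Fx Ω Y).Nonempty := (Set.ncard_pos (Set.toFinite _)).1 (by omega)
  obtain ⟨k, hk, rfl⟩ := ht r r'
  have pres : ∀ a ∈ k • o, ∀ g ∈ K, g • a = a → ∀ b ∈ k • o, g • b ∈ k • o := by
    rintro _ ⟨a, ha, rfl⟩ g hg e _ ⟨b, hb, rfl⟩
    refine ⟨_, all a ha (k⁻¹ * g * k) (K.mul_mem (K.mul_mem (K.inv_mem hk) hg) hk) (by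
      rw [mul_smul, mul_smul, show g • k • a = k • a from e, inv_smul_smul]) b hb, by simp [mul_smul]⟩
  have kr : k • r ∈ k • o := Set.smul_mem_smul_set hr
  have m3 := fixmod (by norm_num) Y cY (k • o) fun g hg => pres _ kr g (hY hg).1 (fr' g hg)
  have c3 : (k • o).ncard = 8 := by rw [Set.ncard_smul_set, h.co]
  have u1 := Set.ncard_union_add_ncard_inter (o ∩ Fx Ω Y) (k • o ∩ Fx Ω Y)
  have u2 : ((o ∩ Fx Ω Y) ∪ (k • o ∩ Fx Ω Y)).ncard ≤ (Fx Ω Y).ncard :=
    Set.ncard_le_ncard (Set.union_subset Set.inter_subset_right Set.inter_subset_right)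
  obtain ⟨a, ⟨a1, -⟩, a2, -⟩ : ((o ∩ Fx Ω Y) ∩ (k • o ∩ Fx Ω Y)).Nonempty := (Set.ncard_pos (Set.toFinite _)).1 (by omega)
  have : oᶜ ⊆ k • o := by
    rw [← h.t2 hr']
    intro x hx
    obtain ⟨g, hg, rfl⟩ := mem_orb.1 hx
    exact pres a a2 g (h.EK hg) (h.Eo g hg a a1) _ kr
  have := Set.ncard_le_ncard this
  omega

theorem Set0.ml (h : Set0 K S E o) (ht : ∀ a b : Ω, ∃ g ∈ K, g • a = b) {r : Ω} (hr : r ∈ o)
    (h5 : 5 ∣ Nat.card K) (h11 : ¬ 11 ∣ Nat.card K) (h23 : ¬ 23 ∣ Nat.card K) :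
    ∃ B : Set Ω, B.ncard = 4 ∧ r ∈ B ∧ B ⊆ o ∧ (∀ g ∈ K, g • r ∈ B → g • B = B) ∧
      ¬ ∀ g ∈ K, g • r = r → ∀ a ∈ o, g • a ∈ o := by
  have c1 := h.cc o
  have c2 := h.co
  obtain ⟨r0, hr0⟩ : (oᶜ).Nonempty := (Set.ncard_pos (Set.toFinite _)).1 (by omega)
  have st := h.st ht
  have h5' : 5 ∣ Nat.card ↥(K ⊓ stabilizer G r) := by have := st r; omega
  have t4 := h.t4 ht hr h5'
  set A := K ⊓ stabilizer G r with hA
  set O := orbit A r0 with hO
  have s1 : oᶜ ⊆ O := fun a ha => by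
    rw [← h.t2 hr0] at ha
    obtain ⟨g, hg, e⟩ := mem_orb.1 ha
    exact mem_orb.2 ⟨g, ⟨h.EK hg, h.Eo g hg r hr⟩, e⟩
  have Bo : Oᶜ ⊆ o := Set.compl_subset_comm.1 s1
  have rB : r ∈ Oᶜ := fun h' => orb_ne (fun g hg => (show g ∈ A from hg).2) (fun e : r0 = r => hr0 (e ▸ hr)) h' rfl
  have iB : ∀ g ∈ A, ∀ a ∈ Oᶜ, g • a ∈ Oᶜ := fun g hg a ha h' =>
    ha (by simpa using orb_inv le_rfl r0 g⁻¹ (A.inv_mem hg) _ h')
  have c3 := h.cc O
  have l4 : Oᶜ.ncard ≤ 4 := by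
    by_contra h'
    refine t4 fun g hg e a ha => ?_
    rw [← h.hu g (le_trans (by omega) (Set.ncard_le_ncard (s := Oᶜ) fun b hb => ⟨Bo hb, g⁻¹ • b,
      Bo (iB _ (A.inv_mem ⟨hg, e⟩) b hb), smul_inv_smul g b⟩))]
    exact Set.smul_mem_smul_set ha
  have blk : ∀ g ∈ K, g • r ∈ Oᶜ → g • Oᶜ = Oᶜ := fun g hg hgr => by
    symm
    refine Set.eq_of_subset_of_ncard_le (fun b hb => ?_) (by rw [Set.ncard_smul_set])
    rw [Set.mem_smul_set_iff_inv_smul_mem]
    intro hb'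
    have o1 := orb A (g • r)
    have o2 := orb (A ⊓ stabilizer G (g • r)) b
    have o3 := orb (K ⊓ stabilizer G (g • r)) b
    have n1 : (orbit A (g • r)).ncard ≤ Oᶜ.ncard := Set.ncard_le_ncard fun x hx => by
      obtain ⟨k, hk, rfl⟩ := mem_orb.1 hx; exact iB k hk _ hgr
    have n2 : (orbit ↥(A ⊓ stabilizer G (g • r)) b).ncard ≤ Oᶜ.ncard := Set.ncard_le_ncard fun x hx => by
      obtain ⟨k, hk, rfl⟩ := mem_orb.1 hx; exact iB k hk.1 _ hb
    have n3 : (g • O).ncard ≤ (orbit ↥(K ⊓ stabilizer G (g • r)) b).ncard := Set.ncard_le_ncard (by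
      rintro _ ⟨x, hx, rfl⟩
      obtain ⟨k, hk, rfl⟩ := mem_orb.1 hx
      obtain ⟨k', hk', e⟩ := mem_orb.1 hb'
      refine mem_orb.2 ⟨g * k * k'⁻¹ * g⁻¹, ⟨K.mul_mem (K.mul_mem (K.mul_mem hg hk.1) (K.inv_mem hk'.1)) (K.inv_mem hg), ?_⟩, ?_⟩
      · show (g * k * k'⁻¹ * g⁻¹) • g • r = g • r
        rw [mul_smul, inv_smul_smul, mul_smul, show k'⁻¹ • r = r from (A.inv_mem hk').2, mul_smul, show k • r = r from hk.2]
      · show (g * k * k'⁻¹ * g⁻¹) • b = g • k • r0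
        rw [mul_smul, ← e, mul_smul, inv_smul_smul, mul_smul])
    rw [Set.ncard_smul_set] at n3
    have n4 : Nat.card ↥(A ⊓ stabilizer G (g • r) ⊓ stabilizer G b) ≤ Nat.card ↥(K ⊓ stabilizer G (g • r) ⊓ stabilizer G b) :=
      Subgroup.card_le_of_le (inf_le_inf_right _ (inf_le_inf_right _ inf_le_left))
    have e1 := st r
    have e2 := st (g • r)
    have p : 0 < Nat.card ↥(K ⊓ stabilizer G (g • r) ⊓ stabilizer G b) := Nat.card_pos
    have i1 := Nat.mul_le_mul (n1.trans l4) (le_refl (Nat.card ↥(A ⊓ stabilizer G (g • r))))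
    have i2 := Nat.mul_le_mul (n2.trans l4) n4
    have i3 := Nat.mul_le_mul (show 20 ≤ _ from le_trans (by omega) n3) (le_refl (Nat.card ↥(K ⊓ stabilizer G (g • r) ⊓ stabilizer G b)))
    rw [← hA] at e1
    omega
  refine ⟨Oᶜ, ?_, rB, Bo, blk, t4⟩
  have oA : O.ncard * Nat.card ↥(A ⊓ stabilizer G r0) = Nat.card A := orb A r0
  have e1 := st r
  rw [← hA] at e1
  have p : 0 < Oᶜ.ncard := (Set.ncard_pos (Set.toFinite _)).2 ⟨r, rB⟩
  have n3 : Oᶜ.ncard ≠ 3 := fun h3 => by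
    have eo : orbit ↥(S ⊓ stabilizer G Oᶜ) r = Oᶜ := by
      ext b; constructor
      · intro hb
        obtain ⟨g, hg, rfl⟩ := mem_orb.1 hb
        rw [← show g • Oᶜ = Oᶜ from hg.2]; exact Set.smul_mem_smul_set rB
      · intro hb
        obtain ⟨s, hs, rfl⟩ := h.t1 hr (Bo hb)
        exact mem_orb.2 ⟨s, ⟨hs, blk s (h.SK hs) hb⟩, rfl⟩
    have oL := orb (S ⊓ stabilizer G Oᶜ) r
    rw [eo, h3] at oL
    have := (Dvd.intro _ oL).trans (Subgroup.card_dvd_of_le (inf_le_left : S ⊓ stabilizer G Oᶜ ≤ S))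
    rw [h.cS] at this
    omega
  have : O.ncard = 20 ∨ O.ncard = 22 ∨ O.ncard = 23 := by omega
  rcases this with e | e | e <;> rw [e] at oA <;> omega

theorem Set0.no7 (h : Set0 K S E o) (ht : ∀ a b : Ω, ∃ g ∈ K, g • a = b)
    (h5 : 5 ∣ Nat.card K) (h7 : 7 ∣ Nat.card K) (h11 : ¬ 11 ∣ Nat.card K) (h23 : ¬ 23 ∣ Nat.card K) : False := by
  obtain ⟨r, hr⟩ : o.Nonempty := (Set.ncard_pos (Set.toFinite _)).1 (by rw [h.co]; norm_num)
  obtain ⟨B, cB, rB, -, blk, -⟩ := h.ml ht hr h5 h11 h23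
  have e := h.st ht r
  obtain ⟨Y, hY, cY⟩ := sub (l := 7) (n := 1) (by norm_num) (K ⊓ stabilizer G r) (by omega)
  have f := few h.hΩ h.h6 (by norm_num) Y cY (by norm_num)
  have m := fixmod (by norm_num) Y cY B fun g hg a ha => by
    rw [← blk g (hY hg).1 (by rw [show g • r = r from (hY hg).2]; exact rB)]; exact Set.smul_mem_smul_set ha
  have := Set.ncard_le_ncard (Set.inter_subset_right : B ∩ Fx Ω Y ⊆ _)
  omega

theorem pair (hΩ : Nat.card Ω = 24) (h6 : ∀ Q : Subgroup G, 6 ≤ (Fx Ω Q).ncard → Nat.card Q ∣ 48)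
    (hst : ∀ r : Ω, Nat.card (stabilizer G r) = 10200960) (cK : Nat.card K = 887040) :
    ∃ s : Set Ω, s.ncard = 2 ∧ ∀ g ∈ K, ∀ a ∈ s, g • a ∈ s := by
  obtain ⟨Q, hQ, cQ⟩ := sub (l := 11) (n := 1) (by norm_num) K (by rw [cK]; norm_num)
  have f := few hΩ h6 (by norm_num) Q cQ (by norm_num)
  obtain ⟨u, v, uv, eQ⟩ := Set.ncard_eq_two.1 (show (Fx Ω Q).ncard = 2 by omega)
  have uQ : u ∈ Fx Ω Q := by rw [eQ]; simp
  have vQ : v ∈ Fx Ω Q := by rw [eQ]; simp
  have n12 : ∀ (A : Subgroup G) (x : Ω), 7 ∣ Nat.card A → (orbit A x).ncard ≠ 12 := fun A x h7 e => by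
    obtain ⟨Y, hY, cY⟩ := sub (l := 7) (n := 1) (by norm_num) A (by omega)
    have f := few hΩ h6 (by norm_num) Y cY (by norm_num)
    have m := fixmod (by norm_num) Y cY _ (orb_inv hY x)
    have := Set.ncard_le_ncard (Set.inter_subset_right : orbit A x ∩ Fx Ω Y ⊆ _)
    omega
  have le24 : ∀ T : Set Ω, T.ncard ≤ 24 := fun T => by
    rw [← hΩ, ← Set.ncard_univ]; exact Set.ncard_le_ncard (Set.subset_univ _)
  have o1 := orb K u
  have m1 := fixmod (by norm_num) Q cQ _ (orb_inv hQ u)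
  have l1 := Set.ncard_le_ncard (Set.inter_subset_right : orbit K u ∩ Fx Ω Q ⊆ _)
  have p1 : 0 < (orbit K u ∩ Fx Ω Q).ncard := (Set.ncard_pos (Set.toFinite _)).2 ⟨u, mem_orbit_self _, uQ⟩
  have d1 := Subgroup.card_dvd_of_le (inf_le_right : K ⊓ stabilizer G u ≤ _)
  have := le24 (orbit K u)
  have := n12 K u (by rw [cK]; norm_num)
  rw [cK] at o1
  rw [hst] at d1
  have : (orbit K u).ncard = 1 ∨ (orbit K u).ncard = 2 ∨ (orbit K u).ncard = 13 ∨ (orbit K u).ncard = 23 ∨ (orbit K u).ncard = 24 := by omega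
  rcases this with e | e | e | e | e
  · rw [e, one_mul] at o1; rw [o1] at d1; norm_num at d1
  · exact ⟨_, e, orb_inv le_rfl u⟩
  · rw [e] at o1; omega
  · rw [e] at o1; omega
  exfalso
  have tr : orbit K u = Set.univ := Set.eq_of_subset_of_ncard_le (Set.subset_univ _) (by rw [e]; exact le24 _)
  have st : ∀ x : Ω, Nat.card ↥(K ⊓ stabilizer G x) = 36960 := fun x => by
    have := orb K x
    rw [orbit_eq_iff.2 (show x ∈ orbit K u by rw [tr]; trivial), e, cK] at this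
    omega
  set A := K ⊓ stabilizer G u with hA
  have QA : Q ≤ A := le_inf hQ fun g hg => uQ g hg
  have o2 := orb A v
  have m2 := fixmod (by norm_num) Q cQ _ (orb_inv QA v)
  have uO : u ∉ orbit A v := fun h' => orb_ne (fun g hg => (show g ∈ A from hg).2) uv.symm h' rfl
  have e2 : orbit A v ∩ Fx Ω Q = {v} := by
    ext a; constructor
    · rintro ⟨h1, h2⟩
      rw [eQ] at h2
      exact h2.resolve_left fun e => uO (e ▸ h1)
    · rintro rfl; exact ⟨mem_orbit_self _, vQ⟩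
  rw [e2, Set.ncard_singleton] at m2
  have cA : Nat.card A = 36960 := st u
  have := le24 (orbit A v)
  have := n12 A v (by rw [cA]; norm_num)
  have e3 : (orbit A v).ncard = 1 := by
    have : (orbit A v).ncard = 1 ∨ (orbit A v).ncard = 23 := by omega
    refine this.resolve_right fun e => ?_
    rw [e, cA] at o2; omega
  have Av : ∀ g ∈ A, g • v = v := fun g hg =>
    (Set.ncard_le_one (Set.toFinite _)).1 e3.le _ (mem_orb.2 ⟨g, hg, rfl⟩) _ (mem_orbit_self _)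
  have AB : A = K ⊓ stabilizer G v := Subgroup.eq_of_le_of_card_ge (le_inf inf_le_left Av) (by rw [cA, st])
  obtain ⟨Y, hY, cY⟩ := sub (l := 7) (n := 1) (by norm_num) A (by rw [cA]; norm_num)
  have fY := few hΩ h6 (by norm_num) Y cY (by norm_num)
  obtain ⟨t, ht, ht'⟩ : ∃ t ∈ Fx Ω Y, t ∉ ({u, v} : Set Ω) :=
    Set.exists_mem_notMem_of_ncard_lt_ncard (by rw [Set.ncard_pair uv]; omega)
  obtain ⟨k, hk, rfl⟩ := mem_orb.1 (show t ∈ orbit K u by rw [tr]; trivial)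
  have fix : ∀ g ∈ K ⊓ stabilizer G (k • u), g • k • v = k • v := fun g hg => by
    have := Av (k⁻¹ * g * k) ⟨K.mul_mem (K.mul_mem (K.inv_mem hk) hg.1) hk, by
      show (k⁻¹ * g * k) • u = u
      rw [mul_smul, mul_smul, show g • k • u = k • u from hg.2, inv_smul_smul]⟩
    rwa [mul_smul, mul_smul, inv_smul_eq_iff] at this
  have kv : k • v ∈ ({u, v} : Set Ω) := by
    by_contra hn
    have := add2 (S := {u, v}) (T := Fx Ω Y) (by
      rintro _ (rfl | rfl)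
      exacts [fun g hg => (hY hg).2, fun g hg => Av g (hY hg)]) ht (fun g hg => fix g ⟨(hY hg).1, ht g hg⟩) ht' hn
      (fun e => uv (smul_left_cancel k e))
    rw [Set.ncard_pair uv] at this
    omega
  have le : K ⊓ stabilizer G (k • u) ≤ A := by
    rcases kv with e | e
    · exact fun g hg => ⟨hg.1, by have := fix g hg; rwa [e] at this⟩
    · rw [AB]; exact fun g hg => ⟨hg.1, by have := fix g hg; rwa [show k • v = v from e] at this⟩
  have eq := Subgroup.eq_of_le_of_card_ge le (by rw [cA, st])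
  exact ht' (eQ ▸ fun g hg => (eq ▸ QA hg : g ∈ K ⊓ stabilizer G (k • u)).2)
end gen

theorem hΩ : Nat.card Cfsg.GolayPt = 24 := by
  rw [Nat.card_eq_fintype_card]; rfl

theorem h6 : ∀ Q : Subgroup ↥Cfsg.M24, 6 ≤ (Fx Cfsg.GolayPt Q).ncard → Nat.card Q ∣ 48 := fun Q hQ => by
  obtain ⟨T, hT, cT⟩ := Set.exists_subset_card_eq hQ
  obtain ⟨E, rfl⟩ := (Set.toFinite T).exists_finset_coe
  rw [Set.ncard_coe_finset] at cT
  have r := Cfsg.Agent.S5600.result E cT
  let W : Subgroup (Equiv.Perm Cfsg.GolayPt) := Cfsg.M24 ⊓ fixingSubgroup (Equiv.Perm Cfsg.GolayPt) (E : Set Cfsg.GolayPt)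
  have e : Nat.card W = Nat.card {g : Equiv.Perm Cfsg.GolayPt // g ∈ Cfsg.M24 ∧ ∀ p ∈ E, g p = p} :=
    Nat.card_congr (Equiv.subtypeEquivRight fun g => by
      simp only [W, Subgroup.mem_inf, mem_fixingSubgroup_iff]; rfl)
  have d : Nat.card Q ∣ Nat.card W := by
    rw [← Subgroup.card_map_of_injective (K := Q) Cfsg.M24.subtype_injective]
    apply Subgroup.card_dvd_of_le
    rintro _ ⟨g, hg, rfl⟩
    exact ⟨g.2, (mem_fixingSubgroup_iff _).2 fun a ha => hT ha g hg⟩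
  by_cases h : ∃ o ∈ Cfsg.octads, E ⊆ o
  · rw [e, r.2.1 h] at d; exact d.trans (by norm_num)
  · rw [e, (r.2.2 h).1] at d; exact d.trans (by norm_num)

open Cfsg.Agent.St Cfsg.Agent.H6 in
theorem setup (K : Subgroup ↥Cfsg.M24) (h : 2 ^ 10 ∣ Nat.card K) :
    ∃ o ∈ Cfsg.octads, ∃ S, Set0 K S (FixP o) (o : Set Cfsg.GolayPt) := by
  obtain ⟨P, hP, cP⟩ := sub (by norm_num) K h
  obtain ⟨P0, hP0, cP0⟩ := sub (l := 2) (n := 10) (by norm_num) (stabilizer Cfsg.M24 o0) (by rw [card_stab_oct o0_mem]; norm_num)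
  obtain ⟨c, -, hc⟩ := conj_into (K := ⊤) (P := P) (Q := P0) (p := 2) (k := 10) (m := 239085) (by norm_num) le_top cP
    (by rw [Subgroup.card_top, Cfsg.Agent.S0364.result]; norm_num) (by norm_num) le_top (IsPGroup.of_card cP0)
  obtain ⟨d, hd, hd'⟩ := conj_into (K := stabilizer Cfsg.M24 o0) (P := P0) (Q := FixP o0) (p := 2) (k := 10) (m := 315)
    (by norm_num) hP0 cP0 (by rw [card_stab_oct o0_mem]; norm_num) (by norm_num) (Fix_le _)
    (IsPGroup.of_card (n := 4) (by rw [card_Fix_oct o0_mem]; norm_num))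
  have E0 : FixP o0 ≤ P0 := fun g hg => by
    have : g ∈ FixP (d • o0) := by rwa [show d • o0 = o0 from hd]
    simpa [mul_assoc] using hd' _ (mem_Fix_smul.1 this)
  have ho : c • o0 ∈ Cfsg.octads := smul_mem_octads c o0_mem
  refine ⟨c • o0, ho, P0.map (MulAut.conj c).toMonoidHom, hΩ, h6, Cfsg.Agent.S0376.result, fun g hg => ?_, ?_, fun g hg => ?_,
    ?_, card_Fix_oct ho, ?_, ?_, fun g hg a ha => hg a ha, fun g hg a ha h => eq_one_of_flag ho ha hg h⟩
  · rw [← Finset.coe_smul_finset, ← Finset.coe_inter, Set.ncard_coe_finset] at hg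
    rw [← Finset.coe_smul_finset, ← octad_eq_of_inter ho (smul_mem_octads g ho) hg]
  · rintro _ ⟨g, hg, rfl⟩; exact hP (hc g hg)
  · simpa [mul_assoc] using hP (hc _ (E0 (mem_Fix_smul.1 hg)))
  · rw [Subgroup.card_map_of_injective (MulAut.conj c).injective, cP0]; norm_num
  · rw [Set.ncard_coe_finset, (mem_octads.1 ho).2]
  · rintro _ ⟨g, hg, rfl⟩ a ha
    obtain ⟨b, hb, rfl⟩ := Finset.mem_smul_finset.1 ha
    have : g • b ∈ o0 := by rw [← show g • o0 = o0 from hP0 hg]; exact Finset.smul_mem_smul_finset hb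
    show (c * g * c⁻¹) • c • b ∈ c • o0
    rw [mul_smul, inv_smul_smul, mul_smul]; exact Finset.smul_mem_smul_finset this

theorem le_stab {K : Subgroup ↥Cfsg.M24} {s : Finset Cfsg.GolayPt} (hs : ∀ g ∈ K, ∀ a ∈ s, g • a ∈ s) :
    K ≤ stabilizer Cfsg.M24 s := fun g hg =>
  mem_stabilizer_finset_iff_smul_finset_subset.2 (Finset.smul_finset_subset_iff.2 fun a ha =>
    Finset.mem_inv_smul_finset_iff.2 (hs g hg a ha))

open Cfsg.Agent.St Cfsg.Agent.H6 in
theorem sdiff_mem {X : Finset (Finset Cfsg.GolayPt)} (hX : X ∈ Cfsg.sextets) {t o : Finset Cfsg.GolayPt} (ht : t ∈ X)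
    (ho : o ∈ Cfsg.octads) (hto : t ⊆ o) : o \ t ∈ X := by
  have c4 := hX.2.1 t ht
  have c8 := (mem_octads.1 ho).2
  obtain ⟨a, ha, ha'⟩ : ∃ a ∈ o, a ∉ t := Finset.exists_mem_notMem_of_card_lt_card (by omega)
  have cov : X.biUnion (fun x => x) = Finset.univ := by
    apply Finset.eq_univ_of_card
    rw [Finset.card_biUnion fun x hx y hy hxy => sextet_disjoint hX hx hy hxy, Finset.sum_congr rfl fun x hx => hX.2.1 x hx]
    simp only [Finset.sum_const, hX.1]; rfl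
  obtain ⟨u, hu, au⟩ := Finset.mem_biUnion.1 (cov ▸ Finset.mem_univ a : a ∈ X.biUnion (fun x => x))
  have ne : t ≠ u := fun e => ha' (e ▸ au)
  have e : o = t ∪ u := octad_eq_of_inter ho (hX.2.2 t ht u hu ne) (by
    have : insert a t ⊆ o ∩ (t ∪ u) := Finset.insert_subset (Finset.mem_inter.2 ⟨ha, Finset.mem_union_right _ au⟩)
      (Finset.subset_inter hto Finset.subset_union_left)
    have := Finset.card_le_card this
    rwa [Finset.card_insert_of_notMem ha', c4] at this)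
  rw [e, Finset.union_sdiff_cancel_left (sextet_disjoint hX ht hu ne)]
  exact hu


/-- Subgroups of the group of the length-24 code of index 759, 276 and 1771 are exactly the octad, duad and sextet stabilisers, and no subgroup has index 253. -/
theorem result : (∀ H : Subgroup ↥Cfsg.M24, H.index = 759 → ∃ o ∈ Cfsg.octads, H = MulAction.stabilizer Cfsg.M24 o) ∧ (∀ H : Subgroup ↥Cfsg.M24, H.index = 276 → ∃ s : Finset Cfsg.GolayPt, s.card = 2 ∧ H = MulAction.stabilizer Cfsg.M24 s) ∧ (∀ H : Subgroup ↥Cfsg.M24, H.index = 1771 → ∃ S ∈ Cfsg.sextets, H = MulAction.stabilizer Cfsg.M24 S) ∧ ∀ H : Subgroup ↥Cfsg.M24, H.index ≠ 253 := by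
  have cM := Cfsg.Agent.S0364.result
  refine ⟨fun H hH => ?_, fun H hH => ?_, fun H hH => ?_, fun H hH => ?_⟩
  all_goals have hi := H.index_mul_card
  all_goals rw [cM, hH] at hi
  · have cH : Nat.card H = 322560 := by omega
    obtain ⟨o, ho, S, h⟩ := setup H (by rw [cH]; norm_num)
    rcases h.t3 with h1 | h1
    · exact ⟨o, ho, Subgroup.eq_of_le_of_card_ge (le_stab h1) (by rw [Cfsg.Agent.St.card_stab_oct ho, cH])⟩
    · exact (h.no7 h1 (by omega) (by omega) (by omega) (by omega)).elim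
  · have cH : Nat.card H = 887040 := by omega
    obtain ⟨s, cs, hs⟩ := pair hΩ h6 Cfsg.Agent.S0376.result cH
    obtain ⟨a, b, ab, rfl⟩ := Set.ncard_eq_two.1 cs
    refine ⟨{a, b}, Finset.card_pair ab, Subgroup.eq_of_le_of_card_ge (le_stab fun g hg x hx => by
      simpa using hs g hg x (by simpa using hx)) ?_⟩
    have o1 := orb (stabilizer Cfsg.M24 ({a, b} : Finset Cfsg.GolayPt)) a
    have l1 : (orbit ↥(stabilizer Cfsg.M24 ({a, b} : Finset Cfsg.GolayPt)) a).ncard ≤ 2 := by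
      rw [← cs]
      refine Set.ncard_le_ncard fun x hx => ?_
      obtain ⟨g, hg, rfl⟩ := mem_orb.1 hx
      have : g • a ∈ g • ({a, b} : Finset Cfsg.GolayPt) := Finset.smul_mem_smul_finset (by simp)
      rw [show g • ({a, b} : Finset Cfsg.GolayPt) = {a, b} from hg] at this
      simpa using this
    have l2 : Nat.card ↥(stabilizer Cfsg.M24 ({a, b} : Finset Cfsg.GolayPt) ⊓ stabilizer Cfsg.M24 a) ≤ 443520 := by
      rw [← Cfsg.Agent.S0378.result a b ab]
      refine Subgroup.card_le_of_le fun g hg => ⟨hg.2, ?_⟩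
      have : g • b ∈ g • ({a, b} : Finset Cfsg.GolayPt) := Finset.smul_mem_smul_finset (by simp)
      rw [show g • ({a, b} : Finset Cfsg.GolayPt) = {a, b} from hg.1, Finset.mem_insert, Finset.mem_singleton] at this
      exact this.resolve_left fun e => ab (smul_left_cancel g ((show g • a = a from hg.2).trans e.symm))
    have := Nat.mul_le_mul l1 l2
    omega
  · have cH : Nat.card H = 138240 := by omega
    obtain ⟨o, ho, S, h⟩ := setup H (by rw [cH]; norm_num)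
    rcases h.t3 with h1 | h1
    · have := Subgroup.card_dvd_of_le (le_stab h1)
      rw [Cfsg.Agent.St.card_stab_oct ho, cH] at this
      omega
    obtain ⟨r, hr⟩ : (o : Set Cfsg.GolayPt).Nonempty := (Set.ncard_pos (Set.toFinite _)).1 (by rw [h.co]; norm_num)
    obtain ⟨B, cB, rB, Bo, blk, nA⟩ := h.ml h1 hr (by omega) (by omega) (by omega)
    obtain ⟨t, rfl⟩ := (Set.toFinite B).exists_finset_coe
    rw [Set.ncard_coe_finset] at cB
    obtain ⟨X, ⟨hX, tX⟩, uX⟩ := Cfsg.Agent.H6.exists_unique_sextet cB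
    have key : ∀ g : ↥Cfsg.M24, g • t ∈ X → g • X = X := fun g hg => by
      have := uX (g⁻¹ • X) ⟨Cfsg.Agent.H6.smul_mem_sextets _ hX, Finset.mem_inv_smul_finset_iff.2 hg⟩
      exact (inv_smul_eq_iff.1 this).symm
    have blk' : ∀ g ∈ H, g • r ∈ t → g • t = t := fun g hg e => by
      have := blk g hg e
      rwa [← Finset.coe_smul_finset, Finset.coe_inj] at this
    have tso : t ⊆ o := fun a ha => Bo ha
    have SX : S ≤ H ⊓ stabilizer Cfsg.M24 X := fun s hs => ⟨h.SK hs, key s (by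
      by_cases hm : ∃ b ∈ t, s • b ∈ t
      · obtain ⟨b, hb, hb'⟩ := hm
        obtain ⟨s', hs', rfl⟩ := h.t1 hr (Bo hb)
        have e1 := blk' s' (h.SK hs') hb
        have e2 := blk' (s * s') (H.mul_mem (h.SK hs) (h.SK hs')) (by rwa [mul_smul])
        rw [mul_smul, e1] at e2
        rwa [e2]
      · have : s • t = o \ t := Finset.eq_of_subset_of_card_le (fun x hx => by
          obtain ⟨b, hb, rfl⟩ := Finset.mem_smul_finset.1 hx
          exact Finset.mem_sdiff.2 ⟨h.So s hs b (Bo hb), fun e => hm ⟨b, hb, e⟩⟩) (by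
          rw [Finset.card_sdiff_of_subset tso, Finset.card_smul_finset, cB, (Cfsg.Agent.H6.mem_octads.1 ho).2])
        rw [this]; exact sdiff_mem hX tX ho tso)⟩
    have AX : ∀ g ∈ H, g • r = r → g ∈ H ⊓ stabilizer Cfsg.M24 X := fun g hg e =>
      ⟨hg, key g (by rwa [blk' g hg (by rw [e]; exact rB)])⟩
    have h' : Set0 (H ⊓ stabilizer Cfsg.M24 X) S (Cfsg.Agent.St.FixP o) (o : Set Cfsg.GolayPt) :=
      { h with SK := SX, EK := fun g hg => AX g (h.EK hg) (h.Eo g hg r hr) }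
    have h2 := h'.t3.resolve_left fun e => nA fun g hg e' => e g (AX g hg e')
    have HX : H ≤ stabilizer Cfsg.M24 X := fun g hg => by
      obtain ⟨k, hk, e⟩ := h2 (g • r) r
      have := (AX (k * g) (H.mul_mem hk.1 hg) (by rw [mul_smul, e])).2
      simpa using (stabilizer Cfsg.M24 X).mul_mem ((stabilizer Cfsg.M24 X).inv_mem hk.2) this
    refine ⟨X, hX, Subgroup.eq_of_le_of_card_ge HX ?_⟩
    have i1 := (stabilizer Cfsg.M24 X).index_mul_card
    rw [index_stabilizer, orbit_eq_iff.2 (show X ∈ orbit Cfsg.M24 (Cfsg.Agent.H6.sxX 0) by rwa [Cfsg.Agent.H6.orbit_sxX]),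
      Cfsg.Agent.H6.orbit_sxX, Cfsg.Agent.S1550.result.2, cM] at i1
    omega
  · have cH : Nat.card H = 967680 := by omega
    obtain ⟨o, ho, S, h⟩ := setup H (by rw [cH]; norm_num)
    rcases h.t3 with h1 | h1
    · have := Subgroup.card_dvd_of_le (le_stab h1)
      rw [Cfsg.Agent.St.card_stab_oct ho, cH] at this
      omega
    · exact h.no7 h1 (by omega) (by omega) (by omega) (by omega)

end Cfsg.Agent.S1589
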