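import Cfsg.Statements.S1590
import Cfsg.Agent.GS.Tg1

set_option autoImplicit false
open Cfsg

namespace Cfsg.Agent.S1590

/-- The length-12 ternary code has 729 words with weight distribution 0^1 6^264 9^440 12^24. -/
theorem result : Nat.card ↥Cfsg.ternaryGolayCode = 729 ∧ (∀ x ∈ Cfsg.ternaryGolayCode, x ≠ 0 → (Cfsg.ternarySupport x).card = 6 ∨ (Cfsg.ternarySupport x).card = 9 ∨ (Cfsg.ternarySupport x).card = 12) ∧ {x : Cfsg.ArrayPt → ZMod 3 | x ∈ Cfsg.ternaryGolayCode ∧ (Cfsg.ternarySupport x).card = 6}.ncard = 264 ∧ {x : Cfsg.ArrayPt → ZMod 3 | x ∈ Cfsg.ternaryGolayCode ∧ (Cfsg.ternarySupport x).card = 9}.ncard = 440 ∧ {x : Cfsg.ArrayPt → ZMod 3 | x ∈ Cfsg.ternaryGolayCode ∧ (Cfsg.ternarySupport x).card = 12}.ncard = 24 := by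
  open Finset Pointwise Cfsg.Agent.St Cfsg.Agent.H6 in focus
    refine ⟨?_, fun x hx h0 => ?_, (ncard_tw 6).trans (by decide +kernel), (ncard_tw 9).trans (by decide +kernel), (ncard_tw 12).trans (by decide +kernel)⟩
    · have := ncard_gw (P := fun _ => True) (f := fun _ => true) mem_tw tw_inj (by simp)
      simp only [and_true, filter_true, card_range] at this
      exact this
    · obtain ⟨n, hn, rfl⟩ := (mem_tw x).1 hx
      have h := (nall_eq _ _).1 (by decide +kernel : nall (fun n => decide (n = 0 ∨ pc (mkT n) = 6 ∨ pc (mkT n) = 9 ∨ pc (mkT n) = 12)) 729 = true) n hn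
      rw [card_tw hn]
      refine (of_decide_eq_true h).resolve_left ?_
      rintro rfl
      exact h0 (by decide +kernel)

end Cfsg.Agent.S1590
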