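import Cfsg.Statements.S1591
import Cfsg.Agent.GS.Tg1

set_option autoImplicit false
open Cfsg

namespace Cfsg.Agent.S1591

/-- Any two words of the length-12 ternary code have dot product zero. -/
theorem result (x y : Cfsg.ArrayPt → ZMod 3) (hx : x ∈ Cfsg.ternaryGolayCode) (hy : y ∈ Cfsg.ternaryGolayCode) : ∑ p, x p * y p = 0 := by
  open Finset Pointwise Cfsg.Agent.St Cfsg.Agent.H6 in focus
    rw [← tern_par hx, ← tern_par hy]
    simp only [Finset.sum_apply, Pi.smul_apply, smul_eq_mul, sum_mul_sum]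
    rw [sum_comm]
    refine sum_eq_zero fun i _ => ?_
    rw [sum_comm]
    refine sum_eq_zero fun j _ => ?_
    rw [sum_congr rfl fun p _ => mul_mul_mul_comm _ _ _ _, ← mul_sum, (by decide +kernel : ∀ i j, ∑ p, tB i p * tB j p = 0) i j, mul_zero]

end Cfsg.Agent.S1591
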