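import Cfsg.Statements.S1593
import Cfsg.Agent.GS.Tg1

set_option autoImplicit false
open Cfsg

namespace Cfsg.Agent.S1593

/-- The only sign changes preserving the length-12 ternary code are the identity and negation of all coordinates. -/
theorem result (c : Cfsg.ArrayPt → (ZMod 3)ˣ) (h : (∀ x ∈ Cfsg.ternaryGolayCode, Cfsg.monomialMap 1 c x ∈ Cfsg.ternaryGolayCode)) : (∀ p, c p = 1) ∨ (∀ p, c p = -1) := by
  open Finset Pointwise Cfsg.Agent.St Cfsg.Agent.H6 in focus
    exact ((by decide : ∀ u : (ZMod 3)ˣ, u = 1 ∨ u = -1) (c (0, 0))).imp (fun e p => (tern_scal c h _ _).trans e) fun e p => (tern_scal c h _ _).trans e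

end Cfsg.Agent.S1593
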