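import Cfsg.Statements.S1595
import Cfsg.Agent.GS.St1

set_option autoImplicit false
open Cfsg

namespace Cfsg.Agent.S1595

/-- Leech triangle of S(5, 6, 12): blocks meet in 0, 2, 3 or 4 points, and a block is met exactly in a given 2-, 3- or 4-subset by 3, 2, 3 blocks respectively. -/
theorem result {α : Type*} [Fintype α] [DecidableEq α] (hα : Fintype.card α = 12) {B : Set (Finset α)} (hB : Cfsg.IsSteinerSystem 5 6 B) (b : Finset α) (hb : b ∈ B) : (∀ c ∈ B, c ≠ b → (b ∩ c).card = 0 ∨ (b ∩ c).card = 2 ∨ (b ∩ c).card = 3 ∨ (b ∩ c).card = 4) ∧ ∀ s ⊆ b, (s.card = 2 → {c : Finset α | c ∈ B ∧ b ∩ c = s}.ncard = 3) ∧ (s.card = 3 → {c : Finset α | c ∈ B ∧ b ∩ c = s}.ncard = 2) ∧ (s.card = 4 → {c : Finset α | c ∈ B ∧ b ∩ c = s}.ncard = 3) := by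
  open Finset Pointwise Cfsg.Agent.St Cfsg.Agent.H6 in focus
    refine ⟨fun c hc hne => inter12 hα hB hb hc hne.symm, fun s hs => ?_⟩
    have h := (unif_blk hB hα lam12 hb).cnt_eq hs
    rw [hB.1 b hb] at h
    refine ⟨?_, ?_, ?_⟩ <;> intro h2 <;> rw [h, h2] <;> rfl

end Cfsg.Agent.S1595
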