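import Cfsg.Statements.S1597
import Cfsg.Agent.GS.Mk5

set_option autoImplicit false
open scoped Pointwise
open Cfsg

namespace Cfsg.Agent.S1597

/-- A dodecad has 220 quartets and its stabiliser is transitive on them. -/
theorem result (d : Finset Cfsg.GolayPt) (hd : d ∈ Cfsg.dodecads) : (Cfsg.quartets d).ncard = 220 ∧ ∀ Q ∈ Cfsg.quartets d, ∀ Q' ∈ Cfsg.quartets d, ∃ g : Equiv.Perm Cfsg.GolayPt, g ∈ Cfsg.M24 ∧ g • d = d ∧ g • Q = Q' := by
  open Finset Pointwise Cfsg.Agent.St Cfsg.Agent.H6 in focus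
    refine ⟨?_, fun Q h Q' h' => ?_⟩
    · obtain ⟨g, rfl⟩ := orbit_dod hd
      rw [← mQq.ncard_rng, ← quartets_eq, ← Set.ncard_smul_set g (quartets (cw 863))]
      congr 1
      ext Q
      refine ⟨fun h => ⟨g⁻¹ • Q, by simpa using smul_quartet g⁻¹ h, smul_inv_smul g Q⟩, ?_⟩
      rintro ⟨Q, h, rfl⟩
      exact smul_quartet g h
    · obtain ⟨g, hg⟩ := exists_of_orbit (orbit_dQ hd h) (orbit_dQ hd h')
      exact ⟨g, g.2, congrArg Prod.fst hg, congrArg Prod.snd hg⟩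

end Cfsg.Agent.S1597
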