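import Cfsg.Statements.S1598
import Cfsg.Agent.GS.Mk5

set_option autoImplicit false
open scoped Pointwise
open Cfsg

namespace Cfsg.Agent.S1598

/-- A quartet stabiliser inside the dodecad stabiliser has order 432, a normal subgroup of order 9 with quotient GL(2, 3), and is transitive on the dodecad. -/
theorem result (d : Finset Cfsg.GolayPt) (hd : d ∈ Cfsg.dodecads) (Q : Finset (Finset Cfsg.GolayPt)) (hQ : Q ∈ Cfsg.quartets d) : Nat.card ↥(MulAction.stabilizer Cfsg.M24 d ⊓ MulAction.stabilizer Cfsg.M24 Q) = 432 ∧ (∃ (N : Subgroup ↥(MulAction.stabilizer Cfsg.M24 d ⊓ MulAction.stabilizer Cfsg.M24 Q)) (_ : N.Normal), Nat.card N = 9 ∧ Nonempty (↥(MulAction.stabilizer Cfsg.M24 d ⊓ MulAction.stabilizer Cfsg.M24 Q) ⧸ N ≃* GL (Fin 2) (ZMod 3))) ∧ ∀ p ∈ d, ∀ q ∈ d, ∃ g ∈ (MulAction.stabilizer Cfsg.M24 d ⊓ MulAction.stabilizer Cfsg.M24 Q), ((g : ↥Cfsg.M24) : Equiv.Perm Cfsg.GolayPt) p = q := by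
  open Finset Pointwise Cfsg.Agent.St Cfsg.Agent.H6 in focus
    have ho := orbit_dQ hd hQ
    have e := equiv_stab_of_mem_orbit ho
    rw [stab_prod, stab_prod] at e
    obtain ⟨e⟩ := e
    obtain ⟨φ, hφ⟩ := homQ
    haveI := Fact.mk Nat.prime_three
    obtain ⟨N, n1, n2, -, n4⟩ := quot_of_hom e hφ (n := 48) (m := 9) (p := 0) card_Q (by rw [card_GL]; decide +kernel) (by norm_num) (by simp)
    refine ⟨(Nat.card_congr e.toEquiv).trans card_Q, ⟨N, n1, n2, n4⟩, fun p hp q hq => ?_⟩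
    obtain ⟨g, hg⟩ := ho
    have h1 := orbit_conj (MulAction.stabilizer M24 (cw 863, qX 0) |> fun K => (mem_stab_smul g (cw 863, qX 0))) (pt 0)
    rw [show g • (cw 863, qX 0) = (d, Q) from hg, stab_prod, stab_prod, orbit_Q, ← coe_smul_finset, show g • cw 863 = d from congrArg Prod.fst hg] at h1
    obtain ⟨a, ha, e1⟩ := mem_orbit_sub.1 (h1.symm ▸ mem_coe.2 hp)
    obtain ⟨b, hb, e2⟩ := mem_orbit_sub.1 (h1.symm ▸ mem_coe.2 hq)
    refine ⟨b * a⁻¹, mul_mem hb (inv_mem ha), ?_⟩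
    change (b * a⁻¹) • p = q
    rw [← e1, mul_smul, inv_smul_smul, e2]

end Cfsg.Agent.S1598
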