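import Cfsg.Statements.S1599
import Cfsg.Agent.GS.Mk5

set_option autoImplicit false
open scoped Pointwise
open Cfsg

namespace Cfsg.Agent.S1599

/-- A quartet stabiliser has five orbits on the quartets of its dodecad, of sizes 1, 12, 27, 72, 108. -/
theorem result (d : Finset Cfsg.GolayPt) (hd : d ∈ Cfsg.dodecads) (Q : Finset (Finset Cfsg.GolayPt)) (hQ : Q ∈ Cfsg.quartets d) : ∃ X₁ ∈ Cfsg.quartets d, ∃ X₂ ∈ Cfsg.quartets d, ∃ X₃ ∈ Cfsg.quartets d, ∃ X₄ ∈ Cfsg.quartets d, (MulAction.orbit ↥(MulAction.stabilizer Cfsg.M24 d ⊓ MulAction.stabilizer Cfsg.M24 Q) X₁).ncard = 12 ∧ (MulAction.orbit ↥(MulAction.stabilizer Cfsg.M24 d ⊓ MulAction.stabilizer Cfsg.M24 Q) X₂).ncard = 27 ∧ (MulAction.orbit ↥(MulAction.stabilizer Cfsg.M24 d ⊓ MulAction.stabilizer Cfsg.M24 Q) X₃).ncard = 72 ∧ (MulAction.orbit ↥(MulAction.stabilizer Cfsg.M24 d ⊓ MulAction.stabilizer Cfsg.M24 Q) X₄).ncard = 108 ∧ Cfsg.quartets d = {Q} ∪ MulAction.orbit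 ↥(MulAction.stabilizer Cfsg.M24 d ⊓ MulAction.stabilizer Cfsg.M24 Q) X₁ ∪ MulAction.orbit ↥(MulAction.stabilizer Cfsg.M24 d ⊓ MulAction.stabilizer Cfsg.M24 Q) X₂ ∪ MulAction.orbit ↥(MulAction.stabilizer Cfsg.M24 d ⊓ MulAction.stabilizer Cfsg.M24 Q) X₃ ∪ MulAction.orbit ↥(MulAction.stabilizer Cfsg.M24 d ⊓ MulAction.stabilizer Cfsg.M24 Q) X₄ := by
  open Finset Pointwise Cfsg.Agent.St Cfsg.Agent.H6 in focus
    obtain ⟨g, hg⟩ := orbit_dQ hd hQ
    have h0 := part_Q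
    rw [← stab_prod, ← quartets_eq] at h0
    have h := OrbPart.smul (fun a : Finset GolayPt × Finset (Finset GolayPt) => quartets a.1) (fun g a y h => smul_quartet g h) h0 g
    rw [show g • (cw 863, qX 0) = (d, Q) from hg, stab_prod] at h
    have hq : g • qX 0 = Q := congrArg Prod.snd hg
    simp only [List.map_cons, List.map_nil, hq] at h
    refine ⟨_, h.mem (a := (g • qX 3, 12)) (by simp), _, h.mem (a := (g • qX 9, 27)) (by simp), _, h.mem (a := (g • qX 4, 72)) (by simp), _, h.mem (a := (g • qX 1, 108)) (by simp), h.1 (_, 12) (by simp), h.1 (_, 27) (by simp), h.1 (_, 72) (by simp), h.1 (_, 108) (by simp), ?_⟩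
    ext y
    rw [h.2, ← orbit_fixed (K := MulAction.stabilizer M24 d ⊓ MulAction.stabilizer M24 Q) inf_le_right]
    simp only [List.mem_cons, List.not_mem_nil, or_false, exists_eq_or_imp, exists_eq_left, Set.mem_union, or_assoc]

end Cfsg.Agent.S1599
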