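import Cfsg.Statements.S1600
import Cfsg.Agent.H6.M24d

set_option autoImplicit false
open scoped Pointwise
open Cfsg

namespace Cfsg.Agent.S1600

open Cfsg.Agent
open scoped Pointwise commutatorElement

/-- The pointwise stabiliser of three points of a dodecad inside the dodecad stabiliser (order 72) is transitive on the complementary dodecad. -/
theorem result (d : Finset Cfsg.GolayPt) (hd : d ∈ Cfsg.dodecads) (p q r : Cfsg.GolayPt) (hp : p ∈ d) (hq : q ∈ d) (hr : r ∈ d) (hpq : p ≠ q) (hpr : p ≠ r) (hqr : q ≠ r) : Nat.card ↥(MulAction.stabilizer Cfsg.M24 d ⊓ MulAction.stabilizer Cfsg.M24 p ⊓ MulAction.stabilizer Cfsg.M24 q ⊓ MulAction.stabilizer Cfsg.M24 r) = 72 ∧ ∀ x ∉ d, ∀ y ∉ d, ∃ g ∈ (MulAction.stabilizer Cfsg.M24 d ⊓ MulAction.stabilizer Cfsg.M24 p ⊓ MulAction.stabilizer Cfsg.M24 q ⊓ MulAction.stabilizer Cfsg.M24 r), ((g : ↥Cfsg.M24) : Equiv.Perm Cfsg.GolayPt) x = y := by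
  have ho := H6.orbit_dpqr hd hp hq hr hpq hpr hqr
  rw [← H6.stab_prod, ← H6.stab_prod, ← H6.stab_prod]
  refine ⟨by rw [H6.card_stab_of_mem_orbit ho]; simp only [H6.stab_prod]; exact H6.card_D3, fun x hx y hy => ?_⟩
  have key : ∀ x ∉ d, ((((d, p), q), r), x) ∈ MulAction.orbit M24 ((((H6.cw 863, H6.pt 0), H6.pt 1), H6.pt 2), H6.pt 5) :=
    fun x hx => H6.mem_orbit_prod (fun a : ((Finset GolayPt × GolayPt) × GolayPt) × GolayPt => {y | y ∉ a.1.1.1})
      (fun g _ _ h => by simpa using h)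
      (by
        rw [H6.stab_prod, H6.stab_prod, H6.stab_prod, H6.orbit_pt_eq H6.cl_D3 (m := 0xfacca0) (by decide +kernel)]
        exact fun y hy => H6.not_mem_d0.1 hy) ho hx
  obtain ⟨g, hg⟩ := H6.exists_of_orbit (key x hx) (key y hy)
  rw [Prod.smul_mk, Prod.mk.injEq] at hg
  exact ⟨g, hg.1, hg.2⟩

end Cfsg.Agent.S1600
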