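import Cfsg.Statements.S1602
import Cfsg.Agent.GS.Mk3

set_option autoImplicit false
open scoped Pointwise
open Cfsg

namespace Cfsg.Agent.S1602

/-- In the 12-point action of the smallest Mathieu group the setwise stabiliser of a pair is isomorphic to the symmetric group of degree 5. -/
theorem result (d : Finset Cfsg.GolayPt) (hd : d ∈ Cfsg.dodecads) (p q q' : Cfsg.GolayPt) (hp : p ∈ d) (hq : q ∉ d) (hq' : q' ∉ d) (hqq' : q ≠ q') : Nonempty (↥(MulAction.stabilizer Cfsg.M24 d ⊓ MulAction.stabilizer Cfsg.M24 p ⊓ MulAction.stabilizer Cfsg.M24 ({q, q'} : Finset Cfsg.GolayPt)) ≃* Equiv.Perm (Fin 5)) := by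
  open Finset Pointwise Cfsg.Agent.St Cfsg.Agent.H6 in focus
    obtain ⟨g, hg⟩ := orbit_dpoo hd hp hq hq' hqq'
    have h1 : g • cw 863 = d := congrArg (·.1.1.1) hg
    have h2 : g • pt 0 = p := congrArg (·.1.1.2) hg
    have h3 : g • pt 23 = q := congrArg (·.1.2) hg
    have h4 : g • pt 5 = q' := congrArg (·.2) hg
    have : ((d, p), ({q, q'} : Finset GolayPt)) ∈ MulAction.orbit M24 ((cw 863, pt 0), prX 19) :=
      ⟨g, by simp only [Prod.smul_mk, prC, smul_finset_insert, smul_finset_singleton, h1, h2, h3, h4]⟩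
    have e := equiv_stab_of_mem_orbit this
    rw [stab_prod, stab_prod, stab_prod, stab_prod] at e
    obtain ⟨e⟩ := e
    exact ⟨e.trans isoC.some⟩

end Cfsg.Agent.S1602
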