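import Cfsg.Statements.S1603
import Cfsg.Agent.GS.Mk3

set_option autoImplicit false
open scoped Pointwise
open Cfsg

namespace Cfsg.Agent.S1603

/-- Involution centralisers in the smallest Mathieu group are isomorphic to GL(2, 3). -/
theorem result (d : Finset Cfsg.GolayPt) (hd : d ∈ Cfsg.dodecads) (p : Cfsg.GolayPt) (hp : p ∈ d) (x : ↥(MulAction.stabilizer Cfsg.M24 d ⊓ MulAction.stabilizer Cfsg.M24 p)) (hx : orderOf x = 2) : Nonempty (↥(Subgroup.centralizer ({x} : Set ↥(MulAction.stabilizer Cfsg.M24 d ⊓ MulAction.stabilizer Cfsg.M24 p))) ≃* GL (Fin 2) (ZMod 3)) := by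
  open Finset Pointwise Cfsg.Agent.St Cfsg.Agent.H6 in focus
    obtain ⟨g, hg⟩ := orbit_dp hd hp
    have hK : ∀ k, k ∈ MulAction.stabilizer M24 d ⊓ MulAction.stabilizer M24 p ↔ g⁻¹ * k * g ∈ MulAction.stabilizer M24 (cw 863) ⊓ MulAction.stabilizer M24 (pt 0) := by
      intro k
      rw [← stab_prod, ← stab_prod, ← hg]; exact mem_stab_smul g _ k
    obtain ⟨c, hc, e⟩ := inv11 ((hK x).1 x.2) (by
      rw [← hx, ← Subgroup.orderOf_coe x]; simpa using (MulAut.conj g⁻¹).orderOf_eq (x : M24))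
    obtain ⟨e1⟩ := equiv_cent_sub x
    refine ⟨e1.trans ((equiv_conj (g := g * c) fun k => ?_).some.trans isoD.some)⟩
    have hx' : (x : M24) = g * c * wp mg wx11 * (g * c)⁻¹ := by
      rw [mul_inv_rev, mul_assoc g, mul_assoc g, ← mul_assoc _ c⁻¹, e]; group
    rw [Subgroup.mem_inf, Subgroup.mem_inf (p' := Subgroup.centralizer _), hK, hx', Subgroup.mem_centralizer_singleton_iff, Subgroup.mem_centralizer_singleton_iff]
    generalize wp mg wx11 = t
    refine and_congr ?_ ⟨fun h => ?_, fun h => ?_⟩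
    · rw [show (g * c)⁻¹ * k * (g * c) = c⁻¹ * (g⁻¹ * k * g) * c by group, Subgroup.mul_mem_cancel_right _ hc, Subgroup.mul_mem_cancel_left _ (inv_mem hc)]
    · calc _ = (g * c)⁻¹ * (k * (g * c * t * (g * c)⁻¹)) * (g * c) := by group
        _ = _ := by rw [h]; group
    · calc _ = (g * c) * ((g * c)⁻¹ * k * (g * c) * t) * (g * c)⁻¹ := by group
        _ = _ := by rw [h]; group

end Cfsg.Agent.S1603
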