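import Cfsg.Statements.S1604
import Cfsg.Agent.H6.M24d

set_option autoImplicit false
open scoped Pointwise
open Cfsg

namespace Cfsg.Agent.S1604

open Cfsg.Agent
open scoped Pointwise commutatorElement

/-- A hexad stabiliser in the two-point stabiliser has orbits of sizes 1, 16, 60 on the 77 hexads: the 16 hexads disjoint from it and the 60 meeting it in two points. -/
theorem result (p q : Cfsg.GolayPt) (hpq : p ≠ q) (o o' o'' : Finset Cfsg.GolayPt) (ho : o ∈ Cfsg.octads) (ho' : o' ∈ Cfsg.octads) (ho'' : o'' ∈ Cfsg.octads) (hp : p ∈ o ∧ p ∈ o' ∧ p ∈ o'') (hq : q ∈ o ∧ q ∈ o' ∧ q ∈ o'') (h : (o ∩ o').card = (o ∩ o'').card) : {x : Finset Cfsg.GolayPt | x ∈ Cfsg.octads ∧ p ∈ x ∧ q ∈ x ∧ (o ∩ x).card = 2}.ncard = 16 ∧ {x : Finset Cfsg.GolayPt | x ∈ Cfsg.octads ∧ p ∈ x ∧ q ∈ x ∧ (o ∩ x).card = 4}.ncard = 60 ∧ ∃ g : Equiv.Perm Cfsg.GolayPt, g ∈ Cfsg.M24 ∧ g p = p ∧ g q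 = q ∧ g • o = o ∧ g • o' = o'' := by
  have h0 := H6.part_P2o_C8
  rw [H6.pts_and_sC _ (by norm_num), H6.pts_and_sC _ (by norm_num), H6.pts_wt8, ← H6.stab_prod, ← H6.stab_prod] at h0
  have := H6.classify (G := M24) (fun a : (GolayPt × GolayPt) × Finset GolayPt => {o | (o ∈ octads ∧ a.1.1 ∈ o) ∧ a.1.2 ∈ o})
    (fun a y => (a.2 ∩ y).card)
    (fun g _ _ h => ⟨⟨H6.smul_mem_octads g h.1.1, Finset.smul_mem_smul_finset h.1.2⟩, Finset.smul_mem_smul_finset h.2⟩)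
    (fun g a y => H6.card_inter_smul g a.2 y) h0
    (vs := [(8, 1), (2, 16), (4, 60)]) (by simp only [List.map, H6.card_cw_inter]; decide +kernel)
    (by decide) (H6.orbit_opq ho hpq hp.1 hq.1)
  refine ⟨by simpa [and_assoc] using this.1 (2, 16) (by simp), by simpa [and_assoc] using this.1 (4, 60) (by simp), ?_⟩
  obtain ⟨g, a, b⟩ := this.2.1 o' ⟨⟨ho', hp.2.1⟩, hq.2.1⟩ o'' ⟨⟨ho'', hp.2.2⟩, hq.2.2⟩ h
  simp only [Prod.smul_mk, Prod.mk.injEq] at a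
  exact ⟨g, g.2, a.1.1, a.1.2, a.2, b⟩

end Cfsg.Agent.S1604
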