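import Cfsg.Statements.S1605
import Cfsg.Agent.H6.M24d

set_option autoImplicit false
open scoped Pointwise
open Cfsg

namespace Cfsg.Agent.S1605

open Cfsg.Agent
open scoped Pointwise commutatorElement

/-- The two-point stabiliser acts on the 176 octads through the first point avoiding the second with rank 3 and subdegrees 1, 70, 105 (intersections 8, 2, 4). -/
theorem result (p q : Cfsg.GolayPt) (hpq : p ≠ q) : {x : Finset Cfsg.GolayPt | (x ∈ Cfsg.octads ∧ p ∈ x ∧ q ∉ x)}.ncard = 176 ∧ (∀ o o' : Finset Cfsg.GolayPt, (o ∈ Cfsg.octads ∧ p ∈ o ∧ q ∉ o) → (o' ∈ Cfsg.octads ∧ p ∈ o' ∧ q ∉ o') → ∃ g : Equiv.Perm Cfsg.GolayPt, g ∈ Cfsg.M24 ∧ g p = p ∧ g q = q ∧ g • o = o') ∧ ∀ o : Finset Cfsg.GolayPt, (o ∈ Cfsg.octads ∧ p ∈ o ∧ q ∉ o) → {x : Finset Cfsg.GolayPt | (x ∈ Cfsg.octads ∧ p ∈ x ∧ q ∉ x) ∧ (o ∩ x).card = 2}.ncard = 70 ∧ {x : Finset Cfsg.GolayPt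 | (x ∈ Cfsg.octads ∧ p ∈ x ∧ q ∉ x) ∧ (o ∩ x).card = 4}.ncard = 105 ∧ ∀ o' o'' : Finset Cfsg.GolayPt, (o' ∈ Cfsg.octads ∧ p ∈ o' ∧ q ∉ o') → (o'' ∈ Cfsg.octads ∧ p ∈ o'' ∧ q ∉ o'') → (o ∩ o').card = (o ∩ o'').card → ∃ g : Equiv.Perm Cfsg.GolayPt, g ∈ Cfsg.M24 ∧ g p = p ∧ g q = q ∧ g • o = o ∧ g • o' = o'' := by
  refine ⟨?_, fun o o' ho ho' => ?_, fun o ho => ?_⟩
  · have h0 := H6.part_P2_Cb8
    rw [H6.pts_and_not_sC _ (by norm_num), H6.pts_and_sC _ (by norm_num), H6.pts_wt8, ← H6.stab_prod] at h0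
    obtain ⟨g, hg⟩ := H6.orbit_pair hpq
    have := (H6.OrbPart.smul (fun a : GolayPt × GolayPt => {o | (o ∈ octads ∧ a.1 ∈ o) ∧ a.2 ∉ o})
      (fun g _ _ h => ⟨⟨H6.smul_mem_octads g h.1.1, Finset.smul_mem_smul_finset h.1.2⟩, by simpa using h.2⟩) h0 g).ncard
    have hg' : g • (H6.pt 23, H6.pt 0) = (p, q) := hg
    rw [hg'] at this
    simpa [and_assoc] using this
  · obtain ⟨g, a⟩ := H6.exists_of_orbit (H6.orbit_opq' ho.1 hpq ho.2.1 ho.2.2) (H6.orbit_opq' ho'.1 hpq ho'.2.1 ho'.2.2)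
    simp only [Prod.smul_mk, Prod.mk.injEq] at a
    exact ⟨g, g.2, a.1.1, a.1.2, a.2⟩
  · have h0 := H6.part_P2b_C8
    rw [H6.pts_and_not_sC _ (by norm_num), H6.pts_and_sC _ (by norm_num), H6.pts_wt8, ← H6.stab_prod, ← H6.stab_prod] at h0
    have := H6.classify (G := M24) (fun a : (GolayPt × GolayPt) × Finset GolayPt => {o | (o ∈ octads ∧ a.1.1 ∈ o) ∧ a.1.2 ∉ o})
      (fun a y => (a.2 ∩ y).card)
      (fun g _ _ h => ⟨⟨H6.smul_mem_octads g h.1.1, Finset.smul_mem_smul_finset h.1.2⟩, by simpa using h.2⟩)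
      (fun g a y => H6.card_inter_smul g a.2 y) h0
      (vs := [(8, 1), (2, 70), (4, 105)]) (by simp only [List.map, H6.card_cw_inter]; decide +kernel)
      (by decide) (H6.orbit_opq' ho.1 hpq ho.2.1 ho.2.2)
    refine ⟨by simpa [and_assoc] using this.1 (2, 70) (by simp), by simpa [and_assoc] using this.1 (4, 105) (by simp),
      fun o' o'' ho' ho'' h => ?_⟩
    obtain ⟨g, a, b⟩ := this.2.1 o' ⟨⟨ho'.1, ho'.2.1⟩, ho'.2.2⟩ o'' ⟨⟨ho''.1, ho''.2.1⟩, ho''.2.2⟩ h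
    simp only [Prod.smul_mk, Prod.mk.injEq] at a
    exact ⟨g, g.2, a.1.1, a.1.2, a.2, b⟩

end Cfsg.Agent.S1605
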