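import Cfsg.Statements.S1607
import Cfsg.Agent.H6.M24d

set_option autoImplicit false
open scoped Pointwise
open Cfsg

namespace Cfsg.Agent.S1607

open Cfsg.Agent
open scoped Pointwise commutatorElement

/-- The point stabiliser acts on the 253 heptads of its S(4, 7, 23) with rank 3 and subdegrees 1, 112, 140 (intersections 8, 2, 4). -/
theorem result (x : Cfsg.GolayPt) (o : Finset Cfsg.GolayPt) (ho : o ∈ Cfsg.octads) (hx : x ∈ o) : {o' : Finset Cfsg.GolayPt | o' ∈ Cfsg.octads ∧ x ∈ o' ∧ (o ∩ o').card = 2}.ncard = 112 ∧ {o' : Finset Cfsg.GolayPt | o' ∈ Cfsg.octads ∧ x ∈ o' ∧ (o ∩ o').card = 4}.ncard = 140 ∧ ∀ o' o'' : Finset Cfsg.GolayPt, o' ∈ Cfsg.octads → o'' ∈ Cfsg.octads → x ∈ o' → x ∈ o'' → (o ∩ o').card = (o ∩ o'').card → ∃ g : Equiv.Perm Cfsg.GolayPt, g ∈ Cfsg.M24 ∧ g x = x ∧ g • o = o ∧ g • o' = o'' := by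
  have h0 := H6.part_P1o_C8
  rw [H6.pts_and_sC _ (by norm_num), H6.pts_wt8, ← H6.stab_prod] at h0
  have := H6.classify (G := M24) (fun a : GolayPt × Finset GolayPt => {o | o ∈ octads ∧ a.1 ∈ o})
    (fun a y => (a.2 ∩ y).card)
    (fun g _ _ h => ⟨H6.smul_mem_octads g h.1, Finset.smul_mem_smul_finset h.2⟩)
    (fun g a y => H6.card_inter_smul g a.2 y) h0
    (vs := [(8, 1), (2, 112), (4, 140)]) (by simp only [List.map, H6.card_cw_inter]; decide +kernel)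
    (by decide) (H6.orbit_op ho hx)
  refine ⟨by simpa [and_assoc] using this.1 (2, 112) (by simp), by simpa [and_assoc] using this.1 (4, 140) (by simp),
    fun o' o'' ho' ho'' h1 h2 h => ?_⟩
  obtain ⟨g, a, b⟩ := this.2.1 o' ⟨ho', h1⟩ o'' ⟨ho'', h2⟩ h
  simp only [Prod.smul_mk, Prod.mk.injEq] at a
  exact ⟨g, g.2, a.1, a.2, b⟩

end Cfsg.Agent.S1607
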