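import Cfsg.Statements.S1609
import Cfsg.Agent.S1606
import Cfsg.Agent.S0376

set_option autoImplicit false
open scoped Pointwise
open Cfsg

namespace Cfsg.Agent.S1609

open MulAction Cfsg.Agent.S1606

section gen
variable {G Ω : Type*} [Group G] [Finite G] [MulAction G Ω] [Finite Ω]

theorem maxl (hΩ : Nat.card Ω = 24) (h6 : ∀ Q : Subgroup G, 6 ≤ (Fx Ω Q).ncard → Nat.card Q ∣ 48)
    {x : Ω} {M K L : Subgroup G} (cM : Nat.card M = 10200960) (hx : ∀ g ∈ M, g • x = x) (hKL : K ≤ L) (hLM : L ≤ M)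
    (cK : Nat.card K = 40320) (T : Set Ω) (hT : ∀ g ∈ L, ∀ a ∈ T, g • a ∈ T) (xT : x ∉ T) (h2 : 2 ≤ T.ncard)
    (h7 : T.ncard ≤ 7) : K = L := by
  have key : ∀ l : ℕ, l = 11 ∨ l = 23 → ¬ l ∣ Nat.card L := fun l hl h => by
    have lp : l.Prime := by rcases hl with rfl | rfl <;> norm_num
    obtain ⟨Q, hQ, cQ⟩ := sub (n := 1) lp L (by rwa [pow_one])
    have f := few hΩ h6 lp Q cQ (by rcases hl with rfl | rfl <;> norm_num)
    have m := fixmod lp Q cQ T fun g hg => hT g (hQ hg)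
    have l1 : (T ∩ Fx Ω Q).ncard ≤ T.ncard := Set.ncard_le_ncard Set.inter_subset_left
    have l2 : (insert x (T ∩ Fx Ω Q)).ncard ≤ (Fx Ω Q).ncard :=
      Set.ncard_le_ncard (Set.insert_subset (fun g hg => hx g (hLM (hQ hg))) Set.inter_subset_right)
    rw [Set.ncard_insert_of_notMem fun h => xT h.1] at l2
    rcases hl with rfl | rfl <;> omega
  obtain ⟨k, hk⟩ := Subgroup.card_dvd_of_le hKL
  have d := Subgroup.card_dvd_of_le hLM
  rw [cK] at hk
  rw [hk, cM, show 10200960 = 40320 * (11 * 23) by norm_num] at d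
  have d' : k ∣ 11 * 23 := Nat.dvd_of_mul_dvd_mul_left (by norm_num) d
  have c1 : Nat.Coprime k 11 := ((Nat.Prime.coprime_iff_not_dvd (by norm_num)).2 fun h =>
    key 11 (Or.inl rfl) (hk ▸ h.mul_left _)).symm
  have c2 : Nat.Coprime k 23 := ((Nat.Prime.coprime_iff_not_dvd (by norm_num)).2 fun h =>
    key 23 (Or.inr rfl) (hk ▸ h.mul_left _)).symm
  have : k = 1 := (Nat.Coprime.mul_right c1 c2).eq_one_of_dvd d'
  exact Subgroup.eq_of_le_of_card_ge hKL (by rw [hk, cK, this])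

theorem split (hΩ : Nat.card Ω = 24) (h6 : ∀ Q : Subgroup G, 6 ≤ (Fx Ω Q).ncard → Nat.card Q ∣ 48)
    {x : Ω} {K E : Subgroup G} (hx : ∀ g ∈ K, g • x = x) (cK : Nat.card K = 40320) (hE : E ≤ K)
    (cE : Nat.card E = 16) (o : Set Ω) (co : o.ncard = 8) (hEo : ∀ g ∈ E, ∀ a ∈ o, g • a = a)
    (hfree : ∀ g ∈ E, ∀ a ∉ o, g • a = a → g = 1) (xo : x ∈ o) :
    (∃ s : Set Ω, s.ncard = 2 ∧ x ∉ s ∧ ∀ g ∈ K, ∀ a ∈ s, g • a ∈ s) ∨ ∀ g ∈ K, ∀ a ∈ o, g • a ∈ o := by
  have cc : ∀ S : Set Ω, S.ncard + Sᶜ.ncard = 24 := fun S => by rw [Set.ncard_add_ncard_compl, hΩ]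
  obtain ⟨r, hr⟩ : (oᶜ).Nonempty := (Set.ncard_pos (Set.toFinite _)).1 (by have := cc o; omega)
  have rx : r ≠ x := fun h => hr (h ▸ xo)
  have oE := orb E r
  have : E ⊓ stabilizer G r = ⊥ := (Subgroup.eq_bot_iff_forall _).2 fun g hg => hfree g hg.1 r hr hg.2
  rw [this, Subgroup.card_bot, cE] at oE
  have e1 : orbit E r = oᶜ := Set.eq_of_subset_of_ncard_le
    (fun a ha h => orb_ne (p := a) (fun g hg => hEo g hg a h) (fun e : r = a => hr (e ▸ h)) ha rfl) (by have := cc o; omega)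
  have s1 : oᶜ ⊆ orbit K r := fun a ha => by
    rw [← e1] at ha
    obtain ⟨g, hg, h⟩ := mem_orb.1 ha
    exact mem_orb.2 ⟨g, hE hg, h⟩
  have inv : ∀ S : Set Ω, (∀ g ∈ K, ∀ a ∈ S, g • a ∈ S) → ∀ g ∈ K, ∀ a ∈ Sᶜ, g • a ∈ Sᶜ :=
    fun S hS g hg a ha h => ha (by simpa using hS g⁻¹ (K.inv_mem hg) _ h)
  have xO : x ∉ orbit K r := fun h => orb_ne hx rx h rfl
  have oK := orb K r
  have n16 := Set.ncard_le_ncard s1
  have iT := inv (insert x (orbit K r)) (by
    rintro g hg a (rfl | ha)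
    exacts [Or.inl (hx g hg), Or.inr (orb_inv le_rfl r g hg a ha)])
  have cT := cc (insert x (orbit K r))
  rw [Set.ncard_insert_of_notMem xO] at cT
  have xT : x ∉ (insert x (orbit K r))ᶜ := fun h => h (Or.inl rfl)
  obtain ⟨Y, hY, cY⟩ := sub (l := 7) (n := 1) (by norm_num) K (by rw [cK]; norm_num)
  have f := few hΩ h6 (by norm_num) Y cY (by norm_num)
  have m := fixmod (by norm_num) Y cY _ fun g hg => iT g (hY hg)
  have l2 : (insert x ((insert x (orbit K r))ᶜ ∩ Fx Ω Y)).ncard ≤ (Fx Ω Y).ncard :=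
    Set.ncard_le_ncard (Set.insert_subset (fun g hg => hx g (hY hg)) Set.inter_subset_right)
  rw [Set.ncard_insert_of_notMem fun h => xT h.1] at l2
  have co' := cc o
  have : (orbit K r).ncard = 16 ∨ (orbit K r).ncard = 21 := by
    have : (orbit K r).ncard = 16 ∨ (orbit K r).ncard = 21 ∨ (orbit K r).ncard = 22 ∨ (orbit K r).ncard = 23 := by omega
    rw [cK] at oK
    rcases this with h | h | h | h
    exacts [Or.inl h, Or.inr h, by rw [h] at oK; omega, by rw [h] at oK; omega]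
  rcases this with h | h
  · right
    have e2 : oᶜ = orbit K r := Set.eq_of_subset_of_ncard_le s1 (by omega)
    have := inv oᶜ (by rw [e2]; exact orb_inv le_rfl r)
    rwa [compl_compl] at this
  · exact Or.inl ⟨_, by omega, xT, iT⟩
end gen


/-- Subgroups of index 253 in the Mathieu group of degree 23 are exactly the duad stabilisers and the heptad stabilisers. -/
theorem result (x : Cfsg.GolayPt) (H : Subgroup ↥(MulAction.stabilizer Cfsg.M24 x)) (hH : H.index = 253) : (∃ s : Finset Cfsg.GolayPt, s.card = 2 ∧ x ∉ s ∧ H = (MulAction.stabilizer Cfsg.M24 s).subgroupOf (MulAction.stabilizer Cfsg.M24 x)) ∨ ∃ o ∈ Cfsg.octads, x ∈ o ∧ H = (MulAction.stabilizer Cfsg.M24 o).subgroupOf (MulAction.stabilizer Cfsg.M24 x) := by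
  have hΩ : Nat.card Cfsg.GolayPt = 24 := by
    rw [Nat.card_eq_fintype_card]; rfl
  have h6 : ∀ Q : Subgroup ↥Cfsg.M24, 6 ≤ (Fx Cfsg.GolayPt Q).ncard → Nat.card Q ∣ 48 := fun Q hQ => by
    obtain ⟨T, hT, cT⟩ := Set.exists_subset_card_eq hQ
    obtain ⟨E, rfl⟩ := (Set.toFinite T).exists_finset_coe
    rw [Set.ncard_coe_finset] at cT
    have r := Cfsg.Agent.S5600.result E cT
    let W : Subgroup (Equiv.Perm Cfsg.GolayPt) := Cfsg.M24 ⊓ fixingSubgroup (Equiv.Perm Cfsg.GolayPt) (E : Set Cfsg.GolayPt)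
    have e : Nat.card W = Nat.card {g : Equiv.Perm Cfsg.GolayPt // g ∈ Cfsg.M24 ∧ ∀ p ∈ E, g p = p} :=
      Nat.card_congr (Equiv.subtypeEquivRight fun g => by
        simp only [W, Subgroup.mem_inf, mem_fixingSubgroup_iff]; rfl)
    have d : Nat.card Q ∣ Nat.card W := by
      rw [← Subgroup.card_map_of_injective (K := Q) Cfsg.M24.subtype_injective]
      apply Subgroup.card_dvd_of_le
      rintro _ ⟨g, hg, rfl⟩
      exact ⟨g.2, (mem_fixingSubgroup_iff _).2 fun a ha => hT ha g hg⟩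
    by_cases h : ∃ o ∈ Cfsg.octads, E ⊆ o
    · rw [e, r.2.1 h] at d; exact d.trans (by norm_num)
    · rw [e, (r.2.2 h).1] at d; exact d.trans (by norm_num)
  have cM := Cfsg.Agent.S0376.result x
  have hi := H.index_mul_card
  have cK := Subgroup.card_map_of_injective (K := H) (Subgroup.subtype_injective _)
  rw [cM, hH] at hi
  set K := H.map (Subgroup.subtype _) with hK
  have cK' : Nat.card K = 40320 := by rw [cK]; omega
  have KM : K ≤ stabilizer Cfsg.M24 x := Subgroup.map_subtype_le _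
  have fin : ∀ s : Finset Cfsg.GolayPt, (∀ g ∈ K, ∀ a ∈ s, g • a ∈ s) → 2 ≤ (s.erase x).card → (s.erase x).card ≤ 7 →
      H = (stabilizer Cfsg.M24 s).subgroupOf (stabilizer Cfsg.M24 x) := fun s hs h2 h7 => by
    have e : K = stabilizer Cfsg.M24 s ⊓ stabilizer Cfsg.M24 x := by
      refine maxl hΩ h6 cM (fun g hg => hg) (le_inf (fun g hg => ?_) KM) inf_le_right cK' ((s.erase x : Finset _) : Set _)
        (fun g hg a ha => ?_) (by simp) (by rwa [Set.ncard_coe_finset]) (by rwa [Set.ncard_coe_finset])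
      · exact mem_stabilizer_finset_iff_smul_finset_subset.2 (Finset.smul_finset_subset_iff.2 fun a ha =>
          Finset.mem_inv_smul_finset_iff.2 (hs g hg a ha))
      · rw [Finset.mem_coe, Finset.mem_erase] at ha ⊢
        refine ⟨fun e => ha.1 ?_, ?_⟩
        · exact smul_left_cancel g (e.trans (show g • x = x from hg.2).symm)
        · rw [← show g • s = s from hg.1]; exact Finset.smul_mem_smul_finset ha.2
    rw [← Subgroup.inf_subgroupOf_right, ← e, hK]
    exact (Subgroup.comap_map_eq_self_of_injective (Subgroup.subtype_injective _) H).symm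
  obtain ⟨o0, ho0, xo0⟩ := Cfsg.Agent.H6.exists_octad (s := {x}) (by simp)
  have xo0' : x ∈ o0 := xo0 (by simp)
  obtain ⟨P, hP, cP⟩ := sub (l := 2) (n := 7) (by norm_num) K (by rw [cK']; norm_num)
  obtain ⟨c, hc, hcj⟩ := Cfsg.Agent.St.conj_into (K := stabilizer Cfsg.M24 x) (P := P) (Q := Cfsg.Agent.St.FixP o0)
    (p := 2) (k := 7) (m := 79695) (by norm_num) (hP.trans KM) cP (by rw [cM]; norm_num) (by norm_num)
    (fun g hg => hg x xo0') (IsPGroup.of_card (n := 4) (by rw [Cfsg.Agent.St.card_Fix_oct ho0]; norm_num))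
  have ho : c • o0 ∈ Cfsg.octads := Cfsg.Agent.H6.smul_mem_octads c ho0
  have xo : x ∈ c • o0 := by
    rw [← show c • x = x from hc]; exact Finset.smul_mem_smul_finset xo0'
  have c8 : (c • o0).card = 8 := (Cfsg.Agent.H6.mem_octads.1 ho).2
  have EK : Cfsg.Agent.St.FixP (c • o0) ≤ K := fun g hg => by
    have := hP (hcj _ (Cfsg.Agent.St.mem_Fix_smul.1 hg))
    simpa [mul_assoc] using this
  rcases split hΩ h6 (fun g hg => KM hg) cK' EK (Cfsg.Agent.St.card_Fix_oct ho) ((c • o0 : Finset _) : Set _)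
    (by rw [Set.ncard_coe_finset, c8]) (fun g hg a ha => hg a ha)
    (fun g hg a ha h => Cfsg.Agent.St.eq_one_of_flag ho ha hg h) xo with ⟨s, cs, xs, hs⟩ | h
  · obtain ⟨t, rfl⟩ := (Set.toFinite s).exists_finset_coe
    rw [Set.ncard_coe_finset] at cs
    have xt : x ∉ t := xs
    exact Or.inl ⟨t, cs, xt, fin t hs (by rw [Finset.erase_eq_of_notMem xt, cs]) (by rw [Finset.erase_eq_of_notMem xt, cs]; norm_num)⟩
  · exact Or.inr ⟨_, ho, xo, fin _ h (by rw [Finset.card_erase_of_mem xo, c8]; norm_num) (by rw [Finset.card_erase_of_mem xo, c8])⟩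

end Cfsg.Agent.S1609
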