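import Cfsg.Statements.S1610
import Cfsg.Agent.GS.Tg2

set_option autoImplicit false
open Cfsg

namespace Cfsg.Agent.S1610

/-- The hexacode has 64 words, minimum weight 4, and weight distribution 0^1 4^45 6^18. -/
theorem result (F : Type*) [Field F] [Fintype F] [DecidableEq F] (hF : Fintype.card F = 4) (ω : F) (hω : ω ^ 2 + ω + 1 = 0) : Nat.card ↥(Cfsg.hexacode F ω) = 64 ∧ (∀ x ∈ Cfsg.hexacode F ω, x ≠ 0 → (Finset.univ.filter fun i => x i ≠ 0).card = 4 ∨ (Finset.univ.filter fun i => x i ≠ 0).card = 6) ∧ {x : Fin 6 → F | x ∈ Cfsg.hexacode F ω ∧ (Finset.univ.filter fun i => x i ≠ 0).card = 4}.ncard = 45 ∧ {x : Fin 6 → F | x ∈ Cfsg.hexacode F ω ∧ (Finset.univ.filter fun i => x i ≠ 0).card = 6}.ncard = 18 := by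
  open Finset Pointwise Cfsg.Agent.St Cfsg.Agent.H6 in focus
    have hc := fun k => ncard_gw (P := fun x => (univ.filter fun i => x i ≠ 0).card = k) (f := fun n => Nat.beq (wtH n) k) (mem_hw hF hω) (hw_inj hF hω) fun n hn => by rw [card_hw hF hω hn, beq_eq]
    refine ⟨?_, fun x hx h0 => ?_, (hc 4).trans (by decide +kernel), (hc 6).trans (by decide +kernel)⟩
    · have := ncard_gw (P := fun _ => True) (f := fun _ => true) (mem_hw hF hω) (hw_inj hF hω) (by simp)
      simp only [and_true, filter_true, card_range] at this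
      exact this
    · obtain ⟨n, hn, rfl⟩ := (mem_hw hF hω x).1 hx
      have h := card_hw hF hω hn
      rw [h]
      refine ((by decide +kernel : ∀ n < 64, wtH n = 0 ∨ wtH n = 4 ∨ wtH n = 6) n hn).resolve_left fun e => h0 (funext fun j => ?_)
      rw [e, card_eq_zero, filter_eq_empty_iff] at h
      exact not_not.1 (h (mem_univ j))

end Cfsg.Agent.S1610
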