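import Cfsg.Statements.S1612
import Cfsg.Agent.H6.TT4

set_option autoImplicit false
open Cfsg

namespace Cfsg.Agent.S1612

open Cfsg.Agent
open scoped Pointwise commutatorElement

/-- In a 3-transposition group (no solvable normal subgroup, perfect derived group), the normaliser of a commuting set of transpositions of maximum size contains a Sylow 2-subgroup and is doubly transitive on the set. -/
theorem result {G : Type*} [Group G] [Finite G] (hsol : ∀ N : Subgroup G, N.Normal → Group.IsSolvable ↥N → N = ⊥) (hperf : ⁅commutator G, commutator G⁆ = commutator G) {D : Set G} (hD : Cfsg.IsThreeTranspositionClass D) {E : Set G} (hE : E ⊆ D) (hc : ∀ a ∈ E, ∀ b ∈ E, Commute a b) (hmax : ∀ E' : Set G, E' ⊆ D → (∀ a ∈ E', ∀ b ∈ E', Commute a b) → E'.ncard ≤ E.ncard) : (∃ P : Sylow 2 G, (P : Subgroup G) ≤ Subgroup.normalizer E) ∧ ∀ a ∈ E, ∀ b ∈ E, ∀ c ∈ E, ∀ d ∈ E, a ≠ b → c ≠ d → ∃ g ∈ Subgroup.normalizer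 E, g * a * g⁻¹ = c ∧ g * b * g⁻¹ = d := by
  have h := H6.pw_of_hsol hsol hperf hD
  haveI : Fact (Nat.Prime 2) := ⟨Nat.prime_two⟩
  constructor
  · obtain ⟨T, hT⟩ := (H6.pg_closure_comm (fun a ha => h.tg.sq a (hE ha)) hc).exists_le_sylow
    have e : E = {x | x ∈ D ∧ x ∈ T} := Set.eq_of_subset_of_ncard_le
      (fun x hx => ⟨hE hx, hT (Subgroup.subset_closure hx)⟩) (hmax _ (fun _ a => a.1) fun a ha b hb =>
        h.tg.comm_of_two T.isPGroup' ha.1 hb.1 (mul_mem ha.2 hb.2))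
    exact ⟨T, fun g hg => H6.mem_norm_set fun x hx => by
      rw [e] at hx ⊢; exact ⟨h.tg.cj _ _ hx.1, mul_mem (mul_mem hg hx.2) (inv_mem hg)⟩⟩
  intro a ha b hb c hc' d hd n1 n2
  obtain ⟨g, rfl⟩ := h.pr.1 a (hE ha) c (hE hc')
  obtain ⟨k, hk, rfl⟩ := h.dn (hE hc') (g * b * g⁻¹) ⟨h.tg.cj _ _ (hE hb), fun e => n1 ((H6.cj_inj g).1 e).symm,
    (hc a ha b hb).conj g⟩ d ⟨hE hd, n2.symm, hc _ hc' d hd⟩
  have ck : k * (g * a * g⁻¹) * k⁻¹ = g * a * g⁻¹ :=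
    H6.cj_comm (H6.comm_H0 (D := D) (Subgroup.closure_mono (fun y hy => And.intro hy.1 hy.2.2) hk))
  have e1 : g * a * g⁻¹ = k * g * a * (k * g)⁻¹ := by rw [← ck]; group
  have e2 : k * (g * b * g⁻¹) * k⁻¹ = k * g * b * (k * g)⁻¹ := by group
  rw [e2] at hd ⊢
  rw [e1] at hc' ⊢
  generalize k * g = u at *
  obtain ⟨-, -, v, hv, p⟩ := h.tg.conj_into (Subgroup.centralizer {u * a * u⁻¹, u * b * u⁻¹}) hE
    (F := (fun x => u * x * u⁻¹) '' E) (by rintro _ ⟨x, hx, rfl⟩; exact h.tg.cj _ _ (hE hx))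
    (by rintro x hx _ (rfl | rfl); exacts [hc _ hc' x hx, hc _ hd x hx])
    (by rintro _ ⟨x, hx, rfl⟩ _ (rfl | rfl); exacts [(hc a ha x hx).conj u, (hc b hb x hx).conj u]) hc
    (by rintro _ ⟨x, hx, rfl⟩ _ ⟨y, hy, rfl⟩; exact (hc x hx y hy).conj u) hmax
  refine ⟨v * u, H6.mem_norm_set fun x hx => by simpa [mul_assoc] using p _ ⟨x, hx, rfl⟩, ?_, ?_⟩
  · simpa [mul_assoc] using H6.cj_comm (hv _ (Or.inl rfl)).symm
  · simpa [mul_assoc] using H6.cj_comm (hv _ (Or.inr rfl)).symm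

end Cfsg.Agent.S1612
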