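import Cfsg.Statements.S1618
import Cfsg.Agent.H6.TT4

set_option autoImplicit false
open Cfsg

namespace Cfsg.Agent.S1618

open Cfsg.Agent
open scoped Pointwise commutatorElement

/-- A group generated by a class of involutions whose pairwise products (of distinct members) have p-power order for a fixed odd prime p has nilpotent derived subgroup. -/
theorem result {G : Type*} [Group G] [Finite G] (p : ℕ) (hp : p.Prime) (hodd : p ≠ 2) {D : Set G} (hinv : ∀ d ∈ D, orderOf d = 2) (hconj : ∃ d ∈ D, D = conjugatesOf d) (hgen : Subgroup.closure D = ⊤) (hprod : ∀ x ∈ D, ∀ y ∈ D, x ≠ y → ∃ k : ℕ, orderOf (x * y) = p ^ k) : Group.IsNilpotent ↥(commutator G) := by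
  obtain ⟨d, hd, rfl⟩ := hconj
  haveI := Fact.mk hp
  have sq : ∀ x ∈ conjugatesOf d, x * x = 1 := fun x hx => by rw [← pow_two, ← hinv x hx, pow_orderOf_eq_one]
  have := H6.ppow hp hodd (sq d hd) fun a b ha hb => by
    by_cases e : a = b
    · exact ⟨0, by rw [e, sq b hb, one_pow]⟩
    obtain ⟨k, hk⟩ := hprod a ha b hb e
    exact ⟨k, hk ▸ pow_orderOf_eq_one _⟩
  refine ((L.pCore_isPGroup p G).to_le (H6.comm_le_of_cyc (d := d) ?_)).isNilpotent
  rw [eq_top_iff, ← hgen, Subgroup.closure_le]
  intro e he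
  rw [show e = d⁻¹ * (d * e) by group]
  exact mul_mem (Subgroup.mem_sup_left (inv_mem (Subgroup.mem_zpowers d))) (Subgroup.mem_sup_right (this d e hd he))

end Cfsg.Agent.S1618
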