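import Cfsg.Statements.S1620
import Cfsg.Agent.H8.Ico5

set_option autoImplicit false
open Quaternion
open Cfsg

namespace Cfsg.Agent.S1620

open Cfsg.Agent Cfsg.Agent.H6 Cfsg.Agent.Ico


/-- The Hall–Janko group is simple and non-abelian. -/
theorem result : IsSimpleGroup Cfsg.Spor.J2 ∧ ∃ a b : Cfsg.Spor.J2, a * b ≠ b * a := by
  obtain ⟨e, -⟩ := exists_iso
  refine ⟨simple_congr e Suz.simpleJ, e (wp Suz.gJ [0]), e (wp Suz.gJ [1]), fun h => ?_⟩
  rw [← map_mul, ← map_mul, e.apply_eq_iff_eq, ← wp_append, ← wp_append] at h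
  have := congrArg (· • finX 280 8) h
  simp only [Suz.modelJ.toIsPre.cmpW (fun _ _ => rfl) (show 8 < 280 by decide)] at this
  exact absurd (Suz.modelJ.inj _ (by decide +kernel) _ (by decide +kernel) this) (by decide +kernel)

end Cfsg.Agent.S1620
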