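import Cfsg.Statements.S1621
import Cfsg.Agent.H8.Ico6

set_option autoImplicit false
open Quaternion
open Cfsg

namespace Cfsg.Agent.S1621

open Cfsg.Agent Cfsg.Agent.H6 Cfsg.Agent.Ico Cfsg.Spor Quaternion

set_option maxRecDepth 100000

theorem c1 : ∀ k < 4, ∀ i < 315, tb4 k (tb4 k i) = i := by decide +kernel

theorem c2 : ∀ j < 315, j = 0 ∨ dec (cd j).2.1 ≠ q0 ∨ dec (cd j).2.2 ≠ q0 := by decide +kernel

theorem ρ_inj (i : ℕ) (hi : i < 315) : ∀ j < 315, ρ i = ρ j → i = j := by
  induction i using Nat.strong_induction_on with | _ i ih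
  intro j hj e
  by_cases h : i = 0
  · subst h
    obtain ⟨m, n⟩ := bas_spec (cBas j hj)
    have := prop_of (((ρ_spec hi).2 ⟨_, m⟩).symm.trans (e ▸ ((ρ_spec hj).2 ⟨_, m⟩).trans (qrefl_self n)))
    rw [rv0] at this
    rcases c2 j hj with h | h | h
    · exact h.symm
    · exact absurd (hv_inj (((congrFun this 1).trans (by simp)).trans hv_q0.symm)) h
    · exact absurd (hv_inj (((congrFun this 2).trans (by simp)).trans hv_q0.symm)) h
  obtain ⟨a, b⟩ := cP i hi h
  have t : ∀ x < 315, tb4 (pa i) (tb4 (pa i) x) = x := fun x hx => by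
    have e1 : tb4 (pa i % 4) = tb4 (pa i) := funext fun y => congrArg (fun j => dg 512 (lk 0 _ j) y) (Nat.mod_mod _ 4)
    exact e1 ▸ c1 _ (Nat.mod_lt _ (by decide)) x hx
  have := ih _ a (a.trans hi) _ (cT (pa i) hj).1 (by rw [← step _ hj, ← e, step _ hi, ← t _ (a.trans hi), b])
  rw [← b, this, t j hj]

def U : List ℕ := [2290649222,2273806215,2307360647,2273937287,2307491719,2022217607,2559088519,2291628167,2289662087,2541258887,2037942407,2543356039,2040039559,2291636359,2289670279,2022209927,2559080839,2273806727,2307361159,2273937799,2307492231,2289600407,2291697559,2273867927,2307422359,2022148247,2559019159,2022279319,2559150231,2273876119,2307430551,2289600919,2291698071,2542307192,2038990712,2290587512,2290718584,2274855032,2308409464,2272888952,2306443384,2290579832,2290710904,2542307704,2038991224,2290648712,2023196552,2560067464,2021230472,2558101384,2272827272,2306381704,2274924424,2308478856,2542237832,2038921352,2542368904,2039052424,2290518152,2257094792,2324203656,229078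0296,2542246024,2038929544,2542377096,2039060616,2272819592,2306374024,2274916744,2308471176,2023197064,2560067976,2021230984,2558101896,2290649736,2542307224,2038990744,2290587544,2290718616,2274855064,2308409496,2272888984,2306443416,2290579864,2290710936,2542307736,2038991256,2289600377,2291697529,2273867897,2307422329,2022148217,2559019129,2022279289,2559150201,2273876089,2307430521,2289600889,2291698041,2273806217,2307360649,2273937289,2307491721,2022217609,2559088521,2291628169,2289662089,2541258889,2037942409,2543356041,2040039561,2291636361,2289670281,2022209929,2559080841,2273806729,2307361161,2273937801,2307492233,2290649226]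

theorem c3 : allS (fun X => decide (par X → nq X = ⟨4, 0⟩ → X ∈ U.map dec)) = true := by decide +kernel

theorem c4 : (U.map dec).Nodup ∧ ∀ c ∈ U, par (dec c) ∧ nq (dec c) = ⟨4, 0⟩ := by decide +kernel

theorem c5 : ∀ i < 315, ∃ j ∈ [0, 35, 2, 131, 47, 16], j < 315 ∧ qk 4 (qd 4 (ip (cd i) (cd j))) = ip (cd i) (cd j) ∧
    par (qd 4 (ip (cd i) (cd j))) ∧ nq (qd 4 (ip (cd i) (cd j))) = ⟨4, 0⟩ := by decide +kernel

theorem unit_mem {i : ℕ} (hi : i < 315) {u : ℍ[ℝ]} (h : u • rv (cd i) ∈ icoLeech) : u ∈ icosians := by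
  obtain ⟨j, -, hj, a, b, c⟩ := c5 i hi
  have e : hv (ip (cd i) (cd j)) = (2 : ℝ) • qip (rv (cd i)) (rv (cd j)) := by
    simp [ip, hv_qa, hv_qm, hv_cj, qip, Fin.sum_univ_three, rv]
  have := qip_mem h (bas_spec (cBas j hj)).1
  rw [← a, hv_qk] at e
  rw [qip_smul, ← mul_smul_comm, show (1 / 2 : ℝ) • qip (rv (cd i)) (rv (cd j)) = hv (qd 4 (ip (cd i) (cd j))) from
    smul_right_injective _ (show (4 : ℝ) ≠ 0 by norm_num) (by simp only [smul_smul]; norm_num; exact_mod_cast e.symm)] at this
  have := mul_mem this (star_mem (mem_of_par b))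
  rwa [mul_assoc, (unit_of (nq_iff.1 c)).2, mul_one] at this

/-- The icosian Leech lattice has 37800 minimal vectors giving 315 distinct reflections. -/
theorem result : {r : Fin 3 → ℍ[ℝ] | r ∈ Cfsg.Spor.icoLeech ∧ Cfsg.Spor.qip r r = 4}.ncard = 37800 ∧ {f : Equiv.Perm ↥Cfsg.Spor.icoLeech | Cfsg.Spor.IsIcoReflection f}.ncard = 315 := by
  constructor
  · have : {r : Fin 3 → ℍ[ℝ] | r ∈ icoLeech ∧ qip r r = 4} =
        (fun p : ℕ × Q4 => hv p.2 • rv (cd p.1)) '' ↑(Finset.range 315 ×ˢ (U.map dec).toFinset) := by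
      ext r
      simp only [Set.mem_image, Finset.mem_coe, Finset.mem_product, Finset.mem_range, List.mem_toFinset]
      constructor
      · rintro ⟨h1, h2⟩
        obtain ⟨c, a, u, b, rfl⟩ := classify h1 h2
        obtain ⟨i, hi, rfl⟩ := List.mem_iff_getElem.1 a
        rw [← show cd i = Rl[i] by rw [cd, lk_eq, List.getD_eq_getElem _ _ hi]] at h1 ⊢
        have hi' : i < 315 := hi.trans_eq (by decide +kernel)
        obtain ⟨X, x1, rfl⟩ := exists_par (unit_mem hi' h1)
        have x2 := nq_iff.2 b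
        exact ⟨(i, X), ⟨hi', of_decide_eq_true (allS_spec c3 (by simp [fq, x2])) x1 x2⟩, rfl⟩
      · rintro ⟨⟨i, X⟩, ⟨hi, h⟩, rfl⟩
        obtain ⟨c, a, rfl⟩ := List.mem_map.1 h
        obtain ⟨m, n⟩ := bas_spec (cBas i hi)
        obtain ⟨x1, x2⟩ := c4.2 c a
        exact ⟨lam_iff.2 ((lam_iff.1 m).mul (mem_of_par x1)), by
          rw [qip_smul, qip_smul', n, four_eq, smul_mul_assoc, one_mul, mul_smul_comm, (unit_of (nq_iff.1 x2)).2]⟩
    rw [this, Set.InjOn.ncard_image, Set.ncard_coe_finset, Finset.card_product, List.toFinset_card_of_nodup c4.1]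
    · rfl
    rintro ⟨i, X⟩ h ⟨j, Y⟩ h' (e : hv X • rv (cd i) = hv Y • rv (cd j))
    simp only [Finset.mem_coe, Finset.mem_product, Finset.mem_range, List.mem_toFinset, List.mem_map] at h h'
    obtain ⟨hi, c, a, rfl⟩ := h
    obtain ⟨hj, d, b, rfl⟩ := h'
    obtain rfl := ρ_inj i hi j hj (Subtype.ext (((Rf.unit (unit_of (nq_iff.1 (c4.2 c a).2)).1).2 (ρ_spec hi).2).eq
      (e ▸ (Rf.unit (unit_of (nq_iff.1 (c4.2 d b).2)).1).2 (ρ_spec hj).2)))
    have := congrArg (qip · (rv (cd i))) e
    simp only [qip_smul, (bas_spec (cBas i hi)).2, four_eq, mul_smul_comm, mul_one] at this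
    rw [hv_inj (smul_right_injective _ (by norm_num) this)]
  · have : {f : Equiv.Perm icoLeech | IsIcoReflection f} = (fun i => (ρ i).1) '' ↑(Finset.range 315) := Set.ext fun f =>
      ⟨fun h => by obtain ⟨i, a, rfl⟩ := exists_idx h; exact ⟨i, by simpa using a, rfl⟩,
        by rintro ⟨i, a, rfl⟩; exact (ρ_spec (by simpa using a)).1⟩
    rw [this, Set.InjOn.ncard_image fun i a j b e => ρ_inj i (by simpa using a) j (by simpa using b) (Subtype.ext e),
      Set.ncard_coe_finset, Finset.card_range]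

end Cfsg.Agent.S1621
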