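import Cfsg.Statements.S1622
import Cfsg.Agent.H8.Ico4

set_option autoImplicit false
open Quaternion
open Cfsg

namespace Cfsg.Agent.S1622

open Cfsg.Agent Cfsg.Agent.H6 Cfsg.Agent.Ico


/-- The reflection group is transitive on its 315 reflections by conjugation. -/
theorem result (f f' : Equiv.Perm ↥Cfsg.Spor.icoLeech) (hf : Cfsg.Spor.IsIcoReflection f) (hf' : Cfsg.Spor.IsIcoReflection f') : ∃ g ∈ Cfsg.Spor.twoJ2, g * f * g⁻¹ = f' := by
  obtain ⟨i, hi, rfl⟩ := exists_idx hf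
  obtain ⟨j, hj, rfl⟩ := exists_idx hf'
  obtain ⟨u, hu⟩ := ρ_conj i hi
  obtain ⟨w, hw⟩ := ρ_conj j hj
  refine ⟨_, (wp σ w * (wp σ u)⁻¹).2, ?_⟩
  rw [← Subgroup.coe_inv, ← Subgroup.coe_mul, ← Subgroup.coe_mul, hu, hw]
  congr 1
  group

end Cfsg.Agent.S1622
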