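import Cfsg.Statements.S1623
import Cfsg.Agent.H8.Ico5
import Cfsg.Agent.H6.CeC

set_option autoImplicit false
open Quaternion
open Cfsg

namespace Cfsg.Agent.S1623

open Cfsg.Agent Cfsg.Agent.Ico Cfsg.Agent.H6 Cfsg.Agent.H6.Suz MulAction
open scoped Pointwise

section
variable {G Ω : Type*} [Group G] [MulAction G Ω]

theorem coatom_sub {K W : Subgroup G} {x : Ω} (hW : W ≤ K ⊓ stabilizer G x) {l : List G}
    (hl : ∀ t ∈ l, t ∈ K ∧ ∀ M : Subgroup G, W ≤ M → t ∈ M → orbit K x ⊆ orbit M x)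
    (hc : ∀ y ∈ orbit K x, y = x ∨ ∃ t ∈ l, y ∈ orbit W (t • x)) (hn : ∃ k ∈ K, k • x ≠ x) : IsCoatom (stabilizer K x) := by
  refine ⟨fun e => ?_, fun M hM => eq_top_iff.2 fun k _ => ?_⟩
  · obtain ⟨k, a, b⟩ := hn
    exact b (e ▸ Subgroup.mem_top _ : (⟨k, a⟩ : K) ∈ stabilizer K x)
  obtain ⟨g, hg, hg'⟩ := SetLike.exists_of_lt hM
  obtain ⟨t, a, w, hw⟩ := (hc _ ⟨g, rfl⟩).resolve_left hg'
  have h0 : W ≤ M.map K.subtype := fun v hv => ⟨⟨v, (hW hv).1⟩, hM.le (hW hv).2, rfl⟩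
  have h1 : g⁻¹ * (⟨w, (hW w.2).1⟩ * ⟨t, (hl t a).1⟩) ∈ M :=
    hM.le (mem_stabilizer_iff.2 (by rw [mul_smul, inv_smul_eq_iff, mul_smul]; exact hw))
  rw [M.mul_mem_cancel_left (M.inv_mem hg), M.mul_mem_cancel_left (hM.le (hW w.2).2)] at h1
  obtain ⟨⟨_, m, hm, rfl⟩, e⟩ := (hl t a).2 _ h0 ⟨_, h1, rfl⟩ ⟨k, rfl⟩
  exact (M.mul_mem_cancel_left (M.inv_mem hm)).1 (hM.le (mem_stabilizer_iff.2 (by rw [mul_smul, inv_smul_eq_iff]; exact e.symm)))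

theorem coatom_model {N : ℕ} {X : ℕ → Ω} {gens : ℕ → G} {nets : ℕ → Net} (h : IsModel N X gens nets vT) {kl : List ℕ}
    (ws l : List (List ℕ)) (r : ℕ) {p : ℕ} (hc : p < N ∧ (∀ w ∈ ws, wok (tb (mkM kl)) w = true ∧ fnWc nets w p = p) ∧
      closedM nets (lw kl) (orbM nets (lw kl) r p) = true ∧
      (∀ a ∈ l, wok (tb (mkM kl)) a = true ∧ orbM nets (a :: ws) r p = orbM nets (lw kl) r p) ∧
      orbM nets (lw kl) r p = 2 ^ p ||| lors (fun a => orbM nets ws r (fnWc nets a p)) l ∧ ∃ a ∈ l, fnWc nets a p ≠ p) :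
    IsCoatom (stabilizer (cl gens (lw kl)) (X p)) := by
  obtain ⟨h1, h2, h3, h4, h5, a, h6, h7⟩ := hc
  have v : ∀ ws, wsok vT ws = true := fun _ => wsok_iff.2 fun _ _ _ _ => rfl
  have c : ∀ w, wp gens w • X p = X (fnWc nets w p) := fun w => by rw [fnWc_eq, h.toIsPre.cmpW (fun _ _ => rfl) h1]
  have d : ∀ w, fnWc nets w p < N := fun w => by rw [fnWc_eq]; exact (h.ok.fnW_lt (fun _ _ => rfl) _).2 h1
  have o := h.toIsPre.orbit_eq (v _) h1 h3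
  refine coatom_sub (W := cl gens ws) (l := l.map (wp gens))
    (cl_le.2 fun w hw => ⟨wp_mem_lw (h2 w hw).1, mem_stabilizer_iff.2 (by rw [c, (h2 w hw).2])⟩)
    (List.forall_mem_map.2 fun t ht => ⟨wp_mem_lw (h4 t ht).1, fun M a b => ?_⟩) (fun y hy => ?_)
    ⟨_, wp_mem_lw (h4 a h6).1, fun e => h7 (h.inj _ (d a) _ h1 (by rw [← c, e]))⟩
  · rw [o, ← (h4 t ht).2]
    refine (h.toIsPre.pts_orbM_subset (v _) r h1).trans ?_
    rintro _ ⟨g, rfl⟩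
    exact ⟨⟨g, cl_le.2 (List.forall_mem_cons.2 ⟨b, cl_le.1 a⟩) g.2⟩, rfl⟩
  · rw [o, h5, pts_lor, pts_pow h1] at hy
    refine hy.imp_right fun ⟨i, a, b, e⟩ => ?_
    obtain ⟨t, ht, b⟩ := (testBit_lors _ _ _).1 b
    exact ⟨_, List.mem_map_of_mem ht, c t ▸ h.toIsPre.pts_orbM_subset (v _) r (d t) ⟨i, a, b, e⟩⟩
end


theorem exists_act {G Ω ι : Type*} [Group G] [MulAction G Ω] {B : ι → Ω} (hB : Function.Injective B)
    (A : Subgroup (Equiv.Perm ι)) {g : ℕ → G} {ws : List (List ℕ)} (h : ∀ w ∈ ws, ∃ π ∈ A, ∀ i, wp g w • B i = B (π i)) :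
    ∃ φ : cl g ws →* A, ∀ x i, x.1 • B i = B ((φ x).1 i) := by
  let S : Subgroup G :=
    { carrier := {x | ∃ π ∈ A, ∀ i, x • B i = B (π i)}
      one_mem' := ⟨1, A.one_mem, fun i => one_smul _ _⟩
      mul_mem' := by
        rintro x y ⟨a, ha, e⟩ ⟨b, hb, f⟩
        exact ⟨a * b, A.mul_mem ha hb, fun i => by rw [mul_smul, f, e]; rfl⟩
      inv_mem' := by
        rintro x ⟨a, ha, e⟩
        exact ⟨a⁻¹, A.inv_mem ha, fun i => by rw [inv_smul_eq_iff, e]; simp⟩ }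
  have : ∀ x : cl g ws, ∃ π ∈ A, ∀ i, x.1 • B i = B (π i) := fun x => (cl_le (K := S)).2 h x.2
  choose f a b using this
  exact ⟨MonoidHom.mk' (fun x => ⟨f x, a x⟩) fun x y => Subtype.ext (Equiv.ext fun i => hB (by
    rw [← b, Subgroup.coe_mul, mul_smul, b, b]; rfl)), b⟩

def bp : Fin 5 → ℕ := ![24, 40, 64, 409, 414]
def bq : Fin 5 → ℕ := ![29, 47, 70, 412, 415]
def B (i : Fin 5) : Set (Fin 416) := {finX 416 (bp i), finX 416 (bq i)}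

theorem hB : Function.Injective B := fun i j e => by
  have : finX 416 (bp i) ∈ B j := e ▸ Or.inl rfl
  revert i j
  exact fun i j _ => (by decide : ∀ i j, finX 416 (bp i) = finX 416 (bp j) ∨ finX 416 (bp i) = finX 416 (bq j) → i = j) i j

abbrev chk (w : List ℕ) (π : Fin 5 → Fin 5) : Prop := ∀ i, (fnWc m325 w (bp i) = bp (π i) ∧ fnWc m325 w (bq i) = bq (π i)) ∨
  (fnWc m325 w (bp i) = bq (π i) ∧ fnWc m325 w (bq i) = bp (π i))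

theorem act {w : List ℕ} {π : Fin 5 → Fin 5} (h : chk w π) (i : Fin 5) : wp gG2 w • B i = B (π i) := by
  obtain ⟨a, b⟩ := (by decide : ∀ i, bp i < 416 ∧ bq i < 416) i
  rw [B, Set.smul_set_insert, Set.smul_set_singleton, modelG2.toIsPre.cmpW (fun _ _ => rfl) a,
    modelG2.toIsPre.cmpW (fun _ _ => rfl) b, ← fnWc_eq, ← fnWc_eq]
  rcases h i with ⟨c, d⟩ | ⟨c, d⟩ <;> rw [c, d, B]
  exact Set.pair_comm _ _

def qs : List (List ℕ) := [[2], [0], [3, 2, 3], [4, 3, 2, 3, 4], [3, 1, 2, 3, 2, 1, 0, 1, 0, 2, 3, 1, 2, 1, 0, 1, 3, 4, 3, 2, 3, 4, 1, 2, 3, 2, 1, 0, 1, 0, 2, 3, 1, 2, 1, 0, 1]]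
def LQ : Lev := .cons 2 32 qs .nil
def LW : Lev := .cons 10 160 (qs ++ [[3]]) (.cons 39 12 [[4], [0, 3, 2, 3, 1, 2, 3, 2, 1, 0, 1, 0, 2, 3, 1, 2, 1, 0, 1]] .nil)

theorem k1 : ∀ w ∈ LW.ws, ∃ π ∈ [1, Equiv.swap 0 1 * Equiv.swap 3 4, Equiv.swap 1 2 * Equiv.swap 3 4, Equiv.swap 2 4 * Equiv.swap 2 3],
    Equiv.Perm.sign π = 1 ∧ chk w (π : Equiv.Perm (Fin 5)) := by decide +kernel

theorem k2 : ∀ π : Equiv.Perm (Fin 5), Equiv.Perm.sign π = 1 → ∃ u ∈ [[], [5], [6], [7], [5, 6], [5, 7], [6, 5], [6, 7], [7, 5], [7, 6], [7, 7], [5, 6, 5], [5, 6, 7], [5, 7, 6], [6, 5, 7], [6, 7, 5], [6, 7, 6], [6, 7, 7], [7, 5, 6], [7, 6, 5], [7, 6, 7], [7, 7, 6], [5, 6, 5, 7], [5, 6, 7, 5], [5, 6, 7, 6], [5, 6, 7, 7], [5, 7, 6, 5], [5, 7, 6, 7], [6, 5, 7, 6], [6, 7, 5, 6], [6, 7, 6, 5], [7, 5, 6, 5], [7, 5, 6, 7], [7, 6, 5, 7], [7, 6, 7, 5], [7, 6, 7, 7], [7, 7, 6, 5], [7,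 7, 6, 7], [5, 6, 5, 7, 6], [5, 6, 7, 5, 6], [5, 6, 7, 6, 5], [5, 7, 6, 5, 7], [5, 7, 6, 7, 5], [5, 7, 6, 7, 7], [6, 5, 7, 6, 5], [6, 7, 5, 6, 5], [6, 7, 5, 6, 7], [6, 7, 6, 5, 7], [7, 5, 6, 7, 5], [7, 6, 5, 7, 6], [5, 6, 5, 7, 6, 5], [5, 6, 7, 5, 6, 5], [5, 6, 7, 5, 6, 7], [5, 7, 6, 5, 7, 6], [6, 5, 7, 6, 5, 7], [6, 7, 5, 6, 7, 5], [6, 7, 6, 5, 7, 6], [7, 5, 6, 7, 5, 6], [6, 5, 7, 6, 5, 7, 6], [6, 7, 5, 6, 7, 5, 6]], chk (sel LW.ws u) π := by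
  decide +kernel

theorem hW : cl gG2 LW.ws = cl gG2 swG2 ⊓ stabilizer GG2 (finX 416 1) ∧ Nat.card (cl gG2 LW.ws) = 2 ^ 5 * 60 := by
  have c := card_inf_stab_of_orbit (m := 1920) (part0G2.1 (finX 416 1, 315) (by simp)) (by decide) cstabG2
  have := modelG2.cl_eq_of_chain (k := 6) (r := 100) (L := LW) (by decide +kernel) (le_inf (cl_le_lw (hl := [0, 1, 2, 3, 4])
    (by decide +kernel)) (modelG2.toIsPre.cl_le_stab (p := 1) (by decide +kernel))) c.le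
  exact ⟨this, this ▸ c⟩

theorem ceW : Nonempty (cl gG2 LW.ws ≃*
    Subgroup.centralizer {(⟨wp gG2 [0], wp_mem_lw (by decide +kernel)⟩ : cl gG2 (lw [0, 1, 2, 3, 4]))}) := by
  have co := coatom_model modelG2 (kl := [0, 1, 2, 3, 4]) (p := 1) [[3], [2], [4], [1, 2, 3, 2, 1, 0, 1, 0, 2, 3, 1, 2, 1, 0, 1]]
    [[1], [1, 0, 1], [1, 2, 0, 1], [1, 2, 3, 2, 1], [1, 2, 0, 1, 0, 1]] 100 (by decide +kernel)
  have c : ∀ x ∈ cl gG2 LW.ws, x * wp gG2 [0] = wp gG2 [0] * x := comm_of_cl fun w hw => by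
    rw [← wp_lapp, ← wp_lapp]
    exact heqG2 _ _ ((by decide +kernel : ∀ w ∈ LW.ws, eqvG2 (lapp w [0]) (lapp [0] w) = true) w hw)
  rw [centralizer_eq_of_coatom co (fun x hx => Subtype.ext (c x (hW.1 ▸ ⟨x.2, hx⟩)))
    ⟨⟨wp gG2 [1], wp_mem_lw (by decide +kernel)⟩, fun e => modelG2.ne_of_mp (u := [1, 0]) (w := [0, 1]) (p := 1)
      (by decide +kernel) (by simpa using congrArg Subtype.val e)⟩]
  refine ⟨(Subgroup.subgroupOfEquivOfLe (K := cl gG2 (lw [0, 1, 2, 3, 4])) (hW.1 ▸ inf_le_left)).symm.trans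
    (MulEquiv.subgroupCongr ?_)⟩
  rw [hW.1]
  exact Subgroup.ext fun x => ⟨fun h => h.2, fun h => ⟨x.2, h⟩⟩

/-- A reflection centraliser in the Hall–Janko group is an extension of an extraspecial group of order 32 by the alternating group of degree 5. -/
theorem result (f : Equiv.Perm ↥Cfsg.Spor.icoLeech) (hf : Cfsg.Spor.IsIcoReflection f) (hfm : f ∈ Cfsg.Spor.twoJ2) : ∃ (Q : Subgroup ↥(Subgroup.centralizer {(QuotientGroup.mk ⟨f, hfm⟩ : Cfsg.Spor.J2)})) (_ : Q.Normal), Nat.card Q = 32 ∧ Cfsg.IsExtraspecial 2 Q ∧ Nonempty (↥(Subgroup.centralizer {(QuotientGroup.mk ⟨f, hfm⟩ : Cfsg.Spor.J2)}) ⧸ Q ≃* alternatingGroup (Fin 5)) := by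
  obtain ⟨e1, h1⟩ := eqJG2
  obtain ⟨e2, h2⟩ := exists_iso
  obtain ⟨e3⟩ := ceW
  obtain ⟨e4⟩ := centralizer_equiv (e1.trans e2) ⟨wp gG2 [0], wp_mem_lw (by decide +kernel)⟩
  obtain ⟨i, hi, rfl⟩ := exists_idx hf
  obtain ⟨w, hw⟩ := ρ_conj i hi
  obtain ⟨e5⟩ := centralizer_conj_equiv (d := (e1.trans e2) ⟨wp gG2 [0], wp_mem_lw (by decide +kernel)⟩)
    (e := QuotientGroup.mk ⟨(ρ i).1, hfm⟩) (isConj_iff.2 ⟨QuotientGroup.mk (wp σ w), by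
      rw [MulEquiv.trans_apply, h1 _ (by decide +kernel), h2 _ (by decide +kernel), wp_yJ]
      change _ = QuotientGroup.mk (ρ i)
      rw [hw]
      exact congrArg (fun x : Spor.twoJ2 => (QuotientGroup.mk (wp σ w * x * (wp σ w)⁻¹) : Spor.J2)) (mul_one _)⟩)
  obtain ⟨φ, hφ⟩ := exists_act hB (alternatingGroup (Fin 5)) (g := gG2) (ws := LW.ws) fun w hw => by
    obtain ⟨π, -, a, b⟩ := k1 w hw
    exact ⟨π, a, act b⟩
  have hQ : cl gG2 LQ.ws ≤ cl gG2 LW.ws := cl_mono (by decide +kernel)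
  have hq : cl gG2 LQ.ws ≤ ⨅ i, stabilizer GG2 (B i) := cl_le.2 fun w hw => Subgroup.mem_iInf.2
    (act ((by decide +kernel : ∀ w ∈ LQ.ws, chk w id) w hw))
  obtain ⟨a, b, c⟩ := core_struct φ (eq_top_iff.2 fun π _ => by
      obtain ⟨u, -, hu⟩ := k2 π.1 π.2
      exact ⟨⟨_, wp_sel_mem _ u⟩, Subtype.ext (Equiv.ext fun i => hB ((hφ _ i).symm.trans (act hu i)))⟩)
    inferInstance (B := 60) (by rw [nat_card_alternatingGroup, Nat.card_eq_fintype_card]; rfl) (by norm_num) hW.2 hQ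
    (fun x hx => Subtype.ext (Equiv.ext fun i => hB ((hφ _ i).symm.trans (Subgroup.mem_iInf.1 (hq hx) i))))
    (modelG2.ord_le_card (k := 6) (r := 100) (L := LQ) (by decide +kernel))
    (fun h => XSd.of_words heqG2 (zs := [1]) (l := [([0], [2]), ([2], [0]), ([4], [3]), ([0, 2, 3], [4])]) h (by simp)
      (modelG2.ne_one_of_mp (p := 2) (by decide +kernel))
      (fun a ha => modelG2.ne_of_mp (p := 2) (by revert a; decide +kernel)) (by decide +kernel))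
    (e3.trans (e4.trans e5))
  exact ⟨_, inferInstance, b, a, c⟩

end Cfsg.Agent.S1623
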