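import Cfsg.Statements.S1624
import Cfsg.Agent.H8.Ico5
import Cfsg.Agent.H6.ClD1
import Cfsg.Agent.S0280
import Cfsg.Agent.H6.Mat3

set_option autoImplicit false
open Quaternion
open Cfsg

namespace Cfsg.Agent.S1624

open Cfsg.Agent Cfsg.Agent.Ico Cfsg.Agent.H6 MulAction

section
open Cl.S62

abbrev GU : Type := ↥(cl (finG m125ok) (lw [0,1,2,3,4,5]))
theorem allU : ∀ l, finG m125ok l ∈ cl (finG m125ok) (lw [0,1,2,3,4,5]) := finG_mem_all _ (by decide +kernel)
noncomputable def gU : ℕ → GU := subA _ _ allU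
theorem satU : Sat io C127 gU := sat220.subA _
theorem topU : cl gU (lw [0,1,2,3,4,5]) = ⊤ := cl_subA _
theorem cardU : Nat.card GU = 6048 :=
  le_antisymm (bd198.{0}.fin sat220) (lb273.trans (Subgroup.card_le_of_le (cl_le.2 fun _ _ => wp_mem fun l _ => allU l)))

theorem simpleU : IsSimpleGroup GU := by
  have m : IsModel 63 (finX 63) gU m125 vT := (finModel m125ok).subA _
  refine m.simple ((faith_fin 63).sub _) topU (ws := [[3], [5], [1, 2, 0], [0, 0, 2, 1, 1]]) (r := 100) (p0 := 0)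
    (l := [(1, [0]), (10, [0, 4, 0]), (15, [1, 4, 1]), (19, [0, 0, 4, 0])]) (by decide +kernel) (p := 7) (by norm_num) cardU
    (by norm_num) (a := gU 0) (by simpa [r0, pow_succ, mul_assoc] using satU.rel r0 (by simp [C127])) ?_
  have s := satU.map (QuotientGroup.mk' (Subgroup.normalClosure {gU 0}))
  generalize hπ : QuotientGroup.mk' (Subgroup.normalClosure {gU 0}) = π at s
  have k : ∀ x, π x = 1 ↔ x ∈ Subgroup.normalClosure {gU 0} := fun x => hπ ▸ QuotientGroup.eq_one_iff x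
  have a0 : π (gU 0) = 1 := (k _).2 (Subgroup.subset_normalClosure rfl)
  have a1 : π (gU 1) = 1 := (s.inv 0).trans (by simp [a0])
  have a2 : π (gU 2) = 1 := by
    have h1 := s.rel r1 (by simp [C127])
    have h3 := s.rel r3 (by simp [C127])
    simp only [r1, r3, wp_cons, wp_nil, a0, one_mul, mul_one] at h1 h3
    rwa [h1, mul_one] at h3
  have a3 : π (gU 3) = 1 := (s.inv 2).trans (by simp [a2])
  have a5 : π (gU 5) = (π (gU 4))⁻¹ := s.inv 4
  have a4 : π (gU 4) = 1 := by simpa [r10, a0, a1, a3, a5] using s.rel r10 (by simp [C127])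
  refine eq_top_iff.2 (topU.ge.trans (cl_le.2 fun w hw => (k _).1 ?_))
  simp only [lw, lmap_eq, List.map_cons, List.map_nil, List.mem_cons, List.not_mem_nil, or_false] at hw
  rcases hw with rfl | rfl | rfl | rfl | rfl | rfl <;> simp [a0, a1, a2, a3, a4, a5]

theorem isoU {F : Type} [Field F] [Fintype F] (hF : Fintype.card F = 9) : Nonempty (GU ≃* PSU 3 F 3) := by
  haveI : CharP F 3 := charP_of_card_eq_prime_pow (f := 2) hF
  obtain ⟨ω, hω⟩ := exists_w9 hF
  obtain ⟨g, hg⟩ := mrep_SU (n := 3) (sem9 hω) (frobenius F 3) (fun _ => rfl)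
    (ml := [[81,40,68],[711,387,1],[243,18,6],[243,18,6],[2,9,162],[2,9,162],[1,9,81],[1,9,81]])
    (fs := [[[64,9,81],[1,13,81],[1,9,86],[1,657,81],[10,9,81],[1,9,126],[244,9,81],[1,576,81]],[[163,9,81],[1,9,82],[1,576,81],[64,9,81],[1,9,126],[163,9,81],[1,414,81]],[[487,9,81],[1,9,87],[1,9,99],[1,171,81],[1,9,99],[244,9,81],[1,171,81]],[[487,9,81],[1,9,87],[1,9,99],[1,171,81],[1,9,99],[244,9,81],[1,171,81]],[[1,11,81],[19,9,81],[1,11,81],[1,9,99],[1,171,81],[10,9,81],[1,9,99],[82,9,81],[1,171,81]],[[1,11,81],[19,9,81],[1,11,81],[1,9,99],[1,171,81],[10,9,81],[1,9,99],[82,9,81],[1,171,81]],[],[]])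
    (by decide +kernel)
  have hc : Nat.card (PSU 3 F 3) = 6048 := by
    have := S0280.result (q := 3) hF 3 (by norm_num)
    simp only [Finset.prod_range_succ] at this
    norm_num at this; omega
  exact bd198.equivU satU (hg.psat (il := il) (Rl := C127) (by decide +kernel)) topU cardU simpleU hc (u := [0]) (w := [])
    (by decide +kernel) (ne_one_quot_center (v := [2]) (hg.nev (inj9 hω) (i := 0) (j := 0) (by decide +kernel)))

def us : List (List ℕ) := [[4, 2, 3, 0, 1, 0, 1, 2, 3, 4, 3, 1, 2, 3, 1, 0], [3, 4, 0, 1, 2, 3, 1, 2, 3, 4, 3, 1, 0, 1, 2, 0],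
  [4, 3, 2, 1, 0, 1, 2, 3, 4, 1], [4, 3, 2, 1, 0, 1, 2, 3, 4, 1], [1], [1]]

theorem isoH : Nonempty (GU ≃* cl Suz.gG2 us) := by
  have e : ∀ w, wp (fun l => wp Suz.gG2 (lk [] us l)) w = wp Suz.gG2 (w.flatMap (lk [] us)) := fun w => by
    induction w with
    | nil => rfl
    | cons k w ih => rw [wp_cons, ih, List.flatMap_cons, wp_append]
  have s : Sat io C127 fun l => wp Suz.gG2 (lk [] us l) :=
    sat_of_test (t := fun w => Suz.eqvG2 (w.flatMap (lk [] us)) []) (m := 8) (fun w h => (e w).trans (Suz.heqG2 _ _ h))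
      (fun l hl => by rw [lk_eq, List.getD_eq_default _ _ (by simp [us]; omega)]; rfl) (by decide +kernel)
  obtain ⟨φ, a, b⟩ := bd198.homTop satU s topU cardU.ge
  have i : Function.Injective φ := (MonoidHom.ker_eq_bot_iff _).1 ((simpleU.eq_bot_or_eq_top_of_normal _ inferInstance).resolve_right
    fun h => by
      have := MonoidHom.mem_ker.1 (h ▸ Subgroup.mem_top (wp gU [4]))
      rw [b _ (by decide +kernel), e] at this
      have h := Suz.modelG2.toIsPre.smul_of_ptc (w := [4].flatMap (lk [] us)) (p := 1) (q := 2) (by decide +kernel)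
      rw [this, one_smul] at h
      exact absurd h (by decide))
  refine ⟨(MonoidHom.ofInjective i).trans (MulEquiv.subgroupCongr (a.trans (le_antisymm (cl_le.2 fun w hw => ?_) (cl_le.2 fun w hw => ?_))))⟩
  · exact wp_mem fun l _ => by
      rw [lk_eq, List.getD_eq_getElem?_getD]
      cases h : us[l]? with
      | none => exact one_mem _
      | some u => exact wp_mem_cl (List.mem_of_getElem? h)
  · obtain ⟨l, -, a, rfl⟩ := (by decide +kernel : ∀ w ∈ us, ∃ l < 6, [l] ∈ lw [0,1,2,3,4,5] ∧ w = lk [] us l) w hw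
    simpa using wp_mem_cl (gens := fun l => wp Suz.gG2 (lk [] us l)) a
end

theorem gen {G G' Ω : Type*} [Group G] [Group G'] [MulAction G Ω] (φ : G' →* G) (hi : Function.Injective φ) {x : Ω}
    {H : Subgroup G} (hH : H = φ.range ⊓ stabilizer G x) :
    (H.comap φ).index = (orbit φ.range x).ncard ∧ Nonempty (H.comap φ ≃* H) ∧
      ∀ g ∈ φ.range, ∃ c : G' ⧸ H.comap φ, (orbit (H.comap φ) c).ncard = (orbit H (g • x)).ncard := by
  refine and_left_comm.1 ⟨⟨((H.comap φ).equivMapOfInjective φ hi).trans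
    (MulEquiv.subgroupCongr (Subgroup.map_comap_eq_self (hH ▸ inf_le_left)))⟩, ?_⟩
  letI : MulAction G' Ω := MulAction.compHom Ω φ
  rw [show H.comap φ = stabilizer G' x from Subgroup.ext fun g => by rw [hH]; exact ⟨fun h => h.2, fun h => ⟨⟨g, rfl⟩, h⟩⟩]
  refine ⟨(index_stabilizer ..).trans (congrArg _ (Set.ext fun y =>
    ⟨fun ⟨g, h⟩ => ⟨⟨_, g, rfl⟩, h⟩, fun ⟨⟨_, g, rfl⟩, h⟩ => ⟨g, h⟩⟩)), ?_⟩
  rintro _ ⟨g, rfl⟩
  refine ⟨QuotientGroup.mk g, (Set.ncard_image_of_injective _ (injective_ofQuotientStabilizer G' x)).symm.trans (congrArg _ ?_)⟩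
  subst hH
  ext y
  exact ⟨by rintro ⟨_, ⟨h, rfl⟩, rfl⟩; exact ⟨⟨φ h, ⟨h, rfl⟩, h.2⟩, (mul_smul h.1 g x).symm⟩,
    by rintro ⟨⟨_, ⟨h, rfl⟩, a⟩, rfl⟩; exact ⟨_, ⟨⟨h, a⟩, rfl⟩, mul_smul h g x⟩⟩

/-- The Hall–Janko group contains PSU(3, 3) with index 100 and acts on the 100 cosets with rank 3 and subdegrees 1, 36, 63. -/
theorem result : ∃ H : Subgroup Cfsg.Spor.J2, H.index = 100 ∧ (∃ (F : Type) (_ : Field F) (_ : Fintype F), Fintype.card F = 9 ∧ Nonempty (↥H ≃* Cfsg.PSU 3 F 3)) ∧ ∃ c₁ c₂ : Cfsg.Spor.J2 ⧸ H, (MulAction.orbit ↥H c₁).ncard = 36 ∧ (MulAction.orbit ↥H c₂).ncard = 63 := by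
  obtain ⟨e1, -⟩ := Suz.eqJG2
  obtain ⟨e2, -⟩ := exists_iso
  obtain ⟨e3⟩ := isoH
  obtain ⟨F, _, _, hF⟩ := exists_F9
  obtain ⟨e4⟩ := isoU hF
  let φ := (cl Suz.gG2 (lw [0, 1, 2, 3, 4])).subtype.comp (e1.trans e2).symm.toMonoidHom
  have hr : φ.range = cl Suz.gG2 Suz.swG2 := by
    rw [MonoidHom.range_comp, MonoidHom.range_eq_top.2 (e1.trans e2).symm.surjective, ← MonoidHom.range_eq_map,
      Subgroup.range_subtype]; rfl
  have o := Suz.part0G2.1 (finX 416 38, 100) (by simp)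
  obtain ⟨h1, ⟨e5⟩, h2⟩ := gen φ (Subtype.val_injective.comp (e1.trans e2).symm.injective) (x := finX 416 38) (H := cl Suz.gG2 us)
    (hr ▸ eq_of_le_of_ord (le_inf (cl_le.2 fun w hw => wp_mem_lw (hl := [0, 1, 2, 3, 4]) (w := w) (by revert w; decide +kernel))
      (Suz.modelG2.toIsPre.cl_le_stab (by decide +kernel))) ((Nat.card_congr e3.toEquiv).symm.trans cardU).ge
      (card_inf_stab_of_orbit o (by decide) Suz.cstabG2).le)
  rw [hr] at h1 h2
  obtain ⟨c1, a⟩ := h2 _ (wp_mem_cl (w := [4]) (by decide))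
  obtain ⟨c2, b⟩ := h2 _ (wp_mem_cl (w := [3]) (by decide))
  rw [Suz.modelG2.toIsPre.smul_of_ptc (q := 62) (by decide +kernel),
    Suz.modelG2.ncard_orbit (k := 6) (r := 100) (n := 36) (by decide +kernel)] at a
  rw [Suz.modelG2.toIsPre.smul_of_ptc (q := 57) (by decide +kernel),
    Suz.modelG2.ncard_orbit (k := 6) (r := 100) (n := 63) (by decide +kernel)] at b
  exact ⟨_, h1.trans o, ⟨F, _, _, hF, ⟨e5.trans (e3.symm.trans e4)⟩⟩, c1, c2, a, b⟩

end Cfsg.Agent.S1624
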