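import Cfsg.Statements.S1631
import Cfsg.Agent.H4.Inv2

set_option autoImplicit false
open scoped MatrixGroups
open Cfsg

namespace Cfsg.Agent.S1631

/-- The unitary transvections of SU(n, 2), n ≥ 4, form a generating conjugacy class of 3-transpositions. -/
theorem result (F : Type) [Field F] [Fintype F] [DecidableEq F] (hF : Fintype.card F = 4) (n : ℕ) (hn : 4 ≤ n) : Cfsg.IsThreeTranspositionClass {g : ↥(Cfsg.SU n F 2) | (((g : Matrix.SpecialLinearGroup (Fin n) F) : Matrix (Fin n) (Fin n) F) - 1).rank = 1} := by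
  have h : Fintype.card F = 2 ^ 2 := hF
  have hf := H4.unF_nondeg h n
  have h2 : (2 : F) = 0 := by
    have := FiniteField.cast_card_eq_zero F
    rw [h] at this; exact pow_eq_zero_iff (n := 2) two_ne_zero |>.1 (by exact_mod_cast this)
  have h1 : ∀ c : F, c ≠ 0 → (H4.unT h).τ c = 0 → c = 1 := fun c hc h3 => mul_left_cancel₀ hc (by
    simp at h3; linear_combination h3 - c * h2)
  have h4 : (H4.unT h).τ 1 = 0 := by simp [one_add_one_eq_two, h2]
  refine hf.three_tv h2 (fun c hc => by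
      simpa [hF, ← pow_succ'] using FiniteField.pow_card_sub_one_eq_one c hc) (H4.suEquivE h (by omega))
    H4.CForm.E_le_iso (P := fun p => p ≠ 0 ∧ (H4.unF h n).Q p = 0)
    (fun p hp => ⟨hp.1, hp.2, H4.CForm.tv_mem_E hp.2 h4, by rw [H4.CForm.TvOk, hp.2, h4]; simp⟩)
    (fun p c hp hc h5 h6 => ?_) (H4.CForm.not_aniso.1 (H4.CForm.Nondeg.unT_not_aniso h (by simp; omega)))
    (fun p p' hp hp' => ?_) (fun S hS => (hf.unT_E_le_Tr h (by simp; omega) (by simp; omega)).trans
      (H4.CForm.Tr_le_iff.2 fun u c hu hc => ?_))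
    fun g => by rw [Set.mem_setOf, H4.rank_eq_rg (H4.suEquivE_apply h _ g)]
  · have h7 := H4.CForm.det_tv h5.ne
    rw [H4.CForm.E_le_ker_det h6] at h7
    have h8 : (H4.unF h n).Q p = 0 := by simpa [hc] using h7
    exact ⟨h1 c hc (by simpa [H4.CForm.TvOk, h8, -H4.unF_Q] using h5), hp, h8⟩
  · exact hf.exists_E_map (H4.CForm.unit_thick (H4.frobq_ne h) _) hp.1 hp'.1 hp.2 hp'.2
  · by_cases hp : u = 0
    · simp [hp]
    by_cases h0 : c = 0
    · simp [h0]
    exact h1 c h0 hc ▸ hS u ⟨hp, hu⟩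

end Cfsg.Agent.S1631
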