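import Cfsg.Statements.S1634
import Cfsg.Agent.H6.LeN

set_option autoImplicit false
open Cfsg

namespace Cfsg.Agent.S1634

open Cfsg.Agent
open scoped Pointwise commutatorElement

/-- The McLaughlin group acts on 2025 points (minimal vectors orthogonal to v with customary inner product 2 with w) transitively with rank 4 and subdegrees 1, 330, 462, 1232. -/
theorem result (v w : ↥Cfsg.leechLattice) (hv : Cfsg.sqNorm (v : Cfsg.GolayPt → ℤ) = 32) (hw : Cfsg.sqNorm (w : Cfsg.GolayPt → ℤ) = 32) (hvw : Cfsg.dotInt (v : Cfsg.GolayPt → ℤ) (w : Cfsg.GolayPt → ℤ) = -8) : {x : ↥Cfsg.leechLattice | Cfsg.sqNorm (x : Cfsg.GolayPt → ℤ) = 32 ∧ Cfsg.dotInt (v : Cfsg.GolayPt → ℤ) (x : Cfsg.GolayPt → ℤ) = 0 ∧ Cfsg.dotInt (w : Cfsg.GolayPt → ℤ) (x : Cfsg.GolayPt → ℤ) = 16}.ncard = 2025 ∧ (∀ x ∈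 {x : ↥Cfsg.leechLattice | Cfsg.sqNorm (x : Cfsg.GolayPt → ℤ) = 32 ∧ Cfsg.dotInt (v : Cfsg.GolayPt → ℤ) (x : Cfsg.GolayPt → ℤ) = 0 ∧ Cfsg.dotInt (w : Cfsg.GolayPt → ℤ) (x : Cfsg.GolayPt → ℤ) = 16}, ∀ x' ∈ {x : ↥Cfsg.leechLattice | Cfsg.sqNorm (x : Cfsg.GolayPt → ℤ) = 32 ∧ Cfsg.dotInt (v : Cfsg.GolayPt → ℤ) (x : Cfsg.GolayPt → ℤ) = 0 ∧ Cfsg.dotInt (w : Cfsg.GolayPt → ℤ) (x : Cfsg.GolayPt → ℤ) = 16}, ∃ g : ↥Cfsg.Co0, g • v = v ∧ g • w = w ∧ g • x = x') ∧ ∀ x ∈ {x : ↥Cfsg.leechLattice | Cfsg.sqNorm (x : Cfsg.GolayPt → ℤ) = 32 ∧ Cfsg.dotInt (v : Cfsg.GolayPt → ℤ) (x : Cfsg.GolayPt → ℤ) = 0 ∧ Cfsg.dotInt (w : Cfsg.GolayPt → ℤ) (x : Cfsg.GolayPt → ℤ) = 16}, ∃ y₁ ∈ {x : ↥Cfsg.leechLattice | Cfsg.sqNorm (x : Cfsg.GolayPt → ℤ) = 32 ∧ Cfsg.dotInt (v : Cfsg.GolayPt → ℤ) (x : Cfsg.GolayPt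 → ℤ) = 0 ∧ Cfsg.dotInt (w : Cfsg.GolayPt → ℤ) (x : Cfsg.GolayPt → ℤ) = 16}, ∃ y₂ ∈ {x : ↥Cfsg.leechLattice | Cfsg.sqNorm (x : Cfsg.GolayPt → ℤ) = 32 ∧ Cfsg.dotInt (v : Cfsg.GolayPt → ℤ) (x : Cfsg.GolayPt → ℤ) = 0 ∧ Cfsg.dotInt (w : Cfsg.GolayPt → ℤ) (x : Cfsg.GolayPt → ℤ) = 16}, ∃ y₃ ∈ {x : ↥Cfsg.leechLattice | Cfsg.sqNorm (x : Cfsg.GolayPt → ℤ) = 32 ∧ Cfsg.dotInt (v : Cfsg.GolayPt → ℤ) (x : Cfsg.GolayPt → ℤ) = 0 ∧ Cfsg.dotInt (w : Cfsg.GolayPt → ℤ) (x : Cfsg.GolayPt → ℤ) = 16}, (MulAction.orbit ↥(MulAction.stabilizer ↥Cfsg.Co0 v ⊓ MulAction.stabilizer ↥Cfsg.Co0 w ⊓ MulAction.stabilizer ↥Cfsg.Co0 x) y₁).ncard = 330 ∧ (MulAction.orbit ↥(MulAction.stabilizer ↥Cfsg.Co0 v ⊓ MulAction.stabilizer ↥Cfsg.Co0 w ⊓ MulAction.stabilizer ↥Cfsg.Co0 x) y₂).ncard = 462 ∧ (MulAction.orbit ↥(MulAction.stabilizer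 ↥Cfsg.Co0 v ⊓ MulAction.stabilizer ↥Cfsg.Co0 w ⊓ MulAction.stabilizer ↥Cfsg.Co0 x) y₃).ncard = 1232 := by
    obtain ⟨g, rfl, rfl⟩ := H6.Le.pair8 hv hw hvw
    have h := H6.Le.t2025.1.smul g
    refine ⟨by rw [← h.1]; congr 1; ext x; exact H6.Le.sw_iff, fun x hx y hy => ?_, fun x hx => ?_⟩
    · obtain ⟨k, a, b⟩ := h.2 _ _ (H6.Le.sw_iff.1 hx) (H6.Le.sw_iff.1 hy)
      simp only [List.map_cons, List.map_nil, List.forall_mem_cons] at a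
      exact ⟨k, a.2.1, a.1, b⟩
    obtain ⟨k, a, rfl⟩ := H6.TO.std H6.Le.t2025 g (H6.Le.sw_iff.1 hx)
    simp only [List.forall_mem_cons] at a
    obtain ⟨a1, a2, -⟩ := a
    rw [← a1, ← a2]
    have key : ∀ {d : ℤ} {n : ℕ}, 0 < n → H6.TO [(H6.lv H6.Le.rU1, d), (H6.lv H6.Le.rW, 16), (H6.lv H6.Le.rU, 0)] n →
        ∃ y, H6.Cz [(k • H6.lv H6.Le.rW, 16), (k • H6.lv H6.Le.rU, 0)] y ∧ (MulAction.orbit ↥(MulAction.stabilizer Co0 (k • H6.lv H6.Le.rU) ⊓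
          MulAction.stabilizer Co0 (k • H6.lv H6.Le.rW) ⊓ MulAction.stabilizer Co0 (k • H6.lv H6.Le.rU1)) y).ncard = n := fun h0 t => by
      obtain ⟨y, hy⟩ := (t.smul k).ex h0
      exact ⟨y, (H6.cz_cons.1 hy).1, by rw [(t.smul k).orbit (fun q => by simp; tauto) hy, (t.smul k).1]⟩
    obtain ⟨y1, b1, c1⟩ := key (by norm_num) H6.Le.t330
    obtain ⟨y2, b2, c2⟩ := key (by norm_num) H6.Le.t462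
    obtain ⟨y3, b3, c3⟩ := key (by norm_num) H6.Le.t1232
    exact ⟨y1, H6.Le.sw_iff.2 b1, y2, H6.Le.sw_iff.2 b2, y3, H6.Le.sw_iff.2 b3, c1, c2, c3⟩

end Cfsg.Agent.S1634
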