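import Cfsg.Statements.S1635
import Cfsg.Agent.GS.St2
import Cfsg.Agent.H6.Golay

set_option autoImplicit false
open Cfsg

namespace Cfsg.Agent.S1635

/-- Coset leaders of the length-24 code: a coset contains a unique word of weight ≤ 3, or else exactly six words of weight 4 and none lighter. -/
theorem result (w : Cfsg.GolayPt → ZMod 2) : ({v : Cfsg.GolayPt → ZMod 2 | hammingNorm v ≤ 4 ∧ w - v ∈ Cfsg.golayCode}.ncard = 1 ∧ ∃ v : Cfsg.GolayPt → ZMod 2, hammingNorm v ≤ 3 ∧ w - v ∈ Cfsg.golayCode) ∨ ({v : Cfsg.GolayPt → ZMod 2 | hammingNorm v ≤ 4 ∧ w - v ∈ Cfsg.golayCode}.ncard = 6 ∧ ∀ v : Cfsg.GolayPt → ZMod 2, w - v ∈ Cfsg.golayCode → hammingNorm v ≤ 4 → hammingNorm v = 4) := by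
  open Finset Pointwise Cfsg.Agent.St Cfsg.Agent.H6 in focus
    have h : GC csets := ⟨card_golayPt, isCode_supports _, fun s hs => by
      have := card_of_mem_csets hs; rw [← card_eq_zero]; omega, by
      rw [ncard_supports, ← Nat.card_coe_set_eq]; exact card_golayCode⟩
    have e := UF_word (D := (golayCode : Set (GolayPt → ZMod 2))) w
    have e2 : ∀ v : GolayPt → ZMod 2, w - v = v - w := fun v => by rw [sub_eq_add2, sub_eq_add2, add_comm]
    simp only [SetLike.mem_coe] at e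
    simp only [e2, and_comm (a := hammingNorm _ ≤ 4)]
    rw [e, Set.ncard_image_of_injective _ wrd_inj, Set.ncard_coe_finset]
    rcases h.cases (support₂ w) with ⟨u, h1, h2⟩ | ⟨h1, h2⟩
    · refine Or.inl ⟨by rw [h1]; simp, wrd u, by rwa [hn_eq, supp_wrd], ?_⟩
      have : wrd u ∈ wrd '' (UF csets (support₂ w) : Set (Finset GolayPt)) := ⟨u, by rw [h1]; simp, rfl⟩
      rw [← e] at this; exact this.1
    · refine Or.inr ⟨h2, fun v hv hv' => ?_⟩
      have : v ∈ wrd '' (UF csets (support₂ w) : Set (Finset GolayPt)) := e ▸ ⟨hv, hv'⟩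
      obtain ⟨u, hu, rfl⟩ := this
      rw [hn_eq, supp_wrd, h1 u hu]

end Cfsg.Agent.S1635
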