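import Cfsg.Statements.S1636
import Cfsg.Agent.GS.St2
import Cfsg.Agent.H6.M24a

set_option autoImplicit false
open Cfsg

namespace Cfsg.Agent.S1636

section
open Finset Pointwise Cfsg.Agent.St Cfsg.Agent.H6

theorem hn_res (w : GolayPt → ZMod 2) :
    hammingNorm (fun x : ZMod 23 => w (some x)) = ((support₂ w).erase none).card := by
  rw [hammingNorm]
  refine card_bij (fun x _ => some x) ?_ (by simp) ?_
  · intro x hx
    simpa [mem_supp] using hx
  · rintro (_ | x) hx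
    · simp at hx
    · exact ⟨x, by simpa [mem_supp] using hx, rfl⟩

theorem cnt (P : ℕ → Prop) : {u : ZMod 23 → ZMod 2 | u ∈ {u : ZMod 23 → ZMod 2 | ∃ w ∈ Cfsg.golayCode, ∀ x : ZMod 23, u x = w (some x)} ∧ P (hammingNorm u)}.ncard
    = {s | s ∈ csets ∧ P (s.erase none).card}.ncard := by
  symm
  refine Set.ncard_congr (fun s _ x => wrd s (some x)) ?_ ?_ ?_
  · rintro s ⟨h1, h2⟩
    exact ⟨⟨wrd s, mem_supports.1 h1, fun _ => rfl⟩, by rwa [hn_res, supp_wrd]⟩
  · rintro s t ⟨h1, -⟩ ⟨h2, -⟩ e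
    have h3 := card_of_mem_csets (symmDiff_mem_csets h1 h2)
    have h4 : symmDiff s t ⊆ {none} := by
      rintro (_ | x) hx
      · simp
      · have := congrFun e x
        rw [mem_symmDiff] at hx
        simp only [wrd] at this
        split_ifs at this <;> simp_all
    have h5 := card_le_card h4
    rw [card_singleton] at h5
    exact symmDiff_eq_bot.1 (card_eq_zero.1 (by omega))
  · rintro u ⟨⟨w, hw, e⟩, h⟩
    obtain rfl : u = fun x => w (some x) := funext e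
    exact ⟨support₂ w, ⟨supp_mem.2 hw, by rwa [hn_res] at h⟩, by rw [wrd_supp]⟩

theorem er (m : ℕ) : ((fs m).erase none).card = pc (m &&& 0x7fffff) := by
  rw [← card_fs_pc, fs_and]
  congr 1
  have : fs 0x7fffff = {none}ᶜ := by
    rw [← pt_23, ← fs_pow (by omega), ← fs_compl]; rfl
  rw [this]; ext; simp [and_comm]

theorem cnt2 (k : ℕ) {M n : ℕ} (h1 : nall2 (fun u => beqb (tb M u) (Nat.beq (pc (Nat.land (enc u) 0x7fffff)) k)) 64 64 = true) (h2 : popIs 4096 9 M n = true) :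
  {u : ZMod 23 → ZMod 2 | u ∈ {u : ZMod 23 → ZMod 2 | ∃ w ∈ Cfsg.golayCode, ∀ x : ZMod 23, u x = w (some x)} ∧ hammingNorm u = k}.ncard = n := by
  rw [cnt (fun j => j = k)]
  exact ncard_cw (f := fun m => Nat.beq (pc (Nat.land m 0x7fffff)) k) (fun m _ => by rw [beq_eq, er]; rfl) h1 h2

end

/-- The punctured length-23 code has weight distribution 0^1 7^253 8^506 11^1288 12^1288 15^506 16^253 23^1. -/
theorem result : {u : ZMod 23 → ZMod 2 | ∃ w ∈ Cfsg.golayCode, ∀ x : ZMod 23, u x = w (some x)}.ncard = 4096 ∧ {u : ZMod 23 → ZMod 2 | u ∈ {u : ZMod 23 → ZMod 2 | ∃ w ∈ Cfsg.golayCode, ∀ x : ZMod 23, u x = w (some x)} ∧ hammingNorm u = 7}.ncard = 253 ∧ {u : ZMod 23 → ZMod 2 | u ∈ {u : ZMod 23 → ZMod 2 | ∃ w ∈ Cfsg.golayCode, ∀ x : ZMod 23, u x = w (some x)} ∧ hammingNorm u = 8}.ncard = 506 ∧ {u : ZMod 23 → ZMod 2 | u ∈ {u : ZMod 23 → ZMod 2 | ∃ w ∈ Cfsg.golayCode, ∀ x : ZMod 23, u x = w (some x)} ∧ hammingNorm u = 11}.ncard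 = 1288 ∧ {u : ZMod 23 → ZMod 2 | u ∈ {u : ZMod 23 → ZMod 2 | ∃ w ∈ Cfsg.golayCode, ∀ x : ZMod 23, u x = w (some x)} ∧ hammingNorm u = 12}.ncard = 1288 ∧ {u : ZMod 23 → ZMod 2 | u ∈ {u : ZMod 23 → ZMod 2 | ∃ w ∈ Cfsg.golayCode, ∀ x : ZMod 23, u x = w (some x)} ∧ hammingNorm u = 15}.ncard = 506 ∧ {u : ZMod 23 → ZMod 2 | u ∈ {u : ZMod 23 → ZMod 2 | ∃ w ∈ Cfsg.golayCode, ∀ x : ZMod 23, u x = w (some x)} ∧ hammingNorm u = 16}.ncard = 253 ∧ ∀ u ∈ {u : ZMod 23 → ZMod 2 | ∃ w ∈ Cfsg.golayCode, ∀ x : ZMod 23, u x = w (some x)}, u ≠ 0 → 7 ≤ hammingNorm u := by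
  open Finset Pointwise Cfsg.Agent.St Cfsg.Agent.H6 in focus
    refine ⟨?_, cnt2 7 (M := wt8 &&& sC 23) (by decide +kernel) (by decide +kernel),
      cnt2 8 (M := wt8 &&& (sC 23 ^^^ (2 ^ 4096 - 1))) (by decide +kernel) (by decide +kernel),
      cnt2 11 (M := wt12 &&& sC 23) (by decide +kernel) (by decide +kernel),
      cnt2 12 (M := wt12 &&& (sC 23 ^^^ (2 ^ 4096 - 1))) (by decide +kernel) (by decide +kernel),
      cnt2 15 (M := wt16 &&& sC 23) (by decide +kernel) (by decide +kernel),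
      cnt2 16 (M := wt16 &&& (sC 23 ^^^ (2 ^ 4096 - 1))) (by decide +kernel) (by decide +kernel), ?_⟩
    · have := cnt (fun _ => True)
      simp only [and_true, Set.ofPred_mem_eq] at this
      rw [this, ncard_supports, ← Nat.card_coe_set_eq]; exact card_golayCode
    · rintro u ⟨w, hw, e⟩ h0
      obtain rfl : u = fun x => w (some x) := funext e
      rw [hn_res]
      have h1 := card_of_mem_csets (supp_mem.2 hw)
      have := pred_card_le_card_erase (s := support₂ w) (a := none)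
      have h2 : (support₂ w).card ≠ 0 := by
        rw [Ne, card_eq_zero, supp_eq_empty]; rintro rfl; exact h0 rfl
      omega

end Cfsg.Agent.S1636
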