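import Cfsg.Statements.S1637
import Cfsg.Agent.GS.St2
import Cfsg.Agent.H6.Golay

set_option autoImplicit false
open Cfsg

namespace Cfsg.Agent.S1637

section
open Finset Pointwise Cfsg.Agent.St Cfsg.Agent.H6

theorem hd_eq (u : ZMod 23 → ZMod 2) (w v : GolayPt → ZMod 2) (h : ∀ x, u x = v (some x)) :
    hammingDist u (fun x => w (some x)) = ((symmDiff (support₂ w) (support₂ v)).erase none).card := by
  rw [← supp_add, hammingDist]
  refine card_bij (fun x _ => some x) ?_ (by simp) ?_
  · intro x hx
    simp only [mem_filter, mem_univ, true_and, h] at hx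
    simp only [mem_erase, mem_supp, Pi.add_apply]
    refine ⟨by simp, ?_⟩
    revert hx; generalize v (some x) = a; generalize w (some x) = b; revert a b; decide
  · rintro (_ | x) hx
    · simp at hx
    · refine ⟨x, ?_, rfl⟩
      simp only [mem_erase, mem_supp, Pi.add_apply] at hx
      simp only [mem_filter, mem_univ, true_and, h]
      have := hx.2
      revert this; generalize v (some x) = a; generalize w (some x) = b; revert a b; decide

end

/-- The punctured length-23 code is a perfect 3-error-correcting code: each word of length 23 is within distance 3 of exactly one codeword. -/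
theorem result (u : ZMod 23 → ZMod 2) : ∃! c : ZMod 23 → ZMod 2, c ∈ {u : ZMod 23 → ZMod 2 | ∃ w ∈ Cfsg.golayCode, ∀ x : ZMod 23, u x = w (some x)} ∧ hammingDist u c ≤ 3 := by
  open Finset Pointwise Cfsg.Agent.St Cfsg.Agent.H6 in focus
    have h : GC csets := ⟨card_golayPt, isCode_supports _, fun s hs => by
      have := card_of_mem_csets hs; rw [← card_eq_zero]; omega, by
      rw [ncard_supports, ← Nat.card_coe_set_eq]; exact card_golayCode⟩
    obtain ⟨v, hv, hodd⟩ : ∃ v : GolayPt → ZMod 2, (∀ x, u x = v (some x)) ∧ (support₂ v).card % 2 = 1 := by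
      by_cases h0 : (support₂ (fun p : GolayPt => p.elim 0 u)).card % 2 = 1
      · exact ⟨_, fun _ => rfl, h0⟩
      · refine ⟨fun p : GolayPt => p.elim 1 u, fun _ => rfl, ?_⟩
        have : support₂ (fun p : GolayPt => p.elim 1 u) = insert none (support₂ (fun p : GolayPt => p.elim 0 u)) := by
          ext (_ | x) <;> simp [mem_supp]
        rw [this, card_insert_of_notMem (by simp [mem_supp])]; omega
    have par : ∀ s, symmDiff s (support₂ v) ∈ csets → s.card % 2 = 1 := by
      intro s hs
      have := h.four hs; have := card_sd s (support₂ v); omega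
    rcases h.cases (support₂ v) with ⟨s, h1, h2⟩ | ⟨h1, h2⟩
    · have hs : s ∈ UF csets (support₂ v) := by rw [h1]; simp
      obtain ⟨w, hw, e⟩ := (mem_UF.1 hs).1
      refine ⟨fun x => w (some x), ⟨⟨w, hw, fun _ => rfl⟩, ?_⟩, ?_⟩
      · rw [hd_eq u w v hv, e, symmDiff_symmDiff_cancel_right]
        exact card_erase_le.trans h2
      · rintro c ⟨⟨w', hw', e'⟩, hc⟩
        obtain rfl : c = fun x => w' (some x) := funext e'
        rw [hd_eq u w' v hv] at hc
        have h3 : symmDiff (support₂ w') (support₂ v) ∈ UF csets (support₂ v) := by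
          refine mem_UF.2 ⟨by rw [symmDiff_symmDiff_cancel_right]; exact supp_mem.2 hw', ?_⟩
          have := pred_card_le_card_erase (s := symmDiff (support₂ w') (support₂ v)) (a := none)
          omega
        rw [h1, mem_singleton] at h3
        rw [← h3, symmDiff_symmDiff_cancel_right] at e
        rw [supp_inj e]
    · obtain ⟨s, hs⟩ : (UF csets (support₂ v)).Nonempty := card_pos.1 (by omega)
      have := par s (mem_UF.1 hs).1
      have := h1 s hs
      omega

end Cfsg.Agent.S1637
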