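import Cfsg.Statements.S1638
import Cfsg.Agent.GS.St7
import Cfsg.Agent.S1562

set_option autoImplicit false
open scoped Pointwise
open Cfsg

namespace Cfsg.Agent.S1638

/-- Fix two points p ≠ q and a pair s of two further points. Among the pairs avoiding p, q and disjoint from s, exactly 30 lie in an octad together with p, q and s and exactly 160 do not; and any two pairs other than s that meet s in equally many points and agree on that octad property are carried to one another by an element of the group of the length-24 code fixing p, q and s. -/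
theorem result (p q : Cfsg.GolayPt) (hpq : p ≠ q) (s : Finset Cfsg.GolayPt) (hs : (s.card = 2 ∧ p ∉ s ∧ q ∉ s)) : {t : Finset Cfsg.GolayPt | (t.card = 2 ∧ p ∉ t ∧ q ∉ t) ∧ Disjoint s t ∧ (∃ o ∈ Cfsg.octads, p ∈ o ∧ q ∈ o ∧ s ∪ t ⊆ o)}.ncard = 30 ∧ {t : Finset Cfsg.GolayPt | (t.card = 2 ∧ p ∉ t ∧ q ∉ t) ∧ Disjoint s t ∧ ¬ (∃ o ∈ Cfsg.octads, p ∈ o ∧ q ∈ o ∧ s ∪ t ⊆ o)}.ncard = 160 ∧ ∀ t t' : Finset Cfsg.GolayPt, (t.card = 2 ∧ p ∉ t ∧ q ∉ t) → (t'.card = 2 ∧ p ∉ t' ∧ q ∉ t') → t ≠ s → t' ≠ s → (s ∩ t).card = (s ∩ t').card → ((∃ o ∈ Cfsg.octads, p ∈ o ∧ q ∈ o ∧ s ∪ t ⊆ o) ↔ (∃ o ∈ Cfsg.octads, p ∈ o ∧ q ∈ o ∧ s ∪ t' ⊆ o)) → ∃ g : Equiv.Perm Cfsg.GolayPt, g ∈ Cfsg.M24 ∧ g p = p ∧ g q = q ∧ g • s = s ∧ g • t = t' := by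
  open Finset Pointwise Cfsg.Agent.St Cfsg.Agent.H6 in focus
    classical
    have hφ : ∀ (g : M24) (a : (GolayPt × GolayPt) × Finset GolayPt) (t : Finset GolayPt),
        (((g • a).2 ∩ g • t).card, decide ((g • a).1.1 ∈ g • t), decide ((g • a).1.2 ∈ g • t), decide (∃ o ∈ octads, (g • a).1.1 ∈ o ∧ (g • a).1.2 ∈ o ∧ (g • a).2 ∪ g • t ⊆ o)) =
        ((a.2 ∩ t).card, decide (a.1.1 ∈ t), decide (a.1.2 ∈ t), decide (∃ o ∈ octads, a.1.1 ∈ o ∧ a.1.2 ∈ o ∧ a.2 ∪ t ⊆ o)) := by
      rintro g ⟨⟨p, q⟩, s⟩ t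
      simp only [Prod.smul_mk, H6.card_inter_smul, ← smul_finset_union, smul_mem_smul_finset_iff]
      congr 4
      exact propext ⟨fun ⟨o, h1, h2, h3, h4⟩ => ⟨g⁻¹ • o, smul_mem_octads _ h1, mem_inv_smul_finset_iff.2 h2, mem_inv_smul_finset_iff.2 h3, smul_finset_subset_iff.1 h4⟩,
        fun ⟨o, h1, h2, h3, h4⟩ => ⟨g • o, smul_mem_octads _ h1, smul_mem_smul_finset h2, smul_mem_smul_finset h3, smul_finset_subset_smul_finset h4⟩⟩
    have h0 := part_P2s_Pr
    rw [rng_prX, ← stab_prod, ← stab_prod] at h0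
    have s1 : prX 22 = fs 0x6 := prX_eq (by decide +kernel)
    have s2 : prX 1 = fs 0x800002 := prX_eq (by decide +kernel)
    have s3 : prX 8 = fs 0x3 := prX_eq (by decide +kernel)
    have s4 : prX 2 = fs 0xc00000 := prX_eq (by decide +kernel)
    have s5 : prX 4 = fs 0x400001 := prX_eq (by decide +kernel)
    have s6 : prX 36 = fs 0x402000 := prX_eq (by decide +kernel)
    have s7 : prX 29 = fs 0x1002 := prX_eq (by decide +kernel)
    have s8 : prX 14 = fs 0x600000 := prX_eq (by decide +kernel)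
    have e : ∀ m, (∃ o ∈ octads, pt 23 ∈ o ∧ pt 0 ∈ o ∧ fs m ⊆ o) ↔ ∃ o ∈ octads, fs (0x800001 ||| m) ⊆ o := by
      intro m
      have : fs 0x800001 = {pt 23, pt 0} := by ext p; rw [mem_fs]; revert p; decide
      simp only [fs_or, this, union_subset_iff, insert_subset_iff, singleton_subset_iff, and_assoc]
    have y : ∀ {m : ℕ}, pc m ≤ 5 → decide (∃ o ∈ octads, fs m ⊆ o) = true :=
      fun h1 => decide_eq_true (exists_octad (by rwa [card_fs_pc]))
    have ha : ((p, q), s) ∈ MulAction.orbit M24 ((pt 23, pt 0), prX 22) := by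
      obtain ⟨a, b, hab, rfl⟩ := card_eq_two.1 hs.1
      simp only [mem_insert, mem_singleton, not_or] at hs
      obtain ⟨g, hg⟩ := exists_M24 (k := 4) (by omega) (x := ![pt 23, pt 0, pt 1, pt 2]) (y := ![p, q, a, b]) (by decide) (by
        intro i j
        fin_cases i <;> fin_cases j <;> simp [hpq, hab, hs, hpq.symm, hab.symm, Ne.symm hs.2.1.1, Ne.symm hs.2.1.2, Ne.symm hs.2.2.1, Ne.symm hs.2.2.2])
      refine ⟨g, Prod.ext (Prod.ext (hg 0) (hg 1)) ?_⟩
      have : fs 0x6 = {pt 1, pt 2} := by ext p; rw [mem_fs]; revert p; decide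
      change g • prX 22 = {a, b}
      rw [s1, this, smul_finset_insert, smul_finset_singleton, show g • pt 1 = a from hg 2, show g • pt 2 = b from hg 3]
    have := classify (G := M24) (fun _ : (GolayPt × GolayPt) × Finset GolayPt => {U : Finset GolayPt | U.card = 2})
      (fun a t => ((a.2 ∩ t).card, decide (a.1.1 ∈ t), decide (a.1.2 ∈ t), decide (∃ o ∈ octads, a.1.1 ∈ o ∧ a.1.2 ∈ o ∧ a.2 ∪ t ⊆ o)))
      (fun g _ _ h => by rwa [Set.mem_ofPred_eq, card_smul_finset]) hφ h0
      (vs := [((0, true, true, true), 1), ((2, false, false, true), 1), ((1, true, false, true), 2), ((1, false, true, true), 2), ((0, true, false, true), 20), ((0, false, true, true), 20), ((0, false, false, true), 30), ((1, false, false, true), 40), ((0, false, false, false), 160)]) (by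
        simp only [List.map, prX_0, s1, s2, s3, s4, s5, s6, s7, s8, ← fs_and, ← fs_or, card_fs_pc, e, mem_fs]
        rw [y (by decide +kernel), y (by decide +kernel), y (by decide +kernel), y (by decide +kernel), y (by decide +kernel), y (by decide +kernel),
          decide_eq_true (p := ∃ o ∈ octads, fs (0x800001 ||| (0x6 ||| 0x402000)) ⊆ o) ⟨_, fs_mem_octads (m := 0xc12017) (by decide +kernel), fs_subset (by decide)⟩, y (by decide +kernel),
          decide_eq_false (S1562.noOct (a := 0x600527) (by decide +kernel) (by decide +kernel) (by decide +kernel))]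
        decide +kernel)
      (by decide) ha
    refine ⟨?_, ?_, fun U U' h1 h2 _ _ h5 h6 => ?_⟩
    · rw [← show _ = 30 from this.1 ((0, false, false, true), 30) (by simp)]
      congr 1; ext U; simp only [Set.mem_ofPred_eq, Prod.mk.injEq, card_eq_zero, disjoint_iff_inter_eq_empty, decide_eq_true_eq, decide_eq_false_iff_not]; tauto
    · rw [← show _ = 160 from this.1 ((0, false, false, false), 160) (by simp)]
      congr 1; ext U; simp only [Set.mem_ofPred_eq, Prod.mk.injEq, card_eq_zero, disjoint_iff_inter_eq_empty, decide_eq_true_eq, decide_eq_false_iff_not]; tauto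
    · obtain ⟨g, hg, hg'⟩ := this.2.1 U h1.1 U' h2.1 (by simp only [h1, h2, h5, h6])
      exact ⟨g, g.2, congrArg (·.1.1) hg, congrArg (·.1.2) hg, congrArg (·.2) hg, hg'⟩

end Cfsg.Agent.S1638
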