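import Cfsg.Statements.S1639
import Cfsg.Agent.H6.M24d

set_option autoImplicit false
open scoped Pointwise
open Cfsg

namespace Cfsg.Agent.S1639

open Cfsg.Agent
open scoped Pointwise commutatorElement

/-- The point stabiliser acts on the 1288 dodecads through the point with rank 4 and subdegrees 1, 165, 330, 792, distinguished by intersection 4, 8, 6 with the fixed dodecad. -/
theorem result (x : Cfsg.GolayPt) (d : Finset Cfsg.GolayPt) (hd : d ∈ Cfsg.dodecads) (hx : x ∈ d) : {d' : Finset Cfsg.GolayPt | d' ∈ Cfsg.dodecads ∧ x ∈ d' ∧ (d ∩ d').card = 4}.ncard = 165 ∧ {d' : Finset Cfsg.GolayPt | d' ∈ Cfsg.dodecads ∧ x ∈ d' ∧ (d ∩ d').card = 8}.ncard = 330 ∧ {d' : Finset Cfsg.GolayPt | d' ∈ Cfsg.dodecads ∧ x ∈ d' ∧ (d ∩ d').card = 6}.ncard = 792 ∧ ∀ d' d'' : Finset Cfsg.GolayPt, d' ∈ Cfsg.dodecads → d'' ∈ Cfsg.dodecads → x ∈ d' → x ∈ d'' → (d ∩ d').card = (d ∩ d'').card → ∃ g : Equiv.Perm Cfsg.GolayPt, g ∈ Cfsg.M24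 ∧ g x = x ∧ g • d = d ∧ g • d' = d'' := by
  have h0 := H6.part_D1_C12
  rw [H6.pts_and_sC _ (by norm_num), H6.pts_wt12, ← H6.stab_prod] at h0
  have := H6.classify (G := M24) (fun a : Finset GolayPt × GolayPt => {o | o ∈ dodecads ∧ a.2 ∈ o})
    (fun a y => (a.1 ∩ y).card)
    (fun g _ _ h => ⟨H6.smul_mem_dodecads g h.1, Finset.smul_mem_smul_finset h.2⟩)
    (fun g a y => H6.card_inter_smul g a.1 y) h0
    (vs := [(12, 1), (4, 165), (8, 330), (6, 792)]) (by simp only [List.map, H6.card_cw_inter]; decide +kernel)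
    (by decide) (H6.orbit_dp hd hx)
  refine ⟨by simpa [and_assoc] using this.1 (4, 165) (by simp), by simpa [and_assoc] using this.1 (8, 330) (by simp),
    by simpa [and_assoc] using this.1 (6, 792) (by simp), fun o' o'' ho' ho'' h1 h2 h => ?_⟩
  obtain ⟨g, a, b⟩ := this.2.1 o' ⟨ho', h1⟩ o'' ⟨ho'', h2⟩ h
  simp only [Prod.smul_mk, Prod.mk.injEq] at a
  exact ⟨g, g.2, a.2, a.1, b⟩

end Cfsg.Agent.S1639
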