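import Cfsg.Statements.S1640
import Cfsg.Agent.H6.LeM

set_option autoImplicit false
open Cfsg

namespace Cfsg.Agent.S1640

open Cfsg.Agent
open scoped Pointwise commutatorElement

/-- The stabiliser of a vector of customary norm 6 is transitive on the 11178 minimal vectors of customary inner product −2 with it. -/
theorem result (u : ↥Cfsg.leechLattice) (hu : Cfsg.sqNorm (u : Cfsg.GolayPt → ℤ) = 48) : {x : ↥Cfsg.leechLattice | Cfsg.sqNorm (x : Cfsg.GolayPt → ℤ) = 32 ∧ Cfsg.dotInt (u : Cfsg.GolayPt → ℤ) (x : Cfsg.GolayPt → ℤ) = -16}.ncard = 11178 ∧ ∀ x ∈ {x : ↥Cfsg.leechLattice | Cfsg.sqNorm (x : Cfsg.GolayPt → ℤ) = 32 ∧ Cfsg.dotInt (u : Cfsg.GolayPt → ℤ) (x : Cfsg.GolayPt → ℤ) = -16}, ∀ x' ∈ {x : ↥Cfsg.leechLattice | Cfsg.sqNorm (x : Cfsg.GolayPt → ℤ) = 32 ∧ Cfsg.dotInt (u : Cfsg.GolayPt → ℤ) (x : Cfsg.GolayPt → ℤ) = -16}, ∃ g : ↥Cfsg.Co0, g • u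 = u ∧ g • x = x' := by
    obtain ⟨g, rfl⟩ := H6.Le.ex48 hu
    have h := H6.Le.t11178.1.smul g
    refine ⟨by rw [← h.1]; congr 1; ext x; exact H6.cz1.symm, fun x hx y hy => ?_⟩
    obtain ⟨k, a, b⟩ := h.2 _ _ (H6.cz1.2 hx) (H6.cz1.2 hy)
    exact ⟨k, a _ List.mem_cons_self, b⟩

end Cfsg.Agent.S1640
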