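import Cfsg.Statements.S1641
import Cfsg.Agent.H6.LeN

set_option autoImplicit false
open Cfsg

namespace Cfsg.Agent.S1641

open Cfsg.Agent
open scoped Pointwise commutatorElement

/-- The third Conway group acts on the 11178 cosets of the Higman–Sims group with rank 5 and subdegrees 1, 352, 1100, 4125, 5600. -/
theorem result (u x : ↥Cfsg.leechLattice) (hu : Cfsg.sqNorm (u : Cfsg.GolayPt → ℤ) = 48) (hx : x ∈ {x : ↥Cfsg.leechLattice | Cfsg.sqNorm (x : Cfsg.GolayPt → ℤ) = 32 ∧ Cfsg.dotInt (u : Cfsg.GolayPt → ℤ) (x : Cfsg.GolayPt → ℤ) = -16}) : ∃ y₁ ∈ {x : ↥Cfsg.leechLattice | Cfsg.sqNorm (x : Cfsg.GolayPt → ℤ) = 32 ∧ Cfsg.dotInt (u : Cfsg.GolayPt → ℤ) (x : Cfsg.GolayPt → ℤ) = -16}, ∃ y₂ ∈ {x : ↥Cfsg.leechLattice | Cfsg.sqNorm (x : Cfsg.GolayPt → ℤ) = 32 ∧ Cfsg.dotInt (u : Cfsg.GolayPt → ℤ) (x : Cfsg.GolayPt → ℤ) = -16}, ∃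 y₃ ∈ {x : ↥Cfsg.leechLattice | Cfsg.sqNorm (x : Cfsg.GolayPt → ℤ) = 32 ∧ Cfsg.dotInt (u : Cfsg.GolayPt → ℤ) (x : Cfsg.GolayPt → ℤ) = -16}, ∃ y₄ ∈ {x : ↥Cfsg.leechLattice | Cfsg.sqNorm (x : Cfsg.GolayPt → ℤ) = 32 ∧ Cfsg.dotInt (u : Cfsg.GolayPt → ℤ) (x : Cfsg.GolayPt → ℤ) = -16}, (MulAction.orbit ↥(MulAction.stabilizer ↥Cfsg.Co0 u ⊓ MulAction.stabilizer ↥Cfsg.Co0 x) y₁).ncard = 352 ∧ (MulAction.orbit ↥(MulAction.stabilizer ↥Cfsg.Co0 u ⊓ MulAction.stabilizer ↥Cfsg.Co0 x) y₂).ncard = 1100 ∧ (MulAction.orbit ↥(MulAction.stabilizer ↥Cfsg.Co0 u ⊓ MulAction.stabilizer ↥Cfsg.Co0 x) y₃).ncard = 4125 ∧ (MulAction.orbit ↥(MulAction.stabilizer ↥Cfsg.Co0 u ⊓ MulAction.stabilizer ↥Cfsg.Co0 x) y₄).ncard = 5600 ∧ {x : ↥Cfsg.leechLattice | Cfsg.sqNorm (x : Cfsg.GolayPt → ℤ) = 32 ∧ Cfsg.dotInt (u : Cfsg.GolayPt → ℤ) (x : Cfsg.GolayPt → ℤ)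 = -16} = {x} ∪ MulAction.orbit ↥(MulAction.stabilizer ↥Cfsg.Co0 u ⊓ MulAction.stabilizer ↥Cfsg.Co0 x) y₁ ∪ MulAction.orbit ↥(MulAction.stabilizer ↥Cfsg.Co0 u ⊓ MulAction.stabilizer ↥Cfsg.Co0 x) y₂ ∪ MulAction.orbit ↥(MulAction.stabilizer ↥Cfsg.Co0 u ⊓ MulAction.stabilizer ↥Cfsg.Co0 x) y₃ ∪ MulAction.orbit ↥(MulAction.stabilizer ↥Cfsg.Co0 u ⊓ MulAction.stabilizer ↥Cfsg.Co0 x) y₄ := by
    obtain ⟨k, rfl, rfl⟩ := H6.Le.pair16 hu hx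
    have key : ∀ {d : ℤ} {n : ℕ}, 0 < n → H6.TO [(H6.lv H6.Le.rU1, d), (H6.lv H6.Le.rV, -16)] n →
        ∃ y, H6.Cz [(k • H6.lv H6.Le.rV, -16)] y ∧ (MulAction.orbit ↥(MulAction.stabilizer Co0 (k • H6.lv H6.Le.rV) ⊓
          MulAction.stabilizer Co0 (k • H6.lv H6.Le.rU1)) y).ncard = n ∧ MulAction.orbit ↥(MulAction.stabilizer Co0 (k • H6.lv H6.Le.rV) ⊓
          MulAction.stabilizer Co0 (k • H6.lv H6.Le.rU1)) y = {x | H6.Cz [(k • H6.lv H6.Le.rU1, d), (k • H6.lv H6.Le.rV, -16)] x} := fun h0 t => by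
      obtain ⟨y, hy⟩ := (t.smul k).ex h0
      have e := (t.smul k).orbit (K := MulAction.stabilizer Co0 (k • H6.lv H6.Le.rV) ⊓
          MulAction.stabilizer Co0 (k • H6.lv H6.Le.rU1)) (fun q => by simp; tauto) hy
      exact ⟨y, (H6.cz_cons.1 hy).1, by rw [e, (t.smul k).1], e⟩
    obtain ⟨y1, b1, c1, e1⟩ := key (by norm_num) H6.Le.w352
    obtain ⟨y2, b2, c2, e2⟩ := key (by norm_num) H6.Le.w1100
    obtain ⟨y3, b3, c3, e3⟩ := key (by norm_num) H6.Le.w4125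
    obtain ⟨y4, b4, c4, e4⟩ := key (by norm_num) H6.Le.w5600
    refine ⟨y1, H6.cz1.1 b1, y2, H6.cz1.1 b2, y3, H6.cz1.1 b3, y4, H6.cz1.1 b4, c1, c2, c3, c4, ?_⟩
    rw [e1, e2, e3, e4]
    ext y
    simp only [Set.mem_union, Set.mem_setOf_eq, Set.mem_singleton_iff, ← H6.cz1]
    refine ⟨fun hy => ?_, ?_⟩
    · have := H6.Le.cover (H6.Le.t11178.1.smul k) (H6.cz1.2 hx) [(-8, 352), (16, 1100), (0, 4125), (8, 5600)] (by decide)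
        (by simpa using ⟨H6.Le.w352.smul k, H6.Le.w1100.smul k, H6.Le.w4125.smul k, H6.Le.w5600.smul k⟩) (by norm_num) hy
      simp only [List.map_cons, List.map_nil, List.mem_cons, List.not_mem_nil, or_false] at this
      simp only [H6.cz_cons (l := [_]), hy, true_and]; tauto
    · rintro ((((h | h) | h) | h) | h)
      · exact h ▸ H6.cz1.2 hx
      all_goals exact (H6.cz_cons.1 h).1

end Cfsg.Agent.S1641
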