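import Cfsg.Statements.S1642
import Cfsg.Agent.H6.LeN

set_option autoImplicit false
open Cfsg

namespace Cfsg.Agent.S1642

open Cfsg.Agent
open scoped Pointwise commutatorElement

/-- Some involution of the Higman–Sims group acts without fixed points on its 100 points. -/
theorem result (v w : ↥Cfsg.leechLattice) (hv : Cfsg.sqNorm (v : Cfsg.GolayPt → ℤ) = 48) (hw : Cfsg.sqNorm (w : Cfsg.GolayPt → ℤ) = 48) (hvw : Cfsg.dotInt (v : Cfsg.GolayPt → ℤ) (w : Cfsg.GolayPt → ℤ) = -32) : ∃ g : ↥Cfsg.Co0, g • v = v ∧ g • w = w ∧ orderOf g = 2 ∧ ∀ x ∈ {x : ↥Cfsg.leechLattice | Cfsg.sqNorm (x : Cfsg.GolayPt → ℤ) = 32 ∧ Cfsg.dotInt (v : Cfsg.GolayPt → ℤ) (x : Cfsg.GolayPt → ℤ) = 24 ∧ Cfsg.dotInt (w : Cfsg.GolayPt → ℤ) (x : Cfsg.GolayPt → ℤ) = -24}, g • x ≠ x := by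
    obtain ⟨g, rfl, rfl⟩ := H6.Le.pairH hv hw hvw
    set t := H6.wp H6.Le.Hs.g0H H6.Le.Hs.wfp
    have ht : t ∈ H6.FixV [H6.Le.rV2, H6.Le.rV] := H6.Le.fix_V2V ▸ H6.wp_mem fun l _ => H6.Le.Hs.hKH l
    have hr : H6.rng 100 (H6.LX 4 H6.Le.Hs.mvS) = {x | H6.Cz [(H6.lv H6.Le.rV2, -24), (H6.lv H6.Le.rV, 24)] x} := by
      refine Set.eq_of_subset_of_ncard_le ?_ (by rw [H6.Le.t100.1.1, H6.Le.Hs.mvm0.ncard_rng]) (H6.Le.fin_cz _)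
      rw [← H6.Le.Hs.orb100, H6.LX_eq_lv (r := H6.Le.rN) (by decide +kernel),
        ← H6.Le.t100.1.orbit (K := H6.FixV [H6.Le.rV2, H6.Le.rV]) (fun q => by simp [H6.Le.fixV2]) H6.Le.t100.2]
      rintro _ ⟨k, rfl⟩
      exact ⟨⟨k, (H6.Le.fix_V2V ▸ H6.cl_le_of_all H6.Le.Hs.hKH _ : _ ≤ H6.FixV [H6.Le.rV2, H6.Le.rV]) k.2⟩, rfl⟩
    have hf : ∀ x, H6.Cz [(H6.lv H6.Le.rV2, -24), (H6.lv H6.Le.rV, 24)] x → t • x ≠ x := fun x hx e => by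
      have := (Set.ncard_eq_zero ((H6.finite_rng _ _).subset fun _ h => h.1)).1 H6.Le.Hs.fp0
      exact this.le (⟨hr ▸ hx, e⟩ : x ∈ {y | y ∈ H6.rng 100 (H6.LX 4 H6.Le.Hs.mvS) ∧ t • y = y})
    refine ⟨g * t * g⁻¹, H6.conj_smul' g t (H6.Le.fixV2.1 ht).2, H6.conj_smul' g t (H6.Le.fixV2.1 ht).1, ?_, fun x hx e => ?_⟩
    · have h2 : t ^ 2 = 1 := by
        have := congrArg Subtype.val H6.Le.Hs.fp2
        rwa [Subgroup.coe_pow, H6.Le.Hs.gH, H6.wp_subA] at this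
      rw [← MulAut.conj_apply, MulEquiv.orderOf_eq]
      exact H6.orderOf_two (by rw [← pow_two, h2]) fun c => hf _ H6.Le.t100.2 (by rw [c, one_smul])
    · refine hf (g⁻¹ • x) ((H6.cz_smul g _).1 (by rw [smul_inv_smul]; exact H6.Le.sw_iff.1 hx)) ?_
      rwa [mul_smul, mul_smul, smul_eq_iff_eq_inv_smul] at e

end Cfsg.Agent.S1642
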