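import Cfsg.Statements.S1643
import Cfsg.Agent.GS.Mk7

set_option autoImplicit false
open scoped Pointwise
open Cfsg

namespace Cfsg.Agent.S1643

/-- PSL(2, 23) = ⟨t ↦ t+1, t ↦ u t (u square), t ↦ −1/t⟩ is maximal of order 6072 in the group of the length-24 code, and its point stabiliser 23:11 (order 253) is maximal in the Mathieu group of degree 23. -/
theorem result : (Subgroup.closure ({Equiv.optionCongr (Equiv.addRight (1 : ZMod 23)), Cfsg.projInv} ∪ {g : Equiv.Perm Cfsg.GolayPt | ∃ u : (ZMod 23)ˣ, IsSquare u ∧ g = Equiv.optionCongr (Units.mulLeft u)}) ≤ Cfsg.M24 ∧ Nat.card ↥(Subgroup.closure ({Equiv.optionCongr (Equiv.addRight (1 : ZMod 23)), Cfsg.projInv} ∪ {g : Equiv.Perm Cfsg.GolayPt | ∃ u : (ZMod 23)ˣ, IsSquare u ∧ g = Equiv.optionCongr (Units.mulLeft u)})) = 6072 ∧ IsCoatom ((Subgroup.closure ({Equiv.optionCongr (Equiv.addRight (1 : ZMod 23)), Cfsg.projInv} ∪ {g : Equiv.Perm Cfsg.GolayPt | ∃ u : (ZMod 23)ˣ, IsSquare u ∧ g =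 Equiv.optionCongr (Units.mulLeft u)})).subgroupOf Cfsg.M24)) ∧ (Subgroup.closure ({Equiv.optionCongr (Equiv.addRight (1 : ZMod 23))} ∪ {g : Equiv.Perm Cfsg.GolayPt | ∃ u : (ZMod 23)ˣ, IsSquare u ∧ g = Equiv.optionCongr (Units.mulLeft u)}) ≤ Cfsg.M24 ⊓ MulAction.stabilizer (Equiv.Perm Cfsg.GolayPt) (none : Cfsg.GolayPt) ∧ Nat.card ↥(Subgroup.closure ({Equiv.optionCongr (Equiv.addRight (1 : ZMod 23))} ∪ {g : Equiv.Perm Cfsg.GolayPt | ∃ u : (ZMod 23)ˣ, IsSquare u ∧ g = Equiv.optionCongr (Units.mulLeft u)})) = 253 ∧ IsCoatom (((Subgroup.closure ({Equiv.optionCongr (Equiv.addRight (1 : ZMod 23))} ∪ {g : Equiv.Perm Cfsg.GolayPt | ∃ u : (ZMod 23)ˣ, IsSquare u ∧ g = Equiv.optionCongr (Units.mulLeft u)})).subgroupOf Cfsg.M24).subgroupOf (MulAction.stabilizer Cfsg.M24 (none : Cfsg.GolayPt)))) := by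
  open Finset Pointwise Cfsg.Agent.St Cfsg.Agent.H6 in focus
    have e1 := L23_eq
    have e2 := K23_eq
    unfold pAlpha at e1 e2
    have c : ∀ K : Subgroup M24, (K.map M24.subtype).subgroupOf M24 = K := fun K => Subgroup.comap_map_eq_self_of_injective M24.subtype_injective K
    rw [e1, e2, c, c, Subgroup.card_subtype, Subgroup.card_subtype]
    refine ⟨⟨Subgroup.map_subtype_le _, card_L23, fun h => ?_, fun H h => max_L23 h⟩, le_inf (Subgroup.map_subtype_le _) ?_, card_K23, fun h => ?_, fun H h => ?_⟩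
    · have := card_L23
      rw [h, Subgroup.card_top, card_M24] at this
      omega
    · rintro _ ⟨g, hg, rfl⟩
      exact K23_le hg
    · have := card_subgroupOf' K23_le
      rw [show (cl mg LK23.ws).subgroupOf (MulAction.stabilizer M24 (pt 23)) = ⊤ from h, Subgroup.card_top, card_P1, card_K23] at this
      omega
    · rcases max_K23 (H := H.map (Subgroup.subtype _)) (fun g hg => ⟨⟨g, K23_le hg⟩, h.le hg, rfl⟩) (Subgroup.map_subtype_le _) with e | e
      · exact absurd (le_antisymm h.le fun g hg => e.le ⟨g, hg, rfl⟩) h.ne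
      · exact eq_top_iff.2 fun g _ => (Subgroup.mem_map_iff_mem (Subgroup.subtype_injective _)).1 (e.ge g.2)

end Cfsg.Agent.S1643
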