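import Cfsg.Statements.S1666
import Cfsg.Agent.GS.HS3
import Cfsg.Agent.H6.MathK

set_option autoImplicit false
open Cfsg

namespace Cfsg.Agent.S1666

/-- Recognition of the Higman–Sims group as a rank 3 permutation group: a transitive permutation group on 100 points in which the stabiliser of a point is isomorphic to the Mathieu group M₂₂ and has two further orbits, of sizes 22 and 77, is isomorphic to the Higman–Sims group. -/
theorem result {Ω : Type*} [Fintype Ω] [DecidableEq Ω] (hΩ : Fintype.card Ω = 100) (G : Subgroup (Equiv.Perm Ω)) [MulAction.IsPretransitive G Ω] (a : Ω)  (e : MulAction.stabilizer G a ≃* Cfsg.Spor.M22) (b c : Ω) (hb : (MulAction.orbit (MulAction.stabilizer G a) b).ncard = 22) (hc : (MulAction.orbit (MulAction.stabilizer G a) c).ncard = 77) : Cfsg.Spor.IsoHS G := by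
  open Finset Pointwise Cfsg.Agent.St Cfsg.Agent.H6 in focus
    classical
    obtain ⟨Γ, h1, h2, h3⟩ := rank3_graph hΩ hb hc (by norm_num) (by norm_num) (by norm_num) rfl
    obtain ⟨l, m, hS⟩ := h3
    replace hS := srg_100_22 hS h2
    obtain ⟨φ, hφ⟩ := hs_embed hS
    haveI := Le.Hs.simpleH
    haveI : Finite (Γ ≃g Γ) := Nat.finite_of_card_ne_zero (by rw [card_aut_hs hS]; norm_num)
    have c : Nat.card G = 44352000 := by
      rw [← (MulAction.stabilizer G a).index_mul_card, Nat.card_congr e.toEquiv, card_M22, MulAction.index_stabilizer_of_transitive,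
        Nat.card_eq_fintype_card, hΩ]
    obtain ⟨e'⟩ := equiv_of_index_two (φ := toAut h1) ((injective_iff_map_eq_one _).2 fun g hg =>
      Subtype.ext (Equiv.ext fun x => DFunLike.congr_fun hg x)) hφ (by norm_num) c Le.C3.cardH (card_aut_hs hS)
    exact ⟨e'.trans Le.eHS⟩

end Cfsg.Agent.S1666
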