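import Cfsg.Statements.S1684
import Cfsg.Agent.H6.U6c1

set_option autoImplicit false
open Cfsg

namespace Cfsg.Agent.S1684

open Cfsg.Agent
open scoped Pointwise commutatorElement
open H6 H6.Fi Spor.Fi22

/-- In the presented Fischer group Fi₂₂, the subgroup generated by the images of a, c, d, e, f, g, h, i and (abcdeh)^5 is a non-split double cover of PSU(6, 2) (realised over a field with four elements). -/
theorem result : ∃ (K : Type) (_ : Field K) (_ : Fintype K), Fintype.card K = 4 ∧ Cfsg.IsNonsplitDoubleCover (((Subgroup.closure ({Cfsg.Spor.Fi22.a, Cfsg.Spor.Fi22.c, Cfsg.Spor.Fi22.d, Cfsg.Spor.Fi22.e, Cfsg.Spor.Fi22.f, Cfsg.Spor.Fi22.g, Cfsg.Spor.Fi22.h, Cfsg.Spor.Fi22.i, (Cfsg.Spor.Fi22.a * Cfsg.Spor.Fi22.b * Cfsg.Spor.Fi22.c * Cfsg.Spor.Fi22.d * Cfsg.Spor.Fi22.e * Cfsg.Spor.Fi22.h) ^ 5} : Set (FreeGroup Cfsg.Spor.Fi22.Gen))).map (PresentedGroup.mk (Cfsg.Spor.coxRelators Cfsg.Spor.Fi22.edges ∪ {r | r ∈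 Cfsg.Spor.Fi22.extra})))) (Cfsg.PSU 6 K 2) := by
    letI : Fintype (GaloisField 2 2) := Fintype.ofFinite _
    have hF : Fintype.card (GaloisField 2 2) = 4 := by
      rw [← Nat.card_eq_fintype_card, GaloisField.card 2 2 (by norm_num)]; norm_num
    refine ⟨GaloisField 2 2, inferInstance, inferInstance, hF, ?_⟩
    rw [pres_sub hvFi22 hiFi22 [a,c,d,e,f,g,h,i,(a*b*c*d*e*h)^5] (ws := swFi22) (by decide +kernel) (by simp)]
    exact cover22 hF

end Cfsg.Agent.S1684
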