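import Cfsg.Statements.S1685
import Cfsg.Agent.H6.Fi23b1

set_option autoImplicit false
open Cfsg

namespace Cfsg.Agent.S1685

open Cfsg.Agent
open scoped Pointwise commutatorElement
open H6 H6.Fi Spor.Fi22

/-- In the presented Fischer group Fi₂₂ (generators a, …, i), the subgroup generated by the images of b, c, d, e, f, g, h, i has index 14080. -/
theorem result : (((Subgroup.closure ({Cfsg.Spor.Fi22.b, Cfsg.Spor.Fi22.c, Cfsg.Spor.Fi22.d, Cfsg.Spor.Fi22.e, Cfsg.Spor.Fi22.f, Cfsg.Spor.Fi22.g, Cfsg.Spor.Fi22.h, Cfsg.Spor.Fi22.i} : Set (FreeGroup Cfsg.Spor.Fi22.Gen))).map (PresentedGroup.mk (Cfsg.Spor.coxRelators Cfsg.Spor.Fi22.edges ∪ {r | r ∈ Cfsg.Spor.Fi22.extra})))).index = 14080 := by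
  rw [pres_sub hvFi22 hiFi22 [b,c,d,e,f,g,h,i] (ws := lw [1,2,3,4,5,6,7,8]) (by decide +kernel) (by simp)]
  exact index_of_card (cardFi22.trans (by norm_num)) (bdO7.card_eq satFi22 lbO7) (by norm_num)

end Cfsg.Agent.S1685
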