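import Cfsg.Statements.S1686
import Cfsg.Agent.H6.O7a1

set_option autoImplicit false
open Cfsg

namespace Cfsg.Agent.S1686

open Cfsg.Agent
open scoped Pointwise commutatorElement
open H6 H6.Fi Spor.Fi22

/-- In the presented Fischer group Fi₂₂, the subgroup generated by the images of b, …, i is isomorphic to PΩ(7, 3), the commutator subgroup of the isometry group of the quadratic form x₀² + x₁y₁ + x₂y₂ + x₃y₃ over the integers mod 3, modulo its centre. -/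
theorem result : Nonempty ((((Subgroup.closure ({Cfsg.Spor.Fi22.b, Cfsg.Spor.Fi22.c, Cfsg.Spor.Fi22.d, Cfsg.Spor.Fi22.e, Cfsg.Spor.Fi22.f, Cfsg.Spor.Fi22.g, Cfsg.Spor.Fi22.h, Cfsg.Spor.Fi22.i} : Set (FreeGroup Cfsg.Spor.Fi22.Gen))).map (PresentedGroup.mk (Cfsg.Spor.coxRelators Cfsg.Spor.Fi22.edges ∪ {r | r ∈ Cfsg.Spor.Fi22.extra})))) ≃* Cfsg.POmega (ZMod 3) (Cfsg.quadFormOdd 3 (ZMod 3))) := by
  rw [pres_sub hvFi22 hiFi22 [b,c,d,e,f,g,h,i] (ws := lw [1,2,3,4,5,6,7,8]) (by decide +kernel) (by simp)]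
  exact ⟨eqO22.choose.trans isoO.some⟩

end Cfsg.Agent.S1686
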