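import Cfsg.Statements.S1693
import Cfsg.Agent.H6.OnL2

set_option autoImplicit false
open Cfsg

namespace Cfsg.Agent.S1693

open Cfsg.Agent
open scoped Pointwise commutatorElement

/-- In the presented O'Nan group, the subgroup H generated by the images of a, …, f has a normal subgroup of index 2 isomorphic to PSL(3, 7). -/
theorem result : ∃ N : Subgroup (((Subgroup.closure ({Cfsg.Spor.ON.a, Cfsg.Spor.ON.b, Cfsg.Spor.ON.c, Cfsg.Spor.ON.d, Cfsg.Spor.ON.e, Cfsg.Spor.ON.f} : Set (FreeGroup Cfsg.Spor.ON.Gen))).map (PresentedGroup.mk (Cfsg.Spor.coxRelators Cfsg.Spor.ON.edges ∪ {r | r ∈ Cfsg.Spor.ON.extra})))), N.Normal ∧ N.index = 2 ∧ Nonempty (N ≃* Matrix.ProjectiveSpecialLinearGroup (Fin 3) (ZMod 7)) := by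
  open H6 H6.ON Spor.ON in
  rw [pres_sub hvON hiON [a,b,c,d,e,f] (ws := swON) (by decide +kernel) (by simp)]
  haveI : Fact (Nat.Prime 7) := ⟨by norm_num⟩
  exact ⟨commutator _, inferInstance, H6.OnL3.main.1, ⟨H6.OnL3.main.2.some.symm.trans (H6.OnL3.isoP (F := ZMod 7) (ZMod.card 7)).some⟩⟩

end Cfsg.Agent.S1693
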