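import Cfsg.Statements.S1717
import Cfsg.Agent.GS.Mk8

set_option autoImplicit false
open Cfsg

namespace Cfsg.Agent.S1717

/-- Let G be a finite group with an involution z whose centraliser C is isomorphic to the centraliser of a transvection of SL(5, 2). Then a Sylow 2-subgroup of C, viewed in G, is a Sylow 2-subgroup of G (its index in G is odd). -/
theorem result {G : Type*} [Group G] [Finite G] (s : Matrix.SpecialLinearGroup (Fin 5) (ZMod 2)) (hs : (s : Matrix (Fin 5) (Fin 5) (ZMod 2)) = Matrix.transvection 0 1 1) (z : G) (hz : orderOf z = 2) (e : (Subgroup.centralizer ({z} : Set G)) ≃* Subgroup.centralizer ({s} : Set (Matrix.SpecialLinearGroup (Fin 5) (ZMod 2)))) (T : Sylow 2 (Subgroup.centralizer ({z} : Set G))) : ¬ 2 ∣ ((T : Subgroup (Subgroup.centralizer ({z} : Set G))).map (Subgroup.subtype (Subgroup.centralizer ({z} : Set G)))).index := by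
  open Finset Pointwise Cfsg.Agent.St Cfsg.Agent.H6 in focus
    haveI : Fact (Nat.Prime 2) := ⟨Nat.prime_two⟩
    obtain ⟨e0⟩ := isoZ s hs
    rw [z0_eq] at e0
    let f := e.trans e0.symm
    let P := T.mapSurjective (f := f.toMonoidHom) f.surjective
    haveI : ((cl gZ wsQZ).subgroupOf (Subgroup.centralizer {z0})).Normal := Subgroup.normal_subgroupOf_of_le_normalizer lx_QZ.norm
    have hQ : (cl gZ wsQZ).subgroupOf (Subgroup.centralizer {z0}) ≤ P := IsPGroup.le_sylow_of_normal (N := Subgroup.subgroupOf _ _) lx_QZ.isPGroup.comap_subtype P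
    have k0 : ∀ x : Subgroup.centralizer ({z} : Set G), (∀ y ∈ T, Commute x y) → (f x).1 = 1 ∨ (f x).1 = z0 := fun x hx => by
      have : ∀ y ∈ cl gZ wsQZ, Commute (f x).1 y := fun y hy => by
        obtain ⟨t, ht, e⟩ := hQ (show (⟨y, lx_QZ.le_cent hy⟩ : Subgroup.centralizer {z0}) ∈ _ from hy)
        have := congrArg Subtype.val (((hx t ht).map f).eq)
        rwa [show f t = _ from e] at this
      exact lx_QZ.nd _ (lx_QZ.self _ this) this
    let z' : Subgroup.centralizer ({z} : Set G) := ⟨z, Subgroup.mem_centralizer_singleton_iff.2 rfl⟩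
    have hc : ∀ y, Commute z' y := fun y => Subtype.ext (Subgroup.mem_centralizer_singleton_iff.1 y.2).symm
    have z1 : z ≠ 1 := by rintro rfl; simp at hz
    have k1 : ∀ x : Subgroup.centralizer ({z} : Set G), (∀ y ∈ T, Commute x y) → x.1 ≠ 1 → x = z' := fun x hx h1 => by
      have a : ∀ x : Subgroup.centralizer ({z} : Set G), x.1 ≠ 1 → (f x).1 ≠ 1 := fun x h1 h =>
        h1 (congrArg Subtype.val (f.injective ((Subtype.ext h).trans (map_one f).symm)))
      exact f.injective (Subtype.ext (((k0 x hx).resolve_left (a x h1)).trans ((k0 z' fun y _ => hc y).resolve_left (a z' z1)).symm))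
    have zT : z' ∈ T := by
      haveI : (Subgroup.zpowers z').Normal := ⟨fun n hn g => by
        obtain ⟨k, rfl⟩ := hn
        rw [← ((hc g).zpow_left k).eq, mul_inv_cancel_right]; exact ⟨k, rfl⟩⟩
      exact IsPGroup.le_sylow_of_normal (IsPGroup.of_card (n := 1) (by
        rw [Nat.card_zpowers, ← Subgroup.orderOf_coe]; exact hz)) T (Subgroup.mem_zpowers z')
    obtain ⟨S, hS⟩ := (T.isPGroup'.map (Subgroup.subtype _)).exists_le_sylow
    suffices h : (S : Subgroup G) ≤ T.1.map (Subgroup.subtype _) by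
      rw [le_antisymm hS h]; exact S.not_dvd_index
    haveI := S.isPGroup'.isNilpotent
    by_contra hne
    obtain ⟨g, h1, h2⟩ := SetLike.exists_of_lt (Group.normalizerCondition_of_isNilpotent ((T.1.map (Subgroup.subtype _)).subgroupOf S)
      (lt_top_iff_ne_top.2 fun h => hne (Subgroup.subgroupOf_eq_top.1 h)))
    have n : ∀ y : G, y ∈ T.1.map (Subgroup.subtype _) → (g.1 * y * g.1⁻¹ ∈ T.1.map (Subgroup.subtype _) ∧
        g.1⁻¹ * y * g.1 ∈ T.1.map (Subgroup.subtype _)) := fun y hy =>
      ⟨(Subgroup.mem_normalizer_iff.1 h1 ⟨y, hS hy⟩).1 hy, (Subgroup.mem_normalizer_iff''.1 h1 ⟨y, hS hy⟩).1 hy⟩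
    obtain ⟨x, -, ex⟩ := (n z ⟨z', zT, rfl⟩).1
    have hx : x = z' := k1 x (fun y hy => Subtype.ext (by
      obtain ⟨u, -, eu⟩ := (n y ⟨y, hy, rfl⟩).2
      have := congrArg Subtype.val (hc u).eq
      simp only [Subgroup.coe_subtype, Subgroup.coe_mul, z'] at ex eu this ⊢
      rw [eu] at this
      rw [ex]
      calc _ = g.1 * (z * (g.1⁻¹ * y * g.1)) * g.1⁻¹ := by group
        _ = _ := by rw [this]; group)) (by rw [show x.1 = _ from ex]; simpa using z1)
    have gC : g.1 ∈ Subgroup.centralizer ({z} : Set G) := Subgroup.mem_centralizer_singleton_iff.2 (by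
      rw [← mul_inv_eq_iff_eq_mul, ← ex, hx]; rfl)
    have := T.is_maximal' (S.isPGroup'.comap_subtype (K := Subgroup.centralizer {z})) (Subgroup.map_le_iff_le_comap.1 hS)
    exact h2 ⟨⟨g.1, gC⟩, this.le g.2, rfl⟩

end Cfsg.Agent.S1717
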