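import Cfsg.Statements.S1753
import Cfsg.Agent.H8.Emb

set_option autoImplicit false
universe u
open Cfsg

namespace Cfsg.Agent.S1753

open Cfsg.Agent.H8

open Subgroup
theorem aux (K : ∀ (X : Type u) [Group X], Prop) (G : Type u) [Group G] [Finite G]
    (h : ∀ (X : Type u) [Group X] [Finite X],
      IsSimpleGroup X → ¬ IsMulCommutative X → Nat.card X < Nat.card G → K X) :
    Cfsg.IsKProperWith K G := by
  intro H hH L N _ h1 h2
  refine h _ h1 h2 ?_
  have a1 : Nat.card (L ⧸ N) ≤ Nat.card L :=
    Nat.card_le_card_of_surjective _ (QuotientGroup.mk'_surjective N)
  have a2 : Nat.card L ≤ Nat.card H := Nat.le_of_dvd Nat.card_pos (card_subgroup_dvd_card L)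
  have a3 : Nat.card H < Nat.card G := H2.card_lt_of_ne_top hH
  omega

/-- Let K be any property of groups. (1) If G is a minimal counterexample relative to K — a finite non-abelian simple group not satisfying K such that every finite non-abelian simple group of smaller order satisfies K — then every proper subgroup of G is a K-group (all its non-abelian simple sections satisfy K), since such sections have smaller order than G. (2) Consequently (induction on the order), if every finite non-abelian simple group all of whose proper subgroups are K-groups satisfies K, then every finite non-abelian simple group satisfies K. -/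
theorem result (K : ∀ (X : Type u) [Group X], Prop) :
    (∀ (G : Type u) [Group G], Cfsg.IsMinCounterexampleWith K G → Cfsg.IsKProperWith K G) ∧
      ((∀ (X : Type u) [Group X] [Finite X], IsSimpleGroup X → ¬ IsMulCommutative X → Cfsg.IsKProperWith K X → K X) →
        ∀ (G : Type u) [Group G] [Finite G], IsSimpleGroup G → ¬ IsMulCommutative G → K G) := by
  refine ⟨fun G _ hG => ?_, fun h => ?_⟩
  · have := hG.1
    exact aux K G hG.2.2.2.2
  · intro G _ _
    induction hn : Nat.card G using Nat.strong_induction_on generalizing G with
    | _ n ih =>
      intro h1 h2
      exact h G h1 h2 (aux K G fun X _ _ a b c => ih _ (hn ▸ c) X rfl a b)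

end Cfsg.Agent.S1753
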