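import Cfsg.Statements.S1755
import Cfsg.Agent.H8.TI

set_option autoImplicit false
open Cfsg

namespace Cfsg.Agent.S1755

open Cfsg.Agent.H8

open Subgroup
theorem aux {G : Type*} [Group G] [Finite G] (z : G) (hz : orderOf z = 2) (C : Subgroup G)
    (hC : ∀ g, g ∈ C ↔ g * z = z * g) (Q : Subgroup C) [Q.Normal] (hcent : centralizer (Q : Set C) ≤ Q)
    (hQ : Cfsg.IsOfSymplecticType Q) (B : Subgroup Q) [B.Characteristic] [IsMulCommutative B] (g : G) :
    cj ((B.map Q.subtype).map C.subtype) g = (B.map Q.subtype).map C.subtype ∨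
      cj ((B.map Q.subtype).map C.subtype) g ⊓ (B.map Q.subtype).map C.subtype = ⊥ := by
  have hzC : z ∈ C := (hC z).2 rfl
  have hzQ : (⟨z, hzC⟩ : C) ∈ Q := hcent (mem_centralizer_iff.2 fun q _ =>
    Subtype.ext ((hC _).1 q.2))
  have hzZ : (⟨⟨z, hzC⟩, hzQ⟩ : Q) ∈ center Q := mem_center_iff.2 fun q =>
    Subtype.ext (Subtype.ext ((hC _).1 q.1.2))
  have hcyc := hQ.2 (B ⊔ center Q) inferInstance
    (L.isMulCommutative_sup (by rw [le_centralizer_iff]; exact center_le_centralizer _))
  have key : ∀ x ∈ (B.map Q.subtype).map C.subtype, orderOf x = 2 → x = z := by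
    rintro _ ⟨_, ⟨b, hb, rfl⟩, rfl⟩ h2
    have := H2.eq_of_ord2_of_isCyclic hcyc (mem_sup_left hb) (mem_sup_right hzZ)
      (by rw [← orderOf_coe, ← orderOf_coe]; exact h2) (by rw [← orderOf_coe, ← orderOf_coe]; exact hz)
    rw [this]; rfl
  have := L.normal_map_subtype_of_char B
  have hn : C ≤ normalizer (((B.map Q.subtype).map C.subtype : Subgroup G) : Set G) :=
    le_normalizer_map_subtype_of_normal _
  have hp : IsPGroup 2 ((B.map Q.subtype).map C.subtype) := ((hQ.1.to_subgroup B).map _).map _
  by_cases hg : g ∈ C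
  · exact Or.inl (cj_eq_of_mem_normalizer (hn hg))
  refine Or.inr ?_
  by_contra hne
  obtain ⟨x, hx, h2⟩ := exists_orderOf_eq_of_ne_bot hp.to_inf_right hne
  have h3 := key _ (mem_cj.1 (mem_inf.1 hx).1) (H2.ord2_conj' h2 g)
  rw [key x (mem_inf.1 hx).2 h2] at h3
  exact hg ((hC g).2 (by
    calc g * z = g * (g⁻¹ * z * g) := by rw [h3]
      _ = _ := by group))

/-- Let G be a finite group and let z be an involution of G such that Q, the generalized Fitting subgroup of the centralizer C of z, is a 2-group of symplectic type (every characteristic abelian subgroup of Q is cyclic). Let B be a characteristic abelian subgroup of Q, viewed as a subgroup of G. Then for every g in G, the conjugate of B by g either equals B or meets B trivially. -/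
theorem result {G : Type*} [Group G] [Finite G] (z : G) (hz : orderOf z = 2) (hQ : Cfsg.IsOfSymplecticType ↥(Cfsg.generalizedFittingSubgroup ↥(Subgroup.centralizer ({z} : Set G))))
    (B : Subgroup ↥(Cfsg.generalizedFittingSubgroup ↥(Subgroup.centralizer ({z} : Set G)))) (hBc : B.Characteristic) (hBa : IsMulCommutative ↥B) (g : G) :
    ((B.map (Cfsg.generalizedFittingSubgroup ↥(Subgroup.centralizer ({z} : Set G))).subtype).map (Subgroup.centralizer ({z} : Set G)).subtype).map (MulAut.conj g).toMonoidHom =
        (B.map (Cfsg.generalizedFittingSubgroup ↥(Subgroup.centralizer ({z} : Set G))).subtype).map (Subgroup.centralizer ({z} : Set G)).subtype ∨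
      ((B.map (Cfsg.generalizedFittingSubgroup ↥(Subgroup.centralizer ({z} : Set G))).subtype).map (Subgroup.centralizer ({z} : Set G)).subtype).map (MulAut.conj g).toMonoidHom ⊓
        (B.map (Cfsg.generalizedFittingSubgroup ↥(Subgroup.centralizer ({z} : Set G))).subtype).map (Subgroup.centralizer ({z} : Set G)).subtype = ⊥ := by
  have := fstar_normal (G := centralizer ({z} : Set G))
  exact aux z hz _ (fun _ => mem_centralizer_singleton_iff) _ centralizer_fstar_le hQ B g

end Cfsg.Agent.S1755
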