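import Cfsg.Statements.S1756
import Cfsg.Agent.H9.TJ
import Cfsg.Agent.H2.LX

set_option autoImplicit false
open Cfsg

namespace Cfsg.Agent.S1756

open Cfsg.Agent Cfsg.Agent.H9

/-- Let Q be an extraspecial 2-subgroup of the finite group G (special with centre of order 2) and t an involution of G normalizing Q such that the centralizer of t in Q has index at most 2 in Q. Then t lies in the product of Q with the centralizer of Q. -/
theorem result {G : Type*} [Group G] [Finite G] (Q : Subgroup G)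
    (hQ : Cfsg.IsExtraspecial 2 ↥Q) (t : G) (ht : orderOf t = 2) (htN : t ∈ Subgroup.normalizer (Q : Set G))
    (hi : (Subgroup.centralizer ({t} : Set G) ⊓ Q).relIndex Q ≤ 2) :
    t ∈ Q ⊔ Subgroup.centralizer (Q : Set G) := by
  obtain ⟨z, h⟩ := H2.IsExtraspecial.exists_xs hQ
  have ht2 : t * t = 1 := by rw [← pow_two, ← ht, pow_orderOf_eq_one]
  set C := Subgroup.centralizer ({t} : Set G) ⊓ Q with hC
  have hm : ∀ {x}, x ∈ C ↔ t * x * t⁻¹ = x ∧ x ∈ Q := fun {x} => by
    rw [hC, Subgroup.mem_inf, Subgroup.mem_centralizer_singleton_iff, mul_inv_eq_iff_eq_mul, eq_comm]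
  by_cases hQC : Q ≤ C
  · exact Subgroup.mem_sup_right fun x hx => (mul_inv_eq_iff_eq_mul.mp (hm.mp (hQC hx)).1).symm
  obtain ⟨x, hx, hxC⟩ := SetLike.not_le_iff_exists.mp hQC
  have hz : z ∈ C := hm.mpr ⟨H2.conj_eq_of_commute (H2.mem_cent1.mp (h.normalizer_le htN)), h.mem⟩
  have h2 : C.relIndex Q = 2 := by
    have a1 : C.relIndex Q ≠ 0 := Subgroup.index_ne_zero_of_finite
    have a2 : C.relIndex Q ≠ 1 := fun e => hQC (Subgroup.relIndex_eq_one.mp e)
    omega
  have h3 : ∀ a ∈ Q, ∀ b ∈ Q, a ∉ C → b ∉ C → a * b ∈ C := fun a ha b hb h1 h2' =>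
    (Subgroup.mul_mem_iff_of_index_two (H := C.subgroupOf Q) h2 (a := ⟨a, ha⟩) (b := ⟨b, hb⟩)).mpr (iff_of_false h1 h2')
  have htx : t * x * t⁻¹ ∈ Q := (Subgroup.mem_normalizer_iff.mp htN x).mp hx
  obtain ⟨y, hy⟩ : ∃ y, y = t * x * t⁻¹ * x⁻¹ := ⟨_, rfl⟩
  have hy' : t * x * t⁻¹ = y * x := by rw [hy]; group
  have hyC : y ∈ C := hy ▸ h3 _ htx _ (Q.inv_mem hx)
    (fun e => hxC (hm.mpr ⟨mul_left_cancel (mul_right_cancel (hm.mp e).1), hx⟩)) (fun e => hxC (C.inv_mem_iff.mp e))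
  have hyy : y * y = 1 := by
    have : t * (t * x * t⁻¹) * t⁻¹ = x := by
      calc _ = (t * t) * x * (t * t)⁻¹ := by group
        _ = x := by rw [ht2]; group
    rw [hy', ← conj_mul, (hm.mp hyC).1, hy', ← mul_assoc] at this
    exact mul_eq_right.mp this
  have hyx : Commute y x := by
    have a1 : t * (x * x) * t⁻¹ = x * x := by
      rcases h.sq x hx with e | e <;> rw [e]
      · group
      · exact (hm.mp hz).1
    rw [← conj_mul, hy', ← mul_assoc] at a1
    calc y * x = y * x * y * y := by rw [mul_assoc _ y, hyy, mul_one]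
      _ = x * y := by rw [mul_right_cancel a1]
  have hgen : ∀ w : G, (∀ c ∈ C, Commute w c) → Commute w x → ∀ q ∈ Q, Commute w q := by
    intro w h1 h2 q hq
    by_cases hqC : q ∈ C
    · exact h1 q hqC
    · have := (h1 _ (h3 q hq _ (Q.inv_mem hx) hqC fun e => hxC (C.inv_mem_iff.mp e))).mul_right h2
      rwa [inv_mul_cancel_right] at this
  have hyz := h.nd y (hm.mp hyC).2 (hgen y (fun c hc => by
    have a1 := (hm.mp ((Subgroup.mem_normalizer_iff''.mp (h.le_normalizer inf_le_right hz hx) c).mp hc)).1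
    rw [← conj_mul, ← conj_mul, (hm.mp hc).1, ← conj_inv, hy'] at a1
    calc y * c = y * x * (x⁻¹ * c * x) * x⁻¹ := by group
      _ = c * y := by rw [← a1]; group) hyx)
  rcases hyz with rfl | rfl
  · exact absurd (hm.mpr ⟨by rw [hy', one_mul], hx⟩) hxC
  obtain ⟨u, hu, hu1, hu2⟩ := h.exists_cent_not_commute inf_le_right hz hx hxC
  rw [← mul_inv_cancel_left u t]
  refine Subgroup.mul_mem_sup hu fun q hq => (hgen _ (fun c hc => ?_) ?_ q hq).symm
  · exact (Commute.inv_left (hu1 c hc).symm).mul_left (H2.commute_of_conj_eq (hm.mp hc).1)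
  · have a1 := h.conj_eq hu hx hu2
    rw [← hyx, ← hy'] at a1
    calc u⁻¹ * t * x = u⁻¹ * (t * x * t⁻¹) * t := by group
      _ = _ := by rw [← a1]; group

end Cfsg.Agent.S1756
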