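import Cfsg.Statements.S1783
import Cfsg.Agent.H8.TI

set_option autoImplicit false
open Cfsg

namespace Cfsg.Agent.S1783

open Cfsg.Agent.H8

open Subgroup
open scoped commutatorElement

/-- Let X be a finite group whose generalized Fitting subgroup equals its largest normal 2-subgroup Q, and let A be an abelian 2-subgroup of X such that every conjugate of A equals A or meets A trivially. Let B be the subgroup generated by the squares of the elements of A. Then B lies in Q, and if B is not an elementary abelian 2-group then the normal closure of B in X is commutative. -/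
theorem result {X : Type*} [Group X] [Finite X]
    (hX : Cfsg.generalizedFittingSubgroup X = Cfsg.pCore 2 X) (A : Subgroup X) (hA2 : IsPGroup 2 ↥A) (hAa : IsMulCommutative ↥A)
    (hti : ∀ h : X, A.map (MulAut.conj h).toMonoidHom = A ∨ A.map (MulAut.conj h).toMonoidHom ⊓ A = ⊥) :
    Subgroup.closure ((fun a : X => a ^ 2) '' (A : Set X)) ≤ Cfsg.pCore 2 X ∧
      (¬ Cfsg.IsElementaryAbelian 2 (Subgroup.closure ((fun a : X => a ^ 2) '' (A : Set X))) →
        IsMulCommutative ↥(Subgroup.normalClosure ((fun a : X => a ^ 2) '' (A : Set X)))) := by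
  have hti' : TI A := hti
  have hF : Fs (⊤ : Subgroup X) = Op 2 ⊤ := by rw [Fs_top, Op_top, hX]
  have hBA : closure ((fun a : X => a ^ 2) '' (A : Set X)) ≤ A := by
    rw [closure_le]; rintro _ ⟨a, ha, rfl⟩; exact pow_mem ha 2
  have hQ := Op_isPGroup 2 (⊤ : Subgroup X)
  have hQn : ∀ g : X, g ∈ normalizer (Op 2 (⊤ : Subgroup X) : Set X) :=
    fun g => le_normalizer_Op 2 ⊤ (mem_top g)
  have h1 : closure ((fun a : X => a ^ 2) '' (A : Set X)) ≤ Op 2 ⊤ := by
    rw [closure_le]; rintro _ ⟨a, ha, rfl⟩
    by_cases he : IsElementaryAbelian 2 A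
    · simp only [he.2 a ha]; exact one_mem _
    refine zpowers_le.1 (le_Op_of_commutator_le_frattini hF le_top ?_)
    have hΦn : ∀ g : X, g ∈ normalizer (((frattini (Op 2 (⊤ : Subgroup X))).map (Op 2 ⊤).subtype : Subgroup X) : Set X) :=
      fun g => H1.normalizer_le_normalizer_map_frattini _ (hQn g)
    refine commutator_zpowers_le (hΦn _) fun q hq => ?_
    have h2 : Commute a (q * a * q⁻¹) := by
      by_cases hn : cj A q = A
      · exact L.mul_comm_of_isMulCommutative ha (hn ▸ conj_mem_cj ha)
      · have hS : IsPGroup 2 ↥(A ⊔ Op 2 ⊤) := isPGroup_sup (fun g _ => hQn g) hA2 hQ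
        have h3 := hti'.comm_of_le he hS (a := 1) (b := q) (by rw [cj_one]; exact le_sup_left)
          (cj_le_of_mem' le_sup_left (mem_sup_right hq)) (by rw [cj_one]; exact Ne.symm hn)
        rw [cj_one] at h3
        exact commute_of_commutator_eq_bot h3 ha (conj_mem_cj ha)
    have h3 : ⁅q, a⁆ ∈ Op 2 (⊤ : Subgroup X) := by
      rw [commutatorElement_def, mul_assoc, mul_assoc, ← mul_assoc a]
      exact mul_mem hq (conj_mem_of_mem_normalizer (hQn a) (inv_mem hq))
    convert H1.pow_mem_map_frattini hQ h3 using 1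
    rw [commutatorElement_def, commutatorElement_def, h2.symm.inv_right.mul_pow, conj_pow, inv_pow]
  rw [← Op_top]
  refine ⟨h1, fun hne => ?_⟩
  have hB : TI (closure ((fun a : X => a ^ 2) '' (A : Set X))) := ti_of fun g x hx h1 h2 => by
    have h3 := hti'.mem_normalizer (hBA hx) h1 (hBA h2)
    refine mem_normalizer_of_cj_le ?_
    rw [cj, MonoidHom.map_closure, closure_le]
    rintro _ ⟨_, ⟨a, ha, rfl⟩, rfl⟩
    exact subset_closure ⟨g * a * g⁻¹, conj_mem_of_mem_normalizer h3 ha, by simp [conj_pow]⟩
  rw [← normalClosure_closure_eq_normalClosure, ← ncl_top, L.isMulCommutative_iff_commutator_eq_bot]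
  have key : ∀ a b : X, ⁅cj (closure ((fun a : X => a ^ 2) '' (A : Set X))) a,
      cj (closure ((fun a : X => a ^ 2) '' (A : Set X))) b⁆ = ⊥ := fun a b => by
    by_cases hab : cj (closure ((fun a : X => a ^ 2) '' (A : Set X))) a =
      cj (closure ((fun a : X => a ^ 2) '' (A : Set X))) b
    · rw [hab, ← cj_commutator, cj_eq_bot_iff]
      exact commutator_eq_bot_mono (L.isMulCommutative_iff_commutator_eq_bot.1 hAa) hBA hBA
    · exact hB.comm_of_le hne hQ (cj_le_of_mem h1 (hQn a)) (cj_le_of_mem h1 (hQn b)) hab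
  rw [commutator_eq_bot_iff_le_centralizer, ncl_le_iff]
  intro a _
  rw [le_centralizer_iff, ncl_le_iff]
  intro b _
  exact commutator_eq_bot_iff_le_centralizer.1 (key b a)

end Cfsg.Agent.S1783
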