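import Cfsg.Statements.S1784
import Mathlib
import Cfsg.Agent.H2.LX
import Cfsg.Agent.H8.FStar

set_option autoImplicit false
open Cfsg

namespace Cfsg.Agent.S1784

open Cfsg.Agent.H2 Subgroup commutatorElement

/-- Let G be a finite group and let z be an involution of G such that Q, the generalized Fitting subgroup of the centralizer C of z, is a 2-group of symplectic type (every characteristic abelian subgroup of Q is cyclic); suppose Q is extraspecial, and view Q inside G. Let α be an involution of C that is not in Q, and let Q₀ be the subgroup of those q ∈ Q whose commutator with α lies in the subgroup generated by z. Then (a) the subgroup generated by the commutators α q α⁻¹ q⁻¹, q ∈ Q, equals the centre of Q₀; and (b) if Q₀ is not contained in the product of the centralizer of α in Q with the subgroup generated by z, then some element of Q conjugates α to α z. -/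
theorem result {G : Type*} [Group G] [Finite G] (z : G) (hz : orderOf z = 2) (hQ : Cfsg.IsOfSymplecticType ↥(Cfsg.generalizedFittingSubgroup ↥(Subgroup.centralizer ({z} : Set G)))) (hE : Cfsg.IsExtraspecial 2 ↥(Cfsg.generalizedFittingSubgroup ↥(Subgroup.centralizer ({z} : Set G))))
    (α : G) (hα : orderOf α = 2) (hαC : α ∈ Subgroup.centralizer ({z} : Set G)) (hαQ : α ∉ (Cfsg.generalizedFittingSubgroup ↥(Subgroup.centralizer ({z} : Set G))).map (Subgroup.centralizer ({z} : Set G)).subtype)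
    (Q₀ : Subgroup G) (hQ₀ : ∀ q : G, q ∈ Q₀ ↔ (q ∈ (Cfsg.generalizedFittingSubgroup ↥(Subgroup.centralizer ({z} : Set G))).map (Subgroup.centralizer ({z} : Set G)).subtype ∧ α * q * α⁻¹ * q⁻¹ ∈ Subgroup.zpowers z)) :
    Subgroup.closure ((fun q : G => α * q * α⁻¹ * q⁻¹) '' ((Cfsg.generalizedFittingSubgroup ↥(Subgroup.centralizer ({z} : Set G))).map (Subgroup.centralizer ({z} : Set G)).subtype : Set G)) = (Subgroup.center ↥Q₀).map Q₀.subtype ∧
      (¬ Q₀ ≤ ((Cfsg.generalizedFittingSubgroup ↥(Subgroup.centralizer ({z} : Set G))).map (Subgroup.centralizer ({z} : Set G)).subtype ⊓ Subgroup.centralizer ({α} : Set G)) ⊔ Subgroup.zpowers z →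
        ∃ q ∈ (Cfsg.generalizedFittingSubgroup ↥(Subgroup.centralizer ({z} : Set G))).map (Subgroup.centralizer ({z} : Set G)).subtype, q * α * q⁻¹ = α * z) := by
  have h1 : (generalizedFittingSubgroup (centralizer ({z} : Set G))).map (centralizer ({z} : Set G)).subtype =
    H8.Fs (centralizer {z}) := rfl
  rw [h1] at hαQ hQ₀ ⊢
  have h2 := H8.inf_centralizer_Fs_le (centralizer ({z} : Set G))
  have h3 := H8.le_normalizer_Fs (centralizer ({z} : Set G)) hαC
  have h4 := H8.Fs_le (centralizer ({z} : Set G))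
  replace hE := isExtraspecial_congr ((generalizedFittingSubgroup _).equivMapOfInjective _ (subtype_injective _)) hE
  rw [h1] at hE
  generalize H8.Fs (centralizer {z}) = Q at *
  have hz' : z ∈ centralizer (Q : Set G) := fun q hq => mem_centralizer_singleton_iff.1 (h4 hq)
  have h := xs_of_mem hE (by rintro rfl; simp at hz) (h2 ⟨mem_centralizer_singleton_iff.2 rfl, hz'⟩) h4
  have hs : α * α = 1 := by rw [← pow_two, ← hα, pow_orderOf_eq_one]
  have hi := inv_eq_of_mul_eq_one_right hs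
  have h5 : ∀ q ∈ Q, α * q * α⁻¹ ∈ Q := fun q => (mem_normalizer_iff.1 h3 q).1
  have h6 : ∀ q ∈ Q, α * q * α⁻¹ * q⁻¹ ∈ Q := fun q hq => mul_mem (h5 q hq) (inv_mem hq)
  refine ⟨?_, fun h7 => ?_⟩
  · have M : ∀ a ∈ Q, ∀ b ∈ Q, ∀ c ∈ Q, Commute (b * c⁻¹) a ↔ (Commute b a ↔ Commute c a) := fun a ha b hb c hc => by
      simp only [← mem_cent1]
      by_cases e : b ∈ centralizer {a}
      · simp [e, mul_mem_cancel_left e]
      by_cases e' : c ∈ centralizer {a}
      · simp [e', mul_mem_cancel_right (inv_mem e')]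
      refine iff_of_true (mem_cent1.2 (commute_of_conj_eq ?_).symm) (iff_of_false e e')
      rw [show a * (b * c⁻¹) * a⁻¹ = a * b * a⁻¹ * (a * c * a⁻¹)⁻¹ by group,
        h.conj_eq ha hb fun e₁ => e (mem_cent1.2 e₁.symm), h.conj_eq ha hc fun e₁ => e' (mem_cent1.2 e₁.symm)]
      group
    generalize hK : Subgroup.closure ((fun q : G => α * q * α⁻¹ * q⁻¹) '' (Q : Set G)) = K
    have k1 : ∀ q ∈ Q, α * q * α⁻¹ * q⁻¹ ∈ K := fun q hq => hK ▸ subset_closure ⟨q, hq, rfl⟩
    have k2 : ∀ {U : Subgroup G}, (∀ q ∈ Q, α * q * α⁻¹ * q⁻¹ ∈ U) → K ≤ U := fun h =>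
      hK ▸ (closure_le _).2 (by rintro _ ⟨q, hq, rfl⟩; exact h q hq)
    have k3 : ∀ y ∈ Q, ∀ q ∈ Q, Commute (α * q * α⁻¹ * q⁻¹) y ↔ Commute (α * y * α⁻¹ * y⁻¹) q := fun y hy q hq => by
      rw [M y hy _ (h5 q hq) q hq, M q hq _ (h5 y hy) y hy, ← commute_conj_iff (g := α) (b := y), Commute.symm_iff (a := q),
        show α * (α * q * α⁻¹) * α⁻¹ = α * α * q * (α * α)⁻¹ by group, hs, one_mul, inv_one, mul_one, Commute.symm_iff]
    have k4 : ∀ y ∈ Q, y ∈ centralizer (K : Set G) ↔ y ∈ Q₀ := fun y hy => by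
      rw [hQ₀, ← h.Zc_eq]
      exact ⟨fun e => ⟨hy, h6 y hy, fun q hq => ((k3 y hy q hq).1 (e _ (k1 q hq))).symm⟩,
        fun e w hw => mem_cent1.1 (k2 (fun q hq => mem_cent1.2 ((k3 y hy q hq).2 (e.2.2 q hq).symm)) hw)⟩
    have k5 : z ∈ K := by
      obtain ⟨q, a1, a2⟩ : ∃ q ∈ Q, α * q * α⁻¹ * q⁻¹ ≠ 1 := by
        by_contra! e
        exact hαQ (h2 ⟨hαC, fun q hq => (commutatorElement_eq_one_iff_mul_comm.1 (e q hq)).symm⟩)
      by_cases e : α * q * α⁻¹ * q⁻¹ = z
      · exact e ▸ k1 q a1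
      obtain ⟨y, a3, a4⟩ := h.exists_conj (h6 q a1) a2 e
      refine (mul_mem_cancel_left (k1 q a1)).1 (a4 ▸ ?_)
      convert mul_mem (inv_mem (k1 y a3)) (k1 _ (mul_mem a3 a1)) using 1
      group
    rw [H1.map_subtype_center]
    refine le_antisymm (le_inf (k2 fun q hq => (hQ₀ _).2 ⟨h6 q hq, ?_⟩) (le_centralizer_iff.1 fun y hy =>
      (k4 y ((hQ₀ y).1 hy).1).2 hy)) fun x hx => by_contra fun e => ?_
    · rw [show α * (α * q * α⁻¹ * q⁻¹) * α⁻¹ * (α * q * α⁻¹ * q⁻¹)⁻¹ =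
        α * α * (α * q * α⁻¹ * q⁻¹ * (α * q * α⁻¹ * q⁻¹))⁻¹ by simp only [hi, mul_inv_rev, inv_inv, mul_assoc], hs, one_mul]
      exact inv_mem ((mem_zpowers_invol h.zz).2 (h.sq _ (h6 q hq)))
    · obtain ⟨y, a1, a2, a3⟩ := h.exists_cent_not_commute (k2 h6) k5 ((hQ₀ x).1 hx.1).1 e
      exact a3 (hx.2 y ((k4 y a1).1 a2))
  · obtain ⟨q, a1, a2⟩ := SetLike.not_le_iff_exists.1 h7
    obtain ⟨a3, a4⟩ := (hQ₀ q).1 a1
    rcases (mem_zpowers_invol h.zz).1 a4 with e | e
    · exact (a2 (mem_sup_left ⟨a3, mem_centralizer_singleton_iff.2 (commutatorElement_eq_one_iff_mul_comm.1 e).symm⟩)).elim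
    · exact ⟨q, a3, by rw [← e, ← mul_assoc, ← mul_assoc, ← mul_assoc, hs, one_mul, hi]⟩

end Cfsg.Agent.S1784
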