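import Cfsg.Statements.S1785
import Cfsg.Agent.H9.TJ
import Cfsg.Agent.H8.Conn
import Cfsg.Agent.L.PGroup

set_option autoImplicit false
open Cfsg

namespace Cfsg.Agent.S1785

open Cfsg.Agent Cfsg.Agent.H9
theorem between {X : Type*} [Group X] [Finite X] {B D : Subgroup X} (h : B ≤ D) {a m : ℕ} (hB : Nat.card B = 2 ^ a)
    (hD : 2 ^ m ∣ Nat.card D) (ham : a ≤ m) : ∃ K : Subgroup X, B ≤ K ∧ K ≤ D ∧ Nat.card K = 2 ^ m := by
  obtain ⟨K, h1, h2⟩ := Sylow.exists_subgroup_card_pow_prime_le 2 hD (B.subgroupOf D)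
    (by rw [← hB]; exact Nat.card_congr (Subgroup.subgroupOfEquivOfLe h).toEquiv) ham
  refine ⟨K.map D.subtype, fun x hx => ⟨⟨x, h hx⟩, h2 hx, rfl⟩, Subgroup.map_subtype_le _, ?_⟩
  rw [Subgroup.card_map_of_injective D.subtype_injective, h1]

theorem dvd_of_lt {X : Type*} [Group X] [Finite X] (hX : IsPGroup 2 X) {B D : Subgroup X} (h : B < D) {a : ℕ}
    (hB : Nat.card B = 2 ^ a) : 2 ^ (a + 1) ∣ Nat.card D := by
  obtain ⟨m, hm⟩ := IsPGroup.iff_card.mp (hX.to_subgroup D)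
  have := L.card_lt_of_lt h
  rw [hB, hm, Nat.pow_lt_pow_iff_right (by norm_num)] at this
  rw [hm]; exact pow_dvd_pow 2 this

theorem bound {X : Type*} [Group X] [Finite X] (hX : IsPGroup 2 X) {E : Subgroup X} [E.Normal] (hE : IsElementaryAbelian 2 E)
    (a k : ℕ) : ∀ A : Subgroup X, IsElementaryAbelian 2 A → Nat.card ↥(A ⊓ E) = 2 ^ a → Nat.card A = 2 ^ (a + k) →
      Nat.card E ≤ Nat.card ↥(E ⊓ Subgroup.centralizer (A : Set X)) ^ 2 ^ k := by
  induction k with
  | zero =>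
    intro A _ h1 h2
    have h3 : A ≤ E := inf_eq_left.mp (Subgroup.eq_of_le_of_card_ge inf_le_left (by rw [h1, h2, add_zero]))
    haveI := hE.1
    rw [inf_eq_left.mpr ((Subgroup.le_centralizer E).trans (Subgroup.centralizer_le h3))]; simp
  | succ k ih =>
    intro A hA h1 h2
    obtain ⟨B, b1, b2, b3⟩ := between (inf_le_left : A ⊓ E ≤ A) h1 (m := a + k) (h2 ▸ pow_dvd_pow 2 (by omega)) (by omega)
    have b4 : B ⊓ E = A ⊓ E := le_antisymm (inf_le_inf_right _ b2) (le_inf b1 inf_le_right)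
    have b5 : ¬ A ≤ B := fun h => by
      have := Subgroup.card_le_of_le h
      rw [h2, b3, Nat.pow_le_pow_iff_right (by norm_num)] at this
      omega
    obtain ⟨t, ht, htB⟩ := SetLike.not_le_iff_exists.mp b5
    have b6 : B ⊔ Subgroup.zpowers t = A := Subgroup.eq_of_le_of_card_ge (sup_le b2 (Subgroup.zpowers_le.mpr ht))
      (h2 ▸ Nat.le_of_dvd Nat.card_pos (dvd_of_lt hX (left_lt_sup.mpr fun h => htB (h (Subgroup.mem_zpowers t))) b3))
    haveI := hA.1
    have h4 := SF.card_le_sq_of_invol (N := E ⊓ Subgroup.centralizer (B : Set X)) (x := t)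
      (L.IsElementaryAbelian.of_le hE inf_le_left) (Subgroup.mem_normalizer_fintype fun y hy => ⟨‹E.Normal›.conj_mem y hy.1 t, by
        have : t ∈ Subgroup.centralizer (B : Set X) := fun b hb => L.mul_comm_of_isMulCommutative (b2 hb) ht
        exact Subgroup.mul_mem _ (Subgroup.mul_mem _ this hy.2) (Subgroup.inv_mem _ this)⟩) (hA.2 t ht)
    have h5 : E ⊓ Subgroup.centralizer (B : Set X) ⊓ Subgroup.centralizer {t} ≤ E ⊓ Subgroup.centralizer (A : Set X) := by
      refine le_inf (inf_le_left.trans inf_le_left) (Subgroup.le_centralizer_iff.mp ?_)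
      rw [← b6]
      exact sup_le (Subgroup.le_centralizer_iff.mp (inf_le_left.trans inf_le_right))
        (Subgroup.zpowers_le.mpr fun x hx => Subgroup.mem_centralizer_singleton_iff.mp hx.2)
    refine (ih B (L.IsElementaryAbelian.of_le hA b2) (b4 ▸ h1) b3).trans ?_
    rw [pow_succ', pow_mul, pow_two]
    exact Nat.pow_le_pow_left (h4.trans (Nat.mul_le_mul (Subgroup.card_le_of_le h5) (Subgroup.card_le_of_le h5))) _

theorem exists_big {X : Type*} [Group X] [Finite X] (hX : IsPGroup 2 X) {E : Subgroup X} [E.Normal]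
    (hE : IsElementaryAbelian 2 E) (hE32 : 32 ≤ Nat.card E) {A : Subgroup X} (hA : IsElementaryAbelian 2 A) {m : ℕ}
    (hm : Nat.card A = 2 ^ m) (h3 : m ≤ 3) :
    ∃ D : Subgroup X, IsElementaryAbelian 2 D ∧ A < D ∧ A ⊓ E < D ⊓ E := by
  obtain ⟨a, ha⟩ := IsPGroup.iff_card.mp (hX.to_subgroup (A ⊓ E))
  have ham : a ≤ m := (Nat.pow_le_pow_iff_right (by norm_num)).mp (ha ▸ hm ▸ Subgroup.card_le_of_le inf_le_left)
  obtain ⟨k, rfl⟩ := Nat.exists_eq_add_of_le ham
  have h1 : ¬ E ⊓ Subgroup.centralizer (A : Set X) ≤ A := fun h => by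
    have h2 := hE32.trans ((bound hX hE a k A hA ha hm).trans
      (Nat.pow_le_pow_left (Subgroup.card_le_of_le (le_inf h inf_le_left : _ ≤ A ⊓ E)) _))
    rw [ha] at h2
    have : a ≤ 3 := by omega
    have : k ≤ 3 := by omega
    interval_cases a <;> interval_cases k <;> omega
  obtain ⟨z, hz, hzA⟩ := SetLike.not_le_iff_exists.mp h1
  refine ⟨A ⊔ (E ⊓ Subgroup.centralizer (A : Set X)), H8.elem_sup hA (L.IsElementaryAbelian.of_le hE inf_le_left)
    (Subgroup.le_centralizer_iff.mp inf_le_right), left_lt_sup.mpr h1,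
    lt_of_le_not_ge (inf_le_inf_right _ le_sup_left) fun h => hzA (h ⟨Subgroup.mem_sup_right hz, hz.1⟩).1⟩

/-- Let X be a finite 2-group having a normal elementary abelian subgroup of order at least 32. Then (a) for any two elementary abelian subgroups A, B of X of order 8 there is a chain A = A₁, A₂, …, Aₙ = B of elementary abelian subgroups of order 8 in which consecutive members commute elementwise; and (b) every elementary abelian subgroup of X of order 4 is contained in an elementary abelian subgroup of order 8. -/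
theorem result {X : Type*} [Group X] [Finite X]
    (hX : IsPGroup 2 X) (E : Subgroup X) [E.Normal] (hE : Cfsg.IsElementaryAbelian 2 E) (hE32 : 32 ≤ Nat.card ↥E) :
    (∀ A B : Subgroup X, Cfsg.IsElementaryAbelian 2 A → Nat.card ↥A = 8 → Cfsg.IsElementaryAbelian 2 B → Nat.card ↥B = 8 →
        Relation.ReflTransGen
          (fun C D : Subgroup X => Cfsg.IsElementaryAbelian 2 C ∧ Nat.card ↥C = 8 ∧ Cfsg.IsElementaryAbelian 2 D ∧ Nat.card ↥D = 8 ∧ ⁅C, D⁆ = ⊥)
          A B) ∧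
      (∀ V : Subgroup X, Cfsg.IsElementaryAbelian 2 V → Nat.card ↥V = 4 →
        ∃ A : Subgroup X, V ≤ A ∧ Cfsg.IsElementaryAbelian 2 A ∧ Nat.card ↥A = 8) := by
  refine ⟨fun A B hA hA8 hB hB8 => ?_, fun V hV hV4 => ?_⟩
  swap
  · obtain ⟨D, h1, h2, -⟩ := exists_big hX hE hE32 hV (m := 2) hV4 (by norm_num)
    obtain ⟨K, k1, k2, k3⟩ := between h2.le (a := 2) hV4 (dvd_of_lt hX h2 (a := 2) hV4) (by norm_num)
    exact ⟨K, k1, L.IsElementaryAbelian.of_le h1 k2, k3⟩
  let r : Subgroup X → Subgroup X → Prop := fun C D => Cfsg.IsElementaryAbelian 2 C ∧ Nat.card ↥C = 8 ∧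
    Cfsg.IsElementaryAbelian 2 D ∧ Nat.card ↥D = 8 ∧ ⁅C, D⁆ = ⊥
  have hc : ∀ {C D F : Subgroup X}, IsElementaryAbelian 2 F → C ≤ F → D ≤ F → ⁅C, D⁆ = ⊥ := fun hF h1 h2 =>
    le_bot_iff.mp ((Subgroup.commutator_mono h1 h2).trans (L.isMulCommutative_iff_commutator_eq_bot.mp hF.1).le)
  have key : ∀ j : ℕ, ∀ A : Subgroup X, IsElementaryAbelian 2 A → Nat.card A = 8 → 8 ≤ Nat.card ↥(A ⊓ E) + j →
      ∃ B : Subgroup X, B ≤ E ∧ Nat.card B = 8 ∧ Relation.ReflTransGen r A B := by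
    intro j
    induction j with
    | zero =>
      intro A _ h8 h
      exact ⟨A, inf_eq_left.mp (Subgroup.eq_of_le_of_card_ge inf_le_left (by omega)), h8, .refl⟩
    | succ j ih =>
      intro A hA h8 h
      by_cases hAE : A ≤ E
      · exact ⟨A, hAE, h8, .refl⟩
      obtain ⟨D, h1, h2, h3⟩ := exists_big hX hE hE32 hA (m := 3) h8 le_rfl
      obtain ⟨a, ha⟩ := IsPGroup.iff_card.mp (hX.to_subgroup (A ⊓ E))
      have ha3 : a < 3 := (Nat.pow_lt_pow_iff_right (by norm_num : 1 < 2)).mp (by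
        rw [← ha]; exact (L.card_lt_of_lt (inf_lt_left.mpr hAE)).trans_eq h8)
      obtain ⟨K, k1, k2, k3⟩ := between h3.le ha (dvd_of_lt hX h3 ha) (Nat.le_succ a)
      obtain ⟨F, f1, f2, f3⟩ := between (k2.trans inf_le_left) k3 (m := 3)
        ((show 2 ^ 3 = Nat.card A from h8.symm) ▸ Subgroup.card_dvd_of_le h2.le) ha3
      have hF := L.IsElementaryAbelian.of_le h1 f2
      obtain ⟨B, b1, b2, b3⟩ := ih F hF f3 (by
        have := Subgroup.card_le_of_le (le_inf f1 (k2.trans inf_le_right) : K ≤ F ⊓ E)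
        have : 0 < 2 ^ a := by positivity
        omega)
      exact ⟨B, b1, b2, .head ⟨hA, h8, hF, f3, hc h1 h2.le f2⟩ b3⟩
  obtain ⟨A', a1, a2, a3⟩ := key 8 A hA hA8 (by omega)
  obtain ⟨B', b1, b2, b3⟩ := key 8 B hB hB8 (by omega)
  refine a3.trans (.head ⟨L.IsElementaryAbelian.of_le hE a1, a2, L.IsElementaryAbelian.of_le hE b1, b2, hc hE a1 b1⟩
    (SF.rtg_symm (fun C D h => ⟨h.2.2.1, h.2.2.2.1, h.1, h.2.1, (Subgroup.commutator_comm D C).trans h.2.2.2.2⟩) b3))

end Cfsg.Agent.S1785
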