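import Cfsg.Statements.S1850
import Cfsg.Agent.H8.Emb

set_option autoImplicit false
open Cfsg

namespace Cfsg.Agent.S1850

open Cfsg.Agent.H8

open Subgroup

/-- Let G be a non-abelian finite simple QTKE-group and T a Sylow 2-subgroup of G. If U is a nontrivial 2-subgroup of G with U ∩ Z(T) ≠ 1, then F*(N_G(U)) = O₂(N_G(U)). -/
theorem result {G : Type*} [Group G] [Finite G] [IsSimpleGroup G]
    (hG : ¬ IsMulCommutative G) (hQ : Cfsg.IsQTKE G) (T : Sylow 2 G) (U : Subgroup G)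
    (hU : IsPGroup 2 ↥U) (hZ : U ⊓ ((T : Subgroup G) ⊓ Subgroup.centralizer ((T : Subgroup G) : Set G)) ≠ ⊥) :
    Subgroup.normalizer (U : Set G) ∈ Cfsg.calHe G := by
  have hp : IsPGroup 2 ↥(U ⊓ ((T : Subgroup G) ⊓ centralizer ((T : Subgroup G) : Set G))) :=
    hU.to_inf_left
  obtain ⟨z, hz, h2⟩ := exists_orderOf_eq_of_ne_bot hp hZ
  have hzU := (mem_inf.1 hz).1
  have hzC := (mem_inf.1 (mem_inf.1 hz).2).2
  have h1 := (charTwo_iff _).1 (hQ.2.2 (normalizer (zpowers z : Set G))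
    ⟨_, isPGroup_zpowers_of_eq h2, zpowers_ne_bot_of_orderOf_eq h2, rfl⟩
    ⟨T, (le_centralizer_singleton_iff.2 hzC).trans (centralizer_le_normalizer_zpowers z)⟩)
  exact (calHe_iff _).2 (Fs_eq_Op_normalizer_of_mem hU hzU (Fs_eq_Op_centralizer_of_normalizer h2 h1))

end Cfsg.Agent.S1850
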