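import Cfsg.Statements.S1958
import Cfsg.Agent.H8.Spe

set_option autoImplicit false
open Cfsg

namespace Cfsg.Agent.S1958

open Subgroup Cfsg.Agent.H1 Cfsg.Agent.BG Cfsg.Agent.SF
open Cfsg.Agent.H2 hiding card_lt_of_lt card_lt_of_ne_top isMulCommutative_of_le isPGroup_zpowers_iff mem_of_pow_mem_of_coprime
open Cfsg.Agent.H8 (Op Opp Fit Fs Lay PLay SN Comp PComp Op_le Opp_le Opp_coprime Op_isPGroup le_normalizer_Op le_normalizer_Opp
  le_normalizer_Opp_of le_normalizer_Op_of le_Op le_Opp inf_Opp_le le_of_centralizers)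

theorem aux {G : Type*} [Group G] [Finite G] {p : ℕ} [Fact p.Prime] {x y : G} (hx : orderOf x = p)
    (hxy : x * y = y * x) (hCy : Group.IsSolvable (𝒞₁ y)) :
    Opp p (𝒞₁ x) ⊓ 𝒞₁ y ≤ Opp p (𝒞₁ y) ⊓ 𝒞₁ x :=
  le_inf (bal_of_constrained (H8.PLay_eq_bot_of_solvable hCy) (H8.isPGroup_zpowers_of_eq hx)
    (mem_cent1.2 hxy.symm)) (inf_le_left.trans (Opp_le _ _))

/-- Let `G` be a finite group, `p` a prime, and `x, y` commuting elements of order `p` whose centralizers `C_G(x)` and `C_G(y)` are both solvable. Then `O_{p'}(C_G(x)) ∩ C_G(y) = O_{p'}(C_G(y)) ∩ C_G(x)` (balance). -/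
theorem result {G : Type*} [Group G] [Finite G]
    (p : ℕ) [Fact p.Prime] (x y : G) (hx : orderOf x = p) (hy : orderOf y = p) (hxy : x * y = y * x)
    (hCx : Group.IsSolvable ↥(Subgroup.centralizer ({x} : Set G))) (hCy : Group.IsSolvable ↥(Subgroup.centralizer ({y} : Set G))) :
    Cfsg.centralizerPPrimeCore p x ⊓ Subgroup.centralizer {y} = Cfsg.centralizerPPrimeCore p y ⊓ Subgroup.centralizer {x} := by
  exact le_antisymm (aux hx hxy hCy) (aux hy hxy.symm hCx)

end Cfsg.Agent.S1958
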