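import Cfsg.Statements.S1964
import Mathlib
import Cfsg.Agent.H2.Functor

set_option autoImplicit false
open Cfsg

namespace Cfsg.Agent.S1964

open Cfsg.Agent.H2 Subgroup

/-- Let p be a prime, G a finite group with Sylow p-subgroup S and W a conjugacy functor for p on G. Then the subgroups of S that are well placed in S with respect to W form a conjugation family for S in G. -/
theorem result {G : Type*} [Group G] [Finite G] {p : ℕ} [Fact p.Prime] (S : Sylow p G) (W : Subgroup G → Subgroup G) (hW : Cfsg.IsConjugacyFunctor p W) : Cfsg.IsConjugationFamily {T : Subgroup G | Cfsg.IsWellPlaced p W (S : Subgroup G) T} (S : Subgroup G) := by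
  refine ⟨fun T hT => hT.1, fun A g _ hA hgA => ?_⟩
  have := (sylIn_top S).wp_alperin hW (fusProp_chain
    (R := fun T x => Cfsg.IsWellPlaced p W (S : Subgroup G) T ∧ x ∈ normalizer (T : Set G))
    (fun T x h => ⟨⟨h.1, inv_mem h.2⟩, h.2⟩))
    (fun U hU x hx => Chain.single ⟨(wp_top_iff S).1 hU, inv_mem hx.2⟩ subset_rfl)
    (mem_top g⁻¹) ((closure_le _).2 hA) (cj_closure_le hgA)
  rw [inv_inv] at this
  obtain ⟨n, T, x, h1, h2, h3, h4⟩ := chain_iff'.1 (this.mono subset_closure)
  exact ⟨n, T, x, h1, fun i => (h2 i).1, fun i => (h2 i).2, h3, h4⟩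

end Cfsg.Agent.S1964
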