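import Cfsg.Statements.S1965
import Mathlib
import Cfsg.Agent.H2.Functor

set_option autoImplicit false
open Cfsg

namespace Cfsg.Agent.S1965

open Cfsg.Agent.H2 Subgroup

/-- Let p be a prime, G a finite group with Sylow p-subgroup S and 𝓕 a set of subgroups of S. Suppose that every subgroup T of S is G-conjugate to some member U of 𝓕 for which N_S(U) is a Sylow p-subgroup of N_G(U). Then 𝓕 is a conjugation family for S in G. -/
theorem result {G : Type*} [Group G] [Finite G] {p : ℕ} [Fact p.Prime] (S : Sylow p G) (𝓕 : Set (Subgroup G)) (h𝓕 : ∀ U ∈ 𝓕, U ≤ (S : Subgroup G)) (h : ∀ T : Subgroup G, T ≤ (S : Subgroup G) → ∃ U ∈ 𝓕, (∃ g : G, T.map (MulAut.conj g).toMonoidHom = U) ∧ ¬ p ∣ ((S : Subgroup G) ⊓ Subgroup.normalizer ((U : Subgroup G) : Set G)).relIndex (Subgroup.normalizer ((U : Subgroup G) : Set G))) : Cfsg.IsConjugationFamily 𝓕 (S : Subgroup G) := by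
  refine ⟨h𝓕, fun A g _ hA hgA => ?_⟩
  have := alperin_induction (sylIn_top S) (fusProp_chain
    (R := fun T x => T ∈ 𝓕 ∧ x ∈ normalizer (T : Set G))
    (fun T x h => ⟨⟨h.1, inv_mem h.2⟩, h.2⟩))
    (fun T hT => by
      obtain ⟨U, hU, ⟨k, rfl⟩, h2⟩ := h T hT
      exact ⟨k, mem_top k, h𝓕 _ hU, (fn_top_iff S).2 h2, fun _ x hx =>
        Chain.single ⟨hU, inv_mem hx.2⟩ subset_rfl⟩)
    (mem_top g⁻¹) ((closure_le _).2 hA) (cj_closure_le hgA)
  rw [inv_inv] at this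
  obtain ⟨n, T, x, h1, h2, h3, h4⟩ := chain_iff'.1 (this.mono subset_closure)
  exact ⟨n, T, x, h1, fun i => (h2 i).1, fun i => (h2 i).2, h3, h4⟩

end Cfsg.Agent.S1965
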