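import Cfsg.Statements.S1966
import Mathlib
import Cfsg.Agent.H2.Functor

set_option autoImplicit false
open Cfsg

namespace Cfsg.Agent.S1966

open Cfsg.Agent.H2 Subgroup

/-- Let p be a prime, G a finite group with Sylow p-subgroup S and 𝓕 a conjugation family for S in G. Then the members of 𝓕 containing O_p(G) still form a conjugation family for S in G. -/
theorem result {G : Type*} [Group G] [Finite G] {p : ℕ} [Fact p.Prime] (S : Sylow p G) (𝓕 : Set (Subgroup G)) (h : Cfsg.IsConjugationFamily 𝓕 (S : Subgroup G)) : Cfsg.IsConjugationFamily {T : Subgroup G | T ∈ 𝓕 ∧ Cfsg.pCore p G ≤ T} (S : Subgroup G) := by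
  refine ⟨fun T hT => h.1 T hT.1, fun A g hne hA hgA => ?_⟩
  have hQ : Cfsg.pCore p G ≤ S := L.pCore_le_sylow S
  obtain ⟨n, T, x, h1, h2, h3, h4, h5⟩ := h.2 (A ∪ Cfsg.pCore p G) g hne.inl
    (Set.union_subset hA hQ) (by
      rw [Set.image_union]
      refine Set.union_subset hgA ?_
      rintro _ ⟨a, ha, rfl⟩
      exact hQ (Normal.conj_mem' inferInstance a ha g))
  have h6 := (chain_iff' (R := fun T x => T ∈ 𝓕 ∧ x ∈ normalizer (T : Set G))).2
    ⟨n, T, x, h1, fun i => ⟨h2 i, h3 i⟩, h4, h5⟩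
  have h7 : ∀ {B : Set G} {g : G}, Chain (fun T x => T ∈ 𝓕 ∧ x ∈ normalizer (T : Set G)) B g →
      (Cfsg.pCore p G : Set G) ⊆ B →
      Chain (fun T x => (T ∈ 𝓕 ∧ Cfsg.pCore p G ≤ T) ∧ x ∈ normalizer (T : Set G)) B g := by
    intro B g hc
    induction hc with
    | nil => exact fun _ => Chain.nil _
    | @cons T x B g a1 a2 _ ih =>
      intro hB
      refine Chain.cons ⟨⟨a1.1, hB.trans a2⟩, a1.2⟩ a2 (ih fun y hy => ?_)
      exact ⟨x * y * x⁻¹, hB (Normal.conj_mem inferInstance y hy x), by group⟩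
  obtain ⟨n, T, x, h1, h2, h3, h4⟩ :=
    chain_iff'.1 ((h7 h6 Set.subset_union_right).mono Set.subset_union_left)
  exact ⟨n, T, x, h1, fun i => (h2 i).1, fun i => (h2 i).2, h3, h4⟩

end Cfsg.Agent.S1966
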