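import Cfsg.Statements.S1968
import Mathlib
import Cfsg.Agent.H2.Functor

set_option autoImplicit false
open Cfsg

namespace Cfsg.Agent.S1968

open Cfsg.Agent.H2 Subgroup

/-- Let p be a prime, G a finite group with Sylow p-subgroup S and W a conjugacy functor for p on G with Z(P) ≤ W(P) for every p-subgroup P. Let A be a subgroup of Z(S) normalized by N_G(W(S)) that is not weakly closed in S with respect to G. Then there is a subgroup T of S, well placed in S with respect to W, such that: A ≤ T; N_G(W(N_S(T))) normalizes A; N_S(T) is a Sylow p-subgroup of N_G(T); A ≤ Z(N_S(T)); and A is not weakly closed in N_S(T) with respect to N_G(T), that is, some N_G(T)-conjugate of A other than A lies in N_S(T). -/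
theorem result {G : Type*} [Group G] [Finite G] {p : ℕ} [Fact p.Prime] (S : Sylow p G) (W : Subgroup G → Subgroup G) (hW : Cfsg.IsConjugacyFunctor p W) (hWZ : ∀ P : Subgroup G, IsPGroup p ↥P → P ⊓ Subgroup.centralizer (P : Set G) ≤ W P) (A : Subgroup G) (hAZ : A ≤ (S : Subgroup G) ⊓ Subgroup.centralizer ((S : Subgroup G) : Set G)) (hAN : Subgroup.normalizer ((W (S : Subgroup G) : Subgroup G) : Set G) ≤ Subgroup.normalizer ((A : Subgroup G) : Set G)) (hnwc : ¬ Cfsg.IsWeaklyClosed A (S : Subgroup G)) : ∃ T : Subgroup G, Cfsg.IsWellPlaced p W (S : Subgroup G) T ∧ A ≤ T ∧ Subgroup.normalizer ((W ((S : Subgroup G) ⊓ Subgroup.normalizer ((T : Subgroup G) : Set G)) : Subgroup G) : Set G) ≤ Subgroup.normalizer ((A : Subgroup G) : Set G) ∧ ¬ p ∣ ((S : Subgroup G) ⊓ Subgroup.normalizer ((T : Subgroup G) : Set G)).relIndex (Subgroup.normalizer ((T : Subgroup G) : Set G)) ∧ A ≤ Subgroup.centralizer (((S : Subgroup G) ⊓ Subgroup.normalizer ((T : Subgroup G) : Set G) : Subgroup G)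 : Set G) ∧ ∃ g ∈ Subgroup.normalizer ((T : Subgroup G) : Set G), A.map (MulAut.conj g).toMonoidHom ≤ (S : Subgroup G) ⊓ Subgroup.normalizer ((T : Subgroup G) : Set G) ∧ A.map (MulAut.conj g).toMonoidHom ≠ A := by
  obtain ⟨g, hg, hne⟩ : ∃ g, cj g A ≤ S ∧ cj g A ≠ A := by
    by_contra hcon
    push Not at hcon
    exact hnwc ⟨hAZ.trans inf_le_left, hcon⟩
  obtain ⟨T, h1, h2, h3, h4⟩ := (sylIn_top S).exists_wp_not_le hW hWZ hAZ le_rfl
    (inf_le_right.trans hAN) (mem_top g) hg (fun h => hne (cj_eq_of_mem_normalizer h))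
  rw [top_inf_eq] at h3 h4
  obtain ⟨x, hx, hx'⟩ := SetLike.not_le_iff_exists.1 h4
  refine ⟨T, (wp_top_iff S).1 h1, h2, h3, (fn_top_iff S).1 h1.fn,
    hAZ.trans (inf_le_right.trans (centralizer_le (SetLike.coe_subset_coe.2 inf_le_left))),
    x, hx, ?_, fun e => hx' (mem_normalizer_iff_cj.2 e)⟩
  exact ((cj_mono x h2).trans (cj_eq_of_mem_normalizer hx).le).trans (le_inf h1.1 le_normalizer)

end Cfsg.Agent.S1968
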