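import Cfsg.Statements.S1970
import Mathlib
import Cfsg.Agent.H2.CharFun

set_option autoImplicit false
universe u
open Cfsg

namespace Cfsg.Agent.S1970

open Cfsg.Agent.H2 Subgroup

/-- Let p be a prime, G a finite group and W an isomorphism-invariant p-group functor (W assigns to every group Q a subgroup W(Q), nontrivial whenever Q is a nontrivial finite p-group, and every isomorphism from a finite p-group Q onto a group R carries W(Q) onto W(R)). Suppose that for every section G* = K/R of G with C_{G*}(O_p(G*)) ≤ O_p(G*) and every Sylow p-subgroup S* of G*, one has O_p(G*) ∩ (G*)' = O_p(G*) ∩ (N_{G*}(W(S*)))'. Then W controls transfer in every section G* of G: S* ∩ (G*)' = S* ∩ (N_{G*}(W(S*)))' for a Sylow p-subgroup S* of G*. -/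
theorem result {G : Type u} [Group G] [Finite G] {p : ℕ} [Fact p.Prime] (W : ∀ (Q : Type u) [Group Q], Subgroup Q) (hW : Cfsg.IsCharPFunctor.{u} p W) (hloc : ∀ (K R : Subgroup G) [hR : (R.subgroupOf K).Normal], Subgroup.centralizer ((Cfsg.pCore p (↥K ⧸ R.subgroupOf K) : Subgroup (↥K ⧸ R.subgroupOf K)) : Set (↥K ⧸ R.subgroupOf K)) ≤ Cfsg.pCore p (↥K ⧸ R.subgroupOf K) → ∀ T : Sylow p (↥K ⧸ R.subgroupOf K), Cfsg.pCore p (↥K ⧸ R.subgroupOf K) ⊓ commutator (↥K ⧸ R.subgroupOf K) = Cfsg.pCore p (↥K ⧸ R.subgroupOf K) ⊓ ⁅Subgroup.normalizer ((Cfsg.inducedFunctor (G := (↥K ⧸ R.subgroupOf K)) W ((T : Subgroup (↥K ⧸ R.subgroupOf K))) : Subgroup (↥K ⧸ R.subgroupOf K)) : Set (↥K ⧸ R.subgroupOf K)), Subgroup.normalizer ((Cfsg.inducedFunctor (G := (↥K ⧸ R.subgroupOf K)) W ((T : Subgroup (↥K ⧸ R.subgroupOf K))) : Subgroup (↥K ⧸ R.subgroupOf K)) : Set (↥K ⧸ R.subgroupOf K))⁆) : ∀ (K R : Subgroup G) [hR : (R.subgroupOf K).Normal], Cfsg.ControlsTransferIn p (Cfsg.inducedFunctor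 (G := (↥K ⧸ R.subgroupOf K)) W) ⊤ := by
  intro K R hR
  have h1 := charP_singleton hW
  refine (ctf_single_iff hW).1 (ctf_of_sections h1 (fun H _ _ hH hsub hquot hc => ?_) _
    (sec_section K R))
  have key := forall_sec (Φ := fun H _ => CharP' p H → ∀ S : Subgroup H, SylIn p S ⊤ →
    Cfsg.pCore p H ⊓ ⁅(⊤ : Subgroup H), ⊤⁆ ≤ ⁅normalizer (Cfsg.inducedFunctor W S : Set H),
      normalizer (Cfsg.inducedFunctor W S : Set H)⁆) (fun H H' _ _ _ e h hc S hS => by
        haveI : Finite H' := Finite.of_equiv H e.toEquiv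
        have := map_mono (f := e.toMonoidHom) (h (hc.equiv e.symm) _ (hS.map_equiv e.symm))
        rwa [map_inf_equiv, map_commutator, map_commutator, map_top_equiv, L.map_pCore_equiv,
          map_normalizer_equiv, ← induced_map_inj hW _ e.injective (hS.map_equiv e.symm).pgrp,
          map_symm_map] at this) (fun K R _ hc S hS => by
        obtain ⟨T, rfl⟩ := hS.exists_sylow_top
        exact (hloc K R hc T).le.trans inf_le_right) H hH hc
  obtain ⟨S, hS⟩ := exists_sylIn p (⊤ : Subgroup H)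
  refine (famTF_iff (if_cf h1) hS).2 ((focal_eq_of_min h1 hsub hquot hc hS).trans
    (sup_le le_rfl ?_))
  rw [if_singleton, TD_singleton, top_inf_eq]
  exact le_inf (inf_le_left.trans hS.pCore_le) (key S hS)

end Cfsg.Agent.S1970
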