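import Cfsg.Statements.S1971
import Mathlib
import Cfsg.Agent.H2.CharFun

set_option autoImplicit false
universe u
open Cfsg

namespace Cfsg.Agent.S1971

open Cfsg.Agent.H2 Subgroup

/-- Let p be a prime, G a finite group with nontrivial Sylow p-subgroup S, and W an isomorphism-invariant p-group functor (W assigns to every group Q a subgroup W(Q), nontrivial whenever Q is a nontrivial finite p-group, and every isomorphism from a finite p-group Q onto a group R carries W(Q) onto W(R)) that controls transfer in every section of G. If N_G(S)/C_G(S) is a p-group (every element of N_G(S) of order prime to p centralizes S), then G has a normal subgroup of index p. -/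
theorem result {G : Type u} [Group G] [Finite G] {p : ℕ} [Fact p.Prime] (W : ∀ (Q : Type u) [Group Q], Subgroup Q) (hW : Cfsg.IsCharPFunctor.{u} p W) (hctl : ∀ (K R : Subgroup G) [hR : (R.subgroupOf K).Normal], Cfsg.ControlsTransferIn p (Cfsg.inducedFunctor (G := (↥K ⧸ R.subgroupOf K)) W) ⊤) (S : Sylow p G) (hS : (S : Subgroup G) ≠ ⊥) (hN : ∀ g ∈ Subgroup.normalizer (((S : Subgroup G) : Subgroup G) : Set G), (orderOf g).Coprime p → g ∈ Subgroup.centralizer ((S : Subgroup G) : Set G)) : ∃ N : Subgroup G, N.Normal ∧ N.index = p := by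
  have h1 := charP_singleton hW
  have h2 : ∀ (H : Type u) [Group H], Sec H G → CTF p {W} H := fun H _ hH =>
    forall_sec (Φ := fun H _ => CTF p {W} H) (fun _ _ _ _ _ e h => h.equiv h1 e)
      (fun K R _ => (ctf_single_iff hW).2 (hctl K R)) H hH
  have key := sec_induction (Ψ := fun H _ => ∀ S : Subgroup H, SylIn p S ⊤ → S ≠ ⊥ →
    (∀ g ∈ normalizer (S : Set H), (orderOf g).Coprime p → g ∈ centralizer (S : Set H)) →
    Cfsg.pResidual p H ≠ ⊤) (fun H _ _ hH hsub hquot S hS hb hN e => ?_) G (Sec.refl G) S
    (sylIn_top S) hS hN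
  · rw [Ne, pResidual_eq_top_iff_no_index] at key
    push Not at key
    exact key
  have hcf := induced_cf (G := H) hW
  set Q := Cfsg.inducedFunctor W S with hQ
  have h3 : S ≤ ⁅(⊤ : Subgroup H), ⊤⁆ := hS.le_commutator_iff.2 (by rw [resOf_top, e])
  have h4 := (famTF_iff (if_cf h1) hS).1 (h2 H hH)
  rw [if_singleton, TD_singleton, top_inf_eq, inf_eq_left.2 h3, ← hQ] at h4
  have hSN : S ≤ normalizer (Q : Set H) := CF.le_normalizer hcf hS.pgrp
  by_cases hn : normalizer (Q : Set H) = ⊤
  · haveI := normalizer_eq_top_iff.1 hn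
    let f := QuotientGroup.mk' Q
    have hf : Function.Surjective f := QuotientGroup.mk'_surjective Q
    by_cases hSQ : S ≤ Q
    · have e' : Q = S := le_antisymm (CF.le hcf hS.pgrp) hSQ
      rw [e'] at hn
      have h5 : Cfsg.pResidual p H ≤ centralizer (S : Set H) :=
        pResidual_le_iff.2 fun g hg => hN g (hn ▸ mem_top g) hg
      have h6 := hS.pNil_of_normalizer_le (inf_le_left.trans (e.ge.trans h5))
      rw [hS.pNil_iff, resOf_top, e, inf_top_eq] at h6
      exact hb h6
    refine hquot Q (CF.ne_bot hcf hS.pgrp hb) (S.map f) (hS.map_surj f hf)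
      (mt H1.map_mk'_eq_bot_iff.1 hSQ) (fun g hg hc => ?_) (by
        rw [← map_pResidual f hf, e, map_top_of_surjective f hf])
    obtain ⟨g, rfl⟩ := hf g
    obtain ⟨n, e1, e2⟩ := exists_lift_coprime f g hc
    rw [← e1] at hg ⊢
    have h5 : g ^ n ∈ normalizer (S : Set H) := by
      have := le_normalizer_comap f hg
      rwa [H1.comap_map_mk', sup_eq_left.2 (CF.le hcf hS.pgrp)] at this
    rintro _ ⟨s, hs, rfl⟩
    rw [← map_mul, hN _ h5 e2 s hs, map_mul]
  · have hS' := hS.mono hSN le_top
    refine hsub _ hn _ hS'.subgroupOf_top (fun e => hb ?_) (fun g hg hc => ?_) ?_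
    · rw [← map_subgroupOf_eq_of_le hSN, e, Subgroup.map_bot]
    · have h5 : (g : H) ∈ normalizer (S : Set H) := by
        have := le_normalizer_map (normalizer (Q : Set H)).subtype ⟨g, hg, rfl⟩
        rwa [map_subgroupOf_eq_of_le hSN] at this
      intro s hs
      exact Subtype.ext (hN g h5 (by rwa [orderOf_coe]) s hs)
    · exact pResidual_eq_top_iff.2 (hS'.le_commutator_iff.1 (h4.trans inf_le_right))

end Cfsg.Agent.S1971
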