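import Cfsg.Statements.S1990
import Cfsg.Agent.H9.Quad

set_option autoImplicit false
universe u
open Cfsg

namespace Cfsg.Agent.S1990

open Cfsg.Agent Cfsg.Agent.H9

/-- Let p be an odd prime, G a finite group with Sylow p-subgroup S, and W an isomorphism-invariant p-group functor (W assigns to every group Q a subgroup W(Q), nontrivial whenever Q is a nontrivial finite p-group, and every isomorphism from a finite p-group Q onto a group R carries W(Q) onto W(R)). Suppose N_G(W(S)) has a normal p-complement, and W(T) controls strong fusion in every section G* = K/R of G all of whose sections are p-stable in the normalizer form, for every Sylow p-subgroup T of G*. Then G has a normal p-complement. -/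
theorem result {G : Type u} [Group G] [Finite G] {p : ℕ} [Fact p.Prime] (hp : p ≠ 2) (W : ∀ (Q : Type u) [Group Q], Subgroup Q) (hW : Cfsg.IsCharPFunctor.{u} p W) (S : Sylow p G) (hN : Cfsg.HasNormalPComplement p ↥(Subgroup.normalizer ((Cfsg.inducedFunctor (G := G) W (S : Subgroup G) : Subgroup G) : Set G))) (hctl : ∀ (K R : Subgroup G) [hR : (R.subgroupOf K).Normal], (∀ (K' R' : Subgroup (↥K ⧸ R.subgroupOf K)) [hR' : (R'.subgroupOf K').Normal], Cfsg.IsNormalizerPStable p (↥K' ⧸ R'.subgroupOf K')) → ∀ T : Sylow p (↥K ⧸ R.subgroupOf K), Cfsg.ControlsStrongFusion p (Cfsg.inducedFunctor (G := (↥K ⧸ R.subgroupOf K)) W (T : Subgroup (↥K ⧸ R.subgroupOf K)))) : Cfsg.HasNormalPComplement p G := by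
  rw [H2.hasNPC_iff_top]
  rw [H2.hasNPC_iff] at hN
  have key : ∀ (X : Type u) [Group X], H2.Sec X G →
      (∀ (Y : Type u) [Group Y], H2.Sec Y X → H2.PSt p Y) → H2.CSF p {W} X := by
    refine H2.forall_sec (Φ := fun X _ => (∀ (Y : Type u) [Group Y], H2.Sec Y X → H2.PSt p Y) →
      H2.CSF p {W} X) (fun X X' _ _ _ e h h' => (h fun Y _ hY => h' Y
        (hY.trans (H2.Sec.of_equiv e.symm))).equiv (H2.charP_singleton hW) e) fun K R _ h => ?_
    obtain ⟨T⟩ : Nonempty (Sylow p (K ⧸ R.subgroupOf K)) := inferInstance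
    exact (H2.csf_single_iff hW (H2.sylIn_top T)).2
      (hctl K R (fun K' R' _ => H2.pSt_iff.2 (h _ (H2.sec_section K' R'))) T)
  refine ((pf_induced hW).goodHyp True).pNil (fun X _ _ hX S D h hy hm => hm.np ?_)
    ⟨H2.sylIn_top S, scl_self _ _, fun _ => rfl⟩ hN
  obtain rfl := h.eq trivial
  have hn := Subgroup.le_normalizer.trans ((pf_induced hW).normalizer_le h.syl.pgrp)
  have hc : Ctl _ D ⊤ := fun V hV g _ => (H2.ctl_iff h.syl (H2.induced_le W D) hn).1
    ((H2.csf_single_iff hW h.syl).1 (key X hX (hm.pSt_sec hp))) V hV g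
  exact h.syl.pNil_of_control' hn le_top hy fun x hx u _ hu => hc.elem hx.1 (Subgroup.mem_top u) hu

end Cfsg.Agent.S1990
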