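import Cfsg.Statements.S2009
import Cfsg.Agent.H8.Spe

set_option autoImplicit false
open Cfsg

namespace Cfsg.Agent.S2009

open Subgroup Cfsg.Agent.H1 Cfsg.Agent.BG Cfsg.Agent.SF
open Cfsg.Agent.H2 hiding card_lt_of_lt card_lt_of_ne_top isMulCommutative_of_le isPGroup_zpowers_iff mem_of_pow_mem_of_coprime
open Cfsg.Agent.H8 (Op Opp Fit Fs Lay PLay SN Comp PComp Op_le Opp_le Opp_coprime Op_isPGroup le_normalizer_Op le_normalizer_Opp
  le_normalizer_Opp_of le_normalizer_Op_of le_Op le_Opp inf_Opp_le le_of_centralizers)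

theorem aux {H : Type*} [Group H] [Finite H] {z : H} (hz : orderOf z = 2) {E : Subgroup H} (hE : IsKleinFour ↥E)
    (hzE : z ∈ E) : ∃ e ∈ E, e ≠ 1 ∧ e ≠ z := by
  by_contra h
  have h1 : E ≤ zpowers z := fun e he => by
    by_cases h1 : e = 1
    · exact h1 ▸ one_mem _
    · by_contra h2
      exact h ⟨e, he, h1, fun h3 => h2 (h3 ▸ mem_zpowers _)⟩
  have := card_le_of_le h1
  rw [hE.card_four, Nat.card_zpowers, hz] at this
  omega

/-- Let H be a finite group and z an involution such that every proper normal subgroup of H meets the centralizer of z trivially, and suppose z lies in a Klein four-subgroup E of H all three of whose involutions are conjugate to z in H. Then H is simple. -/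
theorem result {H : Type*} [Group H] [Finite H] (z : H) (hz : orderOf z = 2) (hN : ∀ N : Subgroup H, N.Normal → N ≠ ⊤ → N ⊓ Subgroup.centralizer ({z} : Set H) = ⊥) (E : Subgroup H) (hE : IsKleinFour ↥E) (hzE : z ∈ E) (hc : ∀ e ∈ E, e ≠ 1 → IsConj z e) : IsSimpleGroup H := by
  have h2 : ∀ e ∈ E, e * e = 1 := fun e he => by
    simpa using congrArg Subtype.val (IsKleinFour.mul_self (⟨e, he⟩ : E))
  have hz1 : z ≠ 1 := H8.ne_one_of_orderOf_eq hz
  have : Nontrivial H := ⟨z, 1, hz1⟩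
  refine ⟨fun N hn => or_iff_not_imp_right.2 fun h => ?_⟩
  have h3 : ∀ e ∈ E, e ≠ 1 → ∀ n ∈ N, e * n * e⁻¹ = n⁻¹ := fun e he h1 => by
    obtain ⟨g, rfl⟩ := isConj_iff.1 (hc e he h1)
    refine (L.inverts_of_involution (h2 _ he) (H8.normal_iff_top_le.1 hn (mem_top _)) ?_).1
    rw [← cj_centralizer_singleton, ← cj_eq_of_normal g N, ← cj_inf, hN N hn h, cj_bot]
  obtain ⟨e, he, h4, h5⟩ := aux hz hE hzE
  have h6 : z * e ≠ 1 := fun h7 => h5 (by
    rw [← h2 z hzE] at h7; exact mul_left_cancel h7)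
  refine eq_bot_iff.2 fun n hn' => (hN N hn h).le ⟨hn', mem_cent1.2 ?_⟩
  have h7 := h3 _ (mul_mem hzE he) h6 n hn'
  have h8 : z * e * n * (z * e)⁻¹ = z * (e * n * e⁻¹) * z⁻¹ := by group
  rw [h8, h3 e he h4 n hn', h3 z hzE hz1 _ (inv_mem hn'), inv_inv] at h7
  have h9 := h3 z hzE hz1 n hn'
  rw [← h7] at h9
  exact mul_inv_eq_iff_eq_mul.1 h9

end Cfsg.Agent.S2009
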