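import Cfsg.Statements.S2043
import Cfsg.Agent.H6.LeS2o4
import Cfsg.Agent.H6.LeS3x7
import Cfsg.Agent.H6.LeS5x4
import Cfsg.Agent.H6.LeT

set_option autoImplicit false
open Cfsg

namespace Cfsg.Agent.S2043

open Cfsg.Agent
open scoped Pointwise commutatorElement

/-- The Schur multiplier of the Conway group Co₁ (the automorphism group of the rank-24 lattice modulo its centre) is cyclic of order 2; here the Schur multiplier is described through stem extensions, as in the definitions: surjective homomorphisms onto the group from a finite group, whose kernel is central in that finite group and contained in that finite group's commutator subgroup. -/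
theorem result : Cfsg.HasCyclicSchurMultiplier Cfsg.Spor.Co1 2 := by
  exact H6.hasCyc_of H6.Le.S2o.pm1 (H6.Le.S3.pm1.mono (by norm_num))
    (H6.PM.ge5 H6.Le.card1 (fl := [2,2,2,2,2,2,2,2,2,2,2,2,2,2,2,2,2,2,2,2,2,3,3,3,3,3,3,3,3,3,5,5,5,5,7,7,11,13,23]) (l := [5,7]) (List.forall_mem_cons.2 ⟨H6.Le.S5.pm1, (List.forall_mem_cons.2 ⟨H6.Le.S5.pm7, (by simp)⟩)⟩) (by decide +kernel))
    H6.Le.cov1 (by norm_num)

end Cfsg.Agent.S2043
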