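import Cfsg.Statements.S2045
import Cfsg.Agent.H6.LeS2m2
import Cfsg.Agent.H6.LeS3x7
import Cfsg.Agent.H6.LeS5x4

set_option autoImplicit false
open Cfsg

namespace Cfsg.Agent.S2045

open Cfsg.Agent
open scoped Pointwise commutatorElement

/-- The Schur multiplier of the Conway group Co₃ (the stabiliser of a vector of the second shortest length in the rank-24 lattice) is trivial; here the Schur multiplier is described through stem extensions, as in the definitions: surjective homomorphisms onto the group from a finite group, whose kernel is central in that finite group and contained in that finite group's commutator subgroup. -/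
theorem result : Cfsg.HasCyclicSchurMultiplier ↥Cfsg.Spor.Co3 1 := by
  exact H6.hasCyc_congr H6.Le.eCo3 (H6.hasCyc_of (H6.Le.S2m.pm3.mono (by norm_num)) (H6.Le.S3.pm3.mono (by norm_num))
    (H6.PM.ge5 H6.Le.C3.card3 (fl := [2,2,2,2,2,2,2,2,2,2,3,3,3,3,3,3,3,5,5,5,7,11,23]) (l := [5]) (List.forall_mem_cons.2 ⟨H6.Le.S5.pm3, (by simp)⟩) (by decide +kernel))
    H6.HasCov.one (by norm_num))

end Cfsg.Agent.S2045
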