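import Cfsg.Statements.S2090
import Cfsg.Agent.H6.ClC5

set_option autoImplicit false
open Cfsg

namespace Cfsg.Agent.S2090

open Cfsg.Agent
open scoped Pointwise commutatorElement

/-- Exceptional Schur multiplier: PSU₄(3), realised over the field with 9 elements, has Schur multiplier isomorphic to the product of cyclic groups of orders 4, 3 and 3 (order 36, not cyclic; here the Schur multiplier is described through stem extensions, as in the definitions). -/
theorem result {F : Type*} [Field F] [Fintype F] (hF : Fintype.card F = 9) : Cfsg.HasSchurMultiplier (Cfsg.PSU 4 F 3) (Multiplicative (ZMod 4 × ZMod 3 × ZMod 3)) := by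
  exact H6.hasSM_congr (H6.Cl.U43.isoU hF).some H6.Cl.U43.schur

end Cfsg.Agent.S2090
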