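import Cfsg.Statements.S2092
import Cfsg.Agent.C3.SM11

set_option autoImplicit false
open Cfsg

namespace Cfsg.Agent.S2092

open H4 C3.SM

/-- Schur multipliers of the symplectic groups: for m ≥ 2 and a field F with q elements (q ≥ 3 when m = 2), with (m, q) ≠ (3, 2), the Schur multiplier of PSp_2m(F) is cyclic of order gcd(2, q − 1); here the Schur multiplier is described through stem extensions, as in the definitions. -/
theorem result {F : Type*} [Field F] [Fintype F] {q : ℕ} (hF : Fintype.card F = q) (m : ℕ) (hm : 2 ≤ m) (h2 : m = 2 → 3 ≤ q) (hexc : ¬ (m = 3 ∧ q = 2)) : Cfsg.HasCyclicSchurMultiplier (Cfsg.PSp m F) (Nat.gcd 2 (q - 1)) := by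
  subst hF
  have := Fintype.one_lt_card (α := F)
  rw [← Nat.card_eq_fintype_card]
  refine symp_mult (spF_nondeg m) (by simp; omega) ?_ (spF_perfect m (by omega)) (spEquiv F m).symm
  by_cases h : 3 ≤ Fintype.card F
  · exact .inl (exists_ne_zero_one h)
  · exact .inr (by simp; omega)

end Cfsg.Agent.S2092
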