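import Cfsg.Statements.S2096
import Cfsg.Agent.C3.SM8

set_option autoImplicit false
open Cfsg

namespace Cfsg.Agent.S2096

open H4 C3.SM

/-- Schur multipliers of the even-dimensional orthogonal groups of plus type and odd rank: for odd l ≥ 5 and a field F with q elements, the Schur multiplier of PΩ⁺_2l(F) (for the form Σ xᵢyᵢ) is cyclic of order gcd(4, q^l − 1); here the Schur multiplier is described through stem extensions, as in the definitions. -/
theorem result {F : Type*} [Field F] [Fintype F] {q : ℕ} (hF : Fintype.card F = q) (l : ℕ) (hl : 5 ≤ l) (hodd : Odd l) : Cfsg.HasCyclicSchurMultiplier (Cfsg.POmega F (Cfsg.quadFormPlus l F)) (Nat.gcd 4 (q ^ l - 1)) := by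
  subst hF
  have hp : 0 < Fintype.card F ^ l := pow_pos Fintype.card_pos _
  refine omega_mult (f := plusF F l) (plusF_nondeg l) (by simp; omega) (fun h => by simp; omega)
    (fun _ h => by simp at h; omega) (fun h => ?_) (fun _ h => by simp [Nat.odd_iff] at h; omega) fun h l' hl' => ?_
  · have : Fintype.card F ^ l % 2 = 0 := Nat.even_iff.1 (Nat.even_pow.2 ⟨Nat.even_iff.2 h, by omega⟩)
    rw [gcd_four, if_neg (by omega), if_neg (by omega)]; simp
  obtain rfl : l = l' := by simp at hl'; omega
  have := pow_mod_four (m := l) h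
  rw [plusF_wi, gcd_four]
  refine ⟨fun h1 => ?_, fun h1 => ?_⟩
  · rw [if_neg (by split_ifs at this <;> simp at h1 <;> omega), if_pos (by split_ifs at this <;> simp at h1 <;> omega)]; simp
  · rw [if_pos (by simp at h1; omega)]
    exact ⟨by simp, fun _ => inferInstance, fun h => absurd h (by simpa using hodd)⟩

end Cfsg.Agent.S2096
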