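import Cfsg.Statements.S2097
import Cfsg.Agent.C3.SM8

set_option autoImplicit false
open Cfsg

namespace Cfsg.Agent.S2097

open H4 C3.SM

/-- Schur multipliers of the even-dimensional orthogonal groups of plus type and even rank: for even l ≥ 4 and a field F with q elements, (l, q) ≠ (4, 2), the Schur multiplier of PΩ⁺_2l(F) (for the form Σ xᵢyᵢ) is the product of two cyclic groups of order gcd(2, q^l − 1) (so trivial for q even and a four-group for q odd; here the Schur multiplier is described through stem extensions, as in the definitions). -/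
theorem result {F : Type*} [Field F] [Fintype F] {q : ℕ} (hF : Fintype.card F = q) (l : ℕ) (hl : 4 ≤ l) (heven : Even l) (hexc : ¬ (l = 4 ∧ q = 2)) : Cfsg.HasSchurMultiplier (Cfsg.POmega F (Cfsg.quadFormPlus l F)) (Multiplicative (ZMod (Nat.gcd 2 (q ^ l - 1)) × ZMod (Nat.gcd 2 (q ^ l - 1)))) := by
  subst hF
  have hp : 0 < Fintype.card F ^ l := pow_pos Fintype.card_pos _
  refine omega_mult (f := plusF F l) (plusF_nondeg l) (by simp; omega) (fun h => by simp; omega)
    (fun _ h => by simp at h; omega) (fun h => ?_) (fun _ h => by simp [Nat.odd_iff] at h; omega) fun h l' hl' => ?_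
  · have : Fintype.card F ^ l % 2 = 0 := Nat.even_iff.1 (Nat.even_pow.2 ⟨Nat.even_iff.2 h, by omega⟩)
    rw [gcd_two, if_neg (by omega)]; simp
  obtain rfl : l = l' := by simp at hl'; omega
  have := pow_mod_four (m := l) h
  rw [if_neg (by simp [heven])] at this
  rw [plusF_wi, gcd_two, if_pos (by omega)]
  exact ⟨fun h1 => absurd (by simp [this]) h1, fun _ => ⟨by simp, fun h => absurd h (by simpa using heven), fun _ => inferInstance⟩⟩

end Cfsg.Agent.S2097
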