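import Cfsg.Statements.S2099
import Cfsg.Agent.C3.SM8

set_option autoImplicit false
open Cfsg

namespace Cfsg.Agent.S2099

open H4 C3.SM

/-- Schur multipliers of the even-dimensional orthogonal groups of minus type: for l ≥ 4 and a field F with q elements, the Schur multiplier of PΩ⁻_2l(F) (for the form Σ_{i<l−1} xᵢyᵢ + z₁² + a z₁z₂ + b z₂² with the binary part anisotropic) is cyclic of order gcd(4, q^l + 1); here the Schur multiplier is described through stem extensions, as in the definitions. -/
theorem result {F : Type*} [Field F] [Fintype F] {q : ℕ} (hF : Fintype.card F = q) (l : ℕ) (hl : 4 ≤ l) (a b : F) (hab : ∀ z₁ z₂ : F, z₁ ^ 2 + a * z₁ * z₂ + b * z₂ ^ 2 = 0 → z₁ = 0 ∧ z₂ = 0) : Cfsg.HasCyclicSchurMultiplier (Cfsg.POmega F (Cfsg.quadFormMinus (l - 1) F a b)) (Nat.gcd 4 (q ^ l + 1)) := by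
  subst hF
  have hw := minusF_wi (l - 1) hab
  refine omega_mult (f := minusF (l - 1) a b) (minusF_nondeg _ hab) (by simp; omega) (fun h => by simp; omega)
    (fun _ h => by simp at h; omega) (fun h => ?_) (fun _ h => by simp [Nat.odd_iff] at h; omega) fun h l' hl' => ?_
  · have : Fintype.card F ^ l % 2 = 0 := Nat.even_iff.1 (Nat.even_pow.2 ⟨Nat.even_iff.2 h, by omega⟩)
    rw [gcd_four, if_neg (by omega), if_neg (by omega)]; simp
  obtain rfl : l = l' := by simp at hl'; omega
  have := pow_mod_four (m := l) h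
  rw [hw, gcd_four, iff_false_right (by omega)]
  refine ⟨fun h1 => ?_, fun h1 => ?_⟩
  · rw [if_neg (by omega), if_pos (by omega)]; simp
  · split_ifs at this with h2
    · rw [if_pos (by omega)]
      exact ⟨by simp, fun _ => inferInstance, fun h => absurd h (by simpa using h2.1)⟩
    · exact absurd this h1

end Cfsg.Agent.S2099
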