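import Cfsg.Statements.S2100
import Cfsg.Agent.H5.Ce4
import Cfsg.Agent.H5.TwP

set_option autoImplicit false
open Cfsg

namespace Cfsg.Agent.S2100

/-- Schur multipliers of the Chevalley groups of type G₂: over a field with q ≥ 5 elements the Schur multiplier of G₂(q) is trivial (here the Schur multiplier is described through stem extensions, as in the definitions); the cases q = 3 and q = 4 are exceptional and q = 2 gives a non-simple group. -/
theorem result {F : Type*} [Field F] [Fintype F] (hF : 5 ≤ Fintype.card F) : Cfsg.HasCyclicSchurMultiplier ↥(Cfsg.Lie.chevG2.group F) 1 := by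
  open H5 in
  exact RS.hasMult_adj goodG2 (StN.perfect2 good2G2 (by
    obtain ⟨v, hv⟩ := exists_pow_ne (K := F) (n := 1) ⟨Finset.univ, by simp; omega⟩ 1 le_rfl le_rfl
    exact ⟨v, v.ne_zero, by simpa using hv⟩) (rsG2.st_gen F goodG2))
    (StN.hp_inj_of_ker (rsG2.st_rel3 F goodG2) kerG2.ker_eq_bot) kerG2 zero_le_one (pow_zero _).symm (by omega) (by omega) (by omega) cbigG2

end Cfsg.Agent.S2100
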