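import Cfsg.Statements.S2103
import Cfsg.Agent.H5.Ce4
import Cfsg.Agent.H5.TwP

set_option autoImplicit false
open Cfsg

namespace Cfsg.Agent.S2103

/-- Schur multipliers of the Chevalley groups of type F₄: over a finite field with more than 2 elements the Schur multiplier of F₄(q) is trivial (here the Schur multiplier is described through stem extensions, as in the definitions); q = 2 is exceptional. -/
theorem result {F : Type*} [Field F] [Fintype F] (hF : 3 ≤ Fintype.card F) : Cfsg.HasCyclicSchurMultiplier ↥(Cfsg.Lie.chevF4.group F) 1 := by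
  open H5 in
  exact RS.hasMult_adj goodF4 (StN.perfect1 good1F4 (rsF4.st_gen F goodF4))
    (StN.hp_inj_of_ker (rsF4.st_rel3 F goodF4) kerF4.ker_eq_bot) kerF4 zero_le_one (pow_zero _).symm (by omega)
    (fun _ => ⟨_, .inl cthreeF4⟩) (fun _ => cfourF4) cbigF4

end Cfsg.Agent.S2103
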