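import Cfsg.Statements.S2106
import Cfsg.Agent.H5.Ce4

set_option autoImplicit false
open Cfsg

namespace Cfsg.Agent.S2106

/-- Schur multipliers of the (adjoint, simple) Chevalley groups of type E₇: over a field with q elements the Schur multiplier is cyclic of order gcd(2, q − 1) (here the Schur multiplier is described through stem extensions, as in the definitions). -/
theorem result {F : Type*} [Field F] [Fintype F] {q : ℕ} (hF : Fintype.card F = q) : Cfsg.HasCyclicSchurMultiplier ↥(Cfsg.Lie.chevE7.group F) (Nat.gcd 2 (q - 1)) := by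
  open H5 in
  exact RS.hasMult_adj goodE7 (StN.perfect1 good1E7 (rsE7.st_gen F goodE7)) (hp_injE7 F) kerE7 le_rfl (by rw [hF, pow_one])
    (fun _ => ctwoE7) (fun _ => ⟨_, .inl cthreeE7⟩) (fun _ => cfourE7) cbigE7

end Cfsg.Agent.S2106
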