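import Cfsg.Statements.S2107
import Cfsg.Agent.H5.Ce4
import Cfsg.Agent.H5.TwP

set_option autoImplicit false
open Cfsg

namespace Cfsg.Agent.S2107

/-- Schur multipliers of the Chevalley groups of type E₈: over every finite field the Schur multiplier of E₈(q) is trivial (here the Schur multiplier is described through stem extensions, as in the definitions). -/
theorem result {F : Type*} [Field F] [Fintype F] : Cfsg.HasCyclicSchurMultiplier ↥(Cfsg.Lie.chevE8.group F) 1 := by
  open H5 in
  exact RS.hasMult_adj goodE8 (StN.perfect1 good1E8 (rsE8.st_gen F goodE8))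
    (StN.hp_inj_of_ker (rsE8.st_rel3 F goodE8) kerE8.ker_eq_bot) kerE8 zero_le_one (pow_zero _).symm
    (fun _ => ctwoE8) (fun _ => ⟨_, .inl cthreeE8⟩) (fun _ => cfourE8) cbigE8

end Cfsg.Agent.S2107
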