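import Cfsg.Statements.S2115
import Cfsg.Agent.H6.TiC6

set_option autoImplicit false
open Cfsg

namespace Cfsg.Agent.S2115

open Cfsg.Agent
open scoped Pointwise commutatorElement

/-- The Tits group, the commutator subgroup of ²F₄(2), has trivial Schur multiplier (here the Schur multiplier is described through stem extensions, as in the definitions). -/
theorem result : Cfsg.HasCyclicSchurMultiplier Cfsg.Lie.TitsGroup 1 := by
  obtain ⟨e⟩ := H6.Ti.main.2
  refine H6.hasCyc_congr (G := H6.Ti.GT) (G' := Cfsg.Lie.TitsGroup) ?_ H6.Ti.schur
  exact MulEquiv.ofBijective e.toMonoidHom e.bijective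

end Cfsg.Agent.S2115
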