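import Cfsg.Statements.S2154
import Cfsg.Agent.H5.Cent

set_option autoImplicit false
open Cfsg

namespace Cfsg.Agent.S2154

/-- The Borel–Tits property of the finite Chevalley groups of types G₂, B₂, D₄, F₄, E₆, E₇, E₈ over a finite field of characteristic p: for every non-trivial p-subgroup U of the group G there are an element g of G and a proper set J of fundamental roots such that the normaliser of U in G lies in the conjugate by g of the standard parabolic subgroup P_J and U lies in the conjugate by g of its unipotent radical U_J. -/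
theorem result {F : Type*} [Field F] [Fintype F] (p : ℕ) [Fact p.Prime] [CharP F p] (D : Cfsg.Lie.ChevalleyDatum) (hD : D ∈ [Cfsg.Lie.chevG2, Cfsg.Lie.chevB2, Cfsg.Lie.chevD4, Cfsg.Lie.chevF4, Cfsg.Lie.chevE6, Cfsg.Lie.chevE7, Cfsg.Lie.chevE8]) (U : Subgroup (GL D.Idx F)) (hUG : U ≤ D.group F) (hU : IsPGroup p ↥U) (hne : U ≠ ⊥) : ∃ g ∈ D.group F, ∃ J : Set ℕ, (∃ i, i < D.rank ∧ i ∉ J) ∧ Subgroup.normalizer (U : Set (GL D.Idx F)) ⊓ D.group F ≤ (D.parabolicSubgroup F J).map (MulAut.conj g).toMonoidHom ∧ U ≤ (D.unipotentRadical F J).map (MulAut.conj g).toMonoidHom := by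
  obtain ⟨R⟩ := H5.exists_rs hD
  rw [R.group_eq] at hUG ⊢
  obtain ⟨g, hg, h⟩ := H5.StN.exists_conj_U (S := R.gl F) Function.injective_id hUG hU
  obtain ⟨k, hk, J, ⟨i, hi⟩, h1, h2⟩ := H5.StN.borel_tits (S := R.gl F) (V := U.map (MulAut.conj g).toMonoidHom)
    (by rintro _ ⟨v, hv, rfl⟩; exact h v hv) (by rwa [Ne, Subgroup.map_eq_bot_iff_of_injective _ (MulAut.conj g).injective])
  refine ⟨g⁻¹ * k, mul_mem (inv_mem hg) hk, Fin.val '' J, ⟨i, i.2, by simpa [Fin.val_inj] using hi⟩, fun n hn => ?_, fun v hv => ?_⟩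
  · rw [R.par_eq, Set.preimage_image_eq _ Fin.val_injective]
    refine ⟨_, h1 (g * n * g⁻¹) (mul_mem (mul_mem hg hn.2) (inv_mem hg)) ?_, by simp [mul_assoc]⟩
    rintro _ ⟨v, hv, rfl⟩
    exact ⟨n⁻¹ * v * n, (Subgroup.mem_normalizer_iff''.1 hn.1 v).1 hv, by simp [mul_assoc]⟩
  · rw [R.unip_eq, Set.preimage_image_eq _ Fin.val_injective]
    exact ⟨_, h2 _ ⟨v, hv, rfl⟩, by simp [mul_assoc]⟩

end Cfsg.Agent.S2154
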