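import Cfsg.Statements.S2155
import Cfsg.Agent.H5.Cent
import Cfsg.Agent.H8.FStar

set_option autoImplicit false
open Cfsg

namespace Cfsg.Agent.S2155

/-- In a Chevalley group of type G₂, B₂, D₄, F₄, E₆, E₇ or E₈ over a finite field of characteristic p (for types G₂ and B₂ the field is assumed to have at least 3 elements, so that the group is simple), the generalized Fitting subgroup of every proper standard parabolic subgroup P_J is a p-group (P_J is p-constrained with trivial largest normal subgroup of order prime to p). -/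
theorem result {F : Type*} [Field F] [Fintype F] (p : ℕ) [Fact p.Prime] [CharP F p] (D : Cfsg.Lie.ChevalleyDatum) (hD : D ∈ [Cfsg.Lie.chevG2, Cfsg.Lie.chevB2, Cfsg.Lie.chevD4, Cfsg.Lie.chevF4, Cfsg.Lie.chevE6, Cfsg.Lie.chevE7, Cfsg.Lie.chevE8]) (hq : (D = Cfsg.Lie.chevG2 ∨ D = Cfsg.Lie.chevB2) → 3 ≤ Fintype.card F) (J : Set ℕ) (hJ : ∃ i, i < D.rank ∧ i ∉ J) : IsPGroup p ↥(Cfsg.generalizedFittingSubgroup ↥(D.parabolicSubgroup F J)) := by
  obtain ⟨R, -, hR, -⟩ := H5.exists_rs' hD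
  obtain ⟨i, hi, hiJ⟩ := hJ
  have hU := H5.StN.isPGroup_U (S := R.gl F) (p := p) (L := R.lamf) H5.StN.closed_pos' fun _ h => h
  rw [(H8.fstar_eq_pCore_iff_map (p := p) _).2 (H8.Fs_eq_Op_iff.2 ?_)]
  · exact L.pCore_isPGroup p _
  rw [R.par_eq]
  set P := (R.gl F).Par (Fin.val ⁻¹' J)
  set Q := (R.gl F).U {r | R.Pos r ∧ r ∉ R.Sub (Fin.val ⁻¹' J)}
  have hQ : Q ≤ H8.Op p P := H8.le_Op (le_sup_left.trans (H5.StN.levi_sup _).le)
    (H5.StG.le_normalizer_of_conj fun _ hg _ hv => H5.StN.Par_conj hg hv) (hU.to_le (H5.StG.U_mono fun _ h => h.1))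
  refine H8.le_Op inf_le_left ?_ (hU.to_le fun g hg => H5.StN.cent_UJ hR Function.injective_id ⟨⟨i, hi⟩, hiJ⟩
    (H5.StN.Par_le _ hg.1) fun v hv => by rw [← hg.2 v (hQ hv), mul_inv_cancel_right])
  refine H5.StG.le_normalizer_of_conj fun g hg v hv => Subgroup.mem_inf.2 ⟨mul_mem (mul_mem hg hv.1) (inv_mem hg), fun u hu => ?_⟩
  have := hv.2 _ ((Subgroup.mem_normalizer_iff''.1 (H8.le_normalizer_Op p P hg) u).1 hu)
  calc _ = g * (g⁻¹ * u * g * v) * g⁻¹ := by group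
    _ = _ := by rw [this]; group

end Cfsg.Agent.S2155
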