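import Cfsg.Statements.S2161
import Cfsg.Agent.H5.AutC

set_option autoImplicit false
open Cfsg

namespace Cfsg.Agent.S2161

theorem aux {F : Type*} [Field F] {D : Cfsg.Lie.ChevalleyDatum} (R : H5.RS D) {π : Equiv.Perm (Fin D.rank)}
    {φ α : ↥(D.group F) ≃* ↥(D.group F)}
    (hφ : ∀ (g : ↥(D.group F)) (i : Fin D.rank) (t : F),
      (((g : GL D.Idx F) : Matrix D.Idx D.Idx F) = D.x F (D.simple i) t →
        ((φ g : GL D.Idx F) : Matrix D.Idx D.Idx F) = D.x F (D.simple (π i)) t) ∧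
      (((g : GL D.Idx F) : Matrix D.Idx D.Idx F) = D.x F (D.neg (D.simple i)) t →
        ((φ g : GL D.Idx F) : Matrix D.Idx D.Idx F) = D.x F (D.neg (D.simple (π i))) t))
    {ρ : H5.Φ D → H5.Φ D} {γ : H5.Φ D → ℤ} (hα : ∀ r t, α ((R.adj F).x r t) = (R.adj F).x (ρ r) (γ r * t))
    (h : (∀ r : H5.Φ D, D.permRoot π r = ρ r ∧ (γ r = 1 ∨ γ r = -1)) ∧ ∀ i, ρ (R.sim i) = R.sim (π i) ∧
      ρ (R.neg (R.sim i)) = R.neg (R.sim (π i)) ∧ γ (R.sim i) = 1 ∧ γ (R.neg (R.sim i)) = 1) (r : H5.Φ D) :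
    ∃ ε : F, (ε = 1 ∨ ε = -1) ∧ ∀ (g : ↥(D.group F)) (t : F),
      ((g : GL D.Idx F) : Matrix D.Idx D.Idx F) = D.x F r t →
        ((φ g : GL D.Idx F) : Matrix D.Idx D.Idx F) = D.x F (D.permRoot π r) (ε * t) := by
  simp only [← R.sim_val, ← R.neg_val, R.eq_adj_x_iff] at hφ
  obtain rfl : φ = α := MulEquiv.toMonoidHom_injective (H5.StN.hom_ext_sim (R.adj_gen F)
    (fun i t => ((hφ _ i t).1 rfl).trans (by simp [hα, h.2 i])) fun i t => ((hφ _ i t).2 rfl).trans (by simp [hα, h.2 i]))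
  refine ⟨γ r, (h.1 r).2.imp (fun h => by simp [h]) fun h => by simp [h], fun g t => ?_⟩
  rw [(h.1 r).1, R.eq_adj_x_iff, R.eq_adj_x_iff]
  rintro rfl
  exact hα r t

/-- For the Chevalley groups of types D₄ and E₆ (one root length) over any field: if `π` is a symmetry of the Dynkin diagram and `φ` is an automorphism sending `x_{p_i}(t)` to `x_{p_{π i}}(t)` and `x_{-p_i}(t)` to `x_{-p_{π i}}(t)` for every fundamental root `p_i`, then for every root `r` there is a sign `ε = ±1` with `φ(x_r(t)) = x_{π·r}(ε t)` for all `t`, where `π·r` is the root whose coefficients are those of `r` permuted by `π`. -/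
theorem result {F : Type*} [Field F] (D : Cfsg.Lie.ChevalleyDatum) (hD : D ∈ [Cfsg.Lie.chevD4, Cfsg.Lie.chevE6])
    (π : Equiv.Perm (Fin D.rank)) (hπ : D.IsDiagramSymmetry π) (φ : ↥(D.group F) ≃* ↥(D.group F))
    (hφ : ∀ (g : ↥(D.group F)) (i : Fin D.rank) (t : F),
      (((g : GL D.Idx F) : Matrix D.Idx D.Idx F) = D.x F (D.simple i) t →
        ((φ g : GL D.Idx F) : Matrix D.Idx D.Idx F) = D.x F (D.simple (π i)) t) ∧
      (((g : GL D.Idx F) : Matrix D.Idx D.Idx F) = D.x F (D.neg (D.simple i)) t →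
        ((φ g : GL D.Idx F) : Matrix D.Idx D.Idx F) = D.x F (D.neg (D.simple (π i))) t))
    (r : ℕ) (hr : r < D.nroots) :
    ∃ ε : F, (ε = 1 ∨ ε = -1) ∧ ∀ (g : ↥(D.group F)) (t : F),
      ((g : GL D.Idx F) : Matrix D.Idx D.Idx F) = D.x F r t →
        ((φ g : GL D.Idx F) : Matrix D.Idx D.Idx F) = D.x F (D.permRoot π r) (ε * t) := by
  lift r to H5.Φ D using hr
  rcases List.mem_pair.1 hD with rfl | rfl
  · have := H5.symD4_cases hπ
    simp only [List.mem_cons, List.not_mem_nil, or_false] at this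
    rcases this with rfl | rfl | rfl | rfl | rfl | rfl
    · exact aux H5.rsD4 hφ (α := MulEquiv.refl _) (ρ := id) (γ := 1) (by simp) (by decide +kernel) r
    · exact aux _ hφ (H5.RS.exists_graphAut H5.goodD4 _ _ H5.grD4_0132_π).choose_spec (by decide +kernel) r
    · exact aux _ hφ (H5.RS.exists_graphAut H5.goodD4 _ _ H5.grD4_2103_π).choose_spec (by decide +kernel) r
    · exact aux _ hφ (H5.RS.exists_graphAut H5.goodD4 _ _ H5.grD4_2130_π).choose_spec (by decide +kernel) r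
    · exact aux _ hφ (H5.RS.exists_graphAut H5.goodD4 _ _ H5.grD4_3102_π).choose_spec (by decide +kernel) r
    · exact aux _ hφ (H5.RS.exists_graphAut H5.goodD4 _ _ H5.grD4_3120_π).choose_spec (by decide +kernel) r
  · rcases List.mem_pair.1 (H5.symE6_cases hπ) with rfl | rfl
    · exact aux H5.rsE6 hφ (α := MulEquiv.refl _) (ρ := id) (γ := 1) (by simp) (by decide +kernel) r
    · exact aux _ hφ (H5.RS.exists_graphAut H5.goodE6 _ _ H5.grE6_π).choose_spec (by decide +kernel) r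

end Cfsg.Agent.S2161
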