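import Cfsg.Statements.S2298
import Mathlib
import Cfsg.Agent.H7.GL2b

set_option autoImplicit false
open Cfsg

namespace Cfsg.Agent.S2298

open Cfsg.Agent.H3 Cfsg.Agent.H7 Finset

/-- Over a finite field F with q elements, every irreducible complex character of GL₂ has degree 1, q − 1, q or q + 1; and when q ≥ 3 (so that these four numbers are distinct) there are exactly q − 1 irreducible characters of degree 1, exactly q − 1 of degree q, exactly (q − 1)(q − 2)/2 of degree q + 1 and exactly q(q − 1)/2 of degree q − 1. -/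
theorem result {F : Type*} [Field F] [Fintype F] :
    (∀ χ : Matrix.GeneralLinearGroup (Fin 2) F → ℂ, Cfsg.IsIrrCharacter (Matrix.GeneralLinearGroup (Fin 2) F) χ →
      χ 1 = 1 ∨ χ 1 = (Fintype.card F : ℂ) - 1 ∨ χ 1 = (Fintype.card F : ℂ) ∨ χ 1 = (Fintype.card F : ℂ) + 1) ∧
    (3 ≤ Fintype.card F →
      Nat.card {χ : Cfsg.IrrCharacter (Matrix.GeneralLinearGroup (Fin 2) F) // (χ : Matrix.GeneralLinearGroup (Fin 2) F → ℂ) 1 = 1} = Fintype.card F - 1 ∧
      Nat.card {χ : Cfsg.IrrCharacter (Matrix.GeneralLinearGroup (Fin 2) F) // (χ : Matrix.GeneralLinearGroup (Fin 2) F → ℂ) 1 = (Fintype.card F : ℂ)} = Fintype.card F - 1 ∧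
      Nat.card {χ : Cfsg.IrrCharacter (Matrix.GeneralLinearGroup (Fin 2) F) // (χ : Matrix.GeneralLinearGroup (Fin 2) F → ℂ) 1 = (Fintype.card F : ℂ) + 1} = (Fintype.card F - 1) * (Fintype.card F - 2) / 2 ∧
      Nat.card {χ : Cfsg.IrrCharacter (Matrix.GeneralLinearGroup (Fin 2) F) // (χ : Matrix.GeneralLinearGroup (Fin 2) F → ℂ) 1 = (Fintype.card F : ℂ) - 1} = Fintype.card F * (Fintype.card F - 1) / 2) := by
  classical
  obtain ⟨g0, h0⟩ := exists_ell_SL F
  haveI : Fact (Ell _) := ⟨h0⟩
  set g1 := Matrix.SpecialLinearGroup.toGL g0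
  refine ⟨fun χ hχ => ?_, fun hq => ?_⟩
  · rcases irr_GL2 g1 hχ with ⟨α, rfl⟩ | ⟨α, rfl⟩ | ⟨α, β, -, rfl⟩ | ⟨θ, -, rfl⟩ <;>
      simp [Lm_one, Stb_one, PS_one, Cu_one]
  have h1 := q_ne_zero (F := F)
  have h2 := q_sub_ne_zero (F := F)
  have h3 : (Fintype.card F : ℂ) - 2 ≠ 0 := by
    rw [sub_ne_zero]; intro e; have : Fintype.card F = 2 := by exact_mod_cast e
    omega
  have h4 := one_ne_zero (α := ℂ)
  have h5 := two_ne_zero (α := ℂ)
  refine ⟨?_, ?_, ?_, ?_⟩
  · refine (card_irr_eq_image univ Lm (fun χ => χ 1 = 1) (fun χ hχ e => ?_) ?_).trans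
      (by rw [card_image_of_injective _ fun _ _ => Lm_inj, card_univ, card_mc])
    · rcases irr_GL2 g1 hχ with ⟨α, rfl⟩ | ⟨α, rfl⟩ | ⟨α, β, -, rfl⟩ | ⟨θ, -, rfl⟩
      · exact ⟨α, mem_univ _, rfl⟩
      · rw [Stb_one] at e; exact absurd (by linear_combination e) h2
      · rw [PS_one] at e; exact absurd (by linear_combination e) h1
      · rw [Cu_one] at e; exact absurd (by linear_combination e) h3
    · rintro α -; exact ⟨irr_Lm α, Lm_one α⟩
  · refine (card_irr_eq_image univ Stb (fun χ => χ 1 = Fintype.card F)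
      (fun χ hχ e => ?_) ?_).trans
      (by rw [card_image_of_injective _ fun _ _ => Stb_inj, card_univ, card_mc])
    · rcases irr_GL2 g1 hχ with ⟨α, rfl⟩ | ⟨α, rfl⟩ | ⟨α, β, -, rfl⟩ | ⟨θ, -, rfl⟩
      · rw [Lm_one] at e; exact absurd (by linear_combination -e) h2
      · exact ⟨α, mem_univ _, rfl⟩
      · rw [PS_one] at e; exact absurd (by linear_combination e) h4
      · rw [Cu_one] at e; exact absurd (by linear_combination -e) h4
    · rintro α -; exact ⟨irr_Stb α, Stb_one α⟩
  · refine (card_irr_eq_image (univ : Finset (MulChar F ℂ)).offDiag (fun x => PS x.1 x.2)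
      (fun χ => χ 1 = Fintype.card F + 1) (fun χ hχ e => ?_) ?_).trans ?_
    rotate_left 2
    · have := card_eq_mul_card_image (univ : Finset (MulChar F ℂ)).offDiag (fun x => PS x.1 x.2) 2
        fun x hx => by
          have hx' : x.1 ≠ x.2 := by simpa using hx
          rw [card_eq_two]
          refine ⟨x, x.swap, fun e => hx' (congrArg Prod.fst e), ?_⟩
          ext y
          simp only [mem_filter, mem_offDiag, mem_univ, true_and, PS_eq_iff, mem_insert, mem_singleton,
            Prod.ext_iff, Prod.fst_swap, Prod.snd_swap, and_iff_right_iff_imp]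
          rintro (⟨e1, e2⟩ | ⟨e1, e2⟩) <;> rw [e1, e2]
          · exact hx'
          · exact hx'.symm
      rw [offDiag_card, card_univ, card_mc] at this
      have e : (Fintype.card F - 1) * (Fintype.card F - 2) =
          (Fintype.card F - 1) * (Fintype.card F - 1) - (Fintype.card F - 1) := by
        rw [← Nat.mul_sub_one]; rfl
      omega
    · rcases irr_GL2 g1 hχ with ⟨α, rfl⟩ | ⟨α, rfl⟩ | ⟨α, β, h, rfl⟩ | ⟨θ, -, rfl⟩
      · rw [Lm_one] at e; exact absurd (by linear_combination -e) h1
      · rw [Stb_one] at e; exact absurd (by linear_combination -e) h4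
      · exact ⟨(α, β), by simpa using h, rfl⟩
      · rw [Cu_one] at e; exact absurd (by linear_combination -e) h5
    · rintro x hx; exact ⟨irr_PS (by simpa using hx), PS_one _ _⟩
  · refine (card_irr_eq_image (univ \ univ.image (lam g1)) Cu
      (fun χ => χ 1 = Fintype.card F - 1) (fun χ hχ e => ?_) ?_).trans ?_
    rotate_left 2
    · have := card_eq_mul_card_image (univ \ univ.image (lam g1)) Cu 2
        fun x hx => by
          have hx' : x ≠ x.comp (bar g1) := fun e => by
            obtain ⟨γ, rfl⟩ := exists_lam (eq_bar_iff.1 e)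
            simp at hx
          rw [card_eq_two]
          refine ⟨x, x.comp (bar g1), hx', ?_⟩
          ext y
          simp only [mem_filter, Cu_eq_iff, mem_insert, mem_singleton, and_iff_right_iff_imp]
          rintro (rfl | rfl)
          · exact hx
          · simp only [mem_sdiff, mem_univ, mem_image, true_and, not_exists]
            intro γ e
            apply hx'
            rw [← comp_bar_bar x, ← e, lam_bar, lam_bar]
      rw [card_sdiff_of_subset (subset_univ _), card_image_of_injective _ lam_injective, card_univ, card_univ,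
        card_mc, fintype_card_lin, card_Tor] at this
      have e : Fintype.card F * (Fintype.card F - 1) = Fintype.card F ^ 2 - Fintype.card F := by
        rw [Nat.mul_sub_one, pow_two]
      have := Nat.le_self_pow two_ne_zero (Fintype.card F)
      omega
    · rcases irr_GL2 g1 hχ with ⟨α, rfl⟩ | ⟨α, rfl⟩ | ⟨α, β, h, rfl⟩ | ⟨θ, h, rfl⟩
      · rw [Lm_one] at e; exact absurd (by linear_combination -e) h3
      · rw [Stb_one] at e; exact absurd (by linear_combination e) h4
      · rw [PS_one] at e; exact absurd (by linear_combination e) h5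
      · refine ⟨θ, ?_, rfl⟩
        simp only [mem_sdiff, mem_univ, mem_image, true_and, not_exists]
        rintro γ rfl
        exact h (lam_bar γ).symm
    · rintro x hx
      refine ⟨irr_Cu fun e => ?_, Cu_one _⟩
      obtain ⟨γ, rfl⟩ := exists_lam (eq_bar_iff.1 e)
      simp at hx

end Cfsg.Agent.S2298
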