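import Cfsg.Statements.S2299
import Mathlib
import Cfsg.Agent.H7.GL2c

set_option autoImplicit false
open Cfsg

namespace Cfsg.Agent.S2299

open Cfsg.Agent.H3 Cfsg.Agent.H4 Cfsg.Agent.H7 Finset

/-- Over a finite field F with q elements, q odd, every irreducible complex character of SL₂ has degree 1, q, q + 1, q − 1, (q + 1)/2 or (q − 1)/2; and when q ≥ 5 (so that these six numbers are distinct) there are exactly one irreducible character of degree 1, one of degree q, (q − 3)/2 of degree q + 1, (q − 1)/2 of degree q − 1, two of degree (q + 1)/2 and two of degree (q − 1)/2. -/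
theorem result {F : Type*} [Field F] [Fintype F] (hodd : Odd (Fintype.card F)) :
    (∀ χ : Matrix.SpecialLinearGroup (Fin 2) F → ℂ, Cfsg.IsIrrCharacter (Matrix.SpecialLinearGroup (Fin 2) F) χ →
      χ 1 = 1 ∨ χ 1 = (Fintype.card F : ℂ) ∨ χ 1 = (Fintype.card F : ℂ) + 1 ∨ χ 1 = (Fintype.card F : ℂ) - 1 ∨
        χ 1 = (((Fintype.card F + 1) / 2 : ℕ) : ℂ) ∨ χ 1 = (((Fintype.card F - 1) / 2 : ℕ) : ℂ)) ∧
    (5 ≤ Fintype.card F →
      Nat.card {χ : Cfsg.IrrCharacter (Matrix.SpecialLinearGroup (Fin 2) F) // (χ : Matrix.SpecialLinearGroup (Fin 2) F → ℂ) 1 = 1} = 1 ∧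
      Nat.card {χ : Cfsg.IrrCharacter (Matrix.SpecialLinearGroup (Fin 2) F) // (χ : Matrix.SpecialLinearGroup (Fin 2) F → ℂ) 1 = (Fintype.card F : ℂ)} = 1 ∧
      Nat.card {χ : Cfsg.IrrCharacter (Matrix.SpecialLinearGroup (Fin 2) F) // (χ : Matrix.SpecialLinearGroup (Fin 2) F → ℂ) 1 = (Fintype.card F : ℂ) + 1} = (Fintype.card F - 3) / 2 ∧
      Nat.card {χ : Cfsg.IrrCharacter (Matrix.SpecialLinearGroup (Fin 2) F) // (χ : Matrix.SpecialLinearGroup (Fin 2) F → ℂ) 1 = (Fintype.card F : ℂ) - 1} = (Fintype.card F - 1) / 2 ∧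
      Nat.card {χ : Cfsg.IrrCharacter (Matrix.SpecialLinearGroup (Fin 2) F) // (χ : Matrix.SpecialLinearGroup (Fin 2) F → ℂ) 1 = (((Fintype.card F + 1) / 2 : ℕ) : ℂ)} = 2 ∧
      Nat.card {χ : Cfsg.IrrCharacter (Matrix.SpecialLinearGroup (Fin 2) F) // (χ : Matrix.SpecialLinearGroup (Fin 2) F → ℂ) 1 = (((Fintype.card F - 1) / 2 : ℕ) : ℂ)} = 2) := by
  classical
  obtain ⟨g0, h0⟩ := exists_ell_SL F
  haveI : Fact (Ell _) := ⟨h0⟩
  set g1 := Matrix.SpecialLinearGroup.toGL g0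
  obtain ⟨m, hm⟩ := hodd
  refine ⟨fun χ hχ => ?_, fun hq => ⟨?_, ?_, ?_, ?_, ?_, ?_⟩⟩
  · obtain ⟨n, hn⟩ := hχ.isCharacter.exists_nat_degree
    rw [hn, ← cast_q_sub]
    rcases irr_SL2' g1 hχ hn with ⟨rfl, -⟩ | ⟨rfl, -⟩ | ⟨rfl, -⟩ | ⟨rfl, -⟩ | ⟨rfl, -⟩ | ⟨rfl, -⟩ <;> simp
  · refine (card_irr_eq_image {fun _ => 1} id (fun χ => χ 1 = 1) (fun χ hχ h => ?_) ?_).trans (by simp)
    · rcases irr_SL2' g1 hχ (n := 1) (by simpa using h) with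
        ⟨-, rfl⟩ | ⟨e, -⟩ | ⟨e, -⟩ | ⟨e, -⟩ | ⟨e, -⟩ | ⟨e, -⟩
      any_goals omega
      simp
    · simpa using isIrrCharacter_one
  · refine (card_irr_eq_image {StS F} id (fun χ => χ 1 = Fintype.card F) (fun χ hχ h => ?_) ?_).trans (by simp)
    · rcases irr_SL2' g1 hχ h with
        ⟨e, -⟩ | ⟨-, rfl⟩ | ⟨e, -⟩ | ⟨e, -⟩ | ⟨e, -⟩ | ⟨e, -⟩
      any_goals omega
      simp
    · simpa using ⟨irr_StS, StS_one⟩
  · refine (card_irr_eq_image (univ.filter fun α : MulChar F ℂ => α ^ 2 ≠ 1) RS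
      (fun χ => χ 1 = Fintype.card F + 1) (fun χ hχ h => ?_) fun α hα => ?_).trans ?_
    · rcases irr_SL2' g1 hχ (n := Fintype.card F + 1) (by simpa using h) with
        ⟨e, -⟩ | ⟨e, -⟩ | ⟨-, α, e, rfl⟩ | ⟨e, -⟩ | ⟨e, -⟩ | ⟨e, -⟩
      any_goals omega
      exact ⟨α, by simpa using e, rfl⟩
    · exact ⟨irr_RS.2 (mem_filter.1 hα).2, RS_one _⟩
    · have := card_image_inv (RS (F := F)) fun _ _ => RS_eq_iff
      rw [card_mc, Nat.gcd_eq_right (by omega)] at this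
      omega
  · refine (card_irr_eq_image (univ.filter fun η : Lin (K1 g1) => η ^ 2 ≠ 1) CS
      (fun χ => χ 1 = Fintype.card F - 1) (fun χ hχ h => ?_) fun α hα => ?_).trans ?_
    · rcases irr_SL2' g1 hχ (h.trans cast_q_sub.symm) with
        ⟨e, -⟩ | ⟨e, -⟩ | ⟨e, -⟩ | ⟨-, α, e, rfl⟩ | ⟨e, -⟩ | ⟨e, -⟩
      any_goals omega
      exact ⟨α, by simpa using e, rfl⟩
    · exact ⟨irr_CS.2 (mem_filter.1 hα).2, CS_one _⟩
    · have := card_image_inv (CS (g0 := g1)) fun _ _ => CS_eq_iff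
      rw [card_lin_K1, Nat.gcd_eq_right (by omega)] at this
      omega
  · obtain ⟨α, a1, a2⟩ := exists_sq_eq_one (X := MulChar F ℂ) (by rw [Nat.card_eq_fintype_card, card_mc]; omega)
    obtain ⟨ψ, ψ', H⟩ := halves_RS a1 a2
    refine (card_irr_eq_image {ψ, ψ'} id (fun χ => χ 1 = (((Fintype.card F + 1) / 2 : ℕ) : ℂ))
      (fun χ hχ h => ?_) ?_).trans (by rw [image_id, card_pair H.ne])
    · rcases irr_SL2' g1 hχ h with
        ⟨e, -⟩ | ⟨e, -⟩ | ⟨e, -⟩ | ⟨e, -⟩ | ⟨-, β, χ', b1, b2, H'⟩ | ⟨e, -⟩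
      any_goals omega
      obtain rfl := eq_of_sq_eq_one a1 a2 b1 b2
      exact ⟨χ, by simpa using H.eq_or hχ H'.inner_ne, rfl⟩
    · simpa using ⟨⟨H.irr, H.deg_RS⟩, H.irr', H.symm.deg_RS⟩
  · obtain ⟨α, a1, a2⟩ := exists_sq_eq_one (X := Lin (K1 g1)) (by rw [Nat.card_eq_fintype_card, card_lin_K1]; omega)
    obtain ⟨ψ, ψ', H⟩ := halves_CS a1 a2
    refine (card_irr_eq_image {ψ, ψ'} id (fun χ => χ 1 = (((Fintype.card F - 1) / 2 : ℕ) : ℂ))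
      (fun χ hχ h => ?_) ?_).trans (by rw [image_id, card_pair H.ne])
    · rcases irr_SL2' g1 hχ h with
        ⟨e, -⟩ | ⟨e, -⟩ | ⟨e, -⟩ | ⟨e, -⟩ | ⟨e, -⟩ | ⟨-, β, χ', b1, b2, H'⟩
      any_goals omega
      obtain rfl := eq_of_sq_eq_one a1 a2 b1 b2
      exact ⟨χ, by simpa using H.eq_or hχ H'.inner_ne, rfl⟩
    · simpa using ⟨⟨H.irr, H.deg_CS⟩, H.irr', H.symm.deg_CS⟩

end Cfsg.Agent.S2299
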