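import Cfsg.Statements.S2300
import Mathlib
import Cfsg.Agent.H7.GL2c

set_option autoImplicit false
open Cfsg

namespace Cfsg.Agent.S2300

open Cfsg.Agent.H3 Cfsg.Agent.H4 Cfsg.Agent.H7 Finset

/-- Over a finite field F with q elements, q even, every irreducible complex character of SL₂ has degree 1, q − 1, q or q + 1; and when q ≥ 4 (so that these four numbers are distinct) there are exactly one irreducible character of degree 1, one of degree q, (q − 2)/2 of degree q + 1 and q/2 of degree q − 1. -/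
theorem result {F : Type*} [Field F] [Fintype F] [CharP F 2] :
    (∀ χ : Matrix.SpecialLinearGroup (Fin 2) F → ℂ, Cfsg.IsIrrCharacter (Matrix.SpecialLinearGroup (Fin 2) F) χ →
      χ 1 = 1 ∨ χ 1 = (Fintype.card F : ℂ) - 1 ∨ χ 1 = (Fintype.card F : ℂ) ∨ χ 1 = (Fintype.card F : ℂ) + 1) ∧
    (4 ≤ Fintype.card F →
      Nat.card {χ : Cfsg.IrrCharacter (Matrix.SpecialLinearGroup (Fin 2) F) // (χ : Matrix.SpecialLinearGroup (Fin 2) F → ℂ) 1 = 1} = 1 ∧
      Nat.card {χ : Cfsg.IrrCharacter (Matrix.SpecialLinearGroup (Fin 2) F) // (χ : Matrix.SpecialLinearGroup (Fin 2) F → ℂ) 1 = (Fintype.card F : ℂ)} = 1 ∧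
      Nat.card {χ : Cfsg.IrrCharacter (Matrix.SpecialLinearGroup (Fin 2) F) // (χ : Matrix.SpecialLinearGroup (Fin 2) F → ℂ) 1 = (Fintype.card F : ℂ) + 1} = (Fintype.card F - 2) / 2 ∧
      Nat.card {χ : Cfsg.IrrCharacter (Matrix.SpecialLinearGroup (Fin 2) F) // (χ : Matrix.SpecialLinearGroup (Fin 2) F → ℂ) 1 = (Fintype.card F : ℂ) - 1} = Fintype.card F / 2) := by
  classical
  obtain ⟨g0, h0⟩ := exists_ell_SL F
  haveI : Fact (Ell _) := ⟨h0⟩
  set g1 := Matrix.SpecialLinearGroup.toGL g0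
  have h2 : (2 : F) = 0 := by exact_mod_cast CharP.cast_eq_zero F 2
  have hm : Fintype.card F % 2 = 0 := by
    have := mt odd_card_iff.1 (not_not.2 h2)
    rwa [Nat.not_odd_iff] at this
  have key : ∀ χ, IsIrrCharacter _ χ → ∀ n : ℕ, χ 1 = n →
      (n = 1 ∧ χ = fun _ => 1) ∨ (n = Fintype.card F ∧ χ = StS F) ∨
      (n = Fintype.card F + 1 ∧ ∃ α, α ^ 2 ≠ 1 ∧ χ = RS α) ∨
      (n = Fintype.card F - 1 ∧ ∃ η : Lin (K1 g1), η ^ 2 ≠ 1 ∧ χ = CS η) := fun χ hχ n hn => by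
    rcases irr_SL2' g1 hχ hn with h | h | h | h | ⟨-, _, _, -, -, H⟩ | ⟨-, _, _, -, -, H⟩
    · exact Or.inl h
    · exact Or.inr (Or.inl h)
    · exact Or.inr (Or.inr (Or.inl h))
    · exact Or.inr (Or.inr (Or.inr h))
    · exact absurd h2 H.odd
    · exact absurd h2 H.odd
  refine ⟨fun χ hχ => ?_, fun hq => ⟨?_, ?_, ?_, ?_⟩⟩
  · obtain ⟨n, hn⟩ := hχ.isCharacter.exists_nat_degree
    rw [hn, ← cast_q_sub]
    rcases key χ hχ n hn with ⟨rfl, -⟩ | ⟨rfl, -⟩ | ⟨rfl, -⟩ | ⟨rfl, -⟩ <;> simp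
  · refine (card_irr_eq_image {fun _ => 1} id (fun χ => χ 1 = 1) (fun χ hχ h => ?_) ?_).trans (by simp)
    · rcases key χ hχ 1 (by simpa using h) with ⟨-, rfl⟩ | ⟨e, -⟩ | ⟨e, -⟩ | ⟨e, -⟩
      any_goals omega
      simp
    · simpa using isIrrCharacter_one
  · refine (card_irr_eq_image {StS F} id (fun χ => χ 1 = Fintype.card F) (fun χ hχ h => ?_) ?_).trans (by simp)
    · rcases key χ hχ _ h with ⟨e, -⟩ | ⟨-, rfl⟩ | ⟨e, -⟩ | ⟨e, -⟩
      any_goals omega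
      simp
    · simpa using ⟨irr_StS, StS_one⟩
  · refine (card_irr_eq_image (univ.filter fun α : MulChar F ℂ => α ^ 2 ≠ 1) RS
      (fun χ => χ 1 = Fintype.card F + 1) (fun χ hχ h => ?_) fun α hα => ?_).trans ?_
    · rcases key χ hχ (Fintype.card F + 1) (by simpa using h) with
        ⟨e, -⟩ | ⟨e, -⟩ | ⟨-, α, e, rfl⟩ | ⟨e, -⟩
      any_goals omega
      exact ⟨α, by simpa using e, rfl⟩
    · exact ⟨irr_RS.2 (mem_filter.1 hα).2, RS_one _⟩
    · have := card_image_inv (RS (F := F)) fun _ _ => RS_eq_iff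
      rw [card_mc, Nat.Coprime.gcd_eq_one (Nat.coprime_two_right.2 (Nat.odd_iff.2 (by omega)))] at this
      omega
  · refine (card_irr_eq_image (univ.filter fun η : Lin (K1 g1) => η ^ 2 ≠ 1) CS
      (fun χ => χ 1 = Fintype.card F - 1) (fun χ hχ h => ?_) fun α hα => ?_).trans ?_
    · rcases key χ hχ _ (h.trans cast_q_sub.symm) with ⟨e, -⟩ | ⟨e, -⟩ | ⟨e, -⟩ | ⟨-, α, e, rfl⟩
      any_goals omega
      exact ⟨α, by simpa using e, rfl⟩
    · exact ⟨irr_CS.2 (mem_filter.1 hα).2, CS_one _⟩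
    · have := card_image_inv (CS (g0 := g1)) fun _ _ => CS_eq_iff
      rw [card_lin_K1, Nat.Coprime.gcd_eq_one (Nat.coprime_two_right.2 (Nat.odd_iff.2 (by omega)))] at this
      omega

end Cfsg.Agent.S2300
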