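import Cfsg.Statements.S2301
import Cfsg.Agent.H4.Dick9

set_option autoImplicit false
open Cfsg

namespace Cfsg.Agent.S2301

/-- Over a finite field with q elements of odd characteristic p, the elements of order p of SL₂ (the non-identity unipotent elements) fall into exactly two conjugacy classes, each of size (q² − 1)/2; two upper unitriangular matrices with non-zero off-diagonal entries b and b′ are conjugate exactly when bb′ is a square. -/
theorem result {F : Type*} [Field F] [Fintype F] (p : ℕ) [Fact p.Prime] [CharP F p] (hp : p ≠ 2) :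
    Nat.card {C : ConjClasses (Matrix.SpecialLinearGroup (Fin 2) F) // ∃ g : Matrix.SpecialLinearGroup (Fin 2) F, orderOf g = p ∧ ConjClasses.mk g = C} = 2 ∧
    (∀ g : Matrix.SpecialLinearGroup (Fin 2) F, orderOf g = p → Nat.card (ConjClasses.mk g).carrier = (Fintype.card F ^ 2 - 1) / 2) ∧
    ∀ g h : Matrix.SpecialLinearGroup (Fin 2) F, (g : Matrix (Fin 2) (Fin 2) F) 0 0 = 1 → (g : Matrix (Fin 2) (Fin 2) F) 1 1 = 1 → (g : Matrix (Fin 2) (Fin 2) F) 1 0 = 0 → (g : Matrix (Fin 2) (Fin 2) F) 0 1 ≠ 0 →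
      (h : Matrix (Fin 2) (Fin 2) F) 0 0 = 1 → (h : Matrix (Fin 2) (Fin 2) F) 1 1 = 1 → (h : Matrix (Fin 2) (Fin 2) F) 1 0 = 0 → (h : Matrix (Fin 2) (Fin 2) F) 0 1 ≠ 0 →
      (IsConj g h ↔ IsSquare ((g : Matrix (Fin 2) (Fin 2) F) 0 1 * (h : Matrix (Fin 2) (Fin 2) F) 0 1)) := by
  open Cfsg.Agent.H4 in
  have h2 : (2 : F) ≠ 0 := two_ne_zero_of_char hp
  have ho := odd_card_iff.2 h2
  have key : ∀ g : Matrix.SpecialLinearGroup (Fin 2) F, orderOf g = p →
      g ^ p = 1 ∧ Matrix.SpecialLinearGroup.toPGL g ≠ 1 := fun g hg =>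
    ⟨orderOf_dvd_iff_pow_eq_one.1 hg.dvd, fun e => by
      rw [(cov_SL p).nop g e (orderOf_dvd_iff_pow_eq_one.1 hg.dvd), orderOf_one] at hg
      exact (Fact.out : p.Prime).one_lt.ne hg⟩
  have hup : ∀ b : F, b ≠ 0 → orderOf (up b) = p := fun b hb =>
    orderOf_eq_prime (pow_eq_one_of_tr p (toPGL_up_eq_one.not.2 hb) (tr_up b))
      fun e => toPGL_up_eq_one.not.2 hb (by rw [e, map_one])
  refine ⟨?_, fun g hg => ?_, fun g h g1 g2 g3 g4 h1 h2 h3 h4 => ?_⟩
  · obtain ⟨n, hn⟩ := FiniteField.exists_nonsquare (ringChar_ne_two h2)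
    have hn0 : n ≠ 0 := by rintro rfl; exact hn IsSquare.zero
    rw [Nat.card_eq_two_iff]
    refine ⟨⟨_, _, hup 1 one_ne_zero, rfl⟩, ⟨_, _, hup n hn0, rfl⟩, fun e => hn ?_, ?_⟩
    · simpa using (isConj_up_iff one_ne_zero hn0).1 (ConjClasses.mk_eq_mk_iff_isConj.1 (congrArg Subtype.val e))
    · rw [Set.eq_univ_iff_forall]
      rintro ⟨_, g, hg, rfl⟩
      obtain ⟨b, hb, e⟩ := exists_isConj_up (key g hg).2 (tr_eq_two_of_pow p (key g hg).1)
      by_cases hs : IsSquare b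
      · exact Or.inl (Subtype.ext (ConjClasses.mk_eq_mk_iff_isConj.2
          (e.symm.trans ((isConj_up_iff hb one_ne_zero).2 (by simpa using hs)))))
      · exact Or.inr (Subtype.ext (ConjClasses.mk_eq_mk_iff_isConj.2
          (e.symm.trans ((isConj_up_iff hb hn0).2 (isSquare_mul_of_not hs hn)))))
  · obtain ⟨x, hx⟩ := (dact F p).fix (Matrix.SpecialLinearGroup.toPGL g)
    have hU : Matrix.SpecialLinearGroup.toPGL g ∈ (dact F p).U x := ⟨hx, by rw [← map_pow, (key g hg).1, map_one]⟩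
    have h1 := card_carrier_mul g
    rw [(cov_SL p).centralizer_U (key g hg).2 hU, (cov_SL p).card_comap_U (rat_of_U hU (key g hg).2),
      card_ker_toPGL, gcd_two_odd ho, card_SL_two] at h1
    exact (Nat.div_eq_of_eq_mul_left two_pos (Nat.eq_of_mul_eq_mul_left (Fintype.card_pos (α := F))
      (by linarith))).symm
  · rw [← isConj_up_iff g4 h4, ← show g = up (g 0 1) from (sm_eta g).trans (sm_inj.2 ⟨g1, rfl, g3, g2⟩),
      ← show h = up (h 0 1) from (sm_eta h).trans (sm_inj.2 ⟨h1, rfl, h3, h2⟩)]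

end Cfsg.Agent.S2301
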