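import Cfsg.Statements.S2302
import Cfsg.Agent.H4.Dick8

set_option autoImplicit false
open Cfsg

namespace Cfsg.Agent.S2302

/-- Over a finite field with q elements of characteristic 2, the involutions of SL₂ (the non-identity unipotent elements) form a single conjugacy class, of size q² − 1. -/
theorem result {F : Type*} [Field F] [Fintype F] [CharP F 2] (g h : Matrix.SpecialLinearGroup (Fin 2) F) (hg : orderOf g = 2) (hh : orderOf h = 2) :
    IsConj g h ∧ Nat.card (ConjClasses.mk g).carrier = Fintype.card F ^ 2 - 1 := by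
  open Cfsg.Agent.H4 in
  have h2 : (2 : F) = 0 := CharTwo.two_eq_zero
  have key : ∀ g : Matrix.SpecialLinearGroup (Fin 2) F, orderOf g = 2 →
      g ^ 2 = 1 ∧ Matrix.SpecialLinearGroup.toPGL g ≠ 1 := fun g hg =>
    ⟨orderOf_dvd_iff_pow_eq_one.1 hg.dvd, fun e => by
      rw [(cov_SL 2).nop g e (orderOf_dvd_iff_pow_eq_one.1 hg.dvd), orderOf_one] at hg; omega⟩
  refine ⟨isConj_of_tr_two h2 (key g hg).2 (key h hh).2
    ((tr_eq_two_of_pow 2 (key g hg).1).trans (tr_eq_two_of_pow 2 (key h hh).1).symm), ?_⟩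
  obtain ⟨x, hx⟩ := (dact F 2).fix (Matrix.SpecialLinearGroup.toPGL g)
  have hU : Matrix.SpecialLinearGroup.toPGL g ∈ (dact F 2).U x := ⟨hx, by rw [← map_pow, (key g hg).1, map_one]⟩
  have h1 := card_carrier_mul g
  rw [(cov_SL 2).centralizer_U (key g hg).2 hU, (cov_SL 2).card_comap_U (rat_of_U hU (key g hg).2),
    card_ker_toPGL, gcd_two_even (even_card_iff.2 h2) Fintype.card_pos, one_mul, card_SL_two, mul_comm] at h1
  exact Nat.eq_of_mul_eq_mul_left Fintype.card_pos h1

end Cfsg.Agent.S2302
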