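import Cfsg.Statements.S2303
import Cfsg.Agent.H4.Dick8

set_option autoImplicit false
open Cfsg

namespace Cfsg.Agent.S2303

/-- Over a finite field with q elements: a diagonal element of GL₂ with two distinct diagonal entries has centralizer of order (q − 1)² (so q(q + 1) conjugates), and an element of GL₂ with no eigenvector in F² has centralizer of order q² − 1 (so q(q − 1) conjugates). -/
theorem result {F : Type*} [Field F] [Fintype F] (g : Matrix.GeneralLinearGroup (Fin 2) F) :
    ((g : Matrix (Fin 2) (Fin 2) F) 0 1 = 0 → (g : Matrix (Fin 2) (Fin 2) F) 1 0 = 0 → (g : Matrix (Fin 2) (Fin 2) F) 0 0 ≠ (g : Matrix (Fin 2) (Fin 2) F) 1 1 →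
      Nat.card (Subgroup.centralizer ({g} : Set (Matrix.GeneralLinearGroup (Fin 2) F))) = (Fintype.card F - 1) ^ 2) ∧
    ((∀ (c : F) (v : Fin 2 → F), v ≠ 0 → (g : Matrix (Fin 2) (Fin 2) F).mulVec v ≠ c • v) →
      Nat.card (Subgroup.centralizer ({g} : Set (Matrix.GeneralLinearGroup (Fin 2) F))) = Fintype.card F ^ 2 - 1) := by
  open Cfsg.Agent.H4 in
  obtain ⟨p, _, _⟩ := exists_char F
  constructor
  · obtain ⟨a, b, c, d, hd, rfl⟩ := gm_surj g
    intro h1 h2 h3
    have h4 := tp_infty_zero.card_rat (Γ := (Matrix.ProjGenLinGroup.mk (n := Fin 2) (R := F)).range)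
      (cov_GL p).LL_le (rat_pt _)
    rw [(cov_GL p).centralizer_T tp_infty_zero (g := gm a b c d hd) (fun e => h3 (pm_eq_one.1 e).2.2) (pm_fix_infty.2 h2)
      (pm_fix_zero.2 h1), (cov_GL p).card_comap_T, card_ker_mk, sq]
    nth_rewrite 1 [range_mk, Subgroup.index_top, one_mul] at h4
    rw [h4]
  · intro h
    obtain ⟨h1, x, y, ht, hx, gx, gy⟩ := exists_tp_of_not_fix fun x hx => not_fix_rat h hx
    have h4 := ht.card_qd (Γ := (Matrix.ProjGenLinGroup.mk (n := Fin 2) (R := F)).range) (cov_GL p).LL_le hx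
    rw [(cov_GL p).centralizer_T ht h1 gx gy, (cov_GL p).card_comap_T, card_ker_mk, sq_sub_one_eq, mul_comm]
    nth_rewrite 1 [range_mk, Subgroup.index_top, one_mul] at h4
    rw [h4]

end Cfsg.Agent.S2303
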