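import Cfsg.Statements.S2308
import Mathlib
import Cfsg.Agent.H7.GL2a

set_option autoImplicit false
open Cfsg

namespace Cfsg.Agent.S2308

open Cfsg.Agent.H3 Cfsg.Agent.H7

/-- Values of the permutation character of GL₂ over a finite field F with q elements on the cosets of its upper triangular subgroup (equivalently, the number of lines of F² that an element maps to themselves): q + 1 at a scalar matrix, 2 at a diagonal matrix with two different diagonal entries, 0 at an element with no eigenvector in F², and 1 at an upper triangular matrix with equal diagonal entries and non-zero upper right entry. -/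
theorem result {F : Type*} [Field F] [Fintype F] (g : Matrix.GeneralLinearGroup (Fin 2) F) :
    ((∃ a : F, (g : Matrix (Fin 2) (Fin 2) F) = a • (1 : Matrix (Fin 2) (Fin 2) F)) → Cfsg.fixedPointCharacter (Cfsg.upperTriangularGL 2 F) g = Fintype.card F + 1) ∧
    ((g : Matrix (Fin 2) (Fin 2) F) 0 1 = 0 → (g : Matrix (Fin 2) (Fin 2) F) 1 0 = 0 → (g : Matrix (Fin 2) (Fin 2) F) 0 0 ≠ (g : Matrix (Fin 2) (Fin 2) F) 1 1 →
      Cfsg.fixedPointCharacter (Cfsg.upperTriangularGL 2 F) g = 2) ∧
    ((∀ (c : F) (v : Fin 2 → F), v ≠ 0 → (g : Matrix (Fin 2) (Fin 2) F).mulVec v ≠ c • v) → Cfsg.fixedPointCharacter (Cfsg.upperTriangularGL 2 F) g = 0) ∧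
    ((g : Matrix (Fin 2) (Fin 2) F) 1 0 = 0 → (g : Matrix (Fin 2) (Fin 2) F) 0 0 = (g : Matrix (Fin 2) (Fin 2) F) 1 1 → (g : Matrix (Fin 2) (Fin 2) F) 0 1 ≠ 0 →
      Cfsg.fixedPointCharacter (Cfsg.upperTriangularGL 2 F) g = 1) := by
  classical
  have h : Cfsg.fixedPointCharacter (Cfsg.upperTriangularGL 2 F) g = PS (1 : MulChar F ℂ) 1 g := by
    rw [PS, Cfsg.fixedPointCharacter, ← indFun_one_eq_card_fixedBy]
    congr 1
    funext b
    obtain ⟨b, hb⟩ := b
    obtain ⟨a, x, d, rfl⟩ := exists_ut (mem_Bo.1 hb)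
    simp
  rw [h]
  refine ⟨?_, fun h1 h2 h3 => ?_, fun h1 => PS_ell _ _ (ell_iff.2 h1), fun h1 h2 h3 => ?_⟩
  · rintro ⟨c, hc⟩
    obtain ⟨a, x, d, rfl⟩ := exists_ut (g := g) (by rw [hc]; simp)
    have e1 : (a : F) = c := by simpa using congrFun (congrFun hc 0) 0
    have e2 : (d : F) = c := by simpa using congrFun (congrFun hc 1) 1
    have e3 : x = 0 := by simpa using congrFun (congrFun hc 0) 1
    rw [PS_ut]; simp [nn, e3, Units.ext (e1.trans e2.symm), add_comm]
  · obtain ⟨a, x, d, rfl⟩ := exists_ut h2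
    have : a ≠ d := fun e => h3 (by simp [e])
    rw [PS_ut]; simp [nn, this]; norm_num
  · obtain ⟨a, x, d, rfl⟩ := exists_ut h1
    have e1 : a = d := Units.ext h2
    have e2 : x ≠ 0 := h3
    rw [PS_ut]; simp [nn, e1, e2]

end Cfsg.Agent.S2308
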