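import Cfsg.Statements.S2309
import Mathlib
import Cfsg.Agent.H7.GL2b

set_option autoImplicit false
open Cfsg

namespace Cfsg.Agent.S2309

open Cfsg.Agent.H3 Cfsg.Agent.H7

/-- Over a finite field F with q elements: every irreducible complex character of GL₂ of degree q − 1 vanishes at every diagonal matrix with two distinct entries, and every irreducible complex character of degree q + 1 vanishes at every element with no eigenvector in F². -/
theorem result {F : Type*} [Field F] [Fintype F] (χ : Matrix.GeneralLinearGroup (Fin 2) F → ℂ) (hχ : Cfsg.IsIrrCharacter (Matrix.GeneralLinearGroup (Fin 2) F) χ) (g : Matrix.GeneralLinearGroup (Fin 2) F) :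
    (χ 1 = (Fintype.card F : ℂ) - 1 → (g : Matrix (Fin 2) (Fin 2) F) 0 1 = 0 → (g : Matrix (Fin 2) (Fin 2) F) 1 0 = 0 → (g : Matrix (Fin 2) (Fin 2) F) 0 0 ≠ (g : Matrix (Fin 2) (Fin 2) F) 1 1 → χ g = 0) ∧
    (χ 1 = (Fintype.card F : ℂ) + 1 → (∀ (c : F) (v : Fin 2 → F), v ≠ 0 → (g : Matrix (Fin 2) (Fin 2) F).mulVec v ≠ c • v) → χ g = 0) := by
  classical
  obtain ⟨g0, h0⟩ := exists_ell_SL F
  haveI : Fact (Ell _) := ⟨h0⟩
  refine ⟨fun h1 h2 h3 h4 => ?_, fun h1 h2 => ?_⟩
  · obtain ⟨a, x, d, rfl⟩ := exists_ut h3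
    have h5 : a ≠ d := fun e => h4 (by simp [e])
    rcases irr_GL2 (Matrix.SpecialLinearGroup.toGL g0) hχ with ⟨α, rfl⟩ | ⟨α, rfl⟩ | ⟨α, β, -, rfl⟩ | ⟨θ, -, rfl⟩
    · rw [Lm_one, ← cast_card_units, eq_comm, Nat.cast_eq_one] at h1
      exact absurd (Fintype.card_le_one_iff.1 h1.le a d) h5
    · rw [Stb_one] at h1; exact absurd (by linear_combination h1) (one_ne_zero (α := ℂ))
    · rw [PS_one] at h1; exact absurd (by linear_combination h1) (two_ne_zero (α := ℂ))
    · simp [Cu_ut, nn, h5]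
  · rcases irr_GL2 (Matrix.SpecialLinearGroup.toGL g0) hχ with ⟨α, rfl⟩ | ⟨α, rfl⟩ | ⟨α, β, -, rfl⟩ | ⟨θ, -, rfl⟩
    · rw [Lm_one] at h1; exact absurd (by linear_combination -h1) (q_ne_zero (F := F))
    · rw [Stb_one] at h1; exact absurd (by linear_combination -h1) (one_ne_zero (α := ℂ))
    · exact PS_ell _ _ (ell_iff.2 h2)
    · rw [Cu_one] at h1; exact absurd (by linear_combination -h1) (two_ne_zero (α := ℂ))

end Cfsg.Agent.S2309
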