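import Cfsg.Statements.S2310
import Mathlib
import Cfsg.Agent.H7.GL2b

set_option autoImplicit false
open Cfsg

namespace Cfsg.Agent.S2310

open Cfsg.Agent.H3 Cfsg.Agent.H7

/-- Over a finite field F with q ≥ 3 elements, let u be the upper unitriangular matrix of GL₂ with off-diagonal entry 1. An irreducible complex character χ of GL₂ takes at u the value 1 if χ has degree 1 or q + 1, the value −1 if χ has degree q − 1, and the value 0 if χ has degree q. -/
theorem result {F : Type*} [Field F] [Fintype F] (hq : 3 ≤ Fintype.card F) (χ : Matrix.GeneralLinearGroup (Fin 2) F → ℂ) (hχ : Cfsg.IsIrrCharacter (Matrix.GeneralLinearGroup (Fin 2) F) χ)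
    (u : Matrix.GeneralLinearGroup (Fin 2) F) (hu : (u : Matrix (Fin 2) (Fin 2) F) = !![1, 1; 0, 1]) :
    (χ 1 = 1 → χ u = 1) ∧ (χ 1 = (Fintype.card F : ℂ) + 1 → χ u = 1) ∧
    (χ 1 = (Fintype.card F : ℂ) - 1 → χ u = -1) ∧ (χ 1 = (Fintype.card F : ℂ) → χ u = 0) := by
  classical
  obtain ⟨g0, h0⟩ := exists_ell_SL F
  haveI : Fact (Ell _) := ⟨h0⟩
  have hu' : u = ut 1 1 1 := Units.ext hu
  subst hu'
  have h1 := q_ne_zero (F := F)
  have h2 := q_sub_ne_zero (F := F)
  have h3 : (Fintype.card F : ℂ) - 2 ≠ 0 := by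
    rw [sub_ne_zero]; intro e; have : Fintype.card F = 2 := by exact_mod_cast e
    omega
  have h4 := one_ne_zero (α := ℂ)
  have h5 := two_ne_zero (α := ℂ)
  rcases irr_GL2 (Matrix.SpecialLinearGroup.toGL g0) hχ with ⟨α, rfl⟩ | ⟨α, rfl⟩ | ⟨α, β, -, rfl⟩ | ⟨θ, -, rfl⟩
  · rw [Lm_one, Lm_ut]
    exact ⟨fun _ => by simp, fun e => absurd (by linear_combination -e) h1,
      fun e => absurd (by linear_combination -e) h3, fun e => absurd (by linear_combination -e) h2⟩
  · rw [Stb_one, Stb_ut]
    exact ⟨fun e => absurd (by linear_combination e) h2, fun e => absurd (by linear_combination -e) h4,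
      fun e => absurd (by linear_combination e) h4, fun e => by simp [nn]⟩
  · rw [PS_one, PS_ut]
    exact ⟨fun _ => by simp [nn], fun e => by simp [nn],
      fun e => absurd (by linear_combination e) h5, fun e => absurd (by linear_combination e) h4⟩
  · rw [Cu_one, Cu_ut]
    exact ⟨fun e => absurd (by linear_combination e) h3, fun e => absurd (by linear_combination -e) h5,
      fun e => by simp [nn], fun e => absurd (by linear_combination -e) h4⟩

end Cfsg.Agent.S2310
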