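import Cfsg.Statements.S2314
import Cfsg.Agent.H5.St1
import Cfsg.Agent.H5.All

set_option autoImplicit false
open Cfsg

namespace Cfsg.Agent.S2314

/-- Steinberg's count of unipotent elements: in a Chevalley group of type G₂, B₂, D₄, F₄, E₆, E₇ or E₈ over a finite field of characteristic p with q elements, the number of elements of p-power order is q^(2N), N the number of positive roots — the square of the order of a Sylow p-subgroup. -/
theorem result {F : Type*} [Field F] [Fintype F] (p : ℕ) [Fact p.Prime] [CharP F p] (D : Cfsg.Lie.ChevalleyDatum) (hD : D ∈ [Cfsg.Lie.chevG2, Cfsg.Lie.chevB2, Cfsg.Lie.chevD4, Cfsg.Lie.chevF4, Cfsg.Lie.chevE6, Cfsg.Lie.chevE7, Cfsg.Lie.chevE8]) :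
    Nat.card {g : ↥(D.group F) // ∃ k : ℕ, orderOf g = p ^ k} = Fintype.card F ^ (2 * (D.nroots / 2)) := by
  obtain ⟨R⟩ := H5.exists_rs hD
  have := H5.StN.card_unip (R.adj_gen F) (R.adj_inj F) p
  rw [H5.StG.card_U (L := R.lamf) H5.StN.closed_pos' fun _ h => h, R.ncard_pos, ← pow_mul, mul_comm,
    Nat.card_eq_fintype_card (α := F)] at this
  rw [← this]
  refine Nat.card_congr (Equiv.subtypeEquivRight fun g => ⟨fun ⟨k, h⟩ => ⟨k, h ▸ pow_orderOf_eq_one g⟩, fun ⟨k, h⟩ => ?_⟩)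
  obtain ⟨j, -, hj⟩ := (Nat.dvd_prime_pow Fact.out).1 (orderOf_dvd_of_pow_eq_one h)
  exact ⟨j, hj⟩

end Cfsg.Agent.S2314
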