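import Cfsg.Statements.S2315
import Cfsg.Agent.H4.Nil1

set_option autoImplicit false
open Cfsg

namespace Cfsg.Agent.S2315

/-- Steinberg's count of unipotent elements for the general linear group: over a finite field with q elements of characteristic p, the number of elements of GL_n of p-power order (the unipotent matrices) is q^(n(n−1)). -/
theorem result {F : Type*} [Field F] [Fintype F] (p : ℕ) [Fact p.Prime] [CharP F p] (n : ℕ) :
    Nat.card {g : Matrix.GeneralLinearGroup (Fin n) F // ∃ k : ℕ, orderOf g = p ^ k} = Fintype.card F ^ (n * (n - 1)) := by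
  have hp : p.Prime := Fact.out
  have key : ∀ (g : Matrix.GeneralLinearGroup (Fin n) F) (j : ℕ),
      g ^ p ^ j = 1 ↔ ((g : Matrix (Fin n) (Fin n) F) - 1) ^ p ^ j = 0 := fun g j => by
    obtain rfl | hn := n.eq_zero_or_pos
    · exact ⟨fun _ => Subsingleton.elim _ _, fun _ => Subsingleton.elim _ _⟩
    haveI : Nonempty (Fin n) := ⟨⟨0, hn⟩⟩
    rw [sub_pow_char_pow_of_commute p j (Commute.one_right _), one_pow, sub_eq_zero, Units.ext_iff]
    simp
  rw [← H4.card_nil, ← Nat.card_congr (Matrix.toLinAlgEquiv'.toEquiv.subtypeEquiv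
    (p := fun M : Matrix (Fin n) (Fin n) F => IsNilpotent M) fun _ => (IsNilpotent.map_iff (AlgEquiv.injective _)).symm)]
  refine Nat.card_congr (Equiv.ofBijective (fun g => ⟨(g.1 : Matrix (Fin n) (Fin n) F) - 1, g.2.elim fun k hk =>
    ⟨_, (key g k).1 (by rw [← hk, pow_orderOf_eq_one])⟩⟩) ⟨fun g g' e => Subtype.ext (Units.ext
      (sub_left_injective (congrArg Subtype.val e))), fun ⟨N, m, hm⟩ => ?_⟩)
  obtain ⟨g, hg⟩ := IsNilpotent.isUnit_add_one ⟨m, hm⟩
  have h1 : (g : Matrix (Fin n) (Fin n) F) - 1 = N := by rw [hg, add_sub_cancel_right]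
  obtain ⟨j, -, hj⟩ := (Nat.dvd_prime_pow hp).1 (orderOf_dvd_of_pow_eq_one ((key g m).2 (by
    rw [h1]; exact pow_eq_zero_of_le (Nat.lt_pow_self hp.one_lt).le hm)))
  exact ⟨⟨g, j, hj⟩, Subtype.ext h1⟩

end Cfsg.Agent.S2315
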