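import Cfsg.Statements.S2317
import Cfsg.Agent.GS.Cj3

set_option autoImplicit false
open Cfsg

namespace Cfsg.Agent.S2317

/-- Over a finite field of characteristic p, the conjugacy classes of GL_n consisting of elements of p-power order (the unipotent classes) are as many as the partitions of n. -/
theorem result {F : Type*} [Field F] [Fintype F] (p : ℕ) [Fact p.Prime] [CharP F p] (n : ℕ) :
    Nat.card {C : ConjClasses (Matrix.GeneralLinearGroup (Fin n) F) //
      ∃ g : Matrix.GeneralLinearGroup (Fin n) F, (∃ k : ℕ, orderOf g = p ^ k) ∧ ConjClasses.mk g = C} =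
      Fintype.card (Nat.Partition n) := by
  open GS in
  have key : ∀ g : GL (Fin n) F, (∃ k : ℕ, orderOf g = p ^ k) ↔ ∃ m, (g.1 - 1) ^ m = 0 := fun g => by
    rcases Nat.eq_zero_or_pos n with rfl | hd
    · exact iff_of_true ⟨0, by simp [Subsingleton.elim g 1]⟩ ⟨0, Subsingleton.elim _ _⟩
    haveI : NeZero n := ⟨hd.ne'⟩
    have key : ∀ k, g ^ p ^ k = 1 ↔ (g.1 - 1) ^ p ^ k = 0 := fun k => by
      rw [sub_pow_char_pow_of_commute _ _ (Commute.one_right _), one_pow, sub_eq_zero, Units.ext_iff]; simp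
    exact ⟨fun ⟨k, h⟩ => ⟨_, (key k).1 (h ▸ pow_orderOf_eq_one g)⟩, fun ⟨m, h⟩ =>
      ((Nat.dvd_prime_pow Fact.out).1 (orderOf_dvd_of_pow_eq_one ((key m).2 (pow_eq_zero_of_le
        (Nat.lt_pow_self (Fact.out : p.Prime).one_lt).le h)))).imp fun _ h => h.2⟩
  simp only [key, ← Nat.card_eq_fintype_card, and_comm (b := ConjClasses.mk _ = _)]
  refine card_classes _ (fun μ g => JT g.1.toLin' 1 μ) (fun g ⟨m, h⟩ => (exists_JT' h (Fintype.card_fin n)).imp fun _ h => h.1)
    (fun μ => ?_) fun a b g h ⟨_, h1⟩ ⟨_, h2⟩ h3 h4 => isConj_units.trans (JT.isConj_iff h1 h2 h3 h4)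
  obtain ⟨A, h1, h2⟩ := JT_model' (F := F) (Fintype.card_fin n) μ
  have := h2 n fun a ha => μ.parts_sum ▸ Multiset.single_le_sum (fun _ _ => Nat.zero_le _) a ha
  exact ⟨Matrix.GeneralLinearGroup.mkOfDetNeZero A (by rw [det_unip this]; exact one_ne_zero), ⟨n, this⟩, h1⟩

end Cfsg.Agent.S2317
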