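import Cfsg.Statements.S2320
import Mathlib
import Cfsg.Agent.H7.GL2b

set_option autoImplicit false
open Cfsg

namespace Cfsg.Agent.S2320

open Cfsg.Agent.H3 Cfsg.Agent.H7

/-- Over a finite field F with q elements, every irreducible complex character of GL₂ of degree q takes a value of absolute value 1 at every diagonal matrix with two different diagonal entries and at every element with no eigenvector in F². -/
theorem result {F : Type*} [Field F] [Fintype F] (χ : Matrix.GeneralLinearGroup (Fin 2) F → ℂ) (hχ : Cfsg.IsIrrCharacter (Matrix.GeneralLinearGroup (Fin 2) F) χ) (hdeg : χ 1 = (Fintype.card F : ℂ)) (g : Matrix.GeneralLinearGroup (Fin 2) F) :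
    ((g : Matrix (Fin 2) (Fin 2) F) 0 1 = 0 → (g : Matrix (Fin 2) (Fin 2) F) 1 0 = 0 → (g : Matrix (Fin 2) (Fin 2) F) 0 0 ≠ (g : Matrix (Fin 2) (Fin 2) F) 1 1 → ‖χ g‖ = 1) ∧
    ((∀ (c : F) (v : Fin 2 → F), v ≠ 0 → (g : Matrix (Fin 2) (Fin 2) F).mulVec v ≠ c • v) → ‖χ g‖ = 1) := by
  classical
  obtain ⟨g0, h0⟩ := exists_ell_SL F
  haveI : Fact (Ell _) := ⟨h0⟩
  rcases irr_GL2 (Matrix.SpecialLinearGroup.toGL g0) hχ with ⟨α, rfl⟩ | ⟨α, rfl⟩ | ⟨α, β, -, rfl⟩ | ⟨θ, -, rfl⟩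
  · rw [Lm_one] at hdeg; exact absurd (by linear_combination -hdeg) (q_sub_ne_zero (F := F))
  · refine ⟨fun h2 h3 h4 => ?_, fun h => by rw [Stb_ell _ (ell_iff.2 h), norm_neg, norm_Lm]⟩
    obtain ⟨a, x, d, rfl⟩ := exists_ut h3
    have h5 : a ≠ d := fun e => h4 (by simp [e])
    rw [Stb_ut, nn, if_neg h5, one_mul, ← Lm_ut α a d x, norm_Lm]
  · rw [PS_one] at hdeg; exact absurd (by linear_combination hdeg) (one_ne_zero (α := ℂ))
  · rw [Cu_one] at hdeg; exact absurd (by linear_combination -hdeg) (one_ne_zero (α := ℂ))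

end Cfsg.Agent.S2320
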