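import Cfsg.Statements.S2321
import Mathlib
import Cfsg.Agent.H7.GL2c

set_option autoImplicit false
open Cfsg

namespace Cfsg.Agent.S2321

open Cfsg.Agent.H3 Cfsg.Agent.H4 Cfsg.Agent.H7

/-- Over a finite field F with q elements, an irreducible complex character of SL₂ of degree q (the Steinberg character) takes the value 1 at every diagonal matrix whose diagonal entry a has a² ≠ 1, the value −1 at every element with no eigenvector in F², and the value 0 at every upper triangular matrix with equal diagonal entries and non-zero upper right entry. -/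
theorem result {F : Type*} [Field F] [Fintype F] (χ : Matrix.SpecialLinearGroup (Fin 2) F → ℂ) (hχ : Cfsg.IsIrrCharacter (Matrix.SpecialLinearGroup (Fin 2) F) χ) (hdeg : χ 1 = (Fintype.card F : ℂ)) (g : Matrix.SpecialLinearGroup (Fin 2) F) :
    ((g : Matrix (Fin 2) (Fin 2) F) 0 1 = 0 → (g : Matrix (Fin 2) (Fin 2) F) 1 0 = 0 → (g : Matrix (Fin 2) (Fin 2) F) 0 0 ^ 2 ≠ 1 → χ g = 1) ∧
    ((∀ (c : F) (v : Fin 2 → F), v ≠ 0 → (g : Matrix (Fin 2) (Fin 2) F).mulVec v ≠ c • v) → χ g = -1) ∧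
    ((g : Matrix (Fin 2) (Fin 2) F) 1 0 = 0 → (g : Matrix (Fin 2) (Fin 2) F) 0 0 = (g : Matrix (Fin 2) (Fin 2) F) 1 1 → (g : Matrix (Fin 2) (Fin 2) F) 0 1 ≠ 0 → χ g = 0) := by
  classical
  obtain ⟨g0, h0⟩ := exists_ell_SL F
  haveI : Fact (Ell _) := ⟨h0⟩
  have h1 : 1 < Fintype.card F := Fintype.one_lt_card
  rcases irr_SL2' (Matrix.SpecialLinearGroup.toGL g0) hχ hdeg with ⟨e, -⟩ | ⟨-, rfl⟩ | ⟨e, -⟩ | ⟨e, -⟩ | ⟨e, -⟩ | ⟨e, -⟩
  any_goals omega
  refine ⟨fun h1 h2 h3 => ?_, fun h => StS_ell (ell_iff.2 h), fun h1 h2 h3 => ?_⟩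
  · obtain ⟨a, x, rfl⟩ := exists_us h2
    rw [StS_us, nn, if_neg fun e => h3 (eq_inv_iff_sq.1 e)]
  · obtain ⟨a, x, rfl⟩ := exists_us h1
    rw [StS_us, nn, if_pos (Units.ext h2), if_neg (show ¬ x = 0 from h3)]

end Cfsg.Agent.S2321
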