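import Cfsg.Statements.S2322
import Mathlib
import Cfsg.Agent.H7.GL2c

set_option autoImplicit false
open Cfsg

namespace Cfsg.Agent.S2322

open Cfsg.Agent.H3 Cfsg.Agent.H4 Cfsg.Agent.H7

/-- Over a finite field F with q elements, q odd: every irreducible complex character of SL₂ of degree q − 1 or (q − 1)/2 vanishes at every diagonal matrix whose diagonal entry a has a² ≠ 1, and every irreducible complex character of degree q + 1 or (q + 1)/2 vanishes at every element with no eigenvector in F². -/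
theorem result {F : Type*} [Field F] [Fintype F] (hodd : Odd (Fintype.card F)) (χ : Matrix.SpecialLinearGroup (Fin 2) F → ℂ) (hχ : Cfsg.IsIrrCharacter (Matrix.SpecialLinearGroup (Fin 2) F) χ) (g : Matrix.SpecialLinearGroup (Fin 2) F) :
    ((χ 1 = (Fintype.card F : ℂ) - 1 ∨ χ 1 = (((Fintype.card F - 1) / 2 : ℕ) : ℂ)) →
      (g : Matrix (Fin 2) (Fin 2) F) 0 1 = 0 → (g : Matrix (Fin 2) (Fin 2) F) 1 0 = 0 → (g : Matrix (Fin 2) (Fin 2) F) 0 0 ^ 2 ≠ 1 → χ g = 0) ∧
    ((χ 1 = (Fintype.card F : ℂ) + 1 ∨ χ 1 = (((Fintype.card F + 1) / 2 : ℕ) : ℂ)) →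
      (∀ (c : F) (v : Fin 2 → F), v ≠ 0 → (g : Matrix (Fin 2) (Fin 2) F).mulVec v ≠ c • v) → χ g = 0) := by
  classical
  have h2 := odd_card_iff.1 hodd
  obtain ⟨m, hm⟩ := hodd
  have h1 : 1 < Fintype.card F := Fintype.one_lt_card
  obtain ⟨n, hn⟩ := hχ.isCharacter.exists_nat_degree
  refine ⟨fun h a1 a2 a3 => ?_, fun h h0 => ?_⟩
  · obtain ⟨g0, h0⟩ := exists_ell_SL F
    haveI : Fact (Ell _) := ⟨h0⟩
    obtain ⟨a, x, rfl⟩ := exists_us a2
    have e : a ≠ a⁻¹ := fun e => a3 (eq_inv_iff_sq.1 e)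
    have h3 : Fintype.card F ≠ 3 := fun h3 => a3 (by
      have := FiniteField.pow_card_sub_one_eq_one (a : F) a.ne_zero
      rwa [h3] at this)
    rw [← cast_q_sub, hn, Nat.cast_inj, Nat.cast_inj] at h
    rcases irr_SL2' (Matrix.SpecialLinearGroup.toGL g0) hχ hn with
      ⟨e, -⟩ | ⟨e, -⟩ | ⟨e, -⟩ | ⟨-, η, -, rfl⟩ | ⟨e, -⟩ | ⟨-, η, χ', -, -, H⟩
    any_goals omega
    · exact CS_us_of_ne _ e _
    · have := H.two_mul (Or.inl (tr_us_sq e x))
      rw [CS_us_of_ne _ e] at this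
      linear_combination this / 2
  · haveI h0' : Fact (Ell (Matrix.SpecialLinearGroup.toGL g)) := ⟨ell_iff.2 h0⟩
    rw [← Nat.cast_add_one, hn, Nat.cast_inj, Nat.cast_inj] at h
    rcases irr_SL2' (Matrix.SpecialLinearGroup.toGL g) hχ hn with
      ⟨e, -⟩ | ⟨e, -⟩ | ⟨-, α, -, rfl⟩ | ⟨e, η, hη, rfl⟩ | ⟨-, α, χ', -, -, H⟩ | ⟨e, -⟩
    any_goals omega
    · exact RS_ell _ h0'.out
    · have h4 : Nat.card (K1 (Matrix.SpecialLinearGroup.toGL g)) = 2 ^ (1 + 1) := by rw [card_K1]; omega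
      have h5 : orderOf (kc g) = 2 ^ (1 + 1) := orderOf_eq_prime_pow (fun e => by
        rcases (sq_eq_one_iff_SL h2).1 (kc_pow_eq_one.1 e) with rfl | rfl <;> exact h0'.out.ne (by simp))
        (h4 ▸ pow_card_eq_one')
      have h6 : η (kc g) ^ 2 = -1 := by
        refine (sq_eq_one_iff_of_ne_zero' ?_).resolve_left fun e => hη (Lin.ext fun c => ?_)
        · rw [← pow_mul, ← map_pow, show 2 * 2 = 2 ^ (1 + 1) from rfl, ← h5, pow_orderOf_eq_one, map_one]
        · obtain ⟨k, rfl⟩ := (mem_powers_iff_mem_zpowers.2 ((Subgroup.eq_top_iff' _).1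
            (Subgroup.eq_top_of_card_eq _ (by rw [Nat.card_zpowers, h5, h4])) c) : c ∈ Submonoid.powers (kc g))
          simp only [Lin.pow_apply, map_pow, Lin.one_apply]
          rw [e]
      have h7 := η.apply_ne_zero (kc g)
      rw [CS_kc, map_inv]
      field_simp
      linear_combination -h6
    · have := H.two_mul (Or.inl (h0'.out.tr_sq_ne H.odd))
      rw [RS_ell _ h0'.out] at this
      linear_combination this / 2

end Cfsg.Agent.S2322
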