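import Cfsg.Statements.S2324
import Mathlib
import Cfsg.Agent.H7.GL2c

set_option autoImplicit false
open Cfsg

namespace Cfsg.Agent.S2324

open Cfsg.Agent.H3 Cfsg.Agent.H4 Cfsg.Agent.H7

/-- Over a finite field F with q elements, q odd and q ≥ 5, let u be the upper unitriangular matrix of SL₂ with off-diagonal entry 1 and let δ = (−1)^((q−1)/2). Every irreducible complex character χ of SL₂ of degree (q + 1)/2 satisfies (2χ(u) − 1)² = δq, and every irreducible complex character χ of degree (q − 1)/2 satisfies (2χ(u) + 1)² = δq; that is, χ(u) = (1 ± √(δq))/2 in the first case and χ(u) = (−1 ± √(δq))/2 in the second. Moreover two different irreducible characters of degree (q + 1)/2 take the two different values (their values at u add up to 1), and likewise for degree (q − 1)/2 (values adding up to −1). -/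
theorem result {F : Type*} [Field F] [Fintype F] (hodd : Odd (Fintype.card F)) (hq : 5 ≤ Fintype.card F)
    (u : Matrix.SpecialLinearGroup (Fin 2) F) (hu : (u : Matrix (Fin 2) (Fin 2) F) = !![1, 1; 0, 1]) :
    (∀ χ : Matrix.SpecialLinearGroup (Fin 2) F → ℂ, Cfsg.IsIrrCharacter (Matrix.SpecialLinearGroup (Fin 2) F) χ → χ 1 = (((Fintype.card F + 1) / 2 : ℕ) : ℂ) → (2 * χ u - 1) ^ 2 = (-1 : ℂ) ^ ((Fintype.card F - 1) / 2) * (Fintype.card F : ℂ)) ∧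
    (∀ χ : Matrix.SpecialLinearGroup (Fin 2) F → ℂ, Cfsg.IsIrrCharacter (Matrix.SpecialLinearGroup (Fin 2) F) χ → χ 1 = (((Fintype.card F - 1) / 2 : ℕ) : ℂ) → (2 * χ u + 1) ^ 2 = (-1 : ℂ) ^ ((Fintype.card F - 1) / 2) * (Fintype.card F : ℂ)) ∧
    (∀ χ₁ χ₂ : Matrix.SpecialLinearGroup (Fin 2) F → ℂ, Cfsg.IsIrrCharacter (Matrix.SpecialLinearGroup (Fin 2) F) χ₁ → Cfsg.IsIrrCharacter (Matrix.SpecialLinearGroup (Fin 2) F) χ₂ → χ₁ ≠ χ₂ →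
      χ₁ 1 = (((Fintype.card F + 1) / 2 : ℕ) : ℂ) → χ₂ 1 = (((Fintype.card F + 1) / 2 : ℕ) : ℂ) → χ₁ u + χ₂ u = 1) ∧
    (∀ χ₁ χ₂ : Matrix.SpecialLinearGroup (Fin 2) F → ℂ, Cfsg.IsIrrCharacter (Matrix.SpecialLinearGroup (Fin 2) F) χ₁ → Cfsg.IsIrrCharacter (Matrix.SpecialLinearGroup (Fin 2) F) χ₂ → χ₁ ≠ χ₂ →
      χ₁ 1 = (((Fintype.card F - 1) / 2 : ℕ) : ℂ) → χ₂ 1 = (((Fintype.card F - 1) / 2 : ℕ) : ℂ) → χ₁ u + χ₂ u = -1) := by
  classical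
  obtain ⟨g0, h0⟩ := exists_ell_SL F
  haveI : Fact (Ell _) := ⟨h0⟩
  obtain rfl : u = up 1 := Subtype.ext hu
  obtain ⟨m, hm⟩ := hodd
  have h1 : ∀ χ, IsIrrCharacter _ χ → χ 1 = (((Fintype.card F + 1) / 2 : ℕ) : ℂ) →
      ∃ α χ', α ^ 2 = 1 ∧ α ≠ 1 ∧ Halves (RS (F := F) α) χ χ' := fun χ hχ h => by
    rcases irr_SL2' (Matrix.SpecialLinearGroup.toGL g0) hχ h with
      ⟨e, -⟩ | ⟨e, -⟩ | ⟨e, -⟩ | ⟨e, -⟩ | ⟨-, e⟩ | ⟨e, -⟩
    any_goals omega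
  have h2 : ∀ χ, IsIrrCharacter _ χ → χ 1 = (((Fintype.card F - 1) / 2 : ℕ) : ℂ) →
      ∃ (η : Lin (K1 (Matrix.SpecialLinearGroup.toGL g0))) (χ' : _), η ^ 2 = 1 ∧ η ≠ 1 ∧ Halves (CS η) χ χ' :=
    fun χ hχ h => by
    rcases irr_SL2' (Matrix.SpecialLinearGroup.toGL g0) hχ h with
      ⟨e, -⟩ | ⟨e, -⟩ | ⟨e, -⟩ | ⟨e, -⟩ | ⟨e, -⟩ | ⟨-, e⟩
    any_goals omega
  refine ⟨fun χ hχ h => ?_, fun χ hχ h => ?_, fun χ ψ hχ hψ hne h h' => ?_, fun χ ψ hχ hψ hne h h' => ?_⟩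
  · obtain ⟨α, χ', -, -, H⟩ := h1 χ hχ h
    rw [← H.sq_up, ← RS_up α one_ne_zero, H.add, Pi.add_apply]; ring
  · obtain ⟨α, χ', -, -, H⟩ := h2 χ hχ h
    have := CS_up α one_ne_zero
    rw [H.add, Pi.add_apply] at this
    rw [← H.sq_up]; congr 1; linear_combination this
  · obtain ⟨α, χ', a1, a2, H⟩ := h1 χ hχ h
    obtain ⟨β, ψ', b1, b2, H'⟩ := h1 ψ hψ h'
    obtain rfl := eq_of_sq_eq_one a1 a2 b1 b2
    obtain rfl := (H.eq_or hψ H'.inner_ne).resolve_left hne.symm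
    rw [← RS_up α one_ne_zero, H.add, Pi.add_apply]
  · obtain ⟨α, χ', a1, a2, H⟩ := h2 χ hχ h
    obtain ⟨β, ψ', b1, b2, H'⟩ := h2 ψ hψ h'
    obtain rfl := eq_of_sq_eq_one a1 a2 b1 b2
    obtain rfl := (H.eq_or hψ H'.inner_ne).resolve_left hne.symm
    rw [← CS_up α one_ne_zero, H.add, Pi.add_apply]

end Cfsg.Agent.S2324
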