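import Cfsg.Statements.S2325
import Cfsg.Agent.H4.Dick9

set_option autoImplicit false
open Cfsg

namespace Cfsg.Agent.S2325

/-- Over a finite field with q elements, q odd, the special linear group SL₂ has exactly q + 4 conjugacy classes. -/
theorem result {F : Type*} [Field F] [Fintype F] (hodd : Odd (Fintype.card F)) :
    Nat.card (ConjClasses (Matrix.SpecialLinearGroup (Fin 2) F)) = Fintype.card F + 4 := by
  open Cfsg.Agent.H4 in
  classical
  have h2 : (2 : F) ≠ 0 := odd_card_iff.1 hodd
  obtain ⟨n, hn⟩ := FiniteField.exists_nonsquare (ringChar_ne_two h2)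
  have hn0 : n ≠ 0 := by rintro rfl; exact hn IsSquare.zero
  let w : Fin 3 → F := ![0, 1, n]
  have hw : ∀ i j, IsConj (up (w i)) (up (w j)) → i = j := by
    have h0 : up (0 : F) = 1 := sm_one
    have h1 : ∀ b : F, IsConj (up 0) (up b) → b = 0 := fun b h =>
      toPGL_up_eq_one.1 (by rw [h0] at h; rw [isConj_one_right.1 h, map_one])
    have h3 : ¬ IsConj (up 1) (up n) := fun h => hn (by simpa using (isConj_up_iff one_ne_zero hn0).1 h)
    intro i j h
    fin_cases i <;> fin_cases j
    exacts [rfl, absurd (h1 _ h) one_ne_zero, absurd (h1 _ h) hn0, absurd (h1 _ h.symm) one_ne_zero, rfl,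
      absurd h h3, absurd (h1 _ h.symm) hn0, absurd h.symm h3, rfl]
  have hw' : ∀ g : Matrix.SpecialLinearGroup (Fin 2) F, tr g = 2 → ∃ i, IsConj (up (w i)) g := by
    intro g hg
    by_cases h : Matrix.SpecialLinearGroup.toPGL g = 1
    · rcases toPGL_eq_one_iff.1 h with rfl | rfl
      · exact ⟨0, by rw [show up (w 0) = 1 from sm_one]⟩
      · rw [tr_neg, tr_one] at hg
        exact absurd (by linear_combination -hg) (mul_ne_zero h2 h2)
    · obtain ⟨b, hb, e⟩ := exists_isConj_up h hg
      by_cases hs : IsSquare b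
      · exact ⟨1, ((isConj_up_iff one_ne_zero hb).2 (by simpa using hs)).trans e⟩
      · exact ⟨2, ((isConj_up_iff hn0 hb).2 (isSquare_mul_of_not hn hs)).trans e⟩
  have hneg : ∀ g h : Matrix.SpecialLinearGroup (Fin 2) F, IsConj g h → IsConj (-g) (-h) := fun g h e => by
    obtain ⟨k, rfl⟩ := isConj_iff.1 e
    exact isConj_iff.2 ⟨k, by simp⟩
  let f : (Fin 3 ⊕ Fin 3) ⊕ ↥(({2, -2} : Set F)ᶜ) → ConjClasses (Matrix.SpecialLinearGroup (Fin 2) F) :=
    Sum.elim (Sum.elim (fun i => ConjClasses.mk (up (w i))) fun i => ConjClasses.mk (-up (w i)))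
      (fun t => ConjClasses.mk (sm 0 (-1) 1 t.1 (by simp)))
  have h22 : (2 : F) ≠ -2 := fun e => mul_ne_zero h2 h2 (by linear_combination e)
  have hf : Function.Bijective f := by
    constructor
    · rintro ((i | i) | t) ((j | j) | s) h <;> have h1 := ConjClasses.mk_eq_mk_iff_isConj.1 h <;>
        have h3 := tr_of_isConj h1 <;> simp only [tr_neg, tr_up, tr_sm, zero_add] at h3
      · rw [hw i j h1]
      · exact absurd h3 h22
      · exact absurd (Or.inl h3.symm) s.2
      · exact absurd h3.symm h22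
      · rw [hw i j (by simpa using hneg _ _ h1)]
      · exact absurd (Or.inr h3.symm) s.2
      · exact absurd (Or.inl h3) t.2
      · exact absurd (Or.inr h3) t.2
      · rw [Subtype.ext h3]
    · intro C
      obtain ⟨g, rfl⟩ := ConjClasses.mk_surjective C
      by_cases h : tr g ∈ ({2, -2} : Set F)
      · rcases h with h | h
        · obtain ⟨i, hi⟩ := hw' g h
          exact ⟨.inl (.inl i), ConjClasses.mk_eq_mk_iff_isConj.2 hi⟩
        · obtain ⟨i, hi⟩ := hw' (-g) (by rw [tr_neg, h, neg_neg])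
          exact ⟨.inl (.inr i), ConjClasses.mk_eq_mk_iff_isConj.2 (by simpa using hneg _ _ hi)⟩
      · refine ⟨.inr ⟨tr g, h⟩, ConjClasses.mk_eq_mk_iff_isConj.2 (isConj_of_tr (fun e => h ?_) (by simp [tr_sm])).symm⟩
        exact sq_eq_sq_iff_eq_or_eq_neg.1 (e.trans (by norm_num))
  have h3 := Set.ncard_add_ncard_compl ({2, -2} : Set F)
  rw [Set.ncard_pair h22, Nat.card_eq_fintype_card] at h3
  rw [← Nat.card_eq_of_bijective f hf, Nat.card_sum, Nat.card_sum, Nat.card_coe_set_eq, Nat.card_fin]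
  omega

end Cfsg.Agent.S2325
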