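import Cfsg.Statements.S2326
import Cfsg.Agent.H5.AutA

set_option autoImplicit false
open Cfsg

namespace Cfsg.Agent.S2326

/-- In a Chevalley group of type G₂, B₂, D₄, F₄, E₆, E₇ or E₈ over a finite field of characteristic p, the subgroup U generated by the positive root elements is a Sylow p-subgroup. -/
theorem result {F : Type*} [Field F] [Fintype F] (p : ℕ) [Fact p.Prime] [CharP F p] (D : Cfsg.Lie.ChevalleyDatum) (hD : D ∈ [Cfsg.Lie.chevG2, Cfsg.Lie.chevB2, Cfsg.Lie.chevD4, Cfsg.Lie.chevF4, Cfsg.Lie.chevE6, Cfsg.Lie.chevE7, Cfsg.Lie.chevE8]) :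
    ∃ P : Sylow p ↥(D.group F), (P : Subgroup ↥(D.group F)) = (D.posUnipotent F).subgroupOf (D.group F) := by
  obtain ⟨R⟩ := H5.exists_rs hD
  exact ⟨H5.StN.Tw.Re.sylow (T := ⟨MonoidHom.id _, 1, fun _ => RingHom.id F, by simp, fun _ => rfl,
    by simp [H5.RS.symId]⟩) (orb := id) (ι := MonoidHom.id _) ⟨H5.StN.Tw.nt_id fun _ => rfl, Function.injective_id,
      fun g _ => ⟨g, rfl⟩, fun _ => rfl, R.adj_gen F, R.adj_inj F⟩ p, by rw [R.pos_eq, ← R.adj_U]; rfl⟩

end Cfsg.Agent.S2326
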