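import Cfsg.Statements.S2329
import Cfsg.Agent.H4.Dick8

set_option autoImplicit false
open Cfsg

namespace Cfsg.Agent.S2329

/-- Over a finite field of characteristic p, any two elements of order p of GL₂ are conjugate: there is a single conjugacy class of non-identity unipotent elements. -/
theorem result {F : Type*} [Field F] [Fintype F] (p : ℕ) [Fact p.Prime] [CharP F p] (g h : Matrix.GeneralLinearGroup (Fin 2) F)
    (hg : orderOf g = p) (hh : orderOf h = p) : IsConj g h := by
  open Cfsg.Agent.H4 in
  have key : ∀ g : Matrix.GeneralLinearGroup (Fin 2) F, orderOf g = p →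
      IsConj (Matrix.SpecialLinearGroup.toGL (up (1 : F))) g := by
    intro g hg
    have h1 : g ^ p = 1 := hg ▸ pow_orderOf_eq_one g
    have h2 : g ≠ 1 := by rintro rfl; rw [orderOf_one] at hg; exact (Fact.out : p.Prime).one_lt.ne hg
    obtain ⟨s, rfl⟩ := exists_toGL_of_det (k := g) (Units.ext (sub_eq_zero.1
      ((pow_eq_zero_iff (Fact.out : p.Prime).ne_zero).1 (by
        rw [sub_pow_char, ← Units.val_pow_eq_pow_val, ← map_pow, h1]; simp))))
    have h3 : s ^ p = 1 := Matrix.SpecialLinearGroup.toGL_injective (by rw [map_pow, h1, map_one])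
    obtain ⟨k, rfl⟩ := exists_slc_of_tr (x := up 1) (y := s) (toPGL_up_eq_one.not.2 one_ne_zero)
      (fun e => h2 ((cov_GL p).nop _ e h1)) ((tr_up 1).trans (tr_eq_two_of_pow p h3).symm)
    exact isConj_iff.2 ⟨k, (toGL_slc _ _).symm⟩
  exact (key g hg).symm.trans (key h hh)

end Cfsg.Agent.S2329
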