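import Cfsg.Statements.S2330
import Cfsg.Agent.H4.Dick8

set_option autoImplicit false
open Cfsg

namespace Cfsg.Agent.S2330

/-- Over a finite field with q elements, the general linear group GL₂ has exactly q² − 1 conjugacy classes. -/
theorem result {F : Type*} [Field F] [Fintype F] :
    Nat.card (ConjClasses (Matrix.GeneralLinearGroup (Fin 2) F)) = Fintype.card F ^ 2 - 1 := by
  open Cfsg.Agent.H4 in
  let f : Fˣ ⊕ F × Fˣ → ConjClasses (Matrix.GeneralLinearGroup (Fin 2) F) :=
    Sum.elim (fun a => ConjClasses.mk (gm (a : F) 0 0 a (by simp)))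
      (fun t => ConjClasses.mk (gm 0 (-(t.2 : F)) 1 t.1 (by simp)))
  have hc : ∀ (a : Fˣ) (g : Matrix.GeneralLinearGroup (Fin 2) F), IsConj (gm (a : F) 0 0 a (by simp)) g →
      gm (a : F) 0 0 a (by simp) = g := by
    intro a g h
    obtain ⟨k, rfl⟩ := isConj_iff.1 h
    obtain ⟨e, f, g, h, hd, rfl⟩ := gm_surj k
    rw [eq_mul_inv_iff_mul_eq, gm_mul, gm_mul, gm_inj]
    refine ⟨?_, ?_, ?_, ?_⟩ <;> ring
  have hf : Function.Bijective f := by
    constructor
    · rintro (a | t) (b | s) h <;> have h1 := ConjClasses.mk_eq_mk_iff_isConj.1 h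
      · rw [Units.ext (gm_inj.1 (hc _ _ h1)).1]
      · exact absurd (gm_inj.1 (hc _ _ h1)).2.2.1 zero_ne_one
      · exact absurd (gm_inj.1 (hc _ _ h1.symm)).2.2.1 zero_ne_one
      · obtain ⟨e1, e2⟩ := inv_of_isConj_gm h1
        exact congrArg _ (Prod.ext (by simpa using e1) (Units.ext (by simpa using e2)))
    · intro C
      obtain ⟨g, rfl⟩ := ConjClasses.mk_surjective C
      obtain ⟨a, b, c, d, hd, rfl⟩ := gm_surj g
      by_cases h : b = 0 ∧ c = 0 ∧ a = d
      · obtain ⟨rfl, rfl, rfl⟩ := h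
        exact ⟨.inl (Units.mk0 a (by simpa using hd)), rfl⟩
      · exact ⟨.inr (a + d, Units.mk0 _ hd), ConjClasses.mk_eq_mk_iff_isConj.2 (isConj_companion h)⟩
  rw [← Nat.card_eq_of_bijective f hf, Nat.card_sum, Nat.card_prod, card_units_field, Nat.card_eq_fintype_card,
    sq_sub_one_eq]
  ring

end Cfsg.Agent.S2330
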