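import Cfsg.Statements.S2331
import Cfsg.Agent.H4.Dick8

set_option autoImplicit false
open Cfsg

namespace Cfsg.Agent.S2331

/-- Over a finite field with q elements, q even, the special linear group SL₂ has exactly q + 1 conjugacy classes. -/
theorem result {F : Type*} [Field F] [Fintype F] [CharP F 2] :
    Nat.card (ConjClasses (Matrix.SpecialLinearGroup (Fin 2) F)) = Fintype.card F + 1 := by
  open Cfsg.Agent.H4 in
  have h2 : (2 : F) = 0 := CharTwo.two_eq_zero
  let f : Option F → ConjClasses (Matrix.SpecialLinearGroup (Fin 2) F) := fun o =>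
    o.elim (ConjClasses.mk 1) (fun t => ConjClasses.mk (sm 0 (-1) 1 t (by simp)))
  have hf : Function.Bijective f := by
    constructor
    · rintro (_ | t) (_ | s) h <;> have h1 := ConjClasses.mk_eq_mk_iff_isConj.1 h
      · rfl
      · exact absurd (sm_eq_one.1 (isConj_one_right.1 h1)).1 zero_ne_one
      · exact absurd (sm_eq_one.1 (isConj_one_left.1 h1)).1 zero_ne_one
      · simpa [tr_sm] using tr_of_isConj h1
    · intro C
      obtain ⟨g, rfl⟩ := ConjClasses.mk_surjective C
      by_cases h : Matrix.SpecialLinearGroup.toPGL g = 1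
      · exact ⟨none, congrArg _ ((cov_SL 2).nop g h
          (by rcases toPGL_eq_one_iff.1 h with rfl | rfl <;> simp)).symm⟩
      · exact ⟨some (tr g), ConjClasses.mk_eq_mk_iff_isConj.2 (isConj_of_tr_two h2
          (by rw [toPGL_sm, Ne, pm_eq_one]; simp) h (by simp [tr_sm]))⟩
  rw [← Nat.card_eq_of_bijective f hf, Finite.card_option, Nat.card_eq_fintype_card]

end Cfsg.Agent.S2331
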