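import Cfsg.Statements.S2364
import Cfsg.Agent.H4.Cp1

set_option autoImplicit false
open Cfsg

namespace Cfsg.Agent.S2364

/-- Let F be a finite field of characteristic p, n ≥ 4, and let a, b be commuting elements of PSL(n, F) with a of order p. Then every prime divisor of the order of b divides the order of SL(n − 2, F). -/
theorem result {F : Type*} [Field F] [Fintype F] (p : ℕ) [Fact p.Prime] [CharP F p] (n : ℕ) (hn : 4 ≤ n)
    (a b : Matrix.ProjectiveSpecialLinearGroup (Fin n) F) (ha : orderOf a = p) (hab : Commute a b) :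
    (orderOf b).primeFactors ⊆ (Nat.card (Matrix.SpecialLinearGroup (Fin (n - 2)) F)).primeFactors := by
  open Cfsg.Agent.H4 Cfsg.Agent.GS Matrix in
  intro s hs
  obtain ⟨hs, hsb, -⟩ := Nat.mem_primeFactors.1 hs
  refine Nat.mem_primeFactors.2 ⟨hs, by_contra fun h => ?_, Nat.card_pos.ne'⟩
  obtain ⟨h1, h2⟩ := dvd_card_SL (F := F) (m := n - 2) (by omega)
  replace h1 : ¬ s ∣ Fintype.card F := fun e => h (e.trans h1)
  replace h2 : ∀ j, 0 < j → j ≤ n - 2 → ¬ s ∣ Fintype.card F ^ j - 1 := fun j a b e => h (e.trans (h2 j a b))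
  have : Nonempty (Fin n) := ⟨⟨0, by omega⟩⟩
  have hz : ∀ z ∈ Subgroup.center (Matrix.SpecialLinearGroup (Fin n) F), z ^ (Fintype.card F - 1) = 1 := fun z hz =>
    orderOf_dvd_iff_pow_eq_one.1 ((Subgroup.orderOf_dvd_natCard _ hz).trans (card_center_SL (F := F) (ι := Fin n) ▸ Nat.gcd_dvd_right _ _))
  have hl : ∀ (r : ℕ) (c : ProjectiveSpecialLinearGroup (Fin n) F), r.Prime → orderOf c = r → ¬ r ∣ Fintype.card F - 1 →
      ∃ C : Matrix.SpecialLinearGroup (Fin n) F, C ^ r = 1 ∧ C ≠ 1 ∧ (C : ProjectiveSpecialLinearGroup (Fin n) F) = c ^ (Fintype.card F - 1) :=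
    fun r c hr hc h => by
      obtain ⟨C, rfl⟩ := QuotientGroup.mk_surjective c
      refine ⟨C ^ (Fintype.card F - 1), ?_, fun e => h (hc ▸ orderOf_dvd_of_pow_eq_one (by rw [← QuotientGroup.mk_pow, e]; rfl)), rfl⟩
      rw [← pow_mul, mul_comm, pow_mul]
      exact hz _ ((QuotientGroup.eq_one_iff _).1 (by rw [QuotientGroup.mk_pow, ← hc, pow_orderOf_eq_one]))
  have hp : p ∣ Fintype.card F := (prime_dvd_char_iff_dvd_card p).1 (ringChar.eq F p ▸ dvd_rfl)
  have hq : 1 < Fintype.card F := Fintype.one_lt_card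
  have h3 : ¬ s ∣ Fintype.card F - 1 := by simpa using h2 1 one_pos (by omega)
  obtain ⟨A, hA, hA1, hA2⟩ := hl p a Fact.out ha fun e => (Fact.out : p.Prime).one_lt.ne' (Nat.dvd_one.1 (by
    have := Nat.dvd_sub hp e
    rwa [Nat.sub_sub_self hq.le] at this))
  obtain ⟨B, hB, hB1, hB2⟩ := hl s _ hs (orderOf_pow_orderOf_div (orderOf_pos b).ne' hsb) h3
  have h4 : (B * A)⁻¹ * (A * B) ∈ Subgroup.center _ := QuotientGroup.eq.1 (by
    rw [QuotientGroup.mk_mul, QuotientGroup.mk_mul, hA2, hB2]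
    exact (((hab.pow_right _).pow_pow _ _).eq).symm)
  have h5 : B * A = A * B := by
    generalize hc : (B * A)⁻¹ * (A * B) = z at h4
    have h6 : A * B * A⁻¹ = B * z := by rw [← mul_inv_cancel_right (B * z) A, mul_assoc B z A, ← Subgroup.mem_center_iff.1 h4 A, ← hc]; group
    have h7 := congrArg (· ^ s) h6
    simp only [conj_pow, hB, mul_one, mul_inv_cancel, (show Commute B z from Subgroup.mem_center_iff.1 h4 B).mul_pow, one_mul] at h7
    have h8 := pow_gcd_eq_one.2 ⟨h7.symm, hz z h4⟩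
    rw [(Nat.Prime.coprime_iff_not_dvd hs).2 h3, pow_one] at h8
    exact inv_mul_eq_one.1 (hc.trans h8)
  have h6 : (A.1 - 1) ^ p = 0 := (pow_char_eq_one_iff p).1 (congrArg Subtype.val hA)
  have h7 := unip_of_comm hs h1 (by simpa using h2) (T := toLinAlgEquiv' B.1) (N := toLinAlgEquiv' (A.1 - 1))
    (by rw [← map_pow]; exact (congrArg (fun x => toLinAlgEquiv' x.1) hB).trans (map_one _))
    (((show Commute B.1 A.1 from congrArg Subtype.val h5).sub_right (Commute.one_right _)).map _)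
    ⟨p, by rw [← map_pow, h6, map_zero]⟩
    (fun e => hA1 (Subtype.ext (sub_eq_zero.1 ((map_eq_zero_iff _ toLinAlgEquiv'.injective).1 e)))) (by simpa using hn)
  rw [← map_one toLinAlgEquiv', ← map_sub, ← map_pow, map_eq_zero_iff _ toLinAlgEquiv'.injective] at h7
  have h8 : B ^ p ^ 3 = 1 := Subtype.ext (by
    have := add_pow_char_pow_of_commute p 3 (Commute.one_right (B.1 - 1))
    rw [sub_add_cancel, pow_eq_zero_of_le (Nat.lt_pow_self (Fact.out : p.Prime).one_lt).le h7] at this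
    simpa using this)
  have h9 := pow_gcd_eq_one.2 ⟨hB, h8⟩
  rw [Nat.Coprime.pow_right _ ((Nat.coprime_primes hs Fact.out).2 fun e => h1 (e ▸ hp)), pow_one] at h9
  exact hB1 h9

end Cfsg.Agent.S2364
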