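import Cfsg.Statements.S2367


set_option autoImplicit false
open Cfsg

namespace Cfsg.Agent.S2367

open Subgroup
open scoped Pointwise commutatorElement
theorem chk {N p : ℕ} (hp : p.Prime) (h2 : p ≠ 2) (h3 : N.factorization p = 3) (h : N ≠ 0 ∧ N ∣ Nat.factorial 71 ^ 2 ∧
    ∀ p < 72, 2 < p → p ^ 3 ∣ N → p ^ 4 ∣ N ∨ (∃ d < 8, 2 ≤ d ∧ d < p ∧ d ∣ p) ∨ ∃ a < 13, 2 ^ a ∣ N ∧ p ^ 3 < 2 ^ a) : p ^ 3 < 2 ^ N.factorization 2 := by
  have a := (hp.pow_dvd_iff_le_factorization h.1).2 h3.ge
  have b := hp.dvd_factorial.1 (hp.dvd_of_dvd_pow ((dvd_pow_self p three_ne_zero).trans (a.trans h.2.1)))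
  have c := hp.two_le
  rcases h.2.2 p (by omega) (by omega) a with d | ⟨d, -, e, f, g⟩ | ⟨a, -, d, e⟩
  · have := (hp.pow_dvd_iff_le_factorization h.1).1 d; omega
  · have := hp.eq_one_or_self_of_dvd d g; omega
  exact e.trans_le (Nat.pow_le_pow_right two_pos ((Nat.prime_two.pow_dvd_iff_le_factorization h.1).1 d))

/-- Let G be an alternating group of degree at least 5 or a simple group with the order of one of the 26 sporadic groups, and let p be an odd prime such that p³ is the exact power of p dividing the order of G. Then p³ is less than the 2-part of the order of G. -/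
theorem result {G : Type*} [Group G] [Finite G] (hG : Cfsg.IsAlternating G ∨ Cfsg.IsSporadic G)
    (p : ℕ) (hp : p.Prime) (hodd : p ≠ 2) (h3 : (Nat.card G).factorization p = 3) :
    p ^ 3 < 2 ^ (Nat.card G).factorization 2 := by
  rcases hG with ⟨n, hn, ⟨e⟩⟩ | hG
  · have : Fact p.Prime := ⟨hp⟩
    have : Nontrivial (Fin n) := Fin.nontrivial_iff_two_le.2 (by omega)
    have a : 2 * Nat.card G = n.factorial := by
      rw [Nat.card_congr e.toEquiv, Nat.card_eq_fintype_card, two_mul_card_alternatingGroup, Fintype.card_perm, Fintype.card_fin]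
    have b : ∀ q, n.factorial.factorization q = (Nat.factorization 2) q + (Nat.card G).factorization q := fun q => by
      rw [← a, Nat.factorization_mul two_ne_zero Nat.card_pos.ne']; rfl
    have c := hp.two_le
    have d : 3 * p ≤ n := by
      by_contra! d
      have f := b p
      rw [h3, Nat.factorization_def _ hp, padicValNat_factorial (b := 2) (Nat.log_lt_of_lt_pow (by omega) (by
        have : 3 ≤ p := by omega
        nlinarith))] at f
      have : n / p < 3 := Nat.div_lt_of_lt_mul (by omega)
      simp at f; omega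
    have f : 3 * (n / 4) ≤ 1 + (Nat.card G).factorization 2 := by
      have g := (Nat.factorization_le_iff_dvd (Nat.factorial_ne_zero _) (Nat.factorial_ne_zero _)).2
        (Nat.factorial_dvd_factorial (show 2 * (2 * (n / 4)) ≤ n by omega)) 2
      rw [b, Nat.factorization_def _ Nat.prime_two, padicValNat_factorial_mul, padicValNat_factorial_mul, Nat.Prime.factorization_self Nat.prime_two] at g
      omega
    have g : ∀ k, 3 ≤ k → (4 * k + 3) ^ 3 * 2 < 27 * 2 ^ (3 * k) := fun k hk => by
      induction k, hk using Nat.le_induction with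
      | base => norm_num
      | succ k hk ih =>
        have := Nat.pow_le_pow_left (show 4 * (k + 1) + 3 ≤ 2 * (4 * k + 3) by omega) 3
        rw [mul_pow] at this
        rw [mul_add 3, pow_add]; omega
    have i := Nat.pow_le_pow_right two_pos f
    rw [pow_add] at i
    by_cases j : 3 ≤ n / 4
    · have := g _ j
      have k := Nat.pow_le_pow_left (show 3 * p ≤ 4 * (n / 4) + 3 by omega) 3
      rw [mul_pow] at k
      omega
    obtain rfl : p = 3 := by omega
    rw [show n / 4 = 2 by omega] at i
    omega
  rcases hG with h | h | h | h | h | h | h | h | h | h | h | h | h | h | h | h | h | h | h | h | h | h | h | h | h | h <;>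
    exact chk hp hodd h3 (by rw [h.2]; exact ⟨by norm_num, by decide +kernel, by set_option synthInstance.maxSize 1000 in decide +kernel⟩)

end Cfsg.Agent.S2367
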