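import Cfsg.Statements.S2368
import Cfsg.Agent.H9.TJ

set_option autoImplicit false
open Cfsg

namespace Cfsg.Agent.S2368

open Cfsg.Agent Cfsg.Agent.H9
theorem shift_pow {F : Type*} [Field F] (m k : ℕ) (i j : Fin m) :
    ((Matrix.of fun i j : Fin m => if (i : ℕ) + 1 = j then (1 : F) else 0) ^ k) i j = if (i : ℕ) + k = j then 1 else 0 := by
  induction k generalizing j with
  | zero => simp [Matrix.one_apply, Fin.ext_iff]
  | succ k ih =>
    rw [pow_succ, Matrix.mul_apply]
    simp only [ih, Matrix.of_apply]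
    by_cases h : (i : ℕ) + (k + 1) = j
    · rw [if_pos h, Finset.sum_eq_single (⟨i + k, by omega⟩ : Fin m)]
      · simp; omega
      · intro l _ hl
        rw [if_neg, zero_mul]
        intro e; apply hl; ext; exact e.symm
      · simp
    · rw [if_neg h]
      apply Finset.sum_eq_zero
      intro l _
      split_ifs with h1 h2
      · omega
      · simp
      · simp
      · simp

/-- Let F be a finite field of characteristic p and m ≥ 1. Every element of GL(m, F) of p-power order has order less than p·m, and GL(m, F) has an element of p-power order at least m; so the largest order of a p-element of GL(m, F) is the least power of p that is at least m. -/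
theorem result {F : Type*} [Field F] [Fintype F] (p : ℕ) [Fact p.Prime] [CharP F p] (m : ℕ) (hm : 1 ≤ m) :
    (∀ g : Matrix.GeneralLinearGroup (Fin m) F, (∃ j : ℕ, orderOf g = p ^ j) → orderOf g < p * m) ∧
      ∃ g : Matrix.GeneralLinearGroup (Fin m) F, (∃ j : ℕ, orderOf g = p ^ j) ∧ m ≤ orderOf g := by
  haveI : Nonempty (Fin m) := ⟨⟨0, hm⟩⟩
  have hp : p.Prime := Fact.out
  have key : ∀ (g : Matrix.GeneralLinearGroup (Fin m) F) (j : ℕ), g ^ p ^ j = 1 ↔ ((g : Matrix (Fin m) (Fin m) F) - 1) ^ p ^ j = 0 := by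
    intro g j
    rw [sub_pow_char_pow_of_commute p j (Commute.one_right _), one_pow, sub_eq_zero, Units.ext_iff]
    simp
  constructor
  · rintro g ⟨j, hj⟩
    rw [hj]
    rcases j with _ | j
    · have := hp.two_le; simp only [pow_zero]; nlinarith
    · have h1 : IsNilpotent ((g : Matrix (Fin m) (Fin m) F) - 1) := ⟨_, (key g (j + 1)).mp (by rw [← hj]; exact pow_orderOf_eq_one g)⟩
      have h2 := Matrix.isNilpotent_charpoly_sub_pow_of_isNilpotent h1
      have h3 := sub_eq_zero.mp h2.eq_zero
      have h4 := Matrix.aeval_self_charpoly ((g : Matrix (Fin m) (Fin m) F) - 1)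
      rw [h3] at h4
      simp only [Fintype.card_fin, map_pow, Polynomial.aeval_X] at h4
      have h5 : p ^ j < m := by
        by_contra hle
        push Not at hle
        have := (key g j).mpr (pow_eq_zero_of_le hle h4)
        have h6 := Nat.le_of_dvd (pow_pos hp.pos _) (orderOf_dvd_of_pow_eq_one this)
        rw [hj] at h6
        exact absurd (Nat.pow_lt_pow_right hp.one_lt (Nat.lt_succ_self j)) (not_lt.mpr h6)
      rw [pow_succ, mul_comm]
      exact Nat.mul_lt_mul_of_pos_left h5 hp.pos
  · let N : Matrix (Fin m) (Fin m) F := Matrix.of fun i j : Fin m => if (i : ℕ) + 1 = j then (1 : F) else 0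
    have hN : N ^ m = 0 := by
      ext i j
      rw [shift_pow, if_neg (by omega)]; rfl
    have hu : IsUnit (1 + N) := IsNilpotent.isUnit_one_add ⟨m, hN⟩
    obtain ⟨g, hg⟩ := hu
    have hg' : (g : Matrix (Fin m) (Fin m) F) - 1 = N := by rw [hg]; simp
    have h1 : g ^ p ^ m = 1 := (key g m).mpr (by rw [hg']; exact pow_eq_zero_of_le (Nat.lt_pow_self hp.one_lt).le hN)
    obtain ⟨j, -, hj⟩ := (Nat.dvd_prime_pow hp).mp (orderOf_dvd_of_pow_eq_one h1)
    refine ⟨g, ⟨j, hj⟩, ?_⟩
    by_contra hlt
    push Not at hlt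
    have h2 := (key g j).mp (by rw [← hj]; exact pow_orderOf_eq_one g)
    rw [hg', ← hj] at h2
    have h3 := congrFun (congrFun h2 ⟨0, hm⟩) ⟨orderOf g, hlt⟩
    rw [shift_pow] at h3
    simp at h3

end Cfsg.Agent.S2368
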