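import Cfsg.Statements.S2369
import Cfsg.Agent.H5.InvD

set_option autoImplicit false
open Cfsg

namespace Cfsg.Agent.S2369

/-- Let q = 2^(2m+1) with m ≥ 1 and let a, b be commuting elements of the large Ree group ²F₄(q) with a an involution. Then every prime divisor of the order of b divides q(q⁴ − 1). -/
theorem result {K : Type*} [Field K] [Fintype K] (m : ℕ) (hm : 1 ≤ m) (hK : Fintype.card K = 2 ^ (2 * m + 1))
    (a b : ↥(Cfsg.Lie.twistedF4 K (2 ^ m))) (ha : orderOf a = 2) (hab : Commute a b) :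
    (orderOf b).primeFactors ⊆ (2 ^ (2 * m + 1) * ((2 ^ (2 * m + 1)) ^ 4 - 1)).primeFactors := by
  haveI := H5.charP_of_card Nat.prime_two hK
  obtain ⟨θ, hθ, h2⟩ := H5.exists_theta Nat.prime_two hK
  have A := H5.act2F4 θ
  have e := H5.eq2F4 h2 hθ
  have Z := (H5.nt2F4 A h2).re e
  obtain ⟨l, hl, a', h1, h3⟩ := H5.cls2F4 Z a ha
  obtain ⟨c, rfl⟩ := isConj_iff.1 h3
  have h4 : Subgroup.inclusion (H5.StN.Tw.Γ_le e) (c * b * c⁻¹) ∈ (H5.rsF4.adj K).U Set.univ ⊓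
      Subgroup.centralizer {(H5.rsF4.adj K).xl l} := ⟨Z.gen ▸ Subgroup.mem_top _, by
    rw [← h1]
    refine Subgroup.mem_centralizer_singleton_iff.2 ?_
    rw [← map_mul, ← map_mul, conj_mul, conj_mul, hab.eq]⟩
  obtain ⟨i, h5⟩ : ∃ i : Fin 2, Subgroup.inclusion (H5.StN.Tw.Γ_le e) (c * b * c⁻¹) ∈
      (H5.rsF4.adj K).Par (H5.orb2F4.orb ⁻¹' {i}) := by
    have k : ∀ (i : Fin 2) (T : Set (H5.Φ Cfsg.Lie.chevF4)), (∀ r ∈ T, H5.rsF4.Pos r ∨ r ∈ H5.rsF4.Sub (H5.orb2F4.orb ⁻¹' {i})) →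
        (H5.rsF4.adj K).U T ≤ (H5.rsF4.adj K).Par (H5.orb2F4.orb ⁻¹' {i}) := fun i T h =>
      by rw [H5.StN.Par_eq]; exact le_sup_of_le_right (H5.StG.U_mono h)
    simp only [List.mem_cons, List.not_mem_nil, or_false] at hl
    rcases hl with rfl | rfl
    · exact ⟨1, k 1 _ (fun r h => Or.imp_right (by rw [H5.orb2F4.mem_sub]; clear h; revert r; decide +kernel) h) (H5.f4_cent1 Z.hπ ▸ h4)⟩
    · exact ⟨0, k 0 _ (fun r h => (Or.symm h).imp And.left (by rw [H5.orb2F4.mem_sub]; clear h; revert r; decide +kernel))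
        (H5.f4_cent2 Z.hπ ▸ h4)⟩
  have h6 := Subgroup.orderOf_dvd_natCard _ (Subgroup.mem_inf.2 ⟨h5, (H5.StN.Tw.Γ_range e).le ⟨_, rfl⟩⟩)
  rw [Z.nt.card_Par le_rfl (H5.StN.Tw.G1_le_Fix _ _), H5.card_H2F4 A h2 Z.hπ, H5.card_U2F4 A h2, H5.cardP2F4 A h2,
    orderOf_injective _ Z.inj, Nat.card_eq_fintype_card, hK, ← MulAut.conj_apply, MulEquiv.orderOf_eq] at h6
  have h7 : 1 < 2 ^ (2 * m + 1) := Nat.one_lt_two_pow (by omega)
  generalize 2 ^ (2 * m + 1) = q at h6 h7 ⊢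
  obtain ⟨q, rfl⟩ := Nat.exists_eq_add_of_le' h7.le
  have h8 : (q + 1) ^ 4 - 1 = q * (q + 1 + 1) * ((q + 1) ^ 2 + 1) := Nat.sub_eq_of_eq_add (by ring)
  have h9 : (q + 1) * ((q + 1) ^ 4 - 1) ≠ 0 := by rw [h8]; have : 0 < q := by omega
                                                  positivity
  rw [← Nat.primeFactors_pow (_ * _) (k := 12) (by norm_num)]
  refine Nat.primeFactors_mono (h6.trans ?_) (pow_ne_zero _ h9)
  rw [h8, Nat.add_sub_cancel, mul_pow, mul_pow, mul_right_comm, mul_comm]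
  refine mul_dvd_mul_left _ ?_
  fin_cases i
  · exact ⟨q ^ 10 * (q + 1 + 1) ^ 11 * ((q + 1) ^ 2 + 1) ^ 12, by
      rw [show H5.fld 0x201 8 255 ((⟨0, by norm_num⟩ : Fin 2) : ℕ) = 1 by decide]; ring⟩
  · exact ⟨q ^ 10 * (q + 1 + 1) ^ 12 * ((q + 1) ^ 2 + 1) ^ 11, by
      rw [show H5.fld 0x201 8 255 ((⟨1, by norm_num⟩ : Fin 2) : ℕ) = 2 by decide]; ring⟩

end Cfsg.Agent.S2369
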