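import Cfsg.Statements.S2370
import Cfsg.Agent.H5.InvD

set_option autoImplicit false
open Cfsg

namespace Cfsg.Agent.S2370

/-- Let q = 2^(2m+1) with m ≥ 1. Every element of 2-power order of the large Ree group ²F₄(q) has order at most 32. -/
theorem result {K : Type*} [Field K] [Fintype K] (m : ℕ) (hm : 1 ≤ m) (hK : Fintype.card K = 2 ^ (2 * m + 1))
    (x : ↥(Cfsg.Lie.twistedF4 K (2 ^ m))) (hx : ∃ j : ℕ, orderOf x = 2 ^ j) : orderOf x ≤ 32 := by
  haveI := H5.charP_of_card Nat.prime_two hK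
  obtain ⟨θ, hθ, h2⟩ := H5.exists_theta Nat.prime_two hK
  have Z := (H5.nt2F4 (H5.act2F4 θ) h2).re (H5.eq2F4 h2 hθ)
  obtain ⟨j, hx⟩ := hx
  rw [← orderOf_injective _ Z.inj] at hx ⊢
  generalize Subgroup.inclusion _ x = y at hx
  obtain ⟨g, -, h⟩ := H5.StN.exists_conj_U Z.hπ (V := Subgroup.zpowers y) (Z.gen ▸ le_top)
    (IsPGroup.of_card ((Nat.card_zpowers y).trans hx))
  have := H5.StN.pow_eq_one_of_U Z.hπ (p := 2) (h := 11) (k := 5) (by decide +kernel) (by norm_num)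
    (h y (Subgroup.mem_zpowers y))
  rw [conj_pow, conj_eq_one_iff] at this
  exact orderOf_le_of_pow_eq_one (by norm_num) this

end Cfsg.Agent.S2370
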