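import Cfsg.Statements.S2371
import Cfsg.Agent.H5.Ag7

set_option autoImplicit false
open Cfsg

namespace Cfsg.Agent.S2371

/-- The group G₂(q), q ≥ 3, contains a cyclic subgroup of order q² + q + 1 which is its own centralizer. -/
theorem result {F : Type*} [Field F] [Fintype F] (q : ℕ) (hF : Fintype.card F = q) (hq : 3 ≤ q) :
    ∃ H : Subgroup ↥(Cfsg.Lie.chevG2.group F), IsCyclic ↥H ∧ Nat.card ↥H = q ^ 2 + q + 1 ∧
      Subgroup.centralizer (H : Set ↥(Cfsg.Lie.chevG2.group F)) = H := by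
  obtain ⟨H, h1, h2, h3⟩ := H5.rsG2.cyc_tor H5.goodG2 (by decide) (H5.StN.hp_inj_of_ker (H5.rsG2.st_rel3 _ _) H5.kerG2.ker_eq_bot)
    hF hq (n := q ^ 2 + q + 1) [1, 0, 1, 0] [[1, 0], [1, -1]] [[1, 0], [1, -1], [-2, 1]] [[1, 1, 1]] [[-1, -1]]
    (by change _ = H5.evq 3 _ _; simp [H5.evq, Finset.sum_range_succ, H5.tb]; ring) (by decide +kernel)
  exact ⟨H, h1, by simpa [H5.kerG2.ker_eq_bot] using h2.symm, h3⟩

end Cfsg.Agent.S2371
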