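import Cfsg.Statements.S2372
import Cfsg.Agent.H5.Ag7

set_option autoImplicit false
open Cfsg

namespace Cfsg.Agent.S2372

/-- The group F₄(q) contains a cyclic subgroup of order q⁴ + 1 which is its own centralizer. -/
theorem result {F : Type*} [Field F] [Fintype F] (q : ℕ) (hF : Fintype.card F = q) :
    ∃ H : Subgroup ↥(Cfsg.Lie.chevF4.group F), IsCyclic ↥H ∧ Nat.card ↥H = q ^ 4 + 1 ∧
      Subgroup.centralizer (H : Set ↥(Cfsg.Lie.chevF4.group F)) = H := by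
  obtain ⟨H, h1, h2, h3⟩ := H5.rsF4.cyc_tor H5.goodF4 (by decide) (H5.StN.hp_inj_of_ker (H5.rsF4.st_rel3 _ _) H5.kerF4.ker_eq_bot)
    hF (hF ▸ Fintype.one_lt_card : 2 ≤ q) (n := q ^ 4 + 1) [1, 2, 1, 0, 2, 3] [[1, 0, 0, 0], [1, 0, 0, -1], [1, 1, -1, -1], [0, 1, 0, -1]]
    [[1, 0, 0, 0], [1, -1, 0, 1], [1, 0, -1, 1], [1, -1, 0, 0], [-1, 0, 0, 0]] [[1, 0, 0, 0, 1]] [[-1, -1, -1, 0]]
    (by change _ = H5.evq 5 _ _; simp [H5.evq, Finset.sum_range_succ, H5.tb]; ring) (by decide +kernel)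
  exact ⟨H, h1, by simpa [H5.kerF4.ker_eq_bot] using h2.symm, h3⟩

end Cfsg.Agent.S2372
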