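import Cfsg.Statements.S2374
import Cfsg.Agent.H5.Ag7

set_option autoImplicit false
open Cfsg

namespace Cfsg.Agent.S2374

/-- The group E₇(q) (the simple Chevalley group of type E₇) contains a cyclic subgroup of order (q⁴ − q² + 1)(q³ + 1)/gcd(2, q − 1) which is its own centralizer. -/
theorem result {F : Type*} [Field F] [Fintype F] (q : ℕ) (hF : Fintype.card F = q) :
    ∃ H : Subgroup ↥(Cfsg.Lie.chevE7.group F), IsCyclic ↥H ∧ Nat.card ↥H = (q ^ 4 - q ^ 2 + 1) * (q ^ 3 + 1) / Nat.gcd 2 (q - 1) ∧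
      Subgroup.centralizer (H : Set ↥(Cfsg.Lie.chevE7.group F)) = H := by
  have hq : 2 ≤ q := hF ▸ Fintype.one_lt_card
  obtain ⟨H, h1, h2, h3⟩ := H5.rsE7.cyc_tor H5.goodE7 (by decide) (H5.hp_injE7 _) hF hq (n := (q ^ 4 - q ^ 2 + 1) * (q ^ 3 + 1))
    [3, 4, 3, 2, 1, 4, 3, 4, 0, 5, 3, 6, 2] [[1, 0, -1, 1, 0, -1, 0], [1, 0, -1, 0, 1, -1, -1], [2, 0, -2, 1, 1, -1, -1],
      [2, 0, -2, 0, 1, -1, -2], [2, 0, -2, 0, 1, -1, -1], [1, 1, -1, -1, 1, 0, -1], [1, 0, 0, 0, 0, 0, 0]]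
    [[0, 0, 0, 0, 0, 0, 1], [1, 0, 0, 0, -1, 1, 0], [0, 1, 0, 0, -1, 0, 1], [0, 0, 1, 0, -1, 0, 0], [-1, 1, 1, -1, 0, 0, 0],
      [-1, -1, 1, 0, 0, 0, 0], [0, 0, 0, -1, 1, 0, 0], [0, -1, -1, 1, 0, 0, 0]] [[1, 0, -1, 1, 1, -1, 0, 1]]
    [[-1, -1, -2, -2, -2, -1, -1]] (by change _ = H5.evq 8 _ _; simp [H5.evq, Finset.sum_range_succ, H5.tb,
      Nat.cast_sub (Nat.pow_le_pow_right (by omega : 0 < q) (by omega : 2 ≤ 4))]; ring) (by decide +kernel)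
  rw [H5.kerE7.card F, Nat.card_eq_fintype_card (α := F), hF, pow_one] at h2
  exact ⟨H, h1, by rw [h2, Nat.mul_div_cancel _ (Nat.gcd_pos_of_pos_left _ two_pos)], h3⟩

end Cfsg.Agent.S2374
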