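import Cfsg.Statements.S2376
import Cfsg.Agent.H5.Ag7

set_option autoImplicit false
open Cfsg

namespace Cfsg.Agent.S2376

/-- The group ³D₄(q) contains a cyclic subgroup of order (q³ − 1)(q + 1) which is its own centralizer. -/
theorem result {K : Type*} [Field K] [Fintype K] (q : ℕ) (hq : IsPrimePow q) (hK : Fintype.card K = q ^ 3) :
    ∃ H : Subgroup ↥(Cfsg.Lie.twistedD4 K q), IsCyclic ↥H ∧ Nat.card ↥H = (q ^ 3 - 1) * (q + 1) ∧
      Subgroup.centralizer (H : Set ↥(Cfsg.Lie.twistedD4 K q)) = H := by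
  obtain ⟨p, e, hp, he, rfl⟩ := (isPrimePow_nat_iff q).1 hq
  haveI := Fact.mk hp
  haveI := H5.charP_of_card hp (hK.trans (pow_mul p e 3).symm)
  have a : ((((p ^ e) ^ 3 - 1) * (p ^ e + 1) : ℕ) : ℤ) = H5.evq 5 (H5.tb [[-1, -1, 0, 1, 1]] 0) (p ^ e : ℕ) := by
    rw [Nat.cast_mul, Nat.cast_sub (Nat.one_le_pow _ _ hq.pos)]
    simp [H5.evq, Finset.sum_range_succ, H5.tb]; ring
  obtain ⟨w, -, -, -, H, h1, h2, h3⟩ := (H5.alg3D4 (AlgebraicClosure K) hK (θ := iterateFrobenius K p e) fun _ => rfl).cyc_tor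
    (by decide) (fun _ _ => rfl) (dvd_pow_self p he.ne') (π := H5.pi3D4) (fun _ => rfl) (n := ((p ^ e) ^ 3 - 1) * (p ^ e + 1))
    (wd := [1]) (E := H5.tb [[0, 0, 1, 1], [1, 1, 1, 0], [1, 1, 0, 0], [0, 1, 1, 0]])
    (V := H5.tb [[0, 1, 0, -1], [0, -1, 1, 1], [0, 1, -1, 0], [1, -1, 1, 0], [-1, 1, 0, 0]]) (P := H5.tb [[-1, -1, 0, 1, 1]] 0)
    (g := H5.tb [[0, 1, 1, 0]] 0) a (by decide +kernel) (a ▸ H5.rsD4.regChk_all (by decide +kernel) hq.two_le)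
  rw [H5.Alg.tA_inf_ker] at h2
  exact ⟨H, h1, (h2.trans ((congrArg (fun X : Subgroup _ => Nat.card H * Nat.card X) (H5.ker3D4 _)).trans (by simp))).symm, h3⟩

end Cfsg.Agent.S2376
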