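import Cfsg.Statements.S2379
import Cfsg.Agent.H4.Hcy1

set_option autoImplicit false
open Cfsg

namespace Cfsg.Agent.S2379

/-- Sylow subgroups of `SL_n(q)` for large primes. Let `F` be a field with `q` elements and `r` a prime with `r > n` and `r ∤ q` (so `r` does not divide the order `n!` of the Weyl group). Let `d` be the multiplicative order of `q` modulo `r`, `a` the number of integers `i` with `2 ≤ i ≤ n` divisible by `d` (the degrees of the Weyl group are `2, …, n`), and `m` the `r`-part of the value at `q` of the `d`-th cyclotomic polynomial. Then every Sylow `r`-subgroup of `SL_n(q)` is a direct product of `a` cyclic groups of order `m`. -/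
theorem result {F : Type*} [Field F] [Fintype F] {q : ℕ} (hq : Fintype.card F = q) (n : ℕ)
    (r : ℕ) [Fact r.Prime] (hrn : n < r) (hrq : ¬ r ∣ q) (P : Sylow r (Matrix.SpecialLinearGroup (Fin n) F)) :
    Nonempty (↥(P : Subgroup (Matrix.SpecialLinearGroup (Fin n) F)) ≃*
      (Fin ((Finset.Icc 2 n).filter (fun i => orderOf (q : ZMod r) ∣ i)).card →
        Multiplicative (ZMod (r ^ padicValNat r ((Polynomial.cyclotomic (orderOf (q : ZMod r)) ℤ).eval (q : ℤ)).natAbs)))) := by
  open Cfsg.Agent.H4 in
  subst hq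
  have h0 : 2 ≤ Fintype.card F := Fintype.one_lt_card
  have hd := H5.ord_pos hrq
  rw [H5.val_cyc h0 hrq]
  rcases n with _ | n
  · exact sylow_of_homo P (by simp) 1 fun x y _ => funext fun i => absurd i.2 (by simp)
  obtain ⟨h1, h2⟩ := val_range (n := n) (s := 1) h0 hrq hrn
  have h3 : ((Finset.range n).filter fun i => orderOf (Fintype.card F : ZMod r) ∣ i + 1 + 1).card =
      ((Finset.Icc 2 (n + 1)).filter fun i => orderOf (Fintype.card F : ZMod r) ∣ i).card :=
    Finset.card_bij (fun i _ => i + 1 + 1) (fun i hi => by simp at hi ⊢; exact ⟨by omega, hi.2⟩) (fun _ _ _ _ h => by omega)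
      fun j hj => by
        simp at hj
        obtain ⟨i, rfl⟩ : ∃ i, j = i + 1 + 1 := ⟨j - 2, by omega⟩
        exact ⟨i, by simp; exact ⟨by omega, hj.2⟩, rfl⟩
  have h4 : padicValNat r (Nat.card (Matrix.SpecialLinearGroup (Fin (n + 1)) F)) =
      padicValNat r (Fintype.card F ^ orderOf (Fintype.card F : ZMod r) - 1) *
        ((Finset.Icc 2 (n + 1)).filter fun i => orderOf (Fintype.card F : ZMod r) ∣ i).card := by
    have h5 := (card_SL (F := F) (n + 1) (by omega)).trans ((Matrix.card_GL_field _).symm.trans (card_GL_prod _))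
    rw [Finset.prod_range_succ' (fun i => Fintype.card F ^ (i + 1 + 0) - 1), ← mul_assoc, mul_comm] at h5
    simp only [add_zero, zero_add, pow_one] at h5
    have h6 := Nat.eq_of_mul_eq_mul_right (show 0 < Fintype.card F - 1 by omega) h5
    rw [h6, padicValNat.mul (by positivity) h1, h2, h3,
      padicValNat.eq_zero_of_not_dvd (mt (Fact.out : r.Prime).dvd_of_dvd_pow hrq), zero_add]
  by_cases h : orderOf (Fintype.card F : ZMod r) = 1
  · obtain ⟨φ, hφ⟩ := exists_homo_GL (F := F) (n := n) (a := ((Finset.Icc 2 (n + 1)).filter fun i => orderOf (Fintype.card F : ZMod r) ∣ i).card)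
      hd (by simp [h]) (pow_padicValNat_dvd (p := r))
    exact sylow_of_homo P h4 (ebkS.comp φ) (ebkS_injective.comp hφ)
  · obtain ⟨φ, hφ⟩ := exists_homo_GL (F := F) (n := n + 1) (a := ((Finset.Icc 2 (n + 1)).filter fun i => orderOf (Fintype.card F : ZMod r) ∣ i).card)
      hd (le_trans (Nat.mul_le_mul_left _ (by
        rw [← Nat.Ioc_filter_dvd_card_eq_div]
        exact Finset.card_le_card fun i hi => by simp at hi ⊢; exact ⟨⟨by omega, hi.1.2⟩, hi.2⟩)) (Nat.mul_div_le _ _))
      (pow_padicValNat_dvd (p := r))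
    have h7 : ∀ x, (φ x).1.det = 1 := fun x => by
      have h8 : Matrix.GeneralLinearGroup.det (φ x) ^ r ^ padicValNat r (Fintype.card F ^ orderOf (Fintype.card F : ZMod r) - 1) = 1 := by
        rw [← map_pow, ← map_pow, show x ^ _ = 1 from funext fun i => by
          simpa using pow_card_eq_one' (x := x i), map_one, map_one]
      have h9 := pow_card_eq_one' (x := Matrix.GeneralLinearGroup.det (φ x))
      rw [card_units_field] at h9
      have h10 : ¬ r ∣ Fintype.card F ^ 1 - 1 := fun e => h (Nat.dvd_one.1 ((H5.dvd_pow_sub_one_iff (by omega) 1).1 e))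
      have := pow_gcd_eq_one.2 ⟨h8, h9⟩
      rw [Nat.Coprime.pow_left _ ((Nat.Prime.coprime_iff_not_dvd Fact.out).2 (by simpa using h10)), pow_one] at this
      exact congrArg Units.val this
    exact sylow_of_homo P h4 ⟨⟨fun x => ⟨_, h7 x⟩, Subtype.ext (by simp)⟩, fun x y => Subtype.ext (congrArg Units.val (map_mul φ x y))⟩
      fun x y e => hφ (Units.ext (congrArg Subtype.val e))

end Cfsg.Agent.S2379
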