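import Cfsg.Statements.S2380
import Cfsg.Agent.H4.Hcy1

set_option autoImplicit false
open scoped MatrixGroups
open Cfsg

namespace Cfsg.Agent.S2380

/-- Sylow subgroups of `GL_n(q)` for large primes. Let `F` be a field with `q` elements and `r` a prime with `r > n` and `r ∤ q`. Let `d` be the multiplicative order of `q` modulo `r` and `m` the `r`-part of the value at `q` of the `d`-th cyclotomic polynomial. Then every Sylow `r`-subgroup of `GL_n(q)` is a direct product of `⌊n/d⌋` cyclic groups of order `m` (the degrees of the Weyl group being `1, …, n`). -/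
theorem result {F : Type*} [Field F] [Fintype F] {q : ℕ} (hq : Fintype.card F = q) (n : ℕ)
    (r : ℕ) [Fact r.Prime] (hrn : n < r) (hrq : ¬ r ∣ q) (P : Sylow r (GL (Fin n) F)) :
    Nonempty (↥(P : Subgroup (GL (Fin n) F)) ≃*
      (Fin (n / orderOf (q : ZMod r)) →
        Multiplicative (ZMod (r ^ padicValNat r ((Polynomial.cyclotomic (orderOf (q : ZMod r)) ℤ).eval (q : ℤ)).natAbs)))) := by
  open Cfsg.Agent.H4 in
  subst hq
  have h0 : 2 ≤ Fintype.card F := Fintype.one_lt_card
  obtain ⟨h1, h2⟩ := val_range (n := n) (s := 0) h0 hrq hrn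
  obtain ⟨φ, hφ⟩ := exists_homo_GL (F := F) (H5.ord_pos hrq) (Nat.mul_div_le n _) (pow_padicValNat_dvd (p := r))
  rw [H5.val_cyc h0 hrq]
  refine sylow_of_homo P ?_ φ hφ
  rw [card_GL_prod, padicValNat.mul (by positivity) h1, h2,
    padicValNat.eq_zero_of_not_dvd (mt (Fact.out : r.Prime).dvd_of_dvd_pow hrq), zero_add, ← Nat.card_multiples]

end Cfsg.Agent.S2380
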