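import Cfsg.Statements.S2381
import Cfsg.Agent.H4.Hcy2

set_option autoImplicit false
open Cfsg

namespace Cfsg.Agent.S2381

/-- Sylow subgroups of `Sp_{2n}(q)` for large primes. Let `F` be a field with `q` elements and `r` an odd prime with `r > n` and `r ∤ q` (so `r` does not divide the order `2^n n!` of the Weyl group). Let `d` be the multiplicative order of `q` modulo `r`, `a` the number of `i` with `1 ≤ i ≤ n` and `d ∣ 2i` (the degrees being `2, 4, …, 2n`), and `m` the `r`-part of the value at `q` of the `d`-th cyclotomic polynomial. Then every Sylow `r`-subgroup of the symplectic group `Sp_{2n}(q)` is a direct product of `a` cyclic groups of order `m`. -/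
theorem result {F : Type*} [Field F] [Fintype F] {q : ℕ} (hq : Fintype.card F = q) (n : ℕ)
    (r : ℕ) [Fact r.Prime] (hr2 : r ≠ 2) (hrn : n < r) (hrq : ¬ r ∣ q) (P : Sylow r ↥(Matrix.symplecticGroup (Fin n) F)) :
    Nonempty (↥(P : Subgroup ↥(Matrix.symplecticGroup (Fin n) F)) ≃*
      (Fin ((Finset.Icc 1 n).filter (fun i => orderOf (q : ZMod r) ∣ 2 * i)).card →
        Multiplicative (ZMod (r ^ padicValNat r ((Polynomial.cyclotomic (orderOf (q : ZMod r)) ℤ).eval (q : ℤ)).natAbs)))) := by
  open Cfsg.Agent.H4 in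
  subst hq
  have h0 : 2 ≤ Fintype.card F := Fintype.one_lt_card
  have hd := H5.ord_pos hrq
  rw [H5.val_cyc h0 hrq]
  have h1 : ∀ m e, ((Finset.Icc 1 m).filter fun i => e ∣ i).card = m / e := fun m e => by
    rw [← Nat.Ioc_filter_dvd_card_eq_div]; rfl
  obtain ⟨e, he⟩ | ho := Nat.even_or_odd (orderOf (Fintype.card F : ZMod r))
  · have h2 : ∀ m, ((Finset.Icc 1 m).filter fun i => orderOf (Fintype.card F : ZMod r) ∣ 2 * i).card = m / e := fun m => by
      simp only [he, ← two_mul, Nat.mul_dvd_mul_iff_left two_pos, h1]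
    have h3 : orderOf (Fintype.card F : ZMod r) < r := by
      have := (Fact.out : r.Prime).two_le
      have := Nat.le_of_dvd (by omega) (ZMod.orderOf_dvd_card_sub_one (p := r) (mt (ZMod.natCast_eq_zero_iff _ _).1 hrq))
      omega
    let Q : Sylow r (Matrix.symplecticGroup (Fin e) F) := default
    have h4 := Q.card_eq_multiplicity
    rw [Nat.factorization_def _ Fact.out, val_Sp hr2 (by omega) hrq, h2, Nat.div_self (by omega), mul_one] at h4
    let j : Matrix.symplecticGroup (Fin e) F →* GL (Fin (orderOf (Fintype.card F : ZMod r))) F :=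
      (((Matrix.reindexRingEquiv F (Fintype.equivFinOfCardEq (by simp [he]))).toMonoidHom).comp
        (Matrix.symplecticGroup (Fin e) F).subtype).toHomUnits
    have hj : Function.Injective j := fun x y h => Subtype.ext ((Matrix.reindexRingEquiv F _).injective (congrArg Units.val h))
    obtain ⟨R, hR⟩ := (Q.isPGroup'.map j).exists_le_sylow
    obtain ⟨h5, h6⟩ := val_range (n := orderOf (Fintype.card F : ZMod r)) (s := 0) h0 hrq h3
    obtain ⟨φ, hφ⟩ := exists_homo_GL (F := F) (a := 1) hd (mul_one _).le (pow_padicValNat_dvd (p := r))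
    obtain ⟨ε⟩ := sylow_of_homo R (by
      rw [card_GL_prod, padicValNat.mul (by positivity) h5, h6,
        padicValNat.eq_zero_of_not_dvd (mt (Fact.out : r.Prime).dvd_of_dvd_pow hrq), zero_add]
      simp only [add_zero, Nat.card_multiples, Nat.div_self hd]) φ hφ
    have : IsCyclic R := (ε.trans (MulEquiv.piUnique _)).isCyclic.2 inferInstance
    have : IsCyclic Q := isCyclic_of_injective ((Subgroup.inclusion hR).comp (j.subgroupMap _))
      fun x y h => Subtype.ext (hj (congrArg Subtype.val h))
    let η := mulEquivOfCyclicCardEq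
      (G := Multiplicative (ZMod (r ^ padicValNat r (Fintype.card F ^ orderOf (Fintype.card F : ZMod r) - 1)))) (G' := Q)
      (by simp [h4])
    obtain ⟨φ, hφ⟩ := exists_homo_Sp (Nat.mul_div_le n e) (Q.1.subtype.comp η.toMonoidHom)
      fun x y h => η.injective (Subtype.ext h)
    rw [h2]
    exact sylow_of_homo P (by rw [val_Sp hr2 hrn hrq, h2]) φ hφ
  · obtain ⟨φ, hφ⟩ := exists_homo_GL (F := F) (n := n)
      (a := ((Finset.Icc 1 n).filter fun i => orderOf (Fintype.card F : ZMod r) ∣ 2 * i).card) hd (by
        simp only [(Nat.coprime_two_right.2 ho).dvd_mul_left, h1]; exact Nat.mul_div_le _ _) (pow_padicValNat_dvd (p := r))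
    exact sylow_of_homo P (val_Sp hr2 hrn hrq) ((glSp n).comp φ) ((glSp_injective n).comp hφ)

end Cfsg.Agent.S2381
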