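import Cfsg.Statements.S2383
import Cfsg.Agent.H5.Ssc

set_option autoImplicit false
open Cfsg

namespace Cfsg.Agent.S2383

/-- Steinberg's count of semisimple classes in characteristic 2 for the types B₂, D₄, E₇, where the finite simply connected group has trivial centre and so coincides with the Chevalley group: for the Chevalley group of type B₂, D₄ or E₇ over a field with `q` elements of characteristic 2, the conjugacy classes of elements of odd order number exactly `q^l`, `l` the rank. -/
theorem result {F : Type*} [Field F] [Fintype F] {q : ℕ} (hq : Fintype.card F = q) [CharP F 2]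
    (D : Cfsg.Lie.ChevalleyDatum) (hD : D ∈ [Cfsg.Lie.chevB2, Cfsg.Lie.chevD4, Cfsg.Lie.chevE7]) :
    Nat.card {c : ConjClasses ↥(D.group F) // ∃ g : ↥(D.group F), ConjClasses.mk g = c ∧ Odd (orderOf g)} = q ^ D.rank := by
  subst hq
  have h : Nat.gcd 2 (Nat.card F - 1) = 1 := by
    obtain ⟨e, -, he⟩ := FiniteField.card F 2
    have : 2 ∣ Nat.card F := by rw [Nat.card_eq_fintype_card, he]; exact dvd_pow_self 2 e.2.ne'
    have := Nat.card_pos (α := F)
    exact (Nat.Prime.coprime_iff_not_dvd Nat.prime_two).2 (by omega)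
  simp only [← Nat.coprime_two_right]
  simp only [List.mem_cons, List.not_mem_nil, or_false] at hD
  rcases hD with rfl | rfl | rfl
  · exact H5.RS.card_ss 2 H5.goodB2 (H5.hp_injB2 _) (by rw [H5.kerB2.card F, h, one_pow])
  · exact H5.RS.card_ss 2 H5.goodD4 (H5.hp_injD4 _) (by rw [H5.kerD4.card F, h, one_pow])
  · exact H5.RS.card_ss 2 H5.goodE7 (H5.hp_injE7 _) (by rw [H5.kerE7.card F, h, one_pow])

end Cfsg.Agent.S2383
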