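import Cfsg.Statements.S2384
import Cfsg.Agent.GS.Ss1

set_option autoImplicit false
open Cfsg

namespace Cfsg.Agent.S2384

open Cfsg.Agent.H1

/-- In `SL_n(q)`, `q` a power of the prime `p`, the number of conjugacy classes of elements of order prime to `p` (the semisimple classes) is `q^(n-1)`. -/
theorem result {F : Type*} [Field F] [Fintype F] {q : ℕ} (hq : Fintype.card F = q) (p : ℕ) [Fact p.Prime] [CharP F p] (n : ℕ) (hn : 1 ≤ n) :
    Nat.card {c : ConjClasses (Matrix.SpecialLinearGroup (Fin n) F) //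
      ∃ g : Matrix.SpecialLinearGroup (Fin n) F, ConjClasses.mk g = c ∧ (orderOf g).Coprime p} = q ^ (n - 1) := by
  open Subgroup Pointwise commutatorElement Cfsg.Agent.BG Cfsg.Agent.GS in
  open Cfsg.Agent.H2 hiding card_lt_of_lt card_lt_of_ne_top isMulCommutative_of_le isPGroup_zpowers_iff mem_of_pow_mem_of_coprime inf_eq_bot_of_cop exists_maxElem_ge Sec in
  open Cfsg.Agent.H8 (Op Opp Fit SN) in
  open Cfsg.Agent.L (FPF) in focus
    classical
    obtain ⟨m, rfl⟩ := Nat.exists_eq_add_of_le' hn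
    rw [count_ss p Matrix.SpecialLinearGroup.coeMonoidHom Subtype.val_injective (fun f => (f.Monic ∧ f.natDegree = m + 1) ∧ f.coeff 0 = (-1) ^ (m + 1) ∧ True)
      (fun g => ⟨⟨g.1.charpoly_monic, by simp⟩, ?_, trivial⟩) (fun f hf => ?_)
      fun g h _ _ a b c d e => isConj_SL a b c d e, card_monic (· = (-1) ^ (m + 1)) fun _ => True]
    · simp [hq]
    · have := g.1.det_eq_sign_charpoly_coeff
      rw [g.2, Fintype.card_fin] at this
      change g.1.charpoly.coeff 0 = _
      rcases neg_one_pow_eq_or F (m + 1) with e | e <;> rw [e] at this ⊢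
      exacts [by linear_combination -this, by linear_combination this]
    · obtain ⟨A, N, a, b, c⟩ := ss_matrix (ι := Fin (m + 1)) hf.1.1 (by simp [hf.2.1]) (by simpa using hf.1.2)
      exact ⟨⟨A, by rw [Matrix.det_eq_sign_charpoly_coeff, c, hf.2.1, Fintype.card_fin, ← mul_pow]; simp⟩, N, a, b, c⟩

end Cfsg.Agent.S2384
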