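import Cfsg.Statements.S2385
import Cfsg.Agent.GS.Ss1

set_option autoImplicit false
open Cfsg

namespace Cfsg.Agent.S2385

open Cfsg.Agent.H1

/-- In the symplectic group `Sp_{2n}(q)`, `q` a power of the prime `p`, the number of conjugacy classes of elements of order prime to `p` is `q^n`. -/
theorem result {F : Type*} [Field F] [Fintype F] {q : ℕ} (hq : Fintype.card F = q) (p : ℕ) [Fact p.Prime] [CharP F p] (n : ℕ) :
    Nat.card {c : ConjClasses ↥(Matrix.symplecticGroup (Fin n) F) //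
      ∃ g : ↥(Matrix.symplecticGroup (Fin n) F), ConjClasses.mk g = c ∧ (orderOf g).Coprime p} = q ^ n := by
  open Subgroup Pointwise commutatorElement Cfsg.Agent.BG Cfsg.Agent.GS in
  open Cfsg.Agent.H2 hiding card_lt_of_lt card_lt_of_ne_top isMulCommutative_of_le isPGroup_zpowers_iff mem_of_pow_mem_of_coprime inf_eq_bot_of_cop exists_maxElem_ge Sec in
  open Cfsg.Agent.H8 (Op Opp Fit SN) in
  open Cfsg.Agent.L (FPF) in focus
    classical
    rcases n with _ | m
    · haveI : Unique (ConjClasses (Matrix.symplecticGroup (Fin 0) F)) := ⟨⟨1⟩, fun c => by obtain ⟨g, rfl⟩ := c.exists_rep; rw [Subsingleton.elim g 1]; rfl⟩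
      rw [pow_zero, Nat.card_eq_one_iff_exists]
      exact ⟨⟨1, 1, rfl, by simp⟩, fun _ => Subsingleton.elim _ _⟩
    have hf := H4.spF_nondeg (F := F) (m + 1)
    have k : ∀ f : Polynomial F, f.Monic ∧ f.natDegree = 2 * m + 1 + 1 → (f.reverse = f ↔ f.coeff 0 = 1 ∧ ∀ i : Fin (2 * m + 1), f.coeff (i.rev + 1) = f.coeff (i + 1)) :=
      fun f h => (reverse_eq_iff h.2 h.2.le).trans (pal_iff h (θ := id) rfl rfl)
    rw [count_ss p (Matrix.symplecticGroup _ F).subtype Subtype.val_injective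
      (fun f => (f.Monic ∧ f.natDegree = 2 * m + 1 + 1) ∧ f.coeff 0 = 1 ∧ ∀ i : Fin (2 * m + 1), f.coeff (i.rev + 1) = f.coeff (i + 1))
      (fun g => ?_) (fun f h => ?_) fun g h _ _ a b c d e => ?_, card_monic (· = 1) fun c => ∀ i, c i.rev = c i, card_pal]
    · simp [hq]
    · have a : g.1.charpoly.Monic ∧ g.1.charpoly.natDegree = 2 * m + 1 + 1 := ⟨g.1.charpoly_monic, by simp; omega⟩
      refine ⟨a, (k _ a).1 ?_⟩
      have b := charpoly_inv' (congrArg Subtype.val (inv_mul_cancel g))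
      have c : IsConj g⁻¹.1 g.1.transpose := by
        have J := Matrix.J_squared (Fin (m + 1)) F
        refine ⟨⟨Matrix.J _ F, -Matrix.J _ F, by simp [J], by simp [J]⟩, ?_⟩
        simp [SemiconjBy, SymplecticGroup.coe_inv, ← mul_assoc, J]
      rw [IsConj.charpoly_eq c, Matrix.charpoly_transpose, SymplecticGroup.det_eq_one g.2] at b
      simpa [← two_mul] using b.symm
    · obtain ⟨x, N, a, b, c, d⟩ := ss_symp h.1.1 ((k f h.1).2 h.2) hf (by simp [h.1.2]; omega)
      obtain ⟨A, rfl⟩ := exists_toLin' x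
      exact ⟨⟨A, H4.mem_symplecticGroup_iff.2 a.1⟩, N, b, toLin'_pow_eq_one.1 c, by simpa using d⟩
    · obtain ⟨e, he⟩ := isConj_iff_equiv.1 (isConj_ss a b c d e)
      exact (isConj_equiv (H4.spEquiv F _)).1 (isConj_iso.2 (ic_symp hf hf (H4.spEquiv F _ g).2 (H4.spEquiv F _ h).2 a (toLin'_pow_eq_one.2 b) e he))

end Cfsg.Agent.S2385
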