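import Cfsg.Statements.S2386
import Cfsg.Agent.GS.Ss1

set_option autoImplicit false
open Cfsg

namespace Cfsg.Agent.S2386

open Cfsg.Agent.H1

/-- In the special unitary group `SU_n(q)` (matrices of determinant one over the field with `q²` elements preserving the standard Hermitian form), `q` a power of the prime `p`, the number of conjugacy classes of elements of order prime to `p` is `q^(n-1)`. -/
theorem result {F : Type*} [Field F] [Fintype F] {q : ℕ} (hF : Fintype.card F = q ^ 2) (p : ℕ) [Fact p.Prime] [CharP F p] (n : ℕ) (hn : 1 ≤ n) :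
    Nat.card {c : ConjClasses ↥(Cfsg.SU n F q) // ∃ g : ↥(Cfsg.SU n F q), ConjClasses.mk g = c ∧ (orderOf g).Coprime p} = q ^ (n - 1) := by
  open Subgroup Pointwise commutatorElement Cfsg.Agent.BG Cfsg.Agent.GS in
  open Cfsg.Agent.H2 hiding card_lt_of_lt card_lt_of_ne_top isMulCommutative_of_le isPGroup_zpowers_iff mem_of_pow_mem_of_coprime inf_eq_bot_of_cop exists_maxElem_ge Sec in
  open Cfsg.Agent.H8 (Op Opp Fit SN) in
  open Cfsg.Agent.L (FPF) in focus
    classical
    obtain ⟨m, rfl⟩ := Nat.exists_eq_add_of_le' hn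
    have hf := H4.unF_nondeg hF (m + 1)
    have s : (-1 : F) ^ (m + 1) * (-1) ^ (m + 1) = 1 := by rw [← mul_pow]; simp
    have k : ∀ f : Polynomial F, f.Monic ∧ f.natDegree = m + 1 → (f.reverse = (-1) ^ (m + 1) * f.map (H4.frobq hF) ↔ f.coeff 0 = (-1) ^ (m + 1) ∧
        ∀ i : Fin m, f.coeff (i.rev + 1) = (-1) ^ (m + 1) * H4.frobq hF (f.coeff (i + 1))) := fun f h => by
      rw [← Polynomial.C_1, ← Polynomial.C_neg, ← Polynomial.C_pow, reverse_eq_iff h.2 ((Polynomial.natDegree_C_mul_le _ _).trans (Polynomial.natDegree_map_le.trans h.2.le)),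
        ← pal_iff h (θ := fun t => (-1) ^ (m + 1) * H4.frobq hF t) (by simp) (by rw [map_pow, map_neg, map_one, s])]
      simp only [Polynomial.coeff_C_mul, Polynomial.coeff_map]
    have t : ∀ A : Matrix (Fin (m + 1)) (Fin (m + 1)) F, (A.map (· ^ q)).transpose.charpoly = A.charpoly.map (H4.frobq hF) := fun A => by
      rw [Matrix.charpoly_transpose, ← Matrix.charpoly_map]; rfl
    rw [count_ss p (Matrix.SpecialLinearGroup.coeMonoidHom.comp (SU _ F q).subtype) (Subtype.val_injective.comp Subtype.val_injective)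
      (fun f => (f.Monic ∧ f.natDegree = m + 1) ∧ f.coeff 0 = (-1) ^ (m + 1) ∧ ∀ i : Fin m, f.coeff (i.rev + 1) = (-1) ^ (m + 1) * H4.frobq hF (f.coeff (i + 1)))
      (fun g => ?_) (fun f h => ?_) fun g h _ _ a b c d e => isConj_SU hF a b c d e,
      card_monic (· = (-1) ^ (m + 1)) fun c => ∀ i, c i.rev = (-1) ^ (m + 1) * H4.frobq hF (c i), card_semilin hF Fin.rev_involutive (by rw [map_pow, map_neg, map_one, s])]
    · simp
    · have a : g.1.1.charpoly.Monic ∧ g.1.1.charpoly.natDegree = m + 1 := ⟨g.1.1.charpoly_monic, by simp⟩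
      refine ⟨a, (k _ a).1 ?_⟩
      have b := (adj_mul_iff hf).2 ((mem_GU' hF).1 (suF _ F q g).2).1
      rw [ajt_unF, Module.End.mul_eq_comp, ← Matrix.toLin'_mul, ← toLin'_one', toLin'_inj] at b
      have c := charpoly_inv' b
      rw [t, show (suF _ F q g).1.1.det = 1 from g.1.2, Polynomial.C_1, one_mul, Fintype.card_fin] at c
      exact ((congrArg _ c).trans (by rw [← mul_assoc, ← mul_pow]; simp; rfl)).symm
    · obtain ⟨A, N, a, b, c⟩ := ss_matrix (ι := Fin (m + 1)) h.1.1 (by simp [h.2.1]) (by simpa using h.1.2)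
      have d : A.det = 1 := by rw [Matrix.det_eq_sign_charpoly_coeff, c, h.2.1, Fintype.card_fin, s]
      let D := (A.map (· ^ q)).transpose
      have e : D ^ N = 1 := by
        rw [← Matrix.transpose_pow, show A.map (· ^ q) = (H4.frobq hF).mapMatrix A from rfl, ← map_pow, b, map_one, Matrix.transpose_one]
      have e' := pred_mul a e
      have r := charpoly_inv' e'
      rw [t, c, Matrix.det_transpose, show A.map (· ^ q) = (H4.frobq hF).mapMatrix A from rfl, ← RingHom.map_det, d, map_one, Polynomial.C_1, one_mul, Fintype.card_fin,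
        Polynomial.reverse, Polynomial.natDegree_map, Polynomial.reflect_map, ← Polynomial.reverse, (k f h.1).2 h.2, Polynomial.map_mul, map_map_inv (H4.frobq_frobq hF)] at r
      obtain ⟨B, hB⟩ := exists_GU hF (.of_mul_eq_one_right _ (pred_mul a b)) (y := (D ^ (N - 1)).toLin')
        (by rw [ajt_unF, Module.End.mul_eq_comp, ← Matrix.toLin'_mul, mul_eq_one_comm.1 e', toLin'_one'])
        (isConj_toLin'.2 (isConj_ss a b a (by rw [← pow_mul, mul_comm, pow_mul, e, one_pow]) (by rw [r, c, ← mul_assoc]; simp [← mul_pow])))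
      have z := IsConj.charpoly_eq hB
      exact ⟨⟨⟨B.1.1, by rw [Matrix.det_eq_sign_charpoly_coeff, ← z, ← Matrix.det_eq_sign_charpoly_coeff, d]⟩, B.2⟩, N, a, isConj_one_right.1 (b ▸ hB.pow N), z.symm.trans c⟩

end Cfsg.Agent.S2386
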