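import Cfsg.Statements.S2387
import Cfsg.Agent.GS.Ss1

set_option autoImplicit false
open scoped MatrixGroups
open Cfsg

namespace Cfsg.Agent.S2387

open Cfsg.Agent.H1

/-- In `GL_n(q)` with `n ≥ 1`, `q` a power of the prime `p`, the number of conjugacy classes of elements of order prime to `p` (diagonalisable over the algebraic closure; determined by the characteristic polynomial) is `(q - 1) q^(n-1)`. -/
theorem result {F : Type*} [Field F] [Fintype F] {q : ℕ} (hq : Fintype.card F = q) (p : ℕ) [Fact p.Prime] [CharP F p] (n : ℕ) (hn : 1 ≤ n) :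
    Nat.card {c : ConjClasses (GL (Fin n) F) // ∃ g : GL (Fin n) F, ConjClasses.mk g = c ∧ (orderOf g).Coprime p} = (q - 1) * q ^ (n - 1) := by
  open Subgroup Pointwise commutatorElement Cfsg.Agent.BG Cfsg.Agent.GS in
  open Cfsg.Agent.H2 hiding card_lt_of_lt card_lt_of_ne_top isMulCommutative_of_le isPGroup_zpowers_iff mem_of_pow_mem_of_coprime inf_eq_bot_of_cop exists_maxElem_ge Sec in
  open Cfsg.Agent.H8 (Op Opp Fit SN) in
  open Cfsg.Agent.L (FPF) in focus
    classical
    obtain ⟨m, rfl⟩ := Nat.exists_eq_add_of_le' hn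
    refine (count_ss p (Units.coeHom (Matrix (Fin (m + 1)) (Fin (m + 1)) F)) Units.val_injective (fun f => (f.Monic ∧ f.natDegree = m + 1) ∧ f.coeff 0 ≠ 0 ∧ True)
      (fun g => ⟨⟨g.1.charpoly_monic, by simp⟩, fun e => Matrix.GeneralLinearGroup.det_ne_zero g ?_, trivial⟩) (fun f hf => ?_)
      fun g h _ _ a b c d e => isConj_units.2 (isConj_ss a b c d e)).trans ((card_monic (· ≠ 0) fun _ => True).trans ?_)
    · exact (Matrix.det_eq_sign_charpoly_coeff _).trans ((congrArg _ e).trans (mul_zero _))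
    · obtain ⟨A, N, a, b, c⟩ := ss_matrix (ι := Fin (m + 1)) hf.1.1 hf.2.1 (by simpa using hf.1.2)
      obtain ⟨g, rfl, -⟩ := exists_gl_of_pow (by rintro rfl; simp at a) b
      exact ⟨g, N, a, b, c⟩
    · simp [hq]

end Cfsg.Agent.S2387
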