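import Cfsg.Statements.S2389
import Cfsg.Agent.GS.Ss1

set_option autoImplicit false
open Cfsg

namespace Cfsg.Agent.S2389

open Cfsg.Agent.H1

/-- In the symplectic group `Sp_{2n}(q)`, `q` a power of the prime `p`, two elements of order prime to `p` with the same characteristic polynomial are conjugate in `Sp_{2n}(q)`. -/
theorem result {F : Type*} [Field F] [Fintype F] (p : ℕ) [Fact p.Prime] [CharP F p] (n : ℕ)
    (g h : ↥(Matrix.symplecticGroup (Fin n) F)) (hg : (orderOf g).Coprime p) (hh : (orderOf h).Coprime p)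
    (hc : (g : Matrix (Fin n ⊕ Fin n) (Fin n ⊕ Fin n) F).charpoly = (h : Matrix (Fin n ⊕ Fin n) (Fin n ⊕ Fin n) F).charpoly) :
    IsConj g h := by
  open Subgroup Pointwise commutatorElement Cfsg.Agent.BG Cfsg.Agent.GS in
  open Cfsg.Agent.H2 hiding card_lt_of_lt card_lt_of_ne_top isMulCommutative_of_le isPGroup_zpowers_iff mem_of_pow_mem_of_coprime inf_eq_bot_of_cop exists_maxElem_ge Sec in
  open Cfsg.Agent.H8 (Op Opp Fit SN) in
  open Cfsg.Agent.L (FPF) in focus
    have a := congrArg Subtype.val (pow_orderOf_eq_one g)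
    obtain ⟨e, he⟩ := isConj_iff_equiv.1 (isConj_ss ((cop_iff p).1 hg) a ((cop_iff p).1 hh) (congrArg Subtype.val (pow_orderOf_eq_one h)) hc)
    exact (isConj_equiv (H4.spEquiv F n)).1 (isConj_iso.2 (ic_symp (H4.spF_nondeg n) (H4.spF_nondeg n)
      (H4.spEquiv F n g).2 (H4.spEquiv F n h).2 ((cop_iff p).1 hg) (toLin'_pow_eq_one.2 a) e he))

end Cfsg.Agent.S2389
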