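import Cfsg.Statements.S2391
import Cfsg.Agent.H7.PermMod

set_option autoImplicit false
open Cfsg

namespace Cfsg.Agent.S2391

open Cfsg.Agent Subgroup Matrix
open scoped Pointwise commutatorElement
variable {F : Type*} [Field F] {n : ℕ}

/-- The ascending fixed-point series of `U`. -/
def fl (U : Subgroup (SpecialLinearGroup (Fin n) F)) : ℕ → Submodule F (Fin n → F)
  | 0 => ⊥
  | i + 1 => ⨅ u : U, (fl U i).comap (Matrix.mulVecLin ((u : SpecialLinearGroup (Fin n) F) : Matrix (Fin n) (Fin n) F) - LinearMap.id)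

theorem mem_fl {U : Subgroup (SpecialLinearGroup (Fin n) F)} {i : ℕ} {v : Fin n → F} :
    v ∈ fl U (i + 1) ↔ ∀ u ∈ U, (u : Matrix (Fin n) (Fin n) F) *ᵥ v - v ∈ fl U i := by
  simp [fl]

theorem fl_inv {U : Subgroup (SpecialLinearGroup (Fin n) F)} {g : SpecialLinearGroup (Fin n) F}
    (hg : g ∈ normalizer (U : Set (SpecialLinearGroup (Fin n) F))) (i : ℕ) :
    ∀ v ∈ fl U i, (g : Matrix (Fin n) (Fin n) F) *ᵥ v ∈ fl U i := by
  induction i with
  | zero => intro v hv; simp [fl] at hv ⊢; simp [hv]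
  | succ i ih =>
    intro v hv
    refine mem_fl.2 fun u hu => ?_
    convert ih _ (mem_fl.1 hv _ ((mem_normalizer_iff''.1 hg u).1 hu)) using 1
    rw [mulVec_sub, mulVec_mulVec, mulVec_mulVec]
    congr 2
    exact congrArg Subtype.val (show u * g = g * (g⁻¹ * u * g) by group)

/-- The Borel–Tits property of `SL_n(q)` in flag form: for a field `F` of characteristic `p` with finitely many elements and a non-trivial `p`-subgroup `U` of `SL_n(F)`, there is a flag `0 = V₀ < V₁ < ⋯ < V_{k+1} = F^n` with at least one proper non-zero member such that every element of the normaliser of `U` maps each `V_i` onto itself and every element of `U` acts trivially on each quotient `V_{i+1}/V_i` (so the normaliser lies in the parabolic subgroup of the flag and `U` in its unipotent radical). -/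
theorem result {F : Type*} [Field F] [Fintype F] (p : ℕ) [Fact p.Prime] [CharP F p] (n : ℕ)
    (U : Subgroup (Matrix.SpecialLinearGroup (Fin n) F)) (hU : IsPGroup p ↥U) (hne : U ≠ ⊥) :
    ∃ (k : ℕ) (V : Fin (k + 2) → Submodule F (Fin n → F)), 1 ≤ k ∧ StrictMono V ∧ V 0 = ⊥ ∧ V (Fin.last (k + 1)) = ⊤ ∧
      (∀ g ∈ Subgroup.normalizer (U : Set (Matrix.SpecialLinearGroup (Fin n) F)), ∀ i, (V i).map (Matrix.mulVecLin (g : Matrix (Fin n) (Fin n) F)) = V i) ∧
      (∀ u ∈ U, ∀ i : Fin (k + 1), ∀ v ∈ V i.succ, (u : Matrix (Fin n) (Fin n) F).mulVec v - v ∈ V (Fin.castSucc i)) := by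
  classical
  have lt : ∀ i, fl U i ≠ ⊤ → fl U i < fl U (i + 1) := fun i hi => by
    refine lt_of_le_of_ne (fun v hv => mem_fl.2 fun u hu => sub_mem (fl_inv (le_normalizer hu) i v hv) hv) fun h => ?_
    let ρ : Representation F U (Fin n → F) := (LinearEquiv.automorphismGroup.toLinearMapMonoidHom.comp SpecialLinearGroup.toLin').comp U.subtype
    have := Submodule.Quotient.nontrivial_iff.2 hi
    obtain ⟨w, -, a, b⟩ := H7.exists_fixed_vector hU (ρ.quotient (fl U i) fun u v hv => fl_inv (le_normalizer u.2) i v hv) ⊤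
      (fun _ _ _ => trivial) top_ne_bot
    obtain ⟨w, rfl⟩ := Submodule.Quotient.mk_surjective _ w
    exact a ((Submodule.Quotient.mk_eq_zero _).2 (h ▸ mem_fl.2 fun u hu => (Submodule.Quotient.eq _).1 (b ⟨u, hu⟩)))
  have ex : ∃ i, fl U i = ⊤ := by
    by_contra! h
    exact not_strictMono_of_wellFoundedGT _ (strictMono_nat_of_lt_succ fun i => lt i (h i))
  have h1 : fl U 1 ≠ ⊤ := fun h => hne (eq_bot_iff.2 fun u hu => Subtype.ext (Matrix.toLin'.injective (LinearMap.ext fun v => by
    simpa [fl, sub_eq_zero] using mem_fl.1 (h.ge (Submodule.mem_top (x := v))) u hu)))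
  have h0 : fl U 0 ≠ ⊤ := fun h => h1 (top_le_iff.1 (h.ge.trans bot_le))
  obtain ⟨k, hk⟩ : ∃ k, Nat.find ex = k + 2 := Nat.exists_eq_add_of_le' (by
    by_contra! h
    have := Nat.find_spec ex
    interval_cases Nat.find ex <;> contradiction)
  refine ⟨k + 1, fun i => fl U i, by omega, Fin.strictMono_iff_lt_succ.2 fun i => lt _ (Nat.find_min ex (by rw [hk, Fin.val_castSucc]; omega)), rfl,
    (congrArg (fl U) hk.symm).trans (Nat.find_spec ex), fun g hg i => le_antisymm ?_ fun v hv => ⟨_, fl_inv (inv_mem hg) i v hv, ?_⟩, fun u hu i v hv => mem_fl.1 hv u hu⟩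
  · rintro _ ⟨v, hv, rfl⟩
    exact fl_inv hg i v hv
  rw [mulVecLin_apply, mulVec_mulVec, show g.1 * (g⁻¹).1 = 1 from congrArg Subtype.val (mul_inv_cancel g), one_mulVec]

end Cfsg.Agent.S2391
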