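import Cfsg.Statements.S2392
import Cfsg.Agent.C3.WT8

set_option autoImplicit false
open scoped MatrixGroups
open Cfsg

namespace Cfsg.Agent.S2392

/-- A lower bound for representations in cross characteristic: for `n ≥ 3` and a field `F` with `q` elements, every homomorphism from `SL_n(F)` to `GL_d(K)`, `K` a field of characteristic different from that of `F`, whose kernel is central has `d ≥ q^(n-1) - 1`. -/
theorem result {F : Type*} [Field F] [Fintype F] {q : ℕ} (hq : Fintype.card F = q) (n : ℕ) (hn : 3 ≤ n)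
    {K : Type*} [Field K] (hK : ringChar K ≠ ringChar F) {d : ℕ}
    (ρ : Matrix.SpecialLinearGroup (Fin n) F →* GL (Fin d) K) (hker : ρ.ker ≤ Subgroup.center (Matrix.SpecialLinearGroup (Fin n) F)) :
    q ^ (n - 1) - 1 ≤ d := by
  subst hq
  let L := AlgebraicClosure K
  let φ : GL (Fin d) K →* Module.End L (Fin d → L) :=
    (Matrix.toLinAlgEquiv' (R := L) (n := Fin d)).toMonoidHom.comp
      ((algebraMap K L).mapMatrix.toMonoidHom.comp (Units.coeHom _))
  have hφ : Function.Injective φ := fun a b h => Units.ext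
    (Matrix.map_injective (algebraMap K L).injective
      ((Matrix.toLinAlgEquiv' (R := L) (n := Fin d)).injective h))
  have hL : ringChar L ≠ ringChar F := by
    rwa [← Algebra.ringChar_eq K L]
  let e : Matrix.SpecialLinearGroup (Fin n) F ≃* H4.SLg F (Fin n → F) :=
    (H4.slEquivKer _ F).trans (H4.glSub fun _ => H4.mem_specialLinear)
  let i0 : Fin n := ⟨0, by omega⟩
  let i1 : Fin n := ⟨1, by omega⟩
  let i2 : Fin n := ⟨2, by omega⟩
  have h10 : (LinearMap.proj i1 : (Fin n → F) →ₗ[F] F) (Pi.single i0 1) = 0 := by simp [i0, i1]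
  have h02 : (LinearMap.proj i0 : (Fin n → F) →ₗ[F] F) (Pi.single i2 1) = 0 := by simp [i0, i2]
  have h1 := C3.WT.sl_bound hL (by simpa using hn) ((φ.comp ρ).comp e.symm.toMonoidHom)
    (a := Pi.single i0 1) (by simp) h10 (fun h => by
      have h2 := Subgroup.mem_center_iff.1 (hker (hφ (h.trans (map_one φ).symm)))
        (e.symm ⟨_, H4.dt_mem_SLg h02⟩)
      have h3 := congrArg (fun g => (e g).1 (Pi.single i1 1) i2) h2
      simp [H4.dt_apply h10, H4.dt_apply h02, i0, i1, i2] at h3)
  simpa using h1

end Cfsg.Agent.S2392
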