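import Cfsg.Statements.S2393
import Cfsg.Agent.C3.WT4

set_option autoImplicit false
open scoped MatrixGroups
open Cfsg

namespace Cfsg.Agent.S2393

/-- A lower bound for representations in cross characteristic: for `n ≥ 2` and a field `F` with `q` elements, `q` odd, every homomorphism from the symplectic group `Sp_{2n}(F)` to `GL_d(K)`, `K` a field of characteristic different from that of `F`, whose kernel is central has `d ≥ q^(n-1)(q-1)/2`. -/
theorem result {F : Type*} [Field F] [Fintype F] {q : ℕ} (hq : Fintype.card F = q) (hodd : Odd q) (n : ℕ) (hn : 2 ≤ n)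
    {K : Type*} [Field K] (hK : ringChar K ≠ ringChar F) {d : ℕ}
    (ρ : ↥(Matrix.symplecticGroup (Fin n) F) →* GL (Fin d) K) (hker : ρ.ker ≤ Subgroup.center ↥(Matrix.symplecticGroup (Fin n) F)) :
    q ^ (n - 1) * (q - 1) / 2 ≤ d := by
  subst hq
  let L := AlgebraicClosure K
  let φ : GL (Fin d) K →* Module.End L (Fin d → L) :=
    (Matrix.toLinAlgEquiv' (R := L) (n := Fin d)).toMonoidHom.comp
      ((algebraMap K L).mapMatrix.toMonoidHom.comp (Units.coeHom _))
  have hφ : Function.Injective φ := fun a b h => Units.ext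
    (Matrix.map_injective (algebraMap K L).injective
      ((Matrix.toLinAlgEquiv' (R := L) (n := Fin d)).injective h))
  have hL : ringChar L ≠ ringChar F := by
    rwa [← Algebra.ringChar_eq K L]
  have h1 := C3.WT.sp_bound hodd hL (by omega : 1 ≤ n) (φ.comp ρ) (by
    by_contra hne
    push Not at hne
    have hc : ∀ g, g ∈ Subgroup.center ↥(Matrix.symplecticGroup (Fin n) F) := fun g =>
      hker (hφ ((hne g).trans (map_one φ).symm))
    let f := H4.spF F n
    have hf : f.Nondeg := H4.spF_nondeg n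
    let v : Fin n ⊕ Fin n → F := Pi.single (.inl ⟨0, by omega⟩) 1
    have hv : v ≠ 0 := by simp [v]
    obtain ⟨w, -, hw⟩ := hf.exists_pair hv rfl
    have h2 := Subgroup.mem_center_iff.1 (hc ((H4.spEquiv F n).symm ⟨_, H4.CForm.symp_tv_mem_iso v 1⟩))
      ((H4.spEquiv F n).symm ⟨_, H4.CForm.symp_tv_mem_iso w 1⟩)
    rw [← map_mul, ← map_mul, (H4.spEquiv F n).symm.injective.eq_iff] at h2
    have h3 : f.tv w 1 (f.tv v 1 v) = f.tv v 1 (f.tv w 1 v) :=
      congrArg (fun g : (H4.spF F n).iso => g.1 v) h2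
    have h4 := congrArg (fun x => f.B x w) h3
    have h5 : f.B w v = -1 := by rw [f.symm v w, hw]; simp
    simp [H4.CForm.symp_tv_apply, H4.CForm.symp_B_self, hw, h5] at h4)
  rw [Module.finrank_fin_fun] at h1
  refine Nat.div_le_of_le_mul (le_trans ?_ h1)
  obtain ⟨m, rfl⟩ : ∃ m, n = m + 1 := ⟨n - 1, by omega⟩
  rw [Nat.add_sub_cancel, Nat.mul_sub_one, pow_succ]
  have := Nat.one_le_pow m _ (Fintype.card_pos (α := F))
  omega

end Cfsg.Agent.S2393
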