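import Cfsg.Statements.S2394
import Cfsg.Agent.H4.Bridge2
import Cfsg.Agent.GS.Zsig

set_option autoImplicit false
open scoped MatrixGroups
open Cfsg

namespace Cfsg.Agent.S2394

/-- The smallest degree of a faithful representation of the symplectic group `Sp_{2n}(q)` over its own field `F_q` is `2n`: every injective homomorphism from `Sp_{2n}(F)` to `GL_d(F)`, `F` the field with `q` elements, has `d ≥ 2n`. -/
theorem result {F : Type*} [Field F] [Fintype F] (n : ℕ) {d : ℕ}
    (ρ : ↥(Matrix.symplecticGroup (Fin n) F) →* GL (Fin d) F) (hρ : Function.Injective ρ) : 2 * n ≤ d := by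
  have h := Subgroup.card_dvd_of_injective ρ hρ
  rw [H4.card_Sp, Matrix.card_GL_field] at h
  have hq := Fintype.one_lt_card (α := F)
  generalize Fintype.card F = q at *
  by_contra! hd
  rcases n with _ | n
  · omega
  by_cases h1 : n = 0
  · subst h1
    have h2 : q ∣ _ := ((dvd_pow_self q (by simp)).mul_right _).trans h
    have : d = 0 ∨ d = 1 := by omega
    rcases this with rfl | rfl
    · simp at h2; omega
    · have := Nat.le_of_dvd (by simp; omega) h2; simp at this; omega
  by_cases h2 : q = 2 ∧ 2 * (n + 1) = 6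
  · obtain ⟨rfl, e⟩ := h2
    obtain rfl : n = 2 := by omega
    revert h; interval_cases d <;> decide
  obtain ⟨r, hr, r1, r2⟩ := GS.zsigmondy hq (by omega) h2 (by omega)
  obtain ⟨i, -, hi⟩ := (Prime.dvd_finset_prod_iff hr.prime _).1
    ((r1.trans ((Finset.dvd_prod_of_mem _ (Finset.self_mem_range_succ n)).mul_left _)).trans h)
  obtain ⟨i, hi'⟩ := i
  obtain ⟨k, rfl⟩ := Nat.exists_eq_add_of_lt hi'
  dsimp only at hi
  rw [add_assoc, pow_add, ← Nat.mul_sub_one, hr.dvd_mul] at hi
  refine hi.elim (fun e => hr.one_lt.ne' (Nat.dvd_one.1 ?_)) (r2 _ (by omega) (by omega))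
  simpa [Nat.sub_sub_self (Nat.one_le_pow _ _ hq.le)] using
    Nat.dvd_sub ((hr.dvd_of_dvd_pow e).trans (dvd_pow_self q (n := 2 * (n + 1)) (by omega))) r1

end Cfsg.Agent.S2394
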