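import Cfsg.Statements.S2399
import Cfsg.Agent.H5.Ce5

set_option autoImplicit false
open scoped MatrixGroups
open Cfsg

namespace Cfsg.Agent.S2399

/-- Projective representations in the natural characteristic lift: for each of the types G₂, B₂, D₄, F₄, E₆, E₇, E₈ over any field `K` (for types B₂ and G₂ the field must have more than two elements — the cases where the Chevalley group is not simple are set aside), every homomorphism from the Chevalley group to `PGL_n(L) = GL_n(L)/Z`, `L` a field of the same characteristic as `K`, lifts uniquely to a homomorphism from the group Δ presented by (R1), (R2) to `GL_n(L)`, compatibly with the projection Δ → Chevalley group sending x̄_r(t) to x_r(t). -/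
theorem result {K : Type*} [Field K] (D : Cfsg.Lie.ChevalleyDatum) (hD : D ∈ [Cfsg.Lie.chevG2, Cfsg.Lie.chevB2, Cfsg.Lie.chevD4, Cfsg.Lie.chevF4, Cfsg.Lie.chevE6, Cfsg.Lie.chevE7, Cfsg.Lie.chevE8]) (hK : D ∈ [Cfsg.Lie.chevB2, Cfsg.Lie.chevG2] → ∃ x : K, x ≠ 0 ∧ x ≠ 1)
    (θ : D.SteinbergCover K →* ↥(D.group K))
    (hθ : ∀ (r : ℕ) (t : K), r < D.nroots → ((θ (D.scGen K r t) : GL D.Idx K) : Matrix D.Idx D.Idx K) = D.x K r t)
    {L : Type*} [Field L] (hL : ringChar L = ringChar K) {n : ℕ}
    (φ : ↥(D.group K) →* GL (Fin n) L ⧸ Subgroup.center (GL (Fin n) L)) :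
    ∃! ψ : D.SteinbergCover K →* GL (Fin n) L, (QuotientGroup.mk' (Subgroup.center (GL (Fin n) L))).comp ψ = φ.comp θ := by
  obtain ⟨R, hR, h1, h2⟩ := H5.exists_rs_big hD
  have hp := H5.StN.perfect' (h1.imp_right fun h => ⟨h.1, hK h.2⟩) (R.sc_gen K hR)
  refine H5.RS.sc_lift hR hp ⟨QuotientGroup.mk'_surjective _, (QuotientGroup.ker_mk' _).le⟩ _ fun P h h3 => ?_
  cases finite_or_infinite K
  swap
  · exact (R.sc K hR).lift_big h ((Infinite.exists_subset_card_eq K 5).imp fun s hs => by omega) h2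
  have := (R.sc K hR).finite_of_rel3 H5.StN.rel3_of_finite (R.sc_gen K hR)
  have := Fact.mk (CharP.char_is_prime K (ringChar K))
  have : CharP L (ringChar K) := hL ▸ ringChar.charP L
  refine (R.sc K hR).lift_coprime h hp (p := ringChar K) fun ⟨⟨g, d⟩, hc⟩ h4 h5 => ?_
  obtain rfl : d = 1 := h4
  obtain ⟨a, rfl⟩ : g ∈ (Matrix.GeneralLinearGroup.scalar (Fin n)).range := by
    rw [← Matrix.GeneralLinearGroup.center_eq_range_scalar]
    exact (QuotientGroup.eq_one_iff g).1 ((h3 _ hc).trans (map_one _))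
  refine Subtype.ext (Prod.ext (Units.ext (Matrix.ext fun i j => ?_)) rfl)
  have h6 := congrArg (fun x : P => (x.1.1 : Matrix (Fin n) (Fin n) L) i i) h5
  have h7 : (a : L) = 1 := frobenius_inj L (ringChar K) (by simpa [frobenius_def, ← map_pow] using h6)
  simp [Units.val_eq_one.1 h7]

end Cfsg.Agent.S2399
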