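import Cfsg.Statements.S2400
import Cfsg.Agent.H5.Ce4

set_option autoImplicit false
open Cfsg

namespace Cfsg.Agent.S2400

open H5 in
theorem aux {D : Lie.ChevalleyDatum} {R : RS D} (hR : R.Good) {K : Type*} [Field K] [Fintype K] (hp : R.Good1 ∨ R.Good2 ∧ ∃ x : K, x ≠ 0 ∧ x ≠ 1)
    (h2 : Fintype.card K = 2 → R.CTwo) (h3 : Fintype.card K = 3 → ∃ L, R.CThree L ∨ R.CB3 L) (h4 : Fintype.card K = 4 → R.CFour)
    (h5 : R.CBig) : HasCyclicSchurMultiplier (D.SteinbergGroup K) 1 :=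
  haveI : Unique (MonoidHom.id (D.SteinbergGroup K)).ker := ⟨⟨1⟩, fun a => Subtype.ext a.2⟩
  haveI : Unique (Multiplicative (ZMod 1)) := inferInstanceAs (Unique (Fin 1))
  RS.hasMult hR (R.st K hR) (R.st_gen K hR) (StN.perfect' hp (R.st_gen K hR)) (π := .id _) (fun _ _ => rfl) MulEquiv.ofUnique h2 h3 h4 h5

/-- Over a finite field `K`, the group presented by Steinberg's relators (R1)–(R3) (the universal Chevalley group) of type E₆ or E₇, or of type B₂ or D₄ with `K` of more than two elements, has trivial Schur multiplier: every finite stem extension of it is an isomorphism (Schur multiplier described through stem extensions as in the definitions). Types G₂, F₄ and E₈ are not covered here. -/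
theorem result {K : Type*} [Field K] [Fintype K] (e : Cfsg.Lie.ChevalleyDatum × ℕ)
    (he : e ∈ [(Cfsg.Lie.chevE6, 0), (Cfsg.Lie.chevE7, 0), (Cfsg.Lie.chevB2, 2), (Cfsg.Lie.chevD4, 2)]) (hK : Fintype.card K ≠ e.2) :
    Cfsg.HasCyclicSchurMultiplier (e.1.SteinbergGroup K) 1 := by
  open H5 in
  simp only [List.mem_cons, List.not_mem_nil, or_false] at he
  rcases he with rfl | rfl | rfl | rfl
  · exact aux H5.goodE6 (.inl H5.good1E6) (fun _ => H5.ctwoE6) (fun _ => ⟨_, .inl H5.cthreeE6⟩) (fun _ => H5.cfourE6) H5.cbigE6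
  · exact aux H5.goodE7 (.inl H5.good1E7) (fun _ => H5.ctwoE7) (fun _ => ⟨_, .inl H5.cthreeE7⟩) (fun _ => H5.cfourE7) H5.cbigE7
  · refine aux H5.goodB2 (.inr ⟨H5.good2B2, ?_⟩) (fun e => (hK e).elim) (fun _ => ⟨_, .inr H5.cthreeB2⟩) (fun _ => H5.cfourB2) H5.cbigB2
    obtain ⟨v, hv⟩ := H5.exists_pow_ne (K := K) (n := 1) ⟨Finset.univ, by
      have := Fintype.one_lt_card (α := K); simp at hK ⊢; omega⟩ 1 le_rfl le_rfl
    exact ⟨v, v.ne_zero, by simpa using hv⟩
  · exact aux H5.goodD4 (.inl H5.good1D4) (fun e => (hK e).elim) (fun _ => ⟨_, .inl H5.cthreeD4⟩) (fun _ => H5.cfourD4) H5.cbigD4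

end Cfsg.Agent.S2400
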