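import Cfsg.Statements.S2402
import Cfsg.Agent.H4.Gen1
import Cfsg.Agent.H4.Symp
import Cfsg.Agent.H4.FinField

set_option autoImplicit false
open Cfsg

namespace Cfsg.Agent.S2402

/-- Explicit two-element generation of `PSL_{n+1}(K)` for a finite field `K` with more than three elements: let `k` generate the multiplicative group of `K`, `h = diag(k, k⁻¹, 1, …, 1)`, `x = 1 + E₁₂` (the elementary transvection) and `w` the monomial matrix with entries `1` in positions `(i, i+1)` and `(−1)^n` in position `(n+1, 1)`. Then `h` and `x·w` generate `SL_{n+1}(K)` modulo its centre: the subgroup they generate together with the centre is everything. -/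
theorem result {K : Type*} [Field K] [Fintype K] (hK : 3 < Fintype.card K) (n : ℕ) (hn : 1 ≤ n)
    (k : Kˣ) (hk : ∀ u : Kˣ, u ∈ Subgroup.zpowers k)
    (h x w : Matrix.SpecialLinearGroup (Fin (n + 1)) K)
    (hh : (h : Matrix (Fin (n + 1)) (Fin (n + 1)) K) =
      Matrix.diagonal (fun i => if i.val = 0 then (k : K) else if i.val = 1 then ((k⁻¹ : Kˣ) : K) else 1))
    (hx : (x : Matrix (Fin (n + 1)) (Fin (n + 1)) K) = Matrix.transvection (0 : Fin (n + 1)) (1 : Fin (n + 1)) 1)
    (hw : (w : Matrix (Fin (n + 1)) (Fin (n + 1)) K) =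
      Matrix.of (fun i j => if j.val = i.val + 1 then 1 else if i.val = n ∧ j.val = 0 then (-1) ^ n else 0)) :
    Subgroup.closure ({h, x * w} : Set (Matrix.SpecialLinearGroup (Fin (n + 1)) K)) ⊔
      Subgroup.center (Matrix.SpecialLinearGroup (Fin (n + 1)) K) = ⊤ := by
  open Matrix.SpecialLinearGroup in
  have h01 : (0 : Fin (n + 1)) ≠ 1 := by simp; omega
  obtain rfl : x = transvection h01 1 := Subtype.ext hx
  set H := Subgroup.closure {h, transvection h01 1 * w}
  have h1 : h ∈ H := Subgroup.subset_closure (by simp)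
  have h2 : transvection h01 1 * w ∈ H := Subgroup.subset_closure (by simp)
  have v1 : (1 : Fin (n + 1)).val = 1 := by simp; omega
  clear_value H
  have hk2 : (k : K) ^ 2 ≠ 1 := fun e => by
    obtain ⟨a, h0, ha⟩ := H4.exists_sq_ne_one (F := K) hK
    obtain ⟨j, hj⟩ := hk (Units.mk0 a h0)
    exact ha (by rw [show a = (k : K) ^ j by simpa using congrArg Units.val hj.symm, ← zpow_natCast, ← zpow_mul,
      mul_comm, zpow_mul, zpow_natCast, e, one_zpow])
  have e1 : ∀ c, h * transvection h01 c = transvection h01 ((k : K) ^ 2 * c) * h := fun c =>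
    H4.diag_mul_tv hh h01 (by simp only [v1]; simp; field_simp)
  have hD := H4.cox_conj_diag hw hh
  obtain ⟨δ, hδ, e2⟩ : ∃ δ : K, δ ≠ 1 ∧ w * h * w⁻¹ * transvection h01 (((k : K) ^ 2 - 1) * δ) =
      transvection h01 ((k : K) ^ 2 - 1) * (w * h * w⁻¹) := by
    rcases hn.eq_or_lt with rfl | hn
    · exact ⟨k ^ 2, hk2, H4.diag_mul_tv hD h01 (by simp; field_simp)⟩
    · refine ⟨k, fun e => hk2 (by simp [e]), H4.diag_mul_tv hD h01 ?_⟩
      have : (1 + 1 : Fin (n + 1)).val = 2 := by rw [Fin.val_add, v1, Nat.mod_eq_of_lt (by omega)]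
      simp only [zero_add, v1, this]; simp; field_simp
  have e3 : h * (w * h * w⁻¹) = w * h * w⁻¹ * h := Subtype.ext (by
    rw [coe_mul h, coe_mul _ h, hD, hh]; exact (Matrix.commute_diagonal _ _).eq)
  have h3 : transvection h01 1 * (w * h * w⁻¹) * transvection h01 (-1) ∈ H := by
    simpa only [mul_inv_rev, mul_assoc, transvection_inv] using mul_mem (mul_mem h2 h1) (inv_mem h2)
  generalize w * h * w⁻¹ = D at e2 e3 h3
  have h4 : transvection h01 (((k : K) ^ 2 - 1) * (δ - 1)) ∈ H := by
    refine (H.mul_mem_cancel_left h3).1 ((H.mul_mem_cancel_right h1).1 ?_)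
    convert mul_mem h1 h3 using 1
    have e1' : ∀ c g, h * (transvection h01 c * g) = transvection h01 ((k : K) ^ 2 * c) * (h * g) := fun c g => by
      rw [← mul_assoc, e1, mul_assoc]
    rw [mul_assoc _ (transvection h01 (-1)), ← transvection_add, show -1 + ((k : K) ^ 2 - 1) * (δ - 1) =
      (k ^ 2 - 1) * δ + k ^ 2 * -1 by ring, transvection_add]
    simp only [mul_assoc]
    rw [← e1, ← mul_assoc D, e2, e1', ← mul_assoc h, e3]
    simp only [← mul_assoc, ← transvection_add]
    simp
  have h5 : ∀ c, transvection h01 c ∈ H → ∀ a, transvection h01 (c * a ^ 2) ∈ H := fun c hc a => by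
    by_cases h0 : a = 0
    · simp [h0]
    obtain ⟨j, hj⟩ := (mem_powers_iff_mem_zpowers.2 (hk (Units.mk0 a h0)))
    rw [show a = (k : K) ^ j by simpa using congrArg Units.val hj.symm]
    clear hj
    induction j with
    | zero => simpa using hc
    | succ j ih =>
      have := mul_mem h1 ih
      rw [e1, H.mul_mem_cancel_right h1] at this
      convert this using 2; ring
  have h6 : ∀ c, transvection h01 c ∈ H := fun c => by
    have h0 := mul_ne_zero (sub_ne_zero.2 hk2) (sub_ne_zero.2 hδ)
    obtain ⟨a, b, rfl⟩ := H4.exists_binary_eq h0 h0 c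
    rw [transvection_add]; exact mul_mem (h5 _ h4 a) (h5 _ h4 b)
  rw [H4.SL_top_of_cox H hw ((H.mul_mem_cancel_left (h6 1)).1 h2) fun _ => h6, top_sup_eq]

end Cfsg.Agent.S2402
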