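import Cfsg.Statements.S2403
import Cfsg.Agent.H4.Gen1

set_option autoImplicit false
open Cfsg

namespace Cfsg.Agent.S2403

/-- Explicit two-element generation of `PSL_{n+1}(K)` over the fields with two or three elements: with `x = 1 + E₁₂` and `w` the monomial matrix with entries `1` in positions `(i, i+1)` and `(−1)^n` in position `(n+1, 1)`, the elements `x` and `w` generate `SL_{n+1}(K)` modulo its centre. -/
theorem result {K : Type*} [Field K] [Fintype K] (hK : Fintype.card K ≤ 3) (n : ℕ) (hn : 1 ≤ n)
    (x w : Matrix.SpecialLinearGroup (Fin (n + 1)) K)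
    (hx : (x : Matrix (Fin (n + 1)) (Fin (n + 1)) K) = Matrix.transvection (0 : Fin (n + 1)) (1 : Fin (n + 1)) 1)
    (hw : (w : Matrix (Fin (n + 1)) (Fin (n + 1)) K) =
      Matrix.of (fun i j => if j.val = i.val + 1 then 1 else if i.val = n ∧ j.val = 0 then (-1) ^ n else 0)) :
    Subgroup.closure ({x, w} : Set (Matrix.SpecialLinearGroup (Fin (n + 1)) K)) ⊔
      Subgroup.center (Matrix.SpecialLinearGroup (Fin (n + 1)) K) = ⊤ := by
  rw [eq_top_iff, ← H4.SL_top_of_cox (Subgroup.closure {x, w}) hw (Subgroup.subset_closure (by simp)) fun h c => ?_]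
  · exact le_sup_left
  have h1 : Matrix.SpecialLinearGroup.transvection h 1 ∈ Subgroup.closure {x, w} :=
    Subgroup.subset_closure (.inl (Subtype.ext hx.symm))
  have h2 : c * (c - 1) * (c + 1) = 0 := by
    have h3 := FiniteField.pow_card c
    have := Fintype.one_lt_card (α := K)
    obtain h4 | h4 : Fintype.card K = 2 ∨ Fintype.card K = 3 := by omega
    · rw [h4] at h3; linear_combination (c + 1) * h3
    · rw [h4] at h3; linear_combination h3
  simp only [mul_eq_zero, sub_eq_zero, add_eq_zero_iff_eq_neg] at h2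
  rcases h2 with (rfl | rfl) | rfl
  · simp
  · exact h1
  · rw [← Matrix.SpecialLinearGroup.transvection_inv]; exact inv_mem h1

end Cfsg.Agent.S2403
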