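import Cfsg.Statements.S2410
import Cfsg.Agent.H5.Sz7

set_option autoImplicit false
open Cfsg

namespace Cfsg.Agent.S2410

/-- The Suzuki group over the field with `2^(2m+1)` elements, `m ≥ 1` (realised as the stabiliser in `SL₄` of the Suzuki–Tits ovoid), is generated by two of its elements. -/
theorem result {F : Type*} [Field F] [Fintype F] {m : ℕ} (hm : 1 ≤ m) (hF : Fintype.card F = 2 ^ (2 * m + 1)) :
    ∃ a b : ↥(Cfsg.Sz F m), Subgroup.closure ({a, b} : Set ↥(Cfsg.Sz F m)) = ⊤ := by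
  have := H5.Suz.charP hF
  have Z := H5.Suz.szO hm hF
  have hq := H5.Suz.natCard_eq hF
  obtain ⟨y, hy⟩ := H5.Suz.exists_gen (Z.St_cyclic Z.inf_ne_o)
  have ho : orderOf y = Nat.card F - 1 := by rw [← Z.card_St Z.inf_ne_o, hy, Nat.card_zpowers]
  have h8 : 8 ≤ Nat.card F := hq ▸ Nat.pow_le_pow_right two_pos (show 3 ≤ 2 * m + 1 by omega)
  have hodd := Z.card_St Z.inf_ne_o ▸ Z.odd_St Z.inf_ne_o
  have y1 : y ≠ 1 := fun e => by rw [e, orderOf_one] at ho; omega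
  have hy' : y ∈ H7.St _ Z.inf Z.o := hy ▸ Subgroup.mem_zpowers y
  have fx : ∀ a : suzukiOvoid F m, y • a = a → a = Z.inf ∨ a = Z.o := fun a ha => by_contra fun h =>
    y1 (Z.z3.three y _ _ a Z.inf_ne_o (fun e => h (.inr e.symm)) (fun e => h (.inl e.symm)) hy'.1 hy'.2 ha)
  have b1 : (Z.u 0 1 * Z.t) • Z.inf = Z.pt (some (0, 1)) := by rw [mul_smul, Z.t_inf, Z.u_o]
  have b2 : (Z.u 0 1 * Z.t) • Z.o = Z.inf := by rw [mul_smul, Z.t_o, Z.u_inf]
  have n1 := Z.pt_ne_inf (0, 1)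
  have n2 : Z.pt (some (0, 1)) ≠ Z.o := fun e => by simpa [Prod.ext_iff] using Z.pt.injective e
  have m1 : y ∈ Subgroup.closure {y, Z.u 0 1 * Z.t} := Subgroup.subset_closure (by simp)
  have m2 : Z.u 0 1 * Z.t ∈ Subgroup.closure {y, Z.u 0 1 * Z.t} := Subgroup.subset_closure (by simp)
  refine ⟨y, Z.u 0 1 * Z.t, ?_⟩
  generalize Subgroup.closure ({y, Z.u 0 1 * Z.t} : Set (Cfsg.Sz F m)) = M at m1 m2
  have cp : (Nat.card F - 1).Coprime (Nat.card F ^ 2 + 1) := (Z.coprime_qq.coprime_mul_left_right).symm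
  have c2 : ∀ k, (Nat.card F - 1).Coprime (2 ^ k) := fun k => (Nat.coprime_two_right.2 hodd).pow_right k
  rcases Z.classify M with ⟨a, h⟩ | ⟨a, b, hab, h⟩ | ⟨T, hT, h⟩ | ⟨E, c, x, hc, c0, c1, rfl⟩
  · rcases fx a (h m1) with rfl | rfl
    exacts [(n1 (b1.symm.trans (h m2))).elim, (Z.inf_ne_o (b2.symm.trans (h m2))).elim]
  · rcases h m1 with h1 | h1
    · rcases fx a h1.1 with rfl | rfl <;> rcases fx b h1.2 with rfl | rfl <;> rcases h m2 with h2 | h2
      all_goals first | exact (hab rfl).elim | (rw [b1] at h2; tauto)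
    · exact (y1 (H5.Suz.eq_one_of_odd (Z.odd_St Z.inf_ne_o) hy' (n := 1) ((pow_two y).trans (Z.swap hab h1.1 h1.2).1))).elim
  · have := Subgroup.orderOf_dvd_natCard _ (h m1)
    rw [H5.Suz.SzG.Tor.norm Z hT, ho] at this
    have := Nat.eq_one_of_dvd_coprimes ((c2 2).mul_right cp) dvd_rfl (this.trans (mul_dvd_mul_left 4 (H5.Suz.SzG.Tor.dvd Z hT)))
    omega
  obtain ⟨K, i1, i2, k, h1, h2, ⟨d, h3⟩, h4, ⟨e⟩⟩ := H5.Suz.sub_model hF Z hc c0 c1
  have := H5.Suz.charP h2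
  let e' := ((Z.sub E).equivMapOfInjective (MulAut.conj x).toMonoidHom (MulAut.conj x).injective).symm.trans e
  have h5 := (H5.Suz.szO h1 h2).ord_tri (e' ⟨y, m1⟩)
  rw [MulEquiv.orderOf_eq, Subgroup.orderOf_mk, ho, H5.Suz.natCard_eq h2] at h5
  rcases h5 with h5 | h5 | h5
  · have := Nat.eq_one_of_dvd_coprimes (c2 2) dvd_rfl h5
    omega
  · have h6 := Nat.one_lt_two_pow (show 2 * k + 1 ≠ 0 by omega)
    have := Nat.le_of_dvd (by omega) h5
    have h7 := Nat.card_le_card_of_injective _ E.subtype.injective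
    rw [H5.Suz.subfield_eq (E := E) (E' := ⊤) ((show _ = Nat.card F by omega).trans (Nat.card_congr Subfield.topEquiv.toEquiv).symm),
      Z.sub_top]
    exact Subgroup.map_top_of_surjective _ (MulAut.conj x).surjective
  · have h6 := (Odd.of_dvd_nat (odd_two_mul_add_one m) (Dvd.intro_left _ h3.symm)).nat_add_dvd_pow_add_pow ((2 ^ (2 * k + 1)) ^ 2) 1
    rw [one_pow, ← pow_mul _ 2, mul_comm 2 d, pow_mul, ← pow_mul 2 _ d, ← h3, ← hq] at h6
    have := Nat.eq_one_of_dvd_coprimes cp dvd_rfl (h5.trans h6)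
    omega

end Cfsg.Agent.S2410
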