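import Cfsg.Statements.S2416
import Cfsg.Agent.H5.GenN
import Cfsg.Agent.H5.Types

set_option autoImplicit false
open scoped MatrixGroups
open Cfsg

namespace Cfsg.Agent.S2416

/-- A Chevalley group of type G₂, B₂, D₄, F₄, E₆, E₇ or E₈ over a finite field lies in (indeed equals) the subgroup generated by its monomial subgroup `N` and a single fundamental root subgroup `X_p`, where `p` is a short fundamental root if there are two root lengths (any fundamental root otherwise), provided the characteristic is not 2 for types B₂, F₄ and not 3 for type G₂ (and the field has more than two elements for B₂, G₂). -/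
theorem result {K : Type*} [Field K] [Finite K] (D : Cfsg.Lie.ChevalleyDatum) (hD : D ∈ [Cfsg.Lie.chevG2, Cfsg.Lie.chevB2, Cfsg.Lie.chevD4, Cfsg.Lie.chevF4, Cfsg.Lie.chevE6, Cfsg.Lie.chevE7, Cfsg.Lie.chevE8])
    (hK : D ∈ [Cfsg.Lie.chevB2, Cfsg.Lie.chevG2] → ∃ x : K, x ≠ 0 ∧ x ≠ 1)
    (h2 : D ∈ [Cfsg.Lie.chevB2, Cfsg.Lie.chevF4] → ringChar K ≠ 2) (h3 : D = Cfsg.Lie.chevG2 → ringChar K ≠ 3)
    (i : ℕ) (hi : i < D.rank) (hshort : D.isLong (D.simple i) = false) :
    D.group K ≤ D.monomialSubgroup K ⊔ D.rootSubgroup K (D.simple i) := by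
  lift i to Fin D.rank using hi
  have key : ∀ n : ℕ, n.Prime → ringChar K ≠ n → ((n : ℤ) : K) ≠ 0 := fun n hn h e =>
    h (CharP.ringChar_of_prime_eq_zero hn (by simpa using e))
  have k1 : ∀ (R : H5.RS D) a, (∀ s, R.Dm s → s = a) → D.group K ≤ D.monomialSubgroup K ⊔ D.rootSubgroup K (D.simple i) :=
    fun R a h => by rw [R.group_eq, R.mono_eq, R.root_sim]; exact H5.StN.gen_N1 le_sup_left h le_sup_right
  have k2 : ∀ (R : H5.RS D) a b c (n : ℕ), ((∀ s, R.Dm s → s = a ∨ s = b) ∧ (a = b ∨ R.nrm a ≠ R.nrm b)) →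
      (R.nrm c = R.nrm a ∧ a ≠ c ∧ a ≠ R.neg c ∧ R.tm c a = [(b, (n : ℤ), 1, 1)]) → n.Prime → ringChar K ≠ n →
      R.nrm (R.sim i) = R.nrm a → D.group K ≤ D.monomialSubgroup K ⊔ D.rootSubgroup K (D.simple i) := fun R a b c n h h' hn hp e => by
    rw [R.group_eq, R.mono_eq, R.root_sim]; exact H5.StN.gen_N' le_sup_left h h' (key n hn hp) e le_sup_right
  simp only [List.mem_cons, List.not_mem_nil, or_false] at hD
  rcases hD with rfl | rfl | rfl | rfl | rfl | rfl | rfl
  · exact k2 H5.rsG2 ⟨9, by decide⟩ ⟨11, by decide⟩ ⟨8, by decide⟩ 3 (by decide +kernel) (by decide +kernel) (by decide) (h3 rfl)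
      (by clear k1 k2; revert i; decide +kernel)
  · exact k2 H5.rsB2 ⟨6, by decide⟩ ⟨7, by decide⟩ ⟨5, by decide⟩ 2 (by decide +kernel) (by decide +kernel) (by decide) (h2 (by simp))
      (by clear k1 k2; revert i; decide +kernel)
  · exact k1 H5.rsD4 ⟨23, by decide⟩ (by decide +kernel)
  · exact k2 H5.rsF4 ⟨44, by decide⟩ ⟨47, by decide⟩ ⟨29, by decide⟩ 2 (by decide +kernel) (by decide +kernel) (by decide) (h2 (by simp))
      (by clear k1 k2; revert i; decide +kernel)
  · exact k1 H5.rsE6 ⟨71, by decide⟩ (by decide +kernel)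
  · exact k1 H5.rsE7 ⟨125, by decide⟩ (by decide +kernel)
  · exact k1 H5.rsE8 ⟨239, by decide⟩ (by decide +kernel)

end Cfsg.Agent.S2416
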