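import Cfsg.Statements.S2417
import Cfsg.Agent.H5.GenN
import Cfsg.Agent.H5.Types

set_option autoImplicit false
open scoped MatrixGroups
open Cfsg

namespace Cfsg.Agent.S2417

/-- In the characteristics with an exceptional graph symmetry — type B₂ or F₄ in characteristic 2 (field of more than two elements for B₂) and type G₂ in characteristic 3 — the Chevalley group lies in the subgroup generated by its monomial subgroup `N` and the two fundamental root subgroups `X_a`, `X_b` of a short root `a` and a long root `b` joined in the Dynkin diagram. -/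
theorem result {K : Type*} [Field K] [Finite K] (e : Cfsg.Lie.ChevalleyDatum × ℕ)
    (he : e ∈ [(Cfsg.Lie.chevB2, 2), (Cfsg.Lie.chevF4, 2), (Cfsg.Lie.chevG2, 3)]) [CharP K e.2]
    (hK : e.1 = Cfsg.Lie.chevB2 → ∃ x : K, x ≠ 0 ∧ x ≠ 1)
    (i j : ℕ) (hi : i < e.1.rank) (hj : j < e.1.rank) (hshort : e.1.isLong (e.1.simple i) = false)
    (hlong : e.1.isLong (e.1.simple j) = true) (hbond : e.1.bonds i j ≠ 0) :
    e.1.group K ≤ e.1.monomialSubgroup K ⊔ e.1.rootSubgroup K (e.1.simple i) ⊔ e.1.rootSubgroup K (e.1.simple j) := by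
  obtain ⟨D, p⟩ := e
  lift i to Fin D.rank using hi
  lift j to Fin D.rank using hj
  have k2 : ∀ (R : H5.RS D) a b, ((∀ s, R.Dm s → s = a ∨ s = b) ∧ (a = b ∨ R.nrm a ≠ R.nrm b)) →
      R.nrm (R.sim i) = R.nrm a → R.nrm (R.sim j) = R.nrm b →
      D.group K ≤ D.monomialSubgroup K ⊔ D.rootSubgroup K (D.simple i) ⊔ D.rootSubgroup K (D.simple j) := fun R a b h e e' => by
    rw [R.group_eq, R.mono_eq, R.root_sim, R.root_sim]
    exact H5.StN.gen_N (le_sup_of_le_left le_sup_left) h e e' (le_sup_of_le_left le_sup_right) le_sup_right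
  simp only [List.mem_cons, List.not_mem_nil, or_false, Prod.mk.injEq] at he
  clear hbond hK
  dsimp only at hshort hlong
  rcases he with ⟨rfl, -⟩ | ⟨rfl, -⟩ | ⟨rfl, -⟩
  · exact k2 H5.rsB2 ⟨6, by decide⟩ ⟨7, by decide⟩ (by decide +kernel) (by clear k2 hlong; revert i; decide +kernel)
      (by clear k2 hshort; revert j; decide +kernel)
  · exact k2 H5.rsF4 ⟨44, by decide⟩ ⟨47, by decide⟩ (by decide +kernel) (by clear k2 hlong; revert i; decide +kernel)
      (by clear k2 hshort; revert j; decide +kernel)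
  · exact k2 H5.rsG2 ⟨9, by decide⟩ ⟨11, by decide⟩ (by decide +kernel) (by clear k2 hlong; revert i; decide +kernel)
      (by clear k2 hshort; revert j; decide +kernel)

end Cfsg.Agent.S2417
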