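import Cfsg.Statements.S2418
import Cfsg.Agent.H5.Wz

set_option autoImplicit false
open Cfsg

namespace Cfsg.Agent.S2418

/-- For the Coxeter groups of types B₂, G₂, D₄, F₄, E₇, E₈ the centre has order 2 (the element acting as −1 on the root system) and is generated by a power of the Coxeter element `s₁ s₂ ⋯ s_l`; the Coxeter group of type E₆ has trivial centre. -/
theorem result (c : (Σ n : ℕ, CoxeterMatrix (Fin n)) × ℕ)
    (hc : c ∈ [(⟨2, CoxeterMatrix.B 2⟩, 2), (⟨2, CoxeterMatrix.G₂⟩, 2), (⟨4, Cfsg.Lie.coxeterD4⟩, 2), (⟨4, CoxeterMatrix.F₄⟩, 2),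
      (⟨6, CoxeterMatrix.E₆⟩, 1), (⟨7, CoxeterMatrix.E₇⟩, 2), (⟨8, CoxeterMatrix.E₈⟩, 2)]) :
    Nat.card (Subgroup.center c.1.2.Group) = c.2 ∧
      Subgroup.center c.1.2.Group ≤ Subgroup.zpowers ((List.finRange c.1.1).map c.1.2.simple).prod := by
  simp only [List.mem_cons, List.not_mem_nil, or_false] at hc
  rcases hc with rfl | rfl | rfl | rfl | rfl | rfl | rfl
  · exact H5.rsB2.wz_2418_two H5.coxB2 (List.finRange 2) 2 (0 : Fin 2) (![0, 0] : Fin 2 → Fin 2) ![0, 1]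
      (@of_decide_eq_true _ (H5.RS.decWzConn _ _ _ _) (by decide +kernel)) (by decide +kernel)
  · exact H5.rsG2.wz_2418_two H5.coxG2 (List.finRange 2) 3 (0 : Fin 2) (![0, 0] : Fin 2 → Fin 2) ![0, 1]
      (@of_decide_eq_true _ (H5.RS.decWzConn _ _ _ _) (by decide +kernel)) (by decide +kernel)
  · exact H5.rsD4.wz_2418_two H5.coxD4 (List.finRange 4) 3 (1 : Fin 4) (![1, 1, 1, 1] : Fin 4 → Fin 4) ![1, 0, 1, 1]
      (@of_decide_eq_true _ (H5.RS.decWzConn _ _ _ _) (by decide +kernel)) (by decide +kernel)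
  · exact H5.rsF4.wz_2418_two H5.coxF4 (List.finRange 4) 6 (0 : Fin 4) (![0, 0, 1, 2] : Fin 4 → Fin 4) ![0, 1, 2, 3]
      (@of_decide_eq_true _ (H5.RS.decWzConn _ _ _ _) (by decide +kernel)) (by decide +kernel)
  · exact H5.rsE6.wz_2418_one H5.coxE6
      ([0,1,2,0,3,1,2,0,3,2,4,3,1,2,0,3,2,4,3,1,5,4,3,1,2,0,3,2,4,3,1,5,4,3,2,0] : List (Fin 6)) _
      (0 : Fin 6) (![0, 3, 0, 2, 3, 4] : Fin 6 → Fin 6) ![0, 3, 1, 2, 3, 4]
      (@of_decide_eq_true _ (H5.RS.decWzConn _ _ _ _) (by decide +kernel)) (by decide +kernel) (by decide +kernel)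
  · exact H5.rsE7.wz_2418_two H5.coxE7 (List.finRange 7) 9 (0 : Fin 7) (![0, 3, 0, 2, 3, 4, 5] : Fin 7 → Fin 7)
      ![0, 3, 1, 2, 3, 4, 5] (@of_decide_eq_true _ (H5.RS.decWzConn _ _ _ _) (by decide +kernel)) (by decide +kernel)
  · exact H5.rsE8.wz_2418_two H5.coxE8 (List.finRange 8) 15 (0 : Fin 8) (![0, 3, 0, 2, 3, 4, 5, 6] : Fin 8 → Fin 8)
      ![0, 3, 1, 2, 3, 4, 5, 6] (@of_decide_eq_true _ (H5.RS.decWzConn _ _ _ _) (by decide +kernel)) (by decide +kernel)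

end Cfsg.Agent.S2418
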