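import Cfsg.Statements.S2420
import Cfsg.Agent.H4.Par1

set_option autoImplicit false
open scoped MatrixGroups
open Cfsg

namespace Cfsg.Agent.S2420

/-- The number of partial flags of a given type: for a composition `μ` of `n` (with `n` parts, zeros allowed) and a field with `q` elements, the index of the standard parabolic subgroup `P_μ` in `GL_n(q)` times `∏_i {μ_i}` equals `{n}`, where `{r}` denotes the product over `k = 1, …, r` of the q-integers `1 + q + ⋯ + q^(k−1)`. -/
theorem result {F : Type*} [Field F] [Fintype F] {q : ℕ} (hq : Fintype.card F = q) {n : ℕ} (μ : Fin n → ℕ) (hμ : ∑ i, μ i = n) :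
    Nat.card (GL (Fin n) F ⧸ Cfsg.parabolicGL n F μ) * ∏ i : Fin n, ∏ j ∈ Finset.range (μ i), ∑ l ∈ Finset.range (j + 1), q ^ l =
      ∏ j ∈ Finset.range n, ∑ l ∈ Finset.range (j + 1), q ^ l := by
  open Cfsg.Agent.H4 Finset in
  classical
  obtain ⟨k, rfl⟩ : ∃ k, q = k + 1 := ⟨q - 1, by have := Fintype.card_pos (α := F); omega⟩
  have hk : 0 < k := by have := Fintype.one_lt_card (α := F); omega
  let σ := finSigmaFinEquiv.trans (finCongr hμ)
  let c : Fin n → Fin n := fun p => (σ.symm p).1
  have h1 : ∀ p, compLabel μ p = c p := fun p => by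
    rw [← compLabel_sigma hμ (σ.symm p)]; exact congrArg _ (σ.apply_symm_apply p).symm
  have h2 : ∀ i, Fintype.card {p // c p = i} = μ i := fun i =>
    (Fintype.card_congr ((σ.symm.subtypeEquiv fun _ => Iff.rfl).trans (Equiv.sigmaSubtype i))).trans (Fintype.card_fin _)
  have h3 : Nat.card (parabolicGL n F μ) = Nat.card {g : GL (Fin n) F // g.1.BlockTriangular c} :=
    Nat.card_congr (Equiv.subtypeEquivRight fun g => by
      show (∀ ⦃i j⦄, compLabel μ j < compLabel μ i → _) ↔ _
      simp only [h1]; rfl)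
  have h4 := Subgroup.card_eq_card_quotient_mul_card_subgroup (parabolicGL n F μ)
  have h5 := card_lt_pairs (c := c)
  rw [h3, card_btGL, hq] at h4
  simp only [card_GL_geom hq, h2, Fintype.card_fin, prod_mul_distrib, prod_pow_eq_pow_sum, hμ] at h4 h5
  have h6 : ∀ m, (∑ i ∈ range m, i) * 2 + m = m ^ 2 := fun m => by
    rw [sum_range_id_mul_two]; cases m <;> simp; ring
  have h7 : ∑ i ∈ range n, i = ∑ j, ∑ i ∈ range (μ j), i + Fintype.card {p : Fin n × Fin n // c p.1 < c p.2} := by
    simp only [← h6, sum_add_distrib, ← sum_mul, hμ] at h5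
    omega
  apply Nat.eq_of_mul_eq_mul_left (show 0 < (k + 1) ^ (∑ i ∈ range n, i) * k ^ n by positivity)
  rw [h4, h7]
  ring

end Cfsg.Agent.S2420
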