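import Cfsg.Statements.S2424
import Cfsg.Agent.S2420

set_option autoImplicit false
open scoped MatrixGroups
open Cfsg

namespace Cfsg.Agent.S2424

/-- Degrees of the partition-indexed irreducible characters of `GL_n(q)`: for `ν` a partition of `n` with `n` non-decreasing parts `ν_0 ≤ ⋯ ≤ ν_{n−1}` (zeros allowed; positions counted from 0) and `λ_i = ν_i + i`, write `Q(r)` for the q-integer `1 + q + ⋯ + q^(r−1)` and `Q!(r)` for `Q(1)Q(2)⋯Q(r)`; then the degree `γ(ν)` of the character satisfies `γ(ν) · q^(n(n−1)(n−2)/6) · ∏_i Q!(λ_i) = Q!(n) · ∏_{i<j} (Q(λ_j) − Q(λ_i))`. For `ν = (1,…,1)` this gives the Steinberg degree `q^(n(n−1)/2)`, for `ν = (0,…,0,n)` degree 1. -/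
theorem result {F : Type*} [Field F] [Fintype F] {q : ℕ} (hq : Fintype.card F = q) {n : ℕ} (ν : Fin n → ℕ) (hmono : Monotone ν) (hsum : ∑ i, ν i = n) :
    Cfsg.unipotentCharacterGL n F ν 1 * (q : ℂ) ^ (n * (n - 1) * (n - 2) / 6) *
        ∏ i : Fin n, ∏ j ∈ Finset.range (ν i + i.val), ((∑ l ∈ Finset.range (j + 1), q ^ l : ℕ) : ℂ) =
      (∏ j ∈ Finset.range n, ((∑ l ∈ Finset.range (j + 1), q ^ l : ℕ) : ℂ)) *
        ∏ i : Fin n, ∏ j ∈ Finset.univ.filter (fun j : Fin n => i < j),
          (((∑ l ∈ Finset.range (ν j + j.val), q ^ l : ℕ) : ℂ) - ((∑ l ∈ Finset.range (ν i + i.val), q ^ l : ℕ) : ℂ)) := by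
  open Finset Polynomial Matrix in
  let Q : ℕ → ℂ := fun r => ((∑ l ∈ range r, q ^ l : ℕ) : ℂ)
  have h1 : ∀ L j, j ≤ L → (∏ k ∈ range j, (Q L - Q k)) * ∏ k ∈ range (L - j), Q (k + 1) =
      (q : ℂ) ^ (∑ k ∈ range j, k) * ∏ k ∈ range L, Q (k + 1) := fun L j => by
    induction j with
    | zero => simp
    | succ j ih =>
      intro h
      obtain ⟨d, rfl⟩ : ∃ d, L = j + (d + 1) := ⟨L - j - 1, by omega⟩
      have h2 : Q (j + (d + 1)) - Q j = q ^ j * Q (d + 1) := by
        simp only [Q, sum_range_add _ j, pow_add, ← mul_sum]; push_cast; ring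
      have := ih (by omega)
      rw [Nat.add_sub_cancel_left, prod_range_succ] at this
      rw [prod_range_succ, sum_range_succ, h2, show j + (d + 1) - (j + 1) = d by omega, pow_add]
      linear_combination (q : ℂ) ^ j * this
  have h2 : ∀ m, 6 * (∑ j ∈ range m, ∑ k ∈ range j, k) + 3 * m ^ 2 = m ^ 3 + 2 * m := fun m => by
    induction m with
    | zero => simp
    | succ m ih =>
      have : (∑ i ∈ range m, i) * 2 + m = m ^ 2 := by rw [sum_range_id_mul_two]; cases m <;> simp; ring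
      rw [sum_range_succ]; nlinarith
  have h3 : n * (n - 1) * (n - 2) / 6 = ∑ j : Fin n, ∑ k ∈ range j, k := by
    rw [Fin.sum_univ_eq_sum_range (fun j => ∑ k ∈ range j, k)]
    refine Nat.div_eq_of_eq_mul_right (by omega) ?_
    have := h2 n
    rcases n with _ | _ | n
    · simp
    · simp
    · simp only [Nat.add_sub_cancel, show n + 1 + 1 - 2 = n by omega]; nlinarith
  have h4 := det_eval_matrixOfPolynomials_eq_det_vandermonde (fun i : Fin n => Q (ν i + i))
    (fun j => ∏ k ∈ range j, (X - C (Q k))) (fun j => by rw [natDegree_prod_of_monic _ _ fun _ _ => monic_X_sub_C _]; simp)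
    fun j => monic_prod_of_monic _ _ fun _ _ => monic_X_sub_C _
  rw [det_vandermonde, ← det_transpose, det_apply'] at h4
  simp only [filter_lt_eq_Ioi]
  erw [h4]
  rw [unipotentCharacterGL, sum_mul, sum_mul, mul_sum]
  refine sum_congr rfl fun κ _ => ?_
  simp only [transpose_apply, of_apply, eval_prod, eval_sub, eval_X, eval_C]
  split_ifs with h
  · have h5 := congrArg (Nat.cast : ℕ → ℂ) (S2420.result hq (fun i => ν i + i.val - (κ i).val) (by
      have h6 := sum_congr rfl fun (i : Fin n) (_ : i ∈ univ) => Nat.sub_add_cancel (h i)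
      rw [sum_add_distrib, sum_add_distrib, Equiv.sum_comp κ Fin.val, hsum] at h6
      omega))
    have h6 := prod_congr rfl fun (i : Fin n) (_ : i ∈ univ) => h1 _ _ (h i)
    rw [prod_mul_distrib, prod_mul_distrib, prod_pow_eq_pow_sum, Equiv.sum_comp κ fun j => ∑ k ∈ range j.val, k] at h6
    rw [Nat.cast_mul, Nat.cast_prod, Nat.cast_prod] at h5
    simp only [Nat.cast_prod] at h5
    rw [fixedPointCharacter, MulAction.fixedBy_one_eq_univ, Nat.card_congr (Equiv.Set.univ _), h3, ← h5]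
    simp only [Q] at h6 ⊢
    linear_combination (-((Equiv.Perm.sign κ : ℤ) : ℂ) * (Nat.card (GL (Fin n) F ⧸ parabolicGL n F fun i => ν i + i.val - (κ i).val) : ℂ)) * h6
  · obtain ⟨i, hi⟩ := not_forall.1 h
    rw [prod_eq_zero (f := fun i => ∏ k ∈ range (κ i), (Q (ν i + i) - Q k)) (mem_univ i) (prod_eq_zero (i := ν i + i) (mem_range.2 (not_le.1 hi)) (sub_self (Q (ν i + i))))]
    simp

end Cfsg.Agent.S2424
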