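import Cfsg.Statements.S2426
import Cfsg.Agent.C3.SM1

set_option autoImplicit false
open Cfsg

namespace Cfsg.Agent.S2426

open C3.SM C3.QP

/-- The rank-one Steinberg presentation of `SL₂` over a finite field `K`: generators `x(t)`, `y(t)` (`t ∈ K`; the two opposite root subgroups) subject to additivity `x(t)x(u) = x(t+u)`, `y(t)y(u) = y(t+u)` and, with `w(t) = x(t) y(−t⁻¹) x(t)` and `w'(t) = y(t) x(−t⁻¹) y(t)` for `t ≠ 0`, the relations `w(t) x(u) w(t)⁻¹ = y(−t⁻² u)` and `w'(t) y(u) w'(t)⁻¹ = x(−t⁻² u)`, present `SL₂(K)`, with `x(t) ↦ (1 t; 0 1)` and `y(t) ↦ (1 0; t 1)`. -/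
theorem result {K : Type*} [Field K] [Finite K] :
    ∃ e : PresentedGroup
        ({g : FreeGroup (Bool × K) | ∃ (b : Bool) (t u : K), g = FreeGroup.of (b, t) * FreeGroup.of (b, u) * (FreeGroup.of (b, t + u))⁻¹} ∪
          {g | ∃ (b : Bool) (t u : K), t ≠ 0 ∧
            g = (FreeGroup.of (b, t) * FreeGroup.of (!b, -t⁻¹) * FreeGroup.of (b, t)) * FreeGroup.of (b, u) *
                  (FreeGroup.of (b, t) * FreeGroup.of (!b, -t⁻¹) * FreeGroup.of (b, t))⁻¹ * (FreeGroup.of (!b, -(t⁻¹ ^ 2 * u)))⁻¹})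
        ≃* Matrix.SpecialLinearGroup (Fin 2) K,
      (∀ t : K, ((e (PresentedGroup.of (true, t)) : Matrix (Fin 2) (Fin 2) K)) = !![1, t; 0, 1]) ∧
      (∀ t : K, ((e (PresentedGroup.of (false, t)) : Matrix (Fin 2) (Fin 2) K)) = !![1, 0; t, 1]) := by
  set R := ({g : FreeGroup (Bool × K) | ∃ (b : Bool) (t u : K), g = FreeGroup.of (b, t) * FreeGroup.of (b, u) * (FreeGroup.of (b, t + u))⁻¹} ∪
          {g | ∃ (b : Bool) (t u : K), t ≠ 0 ∧
            g = (FreeGroup.of (b, t) * FreeGroup.of (!b, -t⁻¹) * FreeGroup.of (b, t)) * FreeGroup.of (b, u) *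
                  (FreeGroup.of (b, t) * FreeGroup.of (!b, -t⁻¹) * FreeGroup.of (b, t))⁻¹ * (FreeGroup.of (!b, -(t⁻¹ ^ 2 * u)))⁻¹}) with hR
  have k : ∀ r ∈ R, PresentedGroup.mk R r = 1 := fun r hr => PresentedGroup.one_of_mem hr
  have H : R1 (fun t => (PresentedGroup.of (true, t) : PresentedGroup R)) (fun t => PresentedGroup.of (false, t)) :=
    ⟨fun s t => (mul_inv_eq_one.1 (k _ (.inl ⟨true, s, t, rfl⟩))).symm, fun s t => (mul_inv_eq_one.1 (k _ (.inl ⟨false, s, t, rfl⟩))).symm,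
      fun t s ht => mul_inv_eq_one.1 (k _ (.inr ⟨true, t, s, ht, rfl⟩))⟩
  obtain ⟨ψ, h1, h2⟩ := H.exists_hom
  have S := r1_SL K
  let φ : PresentedGroup R →* Matrix.SpecialLinearGroup (Fin 2) K := PresentedGroup.toGroup (f := fun p => if p.1 then xx p.2 else yy p.2) (by
    rintro r (⟨b, t, u, rfl⟩ | ⟨b, t, u, ht, rfl⟩) <;> cases b <;> simp only [map_mul, map_inv, FreeGroup.lift_apply_of, mul_inv_eq_one]
    · exact (S.ya t u).symm
    · exact (S.xa t u).symm
    · rw [mul_inv_eq_iff_eq_mul]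
      apply extE <;> simp [mulE, ht] <;> field_simp <;> ring
    · exact S.wx t u ht)
  have e1 : ∀ t, φ (PresentedGroup.of (true, t)) = xx t := fun t => PresentedGroup.toGroup.of _
  have e2 : ∀ t, φ (PresentedGroup.of (false, t)) = yy t := fun t => PresentedGroup.toGroup.of _
  have i : ψ.comp φ = MonoidHom.id _ := PresentedGroup.ext fun ⟨b, t⟩ => by cases b <;> simp [e1, e2, h1, h2]
  refine ⟨MulEquiv.ofBijective φ ⟨fun a b h => by simpa [← MonoidHom.comp_apply, i] using congrArg ψ h, fun g => ?_⟩,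
    fun t => congrArg Subtype.val (e1 t), fun t => congrArg Subtype.val (e2 t)⟩
  refine Matrix.SL2.transvection_induction (fun g => g ∈ φ.range) (fun {i j} h c => ?_) (fun _ _ => mul_mem) g
  fin_cases i <;> fin_cases j
  · exact absurd rfl h
  · exact ⟨_, (e1 c).trans (by apply extE <;> simp [Matrix.SpecialLinearGroup.transvection_coe])⟩
  · exact ⟨_, (e2 c).trans (by apply extE <;> simp [Matrix.SpecialLinearGroup.transvection_coe])⟩
  · exact absurd rfl h

end Cfsg.Agent.S2426
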