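import Cfsg.Statements.S2428
import Cfsg.Agent.H4.Dick9

set_option autoImplicit false
open Cfsg

namespace Cfsg.Agent.S2428

/-- Let F be a finite field with q elements, q odd, and let d be a diagonal element of SL₂ over F whose diagonal entry a has a² ≠ 1 (such d exist exactly when q > 3). Then the centraliser of d is precisely the diagonal subgroup T; the normaliser of T has order 2(q − 1) and exactly (q + 5)/2 conjugacy classes; and every element of that normaliser outside T has square equal to −1. -/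
theorem result {F : Type*} [Field F] [Fintype F] (hodd : Odd (Fintype.card F))
    (d : Matrix.SpecialLinearGroup (Fin 2) F) (hd01 : (d : Matrix (Fin 2) (Fin 2) F) 0 1 = 0) (hd10 : (d : Matrix (Fin 2) (Fin 2) F) 1 0 = 0) (hda : (d : Matrix (Fin 2) (Fin 2) F) 0 0 ^ 2 ≠ 1) :
    (∀ g : Matrix.SpecialLinearGroup (Fin 2) F, g ∈ Subgroup.centralizer ({d} : Set (Matrix.SpecialLinearGroup (Fin 2) F)) ↔ ((g : Matrix (Fin 2) (Fin 2) F) 0 1 = 0 ∧ (g : Matrix (Fin 2) (Fin 2) F) 1 0 = 0)) ∧
    Nat.card (Subgroup.normalizer ((Subgroup.centralizer ({d} : Set (Matrix.SpecialLinearGroup (Fin 2) F))) : Set (Matrix.SpecialLinearGroup (Fin 2) F))) = 2 * (Fintype.card F - 1) ∧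
    Nat.card (ConjClasses (Subgroup.normalizer ((Subgroup.centralizer ({d} : Set (Matrix.SpecialLinearGroup (Fin 2) F))) : Set (Matrix.SpecialLinearGroup (Fin 2) F)))) = (Fintype.card F + 5) / 2 ∧
    ∀ g : Matrix.SpecialLinearGroup (Fin 2) F, g ∈ Subgroup.normalizer ((Subgroup.centralizer ({d} : Set (Matrix.SpecialLinearGroup (Fin 2) F))) : Set (Matrix.SpecialLinearGroup (Fin 2) F)) →
      g ∉ Subgroup.centralizer ({d} : Set (Matrix.SpecialLinearGroup (Fin 2) F)) → ((g * g) : Matrix (Fin 2) (Fin 2) F) = -1 := by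
  open Cfsg.Agent.H4 in
  have h2 : (2 : F) ≠ 0 := odd_card_iff.1 hodd
  have hT : ∀ g : Matrix.SpecialLinearGroup (Fin 2) F, g ∈ TS (pt OnePoint.infty) (pt ((0 : F) : OnePoint F)) ↔
      g 0 1 = 0 ∧ g 1 0 = 0 := fun g => by
    rw [mem_TS, toPGL_eq_pm, and_comm]; exact and_congr pm_fix_zero pm_fix_infty
  have h1 : Matrix.SpecialLinearGroup.toPGL d ≠ 1 := by
    intro e
    rcases toPGL_eq_one_iff.1 e with rfl | rfl <;> simp at hda
  have hd := (hT d).2 ⟨hd01, hd10⟩
  have h3 := tp_infty_zero.card_TS_rat (F := F) (rat_pt _)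
  have h4 := tp_infty_zero.card_conjClasses_NS h2
  have h5 := Fintype.card_pos (α := F)
  rw [tp_infty_zero.centralizer_TS hd h1, tp_infty_zero.normalizer_eq le_rfl hd h1]
  refine ⟨hT, by rw [tp_infty_zero.card_NS]; exact congrArg _ h3, ?_,
    fun g hg hg' => congrArg Subtype.val (tp_infty_zero.NS_sq h2 hg hg')⟩
  rw [h3] at h4
  change Nat.card (ConjClasses (NS (pt (OnePoint.infty : OnePoint F)) (pt ((0 : F) : OnePoint F)))) = _
  omega

end Cfsg.Agent.S2428
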