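import Cfsg.Statements.S2429
import Cfsg.Agent.H4.Dick9

set_option autoImplicit false
open Cfsg

namespace Cfsg.Agent.S2429

/-- Let F be a finite field with q elements, q odd. Then SL₂ over F contains a cyclic subgroup T′ of order q + 1 (a non-split torus) with the following properties: T′ is its own centraliser, and indeed the centraliser of each element of T′ other than 1 and −1 is exactly T′; every element of SL₂ having no eigenvector in F² is conjugate to an element of T′; the normaliser of T′ has order 2(q + 1) and exactly (q + 7)/2 conjugacy classes; and every element of that normaliser outside T′ has square −1. -/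
theorem result {F : Type*} [Field F] [Fintype F] (hodd : Odd (Fintype.card F)) :
    ∃ T' : Subgroup (Matrix.SpecialLinearGroup (Fin 2) F), IsCyclic T' ∧ Nat.card T' = Fintype.card F + 1 ∧
      Subgroup.centralizer ((T' : Set (Matrix.SpecialLinearGroup (Fin 2) F))) = T' ∧
      (∀ g : Matrix.SpecialLinearGroup (Fin 2) F, g ∈ T' → (g : Matrix (Fin 2) (Fin 2) F) ≠ 1 → (g : Matrix (Fin 2) (Fin 2) F) ≠ -1 → Subgroup.centralizer ({g} : Set (Matrix.SpecialLinearGroup (Fin 2) F)) = T') ∧
      (∀ g : Matrix.SpecialLinearGroup (Fin 2) F, (∀ (c : F) (v : Fin 2 → F), v ≠ 0 → (g : Matrix (Fin 2) (Fin 2) F).mulVec v ≠ c • v) → ∃ h : Matrix.SpecialLinearGroup (Fin 2) F, h * g * h⁻¹ ∈ T') ∧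
      Nat.card (Subgroup.normalizer (T' : Set (Matrix.SpecialLinearGroup (Fin 2) F))) = 2 * (Fintype.card F + 1) ∧
      Nat.card (ConjClasses (Subgroup.normalizer (T' : Set (Matrix.SpecialLinearGroup (Fin 2) F)))) = (Fintype.card F + 7) / 2 ∧
      ∀ g : Matrix.SpecialLinearGroup (Fin 2) F, g ∈ Subgroup.normalizer (T' : Set (Matrix.SpecialLinearGroup (Fin 2) F)) → g ∉ T' → ((g * g) : Matrix (Fin 2) (Fin 2) F) = -1 := by
  open Cfsg.Agent.H4 in
  have h2 : (2 : F) ≠ 0 := odd_card_iff.1 hodd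
  obtain ⟨x, y, h, hx⟩ := exists_tp_qd (F := F)
  have h3 := h.card_TS_qd hx
  have h4 := h.card_conjClasses_NS h2
  obtain ⟨c, hc, h1⟩ : ∃ c ∈ TS x y, Matrix.SpecialLinearGroup.toPGL c ≠ 1 := by
    by_contra hc
    push Not at hc
    have := Subgroup.card_le_of_le (show TS x y ≤ Matrix.SpecialLinearGroup.toPGL.ker from hc)
    rw [card_ker_toPGL, gcd_two_odd hodd, h3] at this
    have := Fintype.one_lt_card (α := F)
    omega
  refine ⟨TS x y, h.isCyclic_TS, h3, h.centralizer_eq le_rfl hc h1, fun g hg g1 g2 => h.centralizer_TS hg ?_,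
    fun g hg => ?_, ?_, ?_, ?_⟩
  · intro e
    rcases toPGL_eq_one_iff.1 e with rfl | rfl
    exacts [g1 rfl, g2 rfl]
  · obtain ⟨-, u, v, ht, hu, gu, gv⟩ := exists_tp_of_not_fix
      fun x hx => not_fix_rat (g := Matrix.SpecialLinearGroup.toGL g) hg hx
    obtain ⟨_, ⟨k, rfl⟩, rfl, rfl⟩ := ht.exists_conj le_rfl h hu hx
    refine ⟨k, mem_TS.2 ?_⟩
    simp only [map_mul, map_inv, mul_smul, inv_smul_smul]
    exact ⟨congrArg _ gu, congrArg _ gv⟩
  · rw [h.normalizer_eq le_rfl hc h1, h.card_NS, h3]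
  · rw [h.normalizer_eq le_rfl hc h1]; omega
  · rw [h.normalizer_eq le_rfl hc h1]
    exact fun g hg hg' => congrArg Subtype.val (h.NS_sq h2 hg hg')

end Cfsg.Agent.S2429
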