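import Cfsg.Statements.S2430
import Cfsg.Agent.H4.Dick9

set_option autoImplicit false
open Cfsg

namespace Cfsg.Agent.S2430

/-- Let F be a finite field with q elements, q odd, ℓ an odd prime, and P a Sylow ℓ-subgroup of SL₂ over F. If ℓ divides q − 1, the centraliser of P is cyclic of order q − 1 (a split torus) and the normaliser of P has order 2(q − 1); if ℓ divides q + 1, the centraliser of P is cyclic of order q + 1 (a non-split torus) and the normaliser of P has order 2(q + 1). -/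
theorem result {F : Type*} [Field F] [Fintype F] (hodd : Odd (Fintype.card F)) (ℓ : ℕ) [Fact ℓ.Prime] (hℓ : ℓ ≠ 2)
    (P : Sylow ℓ (Matrix.SpecialLinearGroup (Fin 2) F)) :
    (ℓ ∣ Fintype.card F - 1 →
      Nat.card (Subgroup.centralizer ((P : Subgroup (Matrix.SpecialLinearGroup (Fin 2) F)) : Set (Matrix.SpecialLinearGroup (Fin 2) F))) = Fintype.card F - 1 ∧
      IsCyclic (Subgroup.centralizer ((P : Subgroup (Matrix.SpecialLinearGroup (Fin 2) F)) : Set (Matrix.SpecialLinearGroup (Fin 2) F))) ∧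
      Nat.card (Subgroup.normalizer ((P : Subgroup (Matrix.SpecialLinearGroup (Fin 2) F)) : Set (Matrix.SpecialLinearGroup (Fin 2) F))) = 2 * (Fintype.card F - 1)) ∧
    (ℓ ∣ Fintype.card F + 1 →
      Nat.card (Subgroup.centralizer ((P : Subgroup (Matrix.SpecialLinearGroup (Fin 2) F)) : Set (Matrix.SpecialLinearGroup (Fin 2) F))) = Fintype.card F + 1 ∧
      IsCyclic (Subgroup.centralizer ((P : Subgroup (Matrix.SpecialLinearGroup (Fin 2) F)) : Set (Matrix.SpecialLinearGroup (Fin 2) F))) ∧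
      Nat.card (Subgroup.normalizer ((P : Subgroup (Matrix.SpecialLinearGroup (Fin 2) F)) : Set (Matrix.SpecialLinearGroup (Fin 2) F))) = 2 * (Fintype.card F + 1)) := by
  open Cfsg.Agent.H4 in
  obtain ⟨p, _, _⟩ := exists_char F
  have h0 := Fintype.card_pos (α := F)
  have hl := (Fact.out : ℓ.Prime)
  have h1 := char_dvd_card F p
  have key : ℓ ∣ Fintype.card F ^ 2 - 1 → ∃ x y : Pt F, TP x y ∧ ℓ ∣ Nat.card (TS x y) ∧
      Subgroup.centralizer ((P : Subgroup (Matrix.SpecialLinearGroup (Fin 2) F)) : Set _) = TS x y ∧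
      Subgroup.normalizer ((P : Subgroup (Matrix.SpecialLinearGroup (Fin 2) F)) : Set _) = NS x y := by
    intro h
    have h2 : ℓ ≠ p := by
      rintro rfl
      have h3 : 1 ≤ Fintype.card F ^ 2 := Nat.one_le_pow _ _ h0
      exact hl.one_lt.ne' (Nat.dvd_one.1 ((Nat.dvd_add_right h).1
        (by rw [Nat.sub_add_cancel h3]; exact h1.trans (dvd_pow_self _ two_ne_zero))))
    have h3 := P.dvd_card_of_dvd_card (by rw [card_SL_two]; exact h.mul_left _)
    obtain ⟨x, y, ht, hle, g, hg, hg1⟩ := exists_TS_of_isPGroup p hℓ h2 P.isPGroup'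
      (P.ne_bot_of_dvd_card (by rw [card_SL_two]; exact h.mul_left _))
    exact ⟨x, y, ht, h3.trans (Subgroup.card_dvd_of_le hle), ht.centralizer_eq hle hg hg1,
      ht.normalizer_eq hle hg hg1⟩
  have key2 : ℓ ∣ Fintype.card F - 1 → ℓ ∣ Fintype.card F + 1 → False := fun h h' =>
    hℓ ((Nat.prime_dvd_prime_iff_eq hl Nat.prime_two).1 ((Nat.dvd_add_right h).1
      (by rwa [show Fintype.card F - 1 + 2 = Fintype.card F + 1 by omega])))
  constructor <;> intro h
  · obtain ⟨x, y, ht, h3, h4, h5⟩ := key (by rw [sq_sub_one_eq]; exact h.mul_left _)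
    have hx : Rat x := by_contra fun hx => key2 h (ht.card_TS_qd hx ▸ h3)
    rw [h4, h5, ht.card_NS, ht.card_TS_rat hx]
    exact ⟨rfl, ht.isCyclic_TS, rfl⟩
  · obtain ⟨x, y, ht, h3, h4, h5⟩ := key (by rw [sq_sub_one_eq]; exact h.mul_right _)
    have hx : ¬ Rat x := fun hx => key2 (ht.card_TS_rat hx ▸ h3) h
    rw [h4, h5, ht.card_NS, ht.card_TS_qd hx]
    exact ⟨rfl, ht.isCyclic_TS, rfl⟩

end Cfsg.Agent.S2430
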