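import Cfsg.Statements.S2434
import Mathlib
import Cfsg.Agent.H7.GL2d
import Cfsg.Agent.S2322

set_option autoImplicit false
open Cfsg

namespace Cfsg.Agent.S2434

open Cfsg.Agent.H3 Cfsg.Agent.H4 Cfsg.Agent.H7

/-- Let F be a finite field with q elements, q odd, and C a cyclic subgroup of order q + 1 of SL₂ over F (a non-split torus; it contains the centre). For every homomorphism θ from C to the non-zero complex numbers with θ² ≠ 1 there is an irreducible complex character χ of degree q − 1 such that χ(c) = −θ(c) − θ(c)⁻¹ for every non-central c in C, χ(zg) = θ(z)χ(g) for central z in C, χ vanishes at diagonal elements with entry a, a² ≠ 1, and χ takes the value −1 at every upper unitriangular element other than 1. Conversely every irreducible character of degree q − 1 has, for some such θ, the values −θ(c) − θ(c)⁻¹ at the non-central elements c of C (for q ≥ 5 these are exactly the cuspidal characters of degree q − 1). -/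
theorem result {F : Type*} [Field F] [Fintype F] (hodd : Odd (Fintype.card F))
    (C : Subgroup (Matrix.SpecialLinearGroup (Fin 2) F)) (hC : IsCyclic C) (hcard : Nat.card C = Fintype.card F + 1) :
    (∀ θ : C →* ℂˣ, (∃ c : C, θ c ^ 2 ≠ 1) →
      ∃ χ : Matrix.SpecialLinearGroup (Fin 2) F → ℂ, Cfsg.IsIrrCharacter (Matrix.SpecialLinearGroup (Fin 2) F) χ ∧ χ 1 = (Fintype.card F : ℂ) - 1 ∧
        (∀ c : C, (c : Matrix.SpecialLinearGroup (Fin 2) F) ∉ Subgroup.center (Matrix.SpecialLinearGroup (Fin 2) F) → χ c = -((θ c).val + (θ c)⁻¹.val)) ∧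
        (∀ c : C, (c : Matrix.SpecialLinearGroup (Fin 2) F) ∈ Subgroup.center (Matrix.SpecialLinearGroup (Fin 2) F) → ∀ g : Matrix.SpecialLinearGroup (Fin 2) F, χ ((c : Matrix.SpecialLinearGroup (Fin 2) F) * g) = (θ c).val * χ g) ∧
        (∀ g : Matrix.SpecialLinearGroup (Fin 2) F, (g : Matrix (Fin 2) (Fin 2) F) 0 1 = 0 → (g : Matrix (Fin 2) (Fin 2) F) 1 0 = 0 → (g : Matrix (Fin 2) (Fin 2) F) 0 0 ^ 2 ≠ 1 → χ g = 0) ∧
        (∀ g : Matrix.SpecialLinearGroup (Fin 2) F, (g : Matrix (Fin 2) (Fin 2) F) 1 0 = 0 → (g : Matrix (Fin 2) (Fin 2) F) 0 0 = 1 → (g : Matrix (Fin 2) (Fin 2) F) 1 1 = 1 → (g : Matrix (Fin 2) (Fin 2) F) 0 1 ≠ 0 → χ g = -1)) ∧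
    (∀ χ : Matrix.SpecialLinearGroup (Fin 2) F → ℂ, Cfsg.IsIrrCharacter (Matrix.SpecialLinearGroup (Fin 2) F) χ → χ 1 = (Fintype.card F : ℂ) - 1 →
      ∃ θ : C →* ℂˣ, (∃ c : C, θ c ^ 2 ≠ 1) ∧
        ∀ c : C, (c : Matrix.SpecialLinearGroup (Fin 2) F) ∉ Subgroup.center (Matrix.SpecialLinearGroup (Fin 2) F) → χ c = -((θ c).val + (θ c)⁻¹.val)) := by
  classical
  obtain ⟨c0, hc0⟩ := hC.exists_generator
  have h1 : orderOf (c0 : Matrix.SpecialLinearGroup (Fin 2) F) = Fintype.card F + 1 := by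
    rw [Subgroup.orderOf_coe, orderOf_eq_card_of_forall_mem_zpowers hc0, hcard]
  haveI h0 : Fact (Ell (Matrix.SpecialLinearGroup.toGL (c0 : Matrix.SpecialLinearGroup (Fin 2) F))) :=
    ⟨ell_of_orderOf h1⟩
  set g0 := Matrix.SpecialLinearGroup.toGL (c0 : Matrix.SpecialLinearGroup (Fin 2) F) with hg0
  let j : C →* K1 g0 :=
    { toFun := fun c => ⟨⟨Matrix.SpecialLinearGroup.toGL c.1, Subgroup.mem_centralizer_singleton_iff.2 (by
        obtain ⟨k, rfl⟩ := hc0 c
        rw [hg0, ← map_mul, ← map_mul]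
        exact congrArg _ (congrArg Subtype.val (Commute.zpow_self c0 k).eq))⟩,
        Matrix.SpecialLinearGroup.coeToGL_det _⟩
      map_one' := Subtype.ext (Subtype.ext (map_one _))
      map_mul' := fun a b => Subtype.ext (Subtype.ext (map_mul _ _ _)) }
  have hj : Function.Injective j := fun a b e => Subtype.ext (Matrix.SpecialLinearGroup.toGL_injective
    (congrArg (fun x : K1 g0 => ((x : Tor g0) : Matrix.GeneralLinearGroup (Fin 2) F)) e))
  let e : C ≃* K1 g0 := MulEquiv.ofBijective j ((Nat.bijective_iff_injective_and_card j).2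
    ⟨hj, by rw [hcard, card_K1]⟩)
  have hv : ∀ (η : Lin (K1 g0)) (c : C), CS η c = -(η (e c) + η (e c)⁻¹) +
      if (c : Matrix.SpecialLinearGroup (Fin 2) F) 1 0 = 0 then (Fintype.card F + 1) * η (e c) else 0 :=
    fun η c => CS_tor η rfl
  have hz : ∀ c : C, (c : Matrix.SpecialLinearGroup (Fin 2) F) ∉ Subgroup.center _ →
      (c : Matrix.SpecialLinearGroup (Fin 2) F) 1 0 ≠ 0 := fun c hc h => hc (by
    obtain ⟨a, ha⟩ := tor_scalar (c := (e c : Tor g0)) h
    have : Matrix.SpecialLinearGroup.toGL c.1 = ut a 0 a := congrArg Subtype.val ha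
    refine Subgroup.mem_center_iff.2 fun g => Matrix.SpecialLinearGroup.toGL_injective ?_
    rw [map_mul, map_mul, this, ut_scalar_comm])
  have hb : ∀ η : Lin (K1 g0), η ^ 2 ≠ 1 → ∃ c : C, (η.toHom.comp e.toMonoidHom) c ^ 2 ≠ 1 := fun η h => by
    by_contra hn
    push Not at hn
    refine h (Lin.ext fun c => ?_)
    obtain ⟨c, rfl⟩ := e.surjective c
    simpa [Lin.toHom_apply] using congrArg Units.val (hn c)
  refine ⟨fun θ ⟨c1, hc1⟩ => ?_, fun χ hχ h => ?_⟩
  · let η : Lin (K1 g0) := Lin.mk (θ.comp e.symm.toMonoidHom)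
    have hη : ∀ c, η (e c) = θ c := fun c => by simp [η]
    have h2 : η ^ 2 ≠ 1 := fun h => hc1 (Units.ext (by
      rw [Units.val_pow_eq_pow_val, ← hη, ← Lin.pow_apply, h]; rfl))
    refine ⟨CS η, irr_CS.2 h2, CS_one _, fun c hc => ?_, fun c hc g => ?_, fun g a1 a2 a3 => ?_,
      fun g a1 a2 a3 a4 => ?_⟩
    · rw [hv, if_neg (hz c hc), map_inv, hη]; simp
    · have h3 : (e c)⁻¹ = e c := by
        rw [← map_inv]; congr 1; apply Subtype.ext
        rcases mem_center_SL2.1 hc with h | h <;> simp [h]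
      rw [← Subgroup.mem_center_iff.1 hc, apply_mul_of_mem_charCenter (irr_CS.2 h2).apply_one_ne_zero
        ((irr_CS.2 h2).center_le_charCenter hc), hv, h3, hη, CS_one, if_pos (by
          rcases mem_center_SL2.1 hc with h | h <;> simp [h])]
      have := q_sub_ne_zero (F := F)
      field_simp
      ring
    · obtain ⟨a, x, rfl⟩ := exists_us a2
      exact CS_us_of_ne _ (fun e => a3 (eq_inv_iff_sq.1 e)) _
    · obtain ⟨a, x, rfl⟩ := exists_us a1
      obtain rfl : a = 1 := Units.ext a2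
      rw [us_one]; exact CS_up _ a4
  · obtain ⟨m, hm⟩ := id hodd
    have h3 : 1 < Fintype.card F := Fintype.one_lt_card
    rcases irr_SL2' g0 hχ (h.trans cast_q_sub.symm) with
      ⟨e, -⟩ | ⟨e, -⟩ | ⟨e, -⟩ | ⟨-, η, hη, rfl⟩ | ⟨e', -⟩ | ⟨e, -⟩
    any_goals omega
    · refine ⟨η.toHom.comp e.toMonoidHom, hb η hη, fun c hc => ?_⟩
      rw [hv, if_neg (hz c hc), map_inv]; simp [Lin.toHom_apply]
    · obtain ⟨z, hz'⟩ := IsCyclic.exists_generator (α := Lin (K1 g0))
      have hη : z ^ 2 ≠ 1 := fun e => by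
        have := Nat.le_of_dvd two_pos (orderOf_dvd_of_pow_eq_one e)
        rw [orderOf_eq_card_of_forall_mem_zpowers hz', Nat.card_eq_fintype_card, card_lin_K1] at this
        omega
      refine ⟨z.toHom.comp e.toMonoidHom, hb z hη, fun c hc => ?_⟩
      have h4 := ell_iff.1 (tor_ell (c := (e c : Tor g0)) (hz c hc))
      have h5 := (S2322.result hodd _ (irr_CS.2 hη) c).2 (Or.inr (by rw [CS_one, ← e', cast_q_sub])) h4
      rw [(S2322.result hodd _ hχ c).2 (Or.inr (by rw [h, ← e', cast_q_sub])) h4, ← h5, hv,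
        if_neg (hz c hc), map_inv]
      simp [Lin.toHom_apply]

end Cfsg.Agent.S2434
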