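import Cfsg.Statements.S2435
import Mathlib
import Cfsg.Agent.H7.GL2c

set_option autoImplicit false
open Cfsg

namespace Cfsg.Agent.S2435

open Cfsg.Agent.H3 Cfsg.Agent.H4 Cfsg.Agent.H7

/-- Let F be a finite field with q elements, q odd and q ≥ 5, and χ an irreducible complex character of SL₂ over F. If χ has degree (q + 1)/2, then at a diagonal element with entry a, a² ≠ 1, χ takes the value 1 when a is a square in F and −1 otherwise. If χ has degree (q − 1)/2, then at an element g with no eigenvector in F² (so g has order dividing q + 1), χ takes the value −1 when g raised to the power (q + 1)/2 is the identity and the value 1 otherwise. -/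
theorem result {F : Type*} [Field F] [Fintype F] (hodd : Odd (Fintype.card F)) (hq : 5 ≤ Fintype.card F)
    (χ : Matrix.SpecialLinearGroup (Fin 2) F → ℂ) (hχ : Cfsg.IsIrrCharacter (Matrix.SpecialLinearGroup (Fin 2) F) χ) (g : Matrix.SpecialLinearGroup (Fin 2) F) :
    (χ 1 = (((Fintype.card F + 1) / 2 : ℕ) : ℂ) → (g : Matrix (Fin 2) (Fin 2) F) 0 1 = 0 → (g : Matrix (Fin 2) (Fin 2) F) 1 0 = 0 → (g : Matrix (Fin 2) (Fin 2) F) 0 0 ^ 2 ≠ 1 →
      (IsSquare ((g : Matrix (Fin 2) (Fin 2) F) 0 0) → χ g = 1) ∧ (¬ IsSquare ((g : Matrix (Fin 2) (Fin 2) F) 0 0) → χ g = -1)) ∧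
    (χ 1 = (((Fintype.card F - 1) / 2 : ℕ) : ℂ) → (∀ (c : F) (v : Fin 2 → F), v ≠ 0 → (g : Matrix (Fin 2) (Fin 2) F).mulVec v ≠ c • v) →
      (((g ^ ((Fintype.card F + 1) / 2)) : Matrix (Fin 2) (Fin 2) F) = 1 → χ g = -1) ∧ (((g ^ ((Fintype.card F + 1) / 2)) : Matrix (Fin 2) (Fin 2) F) ≠ 1 → χ g = 1)) := by
  classical
  obtain ⟨m, hm⟩ := hodd
  refine ⟨fun h h1 h2 h3 => ?_, fun h h0 => ?_⟩
  · obtain ⟨g0, h0⟩ := exists_ell_SL F
    haveI : Fact (Ell _) := ⟨h0⟩
    rcases irr_SL2' (Matrix.SpecialLinearGroup.toGL g0) hχ h with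
      ⟨e, -⟩ | ⟨e, -⟩ | ⟨e, -⟩ | ⟨e, -⟩ | ⟨-, α, χ', a1, a2, H⟩ | ⟨e, -⟩
    any_goals omega
    obtain ⟨a, x, rfl⟩ := exists_us h2
    have e : a ≠ a⁻¹ := fun e => h3 (eq_inv_iff_sq.1 e)
    have := H.two_mul (Or.inl (tr_us_sq e x))
    rw [RS_us, nn, if_neg e, mc_sq_apply a1 a2, mc_sq_apply a1 a2] at this
    simp only [Units.val_inv_eq_inv_val, isSquare_inv] at this
    change (IsSquare (a : F) → _) ∧ (¬ IsSquare (a : F) → _)
    exact ⟨fun e => by rw [if_pos e] at this; linear_combination this / 2,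
      fun e => by rw [if_neg e] at this; linear_combination this / 2⟩
  · haveI h0' : Fact (Ell (Matrix.SpecialLinearGroup.toGL g)) := ⟨ell_iff.2 h0⟩
    rcases irr_SL2' (Matrix.SpecialLinearGroup.toGL g) hχ h with
      ⟨e, -⟩ | ⟨e, -⟩ | ⟨e, -⟩ | ⟨e, -⟩ | ⟨e, -⟩ | ⟨-, η, χ', a1, a2, H⟩
    any_goals omega
    have := H.two_mul (Or.inl (h0'.out.tr_sq_ne H.odd))
    have hc : Nat.card (K1 (Matrix.SpecialLinearGroup.toGL g)) = 2 * ((Fintype.card F + 1) / 2) := by
      rw [card_K1]; omega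
    rw [CS_kc, lin_sq_apply hc a1 a2, lin_sq_apply hc a1 a2] at this
    simp only [inv_pow, inv_eq_one, kc_pow_eq_one] at this
    exact ⟨fun e => by rw [if_pos (show g ^ _ = 1 from Subtype.ext (by simpa using e))] at this; linear_combination this / 2,
      fun e => by
        rw [if_neg (fun e' : g ^ _ = 1 => e (by rw [← Matrix.SpecialLinearGroup.coe_pow, e']; rfl))] at this
        linear_combination this / 2⟩

end Cfsg.Agent.S2435
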