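import Cfsg.Statements.S2437
import Mathlib
import Cfsg.Agent.H7.GL2d

set_option autoImplicit false
open Cfsg

namespace Cfsg.Agent.S2437

open Cfsg.Agent.H3 Cfsg.Agent.H4 Cfsg.Agent.H7 Finset

theorem isConj_iff' {F : Type*} [Field F] {a a' : Fˣ} {x x' : F} :
    IsConj (b1Equiv (a, x)) (b1Equiv (a', x')) ↔
      a = a' ∧ ∃ (b : Fˣ) (y : F), x' = b ^ 2 * x + b * y * ((a⁻¹ : Fˣ) - a) := by
  rw [isConj_iff]
  constructor
  · rintro ⟨c, hc⟩
    obtain ⟨⟨b, y⟩, rfl⟩ := b1Equiv.surjective c
    have := us_inj.1 ((us_conj a b x y).symm.trans (congrArg Subtype.val hc))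
    exact ⟨this.1, b, y, this.2.symm⟩
  · rintro ⟨rfl, b, y, rfl⟩
    exact ⟨b1Equiv (b, y), Subtype.ext (us_conj a b x y)⟩

/-- Over a finite field F with q elements, q odd, the upper triangular subgroup of SL₂ (a Borel subgroup, of order q(q − 1)) has exactly q + 3 conjugacy classes. -/
theorem result {F : Type*} [Field F] [Fintype F] (hodd : Odd (Fintype.card F)) :
    Nat.card (ConjClasses ((Cfsg.upperTriangularGL 2 F).comap Matrix.SpecialLinearGroup.toGL)) = Fintype.card F + 3 := by
  classical
  have h2 := odd_card_iff.1 hodd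
  let φ : Fˣ × F → Fˣ × ℤ := fun v => (v.1, if v.1 = v.1⁻¹ then quadraticChar F v.2 else 0)
  have key : IsConj.setoid (B1 F) = Setoid.ker (φ ∘ b1Equiv.symm) := by
    ext u v
    obtain ⟨⟨a, x⟩, rfl⟩ := b1Equiv.surjective u
    obtain ⟨⟨a', x'⟩, rfl⟩ := b1Equiv.surjective v
    refine isConj_iff'.trans ?_
    simp only [Setoid.ker_def, Function.comp, Equiv.symm_apply_apply, φ, Prod.ext_iff]
    refine and_congr_right ?_
    rintro rfl
    split_ifs with h
    · rw [← h, sub_self]
      constructor
      · rintro ⟨b, y, rfl⟩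
        rw [mul_zero, add_zero, map_mul, quadraticChar_sq_one' b.ne_zero, one_mul]
      · intro e
        by_cases hx : x = 0
        · subst hx
          rw [MulChar.map_zero, eq_comm, quadraticChar_eq_zero_iff] at e
          exact ⟨1, 0, by simp [e]⟩
        · have hx' : x' ≠ 0 := by
            rintro rfl
            exact hx (quadraticChar_eq_zero_iff.1 (e.trans (MulChar.map_zero _)))
          obtain ⟨c, hc⟩ := (quadraticChar_one_iff_isSquare (mul_ne_zero hx hx')).1
            (by rw [map_mul, e, ← pow_two, quadraticChar_sq_one hx'])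
          have hc0 : c ≠ 0 := by rintro rfl; exact mul_ne_zero hx hx' (by simpa using hc)
          refine ⟨Units.mk0 (c / x) (div_ne_zero hc0 hx), 0, ?_⟩
          simp only [Units.val_mk0]
          field_simp
          linear_combination hc
    · refine ⟨fun _ => rfl, fun _ => ⟨1, (x' - x) / ((a⁻¹ : Fˣ) - a), ?_⟩⟩
      have : ((a⁻¹ : Fˣ) : F) - a ≠ 0 := sub_ne_zero.2 fun e => h (Units.ext e.symm)
      field_simp
      simp
  have h3 : Set.range (φ ∘ b1Equiv.symm) =
      ((univ ×ˢ {0} ∪ {1, -1} ×ˢ {1, -1} : Finset (Fˣ × ℤ)) : Set _) := by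
    rw [b1Equiv.symm.surjective.range_comp]
    ext ⟨a, n⟩
    simp only [Set.mem_range, φ, Prod.exists, Prod.ext_iff, coe_union, Set.mem_union, mem_coe, mem_product,
      mem_univ, true_and, mem_singleton, mem_insert, ← eq_inv_iff_units]
    constructor
    · rintro ⟨_, x, rfl, rfl⟩
      split_ifs with h
      · by_cases hx : x = 0
        · simp [hx]
        · exact Or.inr ⟨h, quadraticChar_dichotomy hx⟩
      · simp
    · rintro (rfl | ⟨h, rfl | rfl⟩)
      · exact ⟨a, 0, rfl, by simp⟩
      · exact ⟨a, 1, rfl, by simp [← h]⟩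
      · obtain ⟨b, hb⟩ := exists_nonsquare_unit h2
        exact ⟨a, b, rfl, by rw [if_pos h, quadraticChar_neg_one_iff_not_isSquare.2 hb]⟩
  change Nat.card (Quotient (IsConj.setoid (B1 F))) = _
  have h4 : (1 : Fˣ) ≠ -1 := fun e => h2 (by have := congrArg Units.val e; simp at this; linear_combination this)
  rw [key, Nat.card_congr (Setoid.quotientKerEquivRange _), h3]
  simp only [coe_sort_coe, Nat.card_eq_finsetCard]
  rw [card_union_of_disjoint (by simp [disjoint_left]), card_product, card_product, Finset.card_pair h4, card_univ,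
    Fintype.card_units]
  have := Fintype.card_pos (α := F)
  simp; omega

end Cfsg.Agent.S2437
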