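import Cfsg.Statements.S2438
import Mathlib
import Cfsg.Agent.H7.GL2c

set_option autoImplicit false
open Cfsg

namespace Cfsg.Agent.S2438

open Cfsg.Agent.H3 Cfsg.Agent.H4 Cfsg.Agent.H7

/-- Let F be a finite field with q elements, q odd, q ≥ 5, U the upper unitriangular subgroup of SL₂ over F, and χ an irreducible complex character. The sum of the values of χ over U equals 2q, q, 0, q, 0 according as the degree of χ is q + 1, q, q − 1, (q + 1)/2, (q − 1)/2; so among these five degrees the sum vanishes exactly for the degrees q − 1 and (q − 1)/2, i.e. the irreducible characters of those two degrees are the ones whose restriction to U does not contain the trivial character (the cuspidal characters), while those of degree q + 1, q and (q + 1)/2 are not cuspidal. -/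
theorem result {F : Type*} [Field F] [Fintype F] [DecidableEq F] (hodd : Odd (Fintype.card F)) (hq : 5 ≤ Fintype.card F)
    (χ : Matrix.SpecialLinearGroup (Fin 2) F → ℂ) (hχ : Cfsg.IsIrrCharacter (Matrix.SpecialLinearGroup (Fin 2) F) χ) :
    (χ 1 = (Fintype.card F : ℂ) + 1 →
      (∑ g : Matrix.SpecialLinearGroup (Fin 2) F, if (g : Matrix (Fin 2) (Fin 2) F) 1 0 = 0 ∧ (g : Matrix (Fin 2) (Fin 2) F) 0 0 = 1 ∧ (g : Matrix (Fin 2) (Fin 2) F) 1 1 = 1 then χ g else 0) = 2 * (Fintype.card F : ℂ)) ∧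
    (χ 1 = (Fintype.card F : ℂ) →
      (∑ g : Matrix.SpecialLinearGroup (Fin 2) F, if (g : Matrix (Fin 2) (Fin 2) F) 1 0 = 0 ∧ (g : Matrix (Fin 2) (Fin 2) F) 0 0 = 1 ∧ (g : Matrix (Fin 2) (Fin 2) F) 1 1 = 1 then χ g else 0) = (Fintype.card F : ℂ)) ∧
    (χ 1 = (Fintype.card F : ℂ) - 1 →
      (∑ g : Matrix.SpecialLinearGroup (Fin 2) F, if (g : Matrix (Fin 2) (Fin 2) F) 1 0 = 0 ∧ (g : Matrix (Fin 2) (Fin 2) F) 0 0 = 1 ∧ (g : Matrix (Fin 2) (Fin 2) F) 1 1 = 1 then χ g else 0) = 0) ∧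
    (χ 1 = (((Fintype.card F + 1) / 2 : ℕ) : ℂ) →
      (∑ g : Matrix.SpecialLinearGroup (Fin 2) F, if (g : Matrix (Fin 2) (Fin 2) F) 1 0 = 0 ∧ (g : Matrix (Fin 2) (Fin 2) F) 0 0 = 1 ∧ (g : Matrix (Fin 2) (Fin 2) F) 1 1 = 1 then χ g else 0) = (Fintype.card F : ℂ)) ∧
    (χ 1 = (((Fintype.card F - 1) / 2 : ℕ) : ℂ) →
      (∑ g : Matrix.SpecialLinearGroup (Fin 2) F, if (g : Matrix (Fin 2) (Fin 2) F) 1 0 = 0 ∧ (g : Matrix (Fin 2) (Fin 2) F) 0 0 = 1 ∧ (g : Matrix (Fin 2) (Fin 2) F) 1 1 = 1 then χ g else 0) = 0) := by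
  obtain ⟨g0, h0⟩ := exists_ell_SL F
  haveI : Fact (Ell _) := ⟨h0⟩
  obtain ⟨m, hm⟩ := hodd
  rw [sum_up_eq]
  refine ⟨fun h => ?_, fun h => ?_, fun h => ?_, fun h => ?_, fun h => ?_⟩
  · rcases irr_SL2' (Matrix.SpecialLinearGroup.toGL g0) hχ (n := Fintype.card F + 1) (by simpa using h) with
      ⟨e, -⟩ | ⟨e, -⟩ | ⟨-, α, -, rfl⟩ | ⟨e, -⟩ | ⟨e, -⟩ | ⟨e, -⟩
    any_goals omega
    rw [sum_up_of fun _ => RS_up α, RS_one]; ring
  · rcases irr_SL2' (Matrix.SpecialLinearGroup.toGL g0) hχ h with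
      ⟨e, -⟩ | ⟨-, rfl⟩ | ⟨e, -⟩ | ⟨e, -⟩ | ⟨e, -⟩ | ⟨e, -⟩
    any_goals omega
    rw [sum_up_of fun _ => StS_up, StS_one]; ring
  · rcases irr_SL2' (Matrix.SpecialLinearGroup.toGL g0) hχ (h.trans cast_q_sub.symm) with
      ⟨e, -⟩ | ⟨e, -⟩ | ⟨e, -⟩ | ⟨-, α, -, rfl⟩ | ⟨e, -⟩ | ⟨e, -⟩
    any_goals omega
    rw [sum_up_of fun _ => CS_up α, CS_one]; ring
  · rcases irr_SL2' (Matrix.SpecialLinearGroup.toGL g0) hχ h with
      ⟨e, -⟩ | ⟨e, -⟩ | ⟨e, -⟩ | ⟨e, -⟩ | ⟨-, α, χ', -, -, H⟩ | ⟨e, -⟩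
    any_goals omega
    have := H.two_sum_up
    rw [sum_up_of fun _ => RS_up α, RS_one] at this
    linear_combination this / 2
  · rcases irr_SL2' (Matrix.SpecialLinearGroup.toGL g0) hχ h with
      ⟨e, -⟩ | ⟨e, -⟩ | ⟨e, -⟩ | ⟨e, -⟩ | ⟨e, -⟩ | ⟨-, α, χ', -, -, H⟩
    any_goals omega
    have := H.two_sum_up
    rw [sum_up_of fun _ => CS_up α, CS_one] at this
    linear_combination this / 2

end Cfsg.Agent.S2438
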