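import Cfsg.Statements.S2439
import Mathlib
import Cfsg.Agent.H7.GL2d
import Cfsg.Agent.B.Defect

set_option autoImplicit false
open Cfsg

namespace Cfsg.Agent.S2439

open Cfsg.Agent.H3 Cfsg.Agent.H4 Cfsg.Agent.H7 Cfsg.Agent.B
open scoped MatrixGroups

section
variable {F : Type*} [Field F] [Fintype F] [DecidableEq F] {p : ℕ} [Fact p.Prime] [CharP F p]
  {M : Ideal Cfsg.AlgInt} [PMod p M]

theorem sign (χ : IrrCharacter SL(2, F)) : χ.1 (-1) = χ.1 1 ∨ χ.1 (-1) = -χ.1 1 := by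
  have h := χ.2.apply_one_ne_zero
  have := apply_mul_of_mem_charCenter h (χ.2.center_le_charCenter (mem_center_SL2.2 (Or.inr rfl))) (-1)
  rw [neg_mul_neg, one_mul] at this
  field_simp at this
  exact sq_eq_sq_iff_eq_or_eq_neg.1 this.symm

theorem cc_neg_one (χ : SL(2, F) → ℂ) : centralChar χ (-1) = χ (-1) / χ 1 := by
  rw [centralChar, Subgroup.centralizer_eq_top_iff_subset.2 (by
    simpa using mem_center_SL2.2 (Or.inr rfl))]
  simp

theorem red_cc {χ : IrrCharacter SL(2, F)} (h : ¬ p ∣ charDegree χ.1) (g : SL(2, F)) :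
    red M (centralChar χ.1 g) = 0 ∧ p ∣ (Subgroup.centralizer {g}).index ∨
    (∃ x, IsConj g (H4.up x) ∧ red M (centralChar χ.1 g) = (Subgroup.centralizer {g}).index) ∨
    ∃ x, IsConj g (-H4.up x) ∧
      red M (centralChar χ.1 g) = (Subgroup.centralizer {g}).index * red M (χ.1 (-1) / χ.1 1) := by
  have h1 : red M (χ.1 1) ≠ 0 := by rw [← χ.2.cast_charDegree]; exact red_natCast_ne_zero h
  have h2 : red M (centralChar χ.1 g) = (Subgroup.centralizer {g}).index * red M (χ.1 g) / red M (χ.1 1) := by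
    rw [centralChar, red_div (mul_mem (natCast_mem _ _) (irr_mem_O χ g)) h1,
      red_mul (natCast_mem _ _) (irr_mem_O χ g), red_natCast]
  by_cases h3 : p ∣ (Subgroup.centralizer {g}).index
  · exact Or.inl ⟨by rw [h2, (natCast_F_eq_zero_iff _).2 h3]; simp, h3⟩
  have h4 : p ∣ Nat.card (Subgroup.centralizer ({g} : Set SL(2, F))) :=
    ((Fact.out : p.Prime).dvd_mul.1 (by
      rw [Subgroup.card_mul_index, card_SL_two]; exact (char_dvd_card F p).mul_right _)).resolve_right h3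
  obtain ⟨y, hy⟩ := exists_prime_orderOf_dvd_card' p h4
  rw [← Subgroup.orderOf_coe] at hy
  have h5 : (y : SL(2, F)) ^ p = 1 := hy ▸ pow_orderOf_eq_one _
  obtain ⟨b, hb, hc⟩ := exists_isConj_up (x := (y : SL(2, F))) (fun e => by
    have := (cov_SL p).nop _ e h5
    rw [this, orderOf_one] at hy
    exact (Fact.out : p.Prime).one_lt.ne hy) (tr_eq_two_of_pow p h5)
  obtain ⟨s, hs⟩ := isConj_iff.1 hc.symm
  obtain ⟨x, hx⟩ := exists_up_of_comm (g := s * g * s⁻¹) hb (by
    rw [← hs]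
    have := Subgroup.mem_centralizer_singleton_iff.1 y.2
    calc _ = s * (g * y) * s⁻¹ := by group
      _ = _ := by rw [← this]; group)
  have hp : PElt p (H4.up x) := pElt_iff.2 ⟨1, by rw [pow_one, up_pow_char]⟩
  rcases hx with hx | hx
  · refine Or.inr (Or.inl ⟨x, isConj_iff.2 ⟨s, hx⟩, ?_⟩)
    rw [h2, ← χ.2.isClassFunction.conj_apply g s, hx, ← mul_one (H4.up x),
      red_mul_eq χ.2.isCharacter hp (Commute.one_right _), mul_div_cancel_right₀ _ h1]
  · refine Or.inr (Or.inr ⟨x, isConj_iff.2 ⟨s, hx⟩, ?_⟩)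
    rw [h2, ← χ.2.isClassFunction.conj_apply g s, hx, ← mul_neg_one (H4.up x),
      red_mul_eq χ.2.isCharacter hp (Commute.neg_one_right _), red_div (irr_mem_O χ _) h1, mul_div_assoc]

theorem same (h2 : (2 : F) ≠ 0) {χ ψ : IrrCharacter SL(2, F)} (h : ¬ p ∣ charDegree χ.1)
    (h' : ¬ p ∣ charDegree ψ.1) (e : χ.1 (-1) / χ.1 1 = ψ.1 (-1) / ψ.1 1) : SameBlock M χ.1 ψ.1 := by
  rw [sameBlock_iff χ.2 ψ.2]
  intro g
  have key : ∀ x y, IsConj g (H4.up x) → IsConj g (-H4.up y) → False := fun x y a b => by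
    have := (tr_of_isConj a).symm.trans (tr_of_isConj b)
    rw [tr_neg, tr_up, tr_up] at this
    exact mul_ne_zero h2 h2 (by linear_combination this)
  rcases red_cc (M := M) h g with ⟨a, b⟩ | ⟨x, a, b⟩ | ⟨x, a, b⟩ <;>
    rcases red_cc (M := M) h' g with ⟨c, d⟩ | ⟨y, c, d⟩ | ⟨y, c, d⟩
  · rw [a, c]
  · rw [a, d, (natCast_F_eq_zero_iff _).2 b]
  · rw [a, d, (natCast_F_eq_zero_iff _).2 b, zero_mul]
  · rw [b, c, (natCast_F_eq_zero_iff _).2 d]
  · rw [b, d]
  · exact (key _ _ a c).elim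
  · rw [b, c, (natCast_F_eq_zero_iff _).2 d, zero_mul]
  · exact (key _ _ c a).elim
  · rw [b, d, e]

theorem defect {B : Set (IrrCharacter SL(2, F))} (hB : IsPBlock M B) {χ : IrrCharacter SL(2, F)} (hχ : χ ∈ B)
    (h : ¬ p ∣ charDegree χ.1) (P : Sylow p SL(2, F)) : IsDefectGroup p M B P := by
  obtain ⟨D, hD⟩ := hB.exists_defectGroup
  have h1 := nu_add_blockDefect (p := p) hχ
  rw [blockHeight_eq_zero_of_not_dvd h, nu, Nat.factorization_eq_zero_of_not_dvd h, zero_add, add_zero] at h1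
  obtain ⟨g, hg⟩ := H2.exists_cj_le_sylow P hD.isPGroup
  rw [← Subgroup.eq_of_le_of_card_ge hg (by rw [H2.card_cj, hD.card_eq_pow hB.closed, h1, P.card_eq_multiplicity])]
  exact hD.cj g

end

/-- Let F be a finite field with q elements of odd characteristic p, and M a maximal ideal of the algebraic integers containing p. Then SL₂ over F has exactly three p-blocks relative to M: the irreducible character of degree q (the Steinberg character) alone; the other irreducible characters taking the same value at −1 as at 1 (the principal block); and the irreducible characters χ with χ(−1) = −χ(1). Every Sylow p-subgroup is a defect group of each of the last two blocks. -/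
theorem result {F : Type*} [Field F] [Fintype F] (p : ℕ) [Fact p.Prime] [CharP F p] (hp : p ≠ 2)
    (M : Ideal Cfsg.AlgInt) (hM : Cfsg.IsPModular p M) :
    (∀ B : Set (Cfsg.IrrCharacter (Matrix.SpecialLinearGroup (Fin 2) F)), Cfsg.IsPBlock M B ↔
      (B = {χ : Cfsg.IrrCharacter (Matrix.SpecialLinearGroup (Fin 2) F) | (χ : Matrix.SpecialLinearGroup (Fin 2) F → ℂ) 1 = (Fintype.card F : ℂ)} ∨
       B = {χ : Cfsg.IrrCharacter (Matrix.SpecialLinearGroup (Fin 2) F) | (χ : Matrix.SpecialLinearGroup (Fin 2) F → ℂ) (-1) = (χ : Matrix.SpecialLinearGroup (Fin 2) F → ℂ) 1 ∧ (χ : Matrix.SpecialLinearGroup (Fin 2) F → ℂ) 1 ≠ (Fintype.card F : ℂ)} ∨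
       B = {χ : Cfsg.IrrCharacter (Matrix.SpecialLinearGroup (Fin 2) F) | (χ : Matrix.SpecialLinearGroup (Fin 2) F → ℂ) (-1) = -(χ : Matrix.SpecialLinearGroup (Fin 2) F → ℂ) 1})) ∧
    Nat.card {B : Set (Cfsg.IrrCharacter (Matrix.SpecialLinearGroup (Fin 2) F)) // Cfsg.IsPBlock M B} = 3 ∧
    ∀ P : Sylow p (Matrix.SpecialLinearGroup (Fin 2) F),
      Cfsg.IsDefectGroup p M {χ : Cfsg.IrrCharacter (Matrix.SpecialLinearGroup (Fin 2) F) | (χ : Matrix.SpecialLinearGroup (Fin 2) F → ℂ) (-1) = (χ : Matrix.SpecialLinearGroup (Fin 2) F → ℂ) 1 ∧ (χ : Matrix.SpecialLinearGroup (Fin 2) F → ℂ) 1 ≠ (Fintype.card F : ℂ)} (P : Subgroup (Matrix.SpecialLinearGroup (Fin 2) F)) ∧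
      Cfsg.IsDefectGroup p M {χ : Cfsg.IrrCharacter (Matrix.SpecialLinearGroup (Fin 2) F) | (χ : Matrix.SpecialLinearGroup (Fin 2) F → ℂ) (-1) = -(χ : Matrix.SpecialLinearGroup (Fin 2) F → ℂ) 1} (P : Subgroup (Matrix.SpecialLinearGroup (Fin 2) F)) := by
  classical
  haveI : PMod p M := ⟨hM⟩
  have h2 : (2 : F) ≠ 0 := fun e => hp ((Nat.prime_dvd_prime_iff_eq Fact.out Nat.prime_two).1
    ((CharP.cast_eq_zero_iff F p 2).1 (by exact_mod_cast e)))
  let St : IrrCharacter SL(2, F) := ⟨StS F, irr_StS⟩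
  have a1 : ∀ χ : IrrCharacter SL(2, F), χ.1 1 = Fintype.card F ↔ χ = St := fun χ =>
    ⟨fun e => Subtype.ext (eq_StS_of_dvd p χ.2 (by rw [charDegree_eq e]; exact char_dvd_card F p)),
      by rintro rfl; exact StS_one⟩
  have a2 : ∀ χ : IrrCharacter SL(2, F), χ ≠ St → ¬ p ∣ charDegree χ.1 := fun χ h e =>
    h (Subtype.ext (eq_StS_of_dvd p χ.2 e))
  have a3 : blockOf M St.1 = {St} := blockOf_eq_singleton_iff.2 (by
    have h1 : 1 < Fintype.card F := Fintype.one_lt_card
    rw [nu, deg_StS, card_SL_two, sq_sub_one_eq, Nat.factorization_mul (by omega) (by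
      exact mul_ne_zero (by omega) (by omega)), Finsupp.add_apply, Nat.factorization_eq_zero_of_not_dvd
        (n := _ * _) fun e => ((Fact.out : p.Prime).dvd_mul.1 e).elim (coprime_succ p) (coprime_pred p), add_zero])
  have a4 : ∀ χ ψ : IrrCharacter SL(2, F), χ ≠ St →
      (ψ ∈ blockOf M χ.1 ↔ ψ ≠ St ∧ χ.1 (-1) / χ.1 1 = ψ.1 (-1) / ψ.1 1) := fun χ ψ hχ => by
    refine ⟨fun h => ⟨?_, ?_⟩, fun h => same h2 (a2 χ hχ) (a2 ψ h.1) h.2⟩
    · rintro rfl
      have := self_mem_blockOf (M := M) χ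
      rw [(isPBlock_blockOf χ).eq_blockOf h, a3] at this
      exact hχ this
    · have := (sameBlock_iff χ.2 ψ.2).1 h (-1)
      rw [cc_neg_one, cc_neg_one] at this
      have h3 : (2 : B.F M) ≠ 0 := fun e => hp ((Nat.prime_dvd_prime_iff_eq Fact.out Nat.prime_two).1
        ((natCast_F_eq_zero_iff 2).1 (by exact_mod_cast e)))
      rcases sign χ with e | e <;> rcases sign ψ with e' | e' <;>
        simp only [e, e', neg_div, div_self χ.2.apply_one_ne_zero, div_self ψ.2.apply_one_ne_zero,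
          red_neg, red_one] at this ⊢
      · exact absurd (by linear_combination this) h3
      · exact absurd (by linear_combination -this) h3
  have a5 : ∀ χ : IrrCharacter SL(2, F), χ.1 (-1) = -χ.1 1 → χ ≠ St := by
    rintro _ e rfl
    exact mul_ne_zero two_ne_zero (q_ne_zero (F := F)) (by
      simp only [St, StS_one, StS_neg_one] at e; linear_combination e)
  have b1 : {χ : IrrCharacter SL(2, F) | χ.1 1 = Fintype.card F} = blockOf M St.1 := by
    rw [a3]; ext χ; exact a1 χ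
  have b2 : ∀ χ : IrrCharacter SL(2, F), χ ≠ St → χ.1 (-1) = χ.1 1 →
      {χ : IrrCharacter SL(2, F) | χ.1 (-1) = χ.1 1 ∧ χ.1 1 ≠ Fintype.card F} = blockOf M χ.1 := fun χ h e => by
    ext ψ
    rw [a4 χ ψ h, e, div_self χ.2.apply_one_ne_zero, eq_div_iff ψ.2.apply_one_ne_zero, one_mul, Set.mem_setOf_eq,
      Ne, a1, and_comm, eq_comm (a := ψ.1 1)]
  have b3 : ∀ χ : IrrCharacter SL(2, F), χ.1 (-1) = -χ.1 1 →
      {χ : IrrCharacter SL(2, F) | χ.1 (-1) = -χ.1 1} = blockOf M χ.1 := fun χ e => by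
    ext ψ
    rw [a4 χ ψ (a5 χ e), e, neg_div, div_self χ.2.apply_one_ne_zero, eq_div_iff ψ.2.apply_one_ne_zero,
      neg_one_mul, Set.mem_setOf_eq, eq_comm, iff_and_self]
    exact fun e => a5 ψ e.symm
  have c1 : oneIrr SL(2, F) ≠ St := fun e => q_sub_ne_zero (F := F) (by
    have := (a1 _).2 e; simp only [oneIrr] at this; linear_combination -this)
  obtain ⟨χ0, c2⟩ : ∃ χ : IrrCharacter SL(2, F), χ.1 (-1) = -χ.1 1 := by
    by_contra hn
    exact neg_one_ne_one_SL h2 (eq_one_of_forall_irr fun χ hχ =>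
      (sign ⟨χ, hχ⟩).resolve_right fun e => hn ⟨_, e⟩)
  have d2 := b2 _ c1 rfl
  have d3 := b3 _ c2
  have main : ∀ B : Set (IrrCharacter SL(2, F)), IsPBlock M B ↔
      B = blockOf M St.1 ∨ B = blockOf M (oneIrr SL(2, F)).1 ∨ B = blockOf M χ0.1 := fun B => by
    constructor
    · rintro ⟨χ, rfl⟩
      by_cases h : χ = St
      · exact Or.inl (by rw [h])
      · rcases sign χ with e | e
        · exact Or.inr (Or.inl ((b2 χ h e).symm.trans d2))
        · exact Or.inr (Or.inr ((b3 χ e).symm.trans d3))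
    · rintro (rfl | rfl | rfl) <;> exact isPBlock_blockOf _
  rw [b1, d2, d3]
  refine ⟨main, ?_, fun P => ⟨defect (isPBlock_blockOf _) (self_mem_blockOf _) (a2 _ c1) P,
    defect (isPBlock_blockOf _) (self_mem_blockOf _) (a2 _ (a5 _ c2)) P⟩⟩
  change Set.ncard {B | IsPBlock M B} = 3
  rw [Set.ncard_eq_three]
  refine ⟨_, _, _, fun e => ?_, fun e => ?_, fun e => ?_, Set.ext main⟩
  · exact c1 (a3.subset (e.symm.subset (self_mem_blockOf _)))
  · exact a5 _ c2 (a3.subset (e.symm.subset (self_mem_blockOf _)))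
  · have := d3.symm.subset (e.subset (self_mem_blockOf _))
    simp only [oneIrr, Set.mem_setOf_eq] at this
    norm_num at this

end Cfsg.Agent.S2439
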