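import Cfsg.Statements.S2532
import Cfsg.Agent.H9.TJ

set_option autoImplicit false
open Cfsg

namespace Cfsg.Agent.S2532

open Cfsg.Agent Cfsg.Agent.H9
open MulAction in
theorem exists_pts {Γ Ω : Type*} [Group Γ] [Finite Γ] [Fintype Ω] [MulAction Γ Ω] (r : ℕ)
    (h : 2 ^ Nat.card Γ * (Nat.card Γ * r) + 1 ≤ Fintype.card Ω) :
    ∃ (K : Subgroup Γ) (e : Fin r → Ω), (∀ i, stabilizer Γ (e i) = K) ∧
      ∀ i j (g : Γ), g • e i = e j → i = j := by
  classical
  haveI := Fintype.ofFinite Γ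
  haveI := Fintype.ofFinite (Subgroup Γ)
  have hc : Fintype.card (Subgroup Γ) ≤ 2 ^ Nat.card Γ := by
    rw [Nat.card_eq_fintype_card, ← Fintype.card_set]
    exact Fintype.card_le_of_injective _ SetLike.coe_injective
  obtain ⟨K, hK⟩ := Fintype.exists_lt_card_fiber_of_mul_lt_card (fun x : Ω => stabilizer Γ x)
    (n := Nat.card Γ * r) (lt_of_le_of_lt (Nat.mul_le_mul_right _ hc) (by omega))
  set X := Finset.univ.filter (fun x : Ω => stabilizer Γ x = K) with hX
  let q : Ω → orbitRel.Quotient Γ Ω := Quotient.mk''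
  have h1 : X.card ≤ Nat.card Γ * (X.image q).card := by
    refine Finset.card_le_mul_card_image X _ fun a ha => ?_
    obtain ⟨x, -, rfl⟩ := Finset.mem_image.1 ha
    rw [Nat.card_eq_fintype_card, ← Finset.card_univ]
    refine le_trans (Finset.card_le_card (t := Finset.univ.image (fun g : Γ => g • x)) ?_) Finset.card_image_le
    intro y hy
    obtain ⟨g, hg⟩ := Quotient.exact (Finset.mem_filter.1 hy).2
    exact Finset.mem_image.2 ⟨g, Finset.mem_univ _, hg⟩
  have h2 : r ≤ (X.image q).card := by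
    by_contra hn
    have := Nat.mul_le_mul_left (Nat.card Γ) (not_le.1 hn).le
    omega
  obtain ⟨f⟩ : Nonempty (Fin r ↪ (X.image q)) :=
    Function.Embedding.nonempty_of_card_le (by rwa [Fintype.card_fin, Fintype.card_coe])
  have h3 : ∀ i, ∃ x ∈ X, q x = f i := fun i => Finset.mem_image.1 (f i).2
  choose e he hq using h3
  refine ⟨K, e, fun i => (Finset.mem_filter.1 (he i)).2, fun i j g hg => f.injective (Subtype.ext ?_)⟩
  rw [← hq, ← hq]
  exact (Quotient.sound' (show orbitRel Γ Ω (e j) (e i) from ⟨g, hg⟩)).symm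

/-- There is a function `f` of two natural-number arguments such that, whenever `m ≥ f(n, r)`, every subgroup of order `n` of the alternating group of degree `m` centralizes some subgroup of that alternating group isomorphic to the alternating group of degree `r`. -/
theorem result :
    ∃ f : ℕ → ℕ → ℕ, ∀ (m r : ℕ) (H : Subgroup ↥(alternatingGroup (Fin m))), f (Nat.card H) r ≤ m →
      ∃ K : Subgroup ↥(alternatingGroup (Fin m)), Nonempty (↥K ≃* ↥(alternatingGroup (Fin r))) ∧
        K ≤ Subgroup.centralizer (H : Set ↥(alternatingGroup (Fin m))) := by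
  classical
  refine ⟨fun n r => 2 ^ n * (n * r) + 1, fun m r H hm => ?_⟩
  obtain ⟨K, e, hK, he⟩ := exists_pts (Γ := H) (Ω := Fin m) r (by simpa using hm)
  have hw : ∀ i, ∀ a b : H, a • e i = b • e i ↔ a⁻¹ * b ∈ K := by
    intro i a b
    rw [← hK i, MulAction.mem_stabilizer_iff, mul_smul, inv_smul_eq_iff, eq_comm]
  let ι0 : (H ⧸ K) × Fin r → Fin m := fun p => Quotient.liftOn' p.1 (fun h => h • e p.2)
    (fun a b hab => (hw _ a b).2 (QuotientGroup.leftRel_apply.1 hab))
  have hι0 : ∀ (h : H) i, ι0 (QuotientGroup.mk h, i) = h • e i := fun _ _ => rfl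
  have hinj : Function.Injective ι0 := by
    rintro ⟨a, i⟩ ⟨b, j⟩ hab
    obtain ⟨a, rfl⟩ := QuotientGroup.mk_surjective a
    obtain ⟨b, rfl⟩ := QuotientGroup.mk_surjective b
    rw [hι0, hι0] at hab
    have hij : i = j := he i j (b⁻¹ * a) (by rw [mul_smul, hab, inv_smul_smul])
    subst hij
    exact Prod.ext (QuotientGroup.eq.2 ((hw i a b).1 hab)) rfl
  let ι : (H ⧸ K) × Fin r ↪ Fin m := ⟨ι0, hinj⟩
  let φ0 : Equiv.Perm (Fin r) →* Equiv.Perm ((H ⧸ K) × Fin r) :=
    { toFun := fun σ => Equiv.prodCongr (Equiv.refl _) σ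
      map_one' := rfl
      map_mul' := fun _ _ => rfl }
  have hφ0 : Function.Injective φ0 := by
    intro σ τ h
    ext i
    have := congrArg (fun ρ : Equiv.Perm ((H ⧸ K) × Fin r) => (ρ (QuotientGroup.mk 1, i)).2) h
    exact congrArg Fin.val this
  let φ : Equiv.Perm (Fin r) →* Equiv.Perm (Fin m) := (Equiv.Perm.viaEmbeddingHom ι).comp φ0
  have hφ : Function.Injective φ := (Equiv.Perm.viaEmbeddingHom_injective ι).comp hφ0
  have hev : ∀ σ ∈ alternatingGroup (Fin r), φ σ ∈ alternatingGroup (Fin m) := by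
    intro σ hσ
    rw [← Equiv.Perm.closure_three_cycles_eq_alternating] at hσ
    induction hσ using Subgroup.closure_induction with
    | mem x hx =>
      have h3 : (φ x) ^ 3 = 1 := by
        rw [← map_pow, ← (show Equiv.Perm.IsThreeCycle x from hx).orderOf, pow_orderOf_eq_one, map_one]
      have := congrArg Equiv.Perm.sign h3
      rw [map_pow, map_one] at this
      rw [Equiv.Perm.mem_alternatingGroup]
      rcases Int.units_eq_one_or (Equiv.Perm.sign (φ x)) with h | h
      · exact h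
      · rw [h] at this; exact absurd this (by decide)
    | one => simp
    | mul x y _ _ hx hy => rw [map_mul]; exact mul_mem hx hy
    | inv x _ hx => rw [map_inv]; exact inv_mem hx
  let ψ : alternatingGroup (Fin r) →* alternatingGroup (Fin m) :=
    (φ.comp (alternatingGroup (Fin r)).subtype).codRestrict _ (fun σ => hev σ σ.2)
  have hψ : Function.Injective ψ := fun a b h => Subtype.ext (hφ (congrArg Subtype.val h))
  refine ⟨ψ.range, ⟨(MonoidHom.ofInjective hψ).symm⟩, ?_⟩
  rintro _ ⟨σ, rfl⟩ h hh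
  refine Subtype.ext (Equiv.ext fun y => ?_)
  show (⟨h, hh⟩ : H) • (Equiv.Perm.viaEmbedding (φ0 σ) ι y) = Equiv.Perm.viaEmbedding (φ0 σ) ι ((⟨h, hh⟩ : H) • y)
  generalize (⟨h, hh⟩ : H) = g
  have hι : ∀ (a : H) i, ι (QuotientGroup.mk a, i) = a • e i := fun _ _ => rfl
  by_cases hy : y ∈ Set.range ι
  · obtain ⟨⟨a, i⟩, rfl⟩ := hy
    obtain ⟨a, rfl⟩ := QuotientGroup.mk_surjective a
    rw [Equiv.Perm.viaEmbedding_apply, hι, ← mul_smul, ← hι, Equiv.Perm.viaEmbedding_apply]
    show g • ι (QuotientGroup.mk a, _) = ι (QuotientGroup.mk (g * a), _)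
    rw [hι, hι, mul_smul]
  · rw [Equiv.Perm.viaEmbedding_apply_of_notMem _ _ _ hy, Equiv.Perm.viaEmbedding_apply_of_notMem]
    rintro ⟨⟨a, i⟩, h1⟩
    obtain ⟨a, rfl⟩ := QuotientGroup.mk_surjective a
    exact hy ⟨(QuotientGroup.mk (g⁻¹ * a), i), by rw [hι, mul_smul, ← hι, h1, inv_smul_smul]⟩

end Cfsg.Agent.S2532
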