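import Cfsg.Statements.S2533
import Cfsg.Agent.H4.Linear

set_option autoImplicit false
open Cfsg

namespace Cfsg.Agent.S2533

open Matrix Matrix.SpecialLinearGroup

/-- generalized dihedral group -/
@[ext] structure Hp (p : ℕ) : Type where
  v : Fin 3 → ZMod p
  e : ℤˣ

instance (p : ℕ) : Mul (Hp p) := ⟨fun x y => ⟨x.1 + x.2 • y.1, x.2 * y.2⟩⟩
instance (p : ℕ) : One (Hp p) := ⟨⟨0, 1⟩⟩
instance (p : ℕ) : Inv (Hp p) := ⟨fun x => ⟨-(x.2⁻¹ • x.1), x.2⁻¹⟩⟩
instance (p : ℕ) : Group (Hp p) := Group.ofLeftAxioms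
  (fun x y z => Hp.ext (show x.1 + x.2 • y.1 + (x.2 * y.2) • z.1 = x.1 + x.2 • (y.1 + y.2 • z.1) by
    rw [smul_add, mul_smul, add_assoc]) (mul_assoc x.2 y.2 z.2))
  (fun x => Hp.ext (show 0 + (1 : ℤˣ) • x.1 = x.1 by simp) (one_mul x.2))
  fun x => Hp.ext (neg_add_cancel _) (inv_mul_cancel x.2)

/-- underlying product -/
def hpE (p : ℕ) : Hp p ≃ (Fin 3 → ZMod p) × ℤˣ := ⟨fun x => (x.1, x.2), fun x => ⟨x.1, x.2⟩, fun _ => rfl, fun _ => rfl⟩

variable {p m : ℕ}

/-- three arrows -/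
def L (m : ℕ) (v : Fin 3 → ZMod p) : Matrix (Fin (m + 1)) (Fin m) (ZMod p) := of fun i j =>
  (if i = j.castSucc then v 0 else 0) + (if i = j.succ then v 1 else 0) + if i = 0 ∧ j.1 = 1 then v 2 else 0

/-- block matrices -/
def X (m : ℕ) (x : Hp p) : Matrix (Fin m ⊕ Fin (m + 1)) (Fin m ⊕ Fin (m + 1)) (ZMod p) :=
  fromBlocks 1 0 (L m x.1) (x.2 • 1)

theorem X_mul (x y : Hp p) : X m (x * y) = X m x * X m y := by
  have : L m (x.1 + x.2 • y.1) = L m x.1 + x.2 • L m y.1 := by
    ext i j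
    simp only [L, of_apply, Matrix.add_apply, Matrix.smul_apply, Pi.add_apply, Pi.smul_apply, smul_add]
    simp only [smul_ite, smul_zero]
    grind
  show fromBlocks 1 0 (L m (x.1 + x.2 • y.1)) ((x.2 * y.2) • 1) = _
  simp [X, fromBlocks_multiply, this, mul_smul, smul_comm x.2]

/-- the representation -/
noncomputable def rep (hm : Even (m + 1)) : Hp p →* SpecialLinearGroup (Fin (m + (m + 1))) (ZMod p) :=
  MonoidHom.mk' (fun x => ⟨reindexAlgEquiv (ZMod p) (ZMod p) finSumFinEquiv (X m x), by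
    obtain h | h := Int.units_eq_one_or x.2 <;> simp [X, h, det_neg, hm]⟩) fun x y => Subtype.ext
      ((congrArg _ (X_mul x y)).trans (map_mul _ _ _))

theorem rep_coe (hm : Even (m + 1)) (x : Hp p) :
    (rep hm x).1 = reindexAlgEquiv (ZMod p) (ZMod p) finSumFinEquiv (X m x) := rfl

theorem trace_rep (hm : Even (m + 1)) (v : Fin 3 → ZMod p) : (rep hm ⟨v, -1⟩).1.trace = -1 := by
  rw [rep_coe, trace, ← finSumFinEquiv.sum_comp]
  simp [X]

theorem scalar_of {A : Matrix (Fin m) (Fin m) (ZMod p)} {D : Matrix (Fin (m + 1)) (Fin (m + 1)) (ZMod p)}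
    (h : ∀ v : Fin 3 → ZMod p, (L m v * A : Matrix (Fin (m + 1)) (Fin m) (ZMod p)) = D * L m v) : A = D 0 0 • 1 ∧ D = D 0 0 • 1 := by
  have h1 := fun i j => congrFun₂ (h (Pi.single 0 1)) i j
  have h2 := fun i j => congrFun₂ (h (Pi.single 1 1)) i j
  simp [L, Matrix.mul_apply] at h1 h2
  have h3 : ∀ i j, D i.castSucc j.castSucc = A i j := fun i j => by simp [← h1]
  have h4 : ∀ i j, D i.succ j.succ = A i j := fun i j => by simp [← h2]
  have h5 : ∀ i j, i ≤ j → D i j = if i = j then D 0 0 else 0 := fun i => by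
    induction i using Fin.induction with
    | zero => intro j _; cases j using Fin.cases <;> simp [← h2, (Fin.succ_ne_zero _).symm]
    | succ k ih =>
      intro j hj
      cases j using Fin.cases with
      | zero => simp at hj
      | succ l => rw [h4, ← h3, ih _ (by simpa using hj)]; simp
  have h6 : ∀ i j, j < i → D i j = 0 := fun i => by
    induction i using Fin.reverseInduction with
    | last => intro j hj; obtain ⟨j, rfl⟩ := Fin.exists_castSucc_eq.2 hj.ne; simp [← h1, (Fin.castSucc_ne_last _).symm]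
    | cast k ih =>
      intro j hj
      obtain ⟨j, rfl⟩ := Fin.exists_castSucc_eq.2 (hj.trans_le (Fin.le_last _)).ne
      rw [h3, ← h4, ih _ (by simpa using hj)]
  have h7 : ∀ i j, D i j = if i = j then D 0 0 else 0 := fun i j =>
    (le_or_gt i j).elim (h5 i j) fun h => by rw [h6 i j h, if_neg h.ne']
  exact ⟨ext fun i j => by simp [← h3, h7 i.castSucc, one_apply], ext fun i j => by simp [h7 i, one_apply]⟩

/-- For every odd prime `p` there is a finite group `H` of order `2p³` which, for infinitely many `n`, embeds in the projective special linear group `PSL(n, p)` as a subgroup with trivial centralizer. -/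
theorem result
    (p : ℕ) [Fact p.Prime] (hp : p ≠ 2) :
    ∃ (H : Type) (_ : Group H) (_ : Finite H), Nat.card H = 2 * p ^ 3 ∧
      ∀ N : ℕ, ∃ n, N ≤ n ∧ ∃ φ : H →* Matrix.ProjectiveSpecialLinearGroup (Fin n) (ZMod p),
        Function.Injective φ ∧ Subgroup.centralizer (φ.range : Set (Matrix.ProjectiveSpecialLinearGroup (Fin n) (ZMod p))) = ⊥ := by
  have h2 : (2 : ZMod p) ≠ 0 := by
    exact_mod_cast (ZMod.natCast_eq_zero_iff 2 p).not.2 fun h => hp ((Nat.prime_dvd_prime_iff_eq Fact.out Nat.prime_two).1 h)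
  refine ⟨Hp p, inferInstance, .of_equiv _ (hpE p).symm, by simp [Nat.card_congr (hpE p), mul_comm], fun N => ?_⟩
  obtain ⟨k, hk, hm⟩ : ∃ k, N ≤ k ∧ Even (k + 2 + 1) := ⟨2 * N + 1, by omega, N + 2, by ring⟩
  refine ⟨_, by omega, (QuotientGroup.mk' _).comp (rep hm), (injective_iff_map_eq_one _).2 fun x hx => ?_,
    eq_bot_iff.2 fun g hg => ?_⟩
  · obtain ⟨r, -, h⟩ := mem_center_iff.1 ((QuotientGroup.eq_one_iff _).1 hx)
    have h1 := fun i j => congrFun₂ h (finSumFinEquiv i) (finSumFinEquiv j)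
    simp only [rep_coe, reindexAlgEquiv_apply, reindex_apply, submatrix_apply, Equiv.symm_apply_apply,
      scalar_apply, diagonal_apply, EmbeddingLike.apply_eq_iff_eq] at h1
    have h3 := h1 (.inl 0) (.inl 0)
    have h4 := h1 (.inr 0) (.inr 0)
    have h5 := h1 (.inr 0) (.inl 0)
    have h6 := h1 (.inr 1) (.inl 0)
    have h7 := h1 (.inr 0) (.inl 1)
    simp [X, L] at h3 h4 h5 h6 h7
    refine Hp.ext (funext fun i => by fin_cases i; exacts [h5.symm, h6.symm, (zero_add _).symm.trans ((congrArg (· + x.1 2) (if_neg (Fin.succ_ne_zero 1).symm)).symm.trans h7.symm)])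
      ((Int.units_eq_one_or x.2).resolve_right fun e => h2 ?_)
    simp only [e, h3, Units.neg_smul, one_smul] at h4
    linear_combination h4
  obtain ⟨g, rfl⟩ := QuotientGroup.mk_surjective g
  obtain ⟨A, B, C, D, hG⟩ : ∃ A B C D, g.1 = reindexAlgEquiv (ZMod p) (ZMod p) finSumFinEquiv (fromBlocks A B C D) :=
    ⟨_, _, _, _, by rw [fromBlocks_toBlocks, AlgEquiv.apply_symm_apply]⟩
  have h1 : ∀ v, X _ ⟨v, -1⟩ * fromBlocks A B C D = fromBlocks A B C D * X _ ⟨v, -1⟩ := fun v => by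
    obtain ⟨r, -, h⟩ := mem_center_iff.1 (QuotientGroup.eq.1 (hg _ ⟨⟨v, -1⟩, rfl⟩))
    have h3 : (g * rep hm ⟨v, -1⟩).1 = r • (rep hm ⟨v, -1⟩ * g).1 := by
      rw [← mul_inv_cancel_left (rep hm ⟨v, -1⟩ * g) (g * _), coe_mul, ← h, scalar_apply, ← smul_eq_mul_diagonal]
    have h4 := congrArg (fun Y => (Y * g⁻¹.1).trace) h3
    simp only [smul_mul_assoc, ← coe_mul, mul_inv_cancel_right, trace_smul] at h4
    rw [coe_mul, coe_mul, trace_mul_cycle, ← coe_mul, inv_mul_cancel, coe_one, one_mul, trace_rep, smul_eq_mul, mul_neg_one,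
      neg_inj] at h4
    rw [← h4, one_smul, coe_mul, coe_mul, hG] at h3
    exact (reindexAlgEquiv (ZMod p) (ZMod p) finSumFinEquiv).injective (by rw [map_mul, map_mul]; exact h3.symm)
  have h0 : L (k + 2) (0 : Fin 3 → ZMod p) = 0 := by ext; simp [L]
  have h3 := h1 0
  simp [X, fromBlocks_multiply, h0] at h3
  obtain rfl : B = 0 := (smul_eq_zero.1 (by rw [two_smul]; exact add_eq_zero_iff_eq_neg.2 h3.1)).resolve_left h2
  obtain rfl : C = 0 := (smul_eq_zero.1 (by rw [two_smul]; exact add_eq_zero_iff_eq_neg.2 h3.2.symm)).resolve_left h2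
  obtain ⟨h4, h5⟩ := scalar_of (A := A) (D := D) fun v => by simpa [X, fromBlocks_multiply] using h1 v
  refine (QuotientGroup.eq_one_iff _).2 (Subgroup.mem_center_iff.2 fun k => Subtype.ext ?_)
  have h6 : fromBlocks A 0 0 D = D 0 0 • 1 := by rw [← fromBlocks_one, fromBlocks_smul, ← h4, ← h5]; simp
  simp [hG, h6]

end Cfsg.Agent.S2533
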