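import Cfsg.Statements.S2537
import Mathlib
import Cfsg.Agent.H1.Hall
import Cfsg.Agent.H4.Dick9
import Cfsg.Agent.S0802
import Cfsg.Agent.S0803
import Cfsg.Agent.S0811
import Cfsg.Agent.S0812

set_option autoImplicit false
open Cfsg

namespace Cfsg.Agent.S2537

open Cfsg.Agent.H4 Subgroup

theorem dih_solv (n : ℕ) : Group.IsSolvable (DihedralGroup n) := by
  let N : Subgroup (DihedralGroup n) :=
    { carrier := {g | ∃ i, g = .r i}
      one_mem' := ⟨0, rfl⟩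
      mul_mem' := by rintro _ _ ⟨i, rfl⟩ ⟨j, rfl⟩; exact ⟨i + j, rfl⟩
      inv_mem' := by rintro _ ⟨i, rfl⟩; exact ⟨-i, rfl⟩ }
  have h1 : derivedSeries (DihedralGroup n) 1 ≤ N := by
    rw [derivedSeries_succ, derivedSeries_zero, commutator_le]
    rintro (a | a) - (b | b) - <;> exact ⟨_, rfl⟩
  refine ⟨⟨2, ?_⟩⟩
  rw [derivedSeries_succ, eq_bot_iff, commutator_le]
  intro a ha b hb
  obtain ⟨i, rfl⟩ := h1 ha
  obtain ⟨j, rfl⟩ := h1 hb
  rw [mem_bot, commutatorElement_eq_one_iff_mul_comm]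
  simp [add_comm]

theorem hall_iff {G : Type*} [Group G] [Finite G] {a b t : ℕ} (hG : Nat.card G = 2 ^ a * 3 ^ b * t)
    (h2 : ¬ 2 ∣ t) (h3 : ¬ 3 ∣ t) (H : Subgroup G) :
    Cfsg.IsPiHall ({2, 3} : Set ℕ) H ↔ Nat.card H = 2 ^ a * 3 ^ b := by
  have hm := H.card_mul_index
  rw [hG] at hm
  constructor
  · rintro ⟨h1, h4⟩
    have c1 : (Nat.card H).Coprime t := by
      refine Nat.coprime_of_dvd fun r hr hd ht => ?_
      rcases h1 r hr hd with rfl | rfl
      exacts [h2 ht, h3 ht]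
    have c2 : (2 ^ a * 3 ^ b).Coprime H.index := by
      refine Nat.Coprime.mul_left (Nat.Coprime.pow_left _ ?_) (Nat.Coprime.pow_left _ ?_)
      · exact (Nat.Prime.coprime_iff_not_dvd Nat.prime_two).2 (h4 2 Nat.prime_two (by simp))
      · exact (Nat.Prime.coprime_iff_not_dvd Nat.prime_three).2 (h4 3 Nat.prime_three (by simp))
    refine Nat.dvd_antisymm (c1.dvd_of_dvd_mul_right ⟨_, hm.symm⟩) (c2.dvd_of_dvd_mul_right ?_)
    rw [hm]; exact dvd_mul_right _ _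
  · intro h
    rw [h] at hm
    have hi : H.index = t := Nat.eq_of_mul_eq_mul_left (by positivity) hm
    refine ⟨fun r hr hd => ?_, fun r hr hd => ?_⟩
    · rw [h] at hd
      rcases (Nat.Prime.dvd_mul hr).1 hd with h | h
      · exact Or.inl ((Nat.prime_dvd_prime_iff_eq hr Nat.prime_two).1 (hr.dvd_of_dvd_pow h))
      · exact Or.inr ((Nat.prime_dvd_prime_iff_eq hr Nat.prime_three).1 (hr.dvd_of_dvd_pow h))
    · rw [hi]
      rcases hd with rfl | rfl
      exacts [h2, h3]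

theorem sub_of_dih {G : Type*} [Group G] [Finite G] {a b t n : ℕ} (hG : Nat.card G = 2 ^ a * 3 ^ b * t)
    (h2 : ¬ 2 ∣ t) (h3 : ¬ 3 ∣ t) (D : Subgroup G) (e : D ≃* DihedralGroup n) (hd : 2 ^ a * 3 ^ b ∣ 2 * n) :
    ∃ H : Subgroup G, Nat.card H = 2 ^ a * 3 ^ b := by
  have hD : Nat.card D = 2 * n := by rw [Nat.card_congr e.toEquiv, DihedralGroup.nat_card]
  obtain ⟨s, hs⟩ := hd
  have hst : s ∣ t := by
    have := D.card_subgroup_dvd_card
    rw [hD, hG, hs] at this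
    exact Nat.dvd_of_mul_dvd_mul_left (by positivity) this
  haveI := dih_solv n
  have hsol : Group.IsSolvable D := solvable_of_surjective (f := e.symm.toMonoidHom) e.symm.surjective
  obtain ⟨H, hH⟩ := Cfsg.Agent.H1.exists_hall ({2, 3} : Set ℕ) hsol
  rw [hall_iff (hD.trans hs) (fun h => h2 (h.trans hst)) (fun h => h3 (h.trans hst))] at hH
  exact ⟨H.map D.subtype, by rw [card_map_of_injective D.subtype_injective, hH]⟩

theorem decomp {m : ℕ} (hm : m ≠ 0) : ∃ t, m = 2 ^ m.factorization 2 * 3 ^ m.factorization 3 * t ∧ ¬ 2 ∣ t ∧ ¬ 3 ∣ t := by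
  have h2 := Nat.ordProj_dvd m 2
  have h3 := Nat.ordProj_dvd m 3
  have hc : (2 ^ m.factorization 2).Coprime (3 ^ m.factorization 3) := Nat.Coprime.pow _ _ (by norm_num)
  obtain ⟨t, ht⟩ := hc.mul_dvd_of_dvd_of_dvd h2 h3
  refine ⟨t, ht, fun ⟨s, hs⟩ => ?_, fun ⟨s, hs⟩ => ?_⟩
  · apply Nat.pow_succ_factorization_not_dvd hm Nat.prime_two
    exact ⟨3 ^ m.factorization 3 * s, by rw [pow_succ]; nth_rewrite 1 [ht]; rw [hs]; ring⟩
  · apply Nat.pow_succ_factorization_not_dvd hm Nat.prime_three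
    exact ⟨2 ^ m.factorization 2 * s, by rw [pow_succ]; nth_rewrite 1 [ht]; rw [hs]; ring⟩

/-- Let `F` be a finite field with `q` elements of characteristic `p ≥ 5`, and `ε = 1` if `q ≡ 1 (mod 4)`, `ε = -1` otherwise. Then `PSL(2, F)` has a Hall `{2, 3}`-subgroup if and only if `3` divides `q − ε`, or the `{2,3}`-part of `q² − 1` is 24, or the `{2,3}`-part of `q² − 1` is 48 (the `{2,3}`-part of `m` being the largest divisor of `m` with no prime factor other than 2 and 3). -/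
theorem result {F : Type*} [Field F] [Fintype F] {p : ℕ} [Fact p.Prime] [CharP F p]
    (hp : 5 ≤ p) (q : ℕ) (hq : Fintype.card F = q) :
    (∃ H : Subgroup (Matrix.ProjectiveSpecialLinearGroup (Fin 2) F), Cfsg.IsPiHall ({2, 3} : Set ℕ) H) ↔
      (3 ∣ q - 1 ∧ q % 4 = 1) ∨ (3 ∣ q + 1 ∧ q % 4 = 3) ∨
        2 ^ (q ^ 2 - 1).factorization 2 * 3 ^ (q ^ 2 - 1).factorization 3 = 24 ∨
        2 ^ (q ^ 2 - 1).factorization 2 * 3 ^ (q ^ 2 - 1).factorization 3 = 48 := by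
  have hpp : p.Prime := Fact.out
  obtain ⟨f, -, hf⟩ := FiniteField.card F p
  have hq2 : ¬ 2 ∣ q := fun h => by
    rw [← hq, hf] at h
    have := (Nat.prime_dvd_prime_iff_eq Nat.prime_two hpp).1 (Nat.prime_two.dvd_of_dvd_pow h)
    omega
  have hq3 : ¬ 3 ∣ q := fun h => by
    rw [← hq, hf] at h
    have := (Nat.prime_dvd_prime_iff_eq Nat.prime_three hpp).1 (Nat.prime_three.dvd_of_dvd_pow h)
    omega
  have hq1 : 1 < q := hq ▸ Fintype.one_lt_card
  have hodd : Odd q := Nat.odd_iff.2 (by omega)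
  obtain ⟨u, rfl⟩ : ∃ u, q = u + 1 := ⟨q - 1, by omega⟩
  have hm : (u + 1) ^ 2 - 1 = u * (u + 2) := by
    apply Nat.sub_eq_of_eq_add; ring
  have hm0 : (u + 1) ^ 2 - 1 ≠ 0 := by rw [hm]; exact Nat.mul_ne_zero (by omega) (by omega)
  obtain ⟨t, ht, ht2, ht3⟩ := decomp hm0
  generalize ((u + 1) ^ 2 - 1).factorization 2 = a at *
  generalize ((u + 1) ^ 2 - 1).factorization 3 = b at *
  have hg : Nat.gcd 2 (u + 1 - 1) = 2 := gcd_two_odd hodd
  have h24 : 24 ∣ u * (u + 2) := by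
    have : u % 24 = 0 ∨ u % 24 = 4 ∨ u % 24 = 6 ∨ u % 24 = 10 ∨ u % 24 = 12 ∨ u % 24 = 16 ∨ u % 24 = 18 ∨
      u % 24 = 22 := by omega
    rw [Nat.dvd_iff_mod_eq_zero, Nat.mul_mod, Nat.add_mod]
    rcases this with h | h | h | h | h | h | h | h <;> rw [h]
  have ct2 : ∀ k, (2 ^ k).Coprime t := fun k =>
    Nat.Coprime.pow_left _ ((Nat.Prime.coprime_iff_not_dvd Nat.prime_two).2 ht2)
  have ct3 : ∀ k, (3 ^ k).Coprime t := fun k =>
    Nat.Coprime.pow_left _ ((Nat.Prime.coprime_iff_not_dvd Nat.prime_three).2 ht3)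
  have h24' : 24 ∣ 2 ^ a * 3 ^ b := by
    have : (24 : ℕ).Coprime t := Nat.Coprime.mul_left (ct2 3) (ct3 1)
    exact this.dvd_of_dvd_mul_right (by rw [← ht, hm]; exact h24)
  obtain ⟨a, rfl⟩ : ∃ a', a = a' + 1 := by
    refine ⟨a - 1, ?_⟩
    rcases Nat.eq_zero_or_pos a with rfl | h
    · exfalso
      have : 2 ∣ 3 ^ b := by simpa using Dvd.dvd.trans (by norm_num : 2 ∣ 24) h24'
      have := Nat.prime_two.dvd_of_dvd_pow this
      omega
    · omega
  have h12 : 12 ∣ 2 ^ a * 3 ^ b := by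
    have : 2 * 12 ∣ 2 * (2 ^ a * 3 ^ b) := by convert h24' using 1; ring
    exact Nat.dvd_of_mul_dvd_mul_left two_pos this
  have hG : Nat.card (Matrix.ProjectiveSpecialLinearGroup (Fin 2) F) = 2 ^ a * 3 ^ b * ((u + 1) * t) := by
    have := card_PSL_two (F := F)
    rw [hq, hg, ht] at this
    apply Nat.eq_of_mul_eq_mul_left two_pos
    rw [this]; ring
  have hs2 : ¬ 2 ∣ (u + 1) * t := fun h => ((Nat.Prime.dvd_mul Nat.prime_two).1 h).elim hq2 ht2
  have hs3 : ¬ 3 ∣ (u + 1) * t := fun h => ((Nat.Prime.dvd_mul Nat.prime_three).1 h).elim hq3 ht3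
  simp only [hall_iff hG hs2 hs3, Nat.add_sub_cancel]
  set N := 2 ^ a * 3 ^ b with hN
  have hN2 : 2 ^ (a + 1) * 3 ^ b = 2 * N := by rw [hN]; ring
  rw [hN2] at ht ⊢
  rw [hm] at ht
  have hpr : ∀ r : ℕ, r.Prime → r ∣ N → r = 2 ∨ r = 3 := fun r hr hd => by
    rcases (Nat.Prime.dvd_mul hr).1 hd with h | h
    · exact Or.inl ((Nat.prime_dvd_prime_iff_eq hr Nat.prime_two).1 (hr.dvd_of_dvd_pow h))
    · exact Or.inr ((Nat.prime_dvd_prime_iff_eq hr Nat.prime_three).1 (hr.dvd_of_dvd_pow h))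
  have cop : ∀ s : ℕ, ¬ 2 ∣ s → ¬ 3 ∣ s → N.Coprime s := fun s h2 h3 =>
    Nat.coprime_of_dvd fun r hr hd hs => by
      rcases hpr r hr hd with rfl | rfl
      exacts [h2 hs, h3 hs]
  have hi : (LL F).index = 2 := index_LL_odd (hq ▸ hodd)
  constructor
  · rintro ⟨H, hH⟩
    rw [← card_im] at hH
    have hL := im_le H
    generalize im H = H' at hH hL
    rcases dickson p H' with ⟨x, hx, h⟩ | ⟨x, y, htp, h⟩ | ⟨-, ⟨⟨h⟩⟩ | ⟨⟨h⟩⟩ | ⟨⟨h⟩⟩⟩ | ⟨h, -⟩ | ⟨K, g, h⟩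
    · exfalso
      have h1 : Nat.card H' ∣ Nat.card (St (LL F) x) := card_dvd_of_le fun g hg => ⟨hL hg, h g hg⟩
      have h2 := card_St_rat (le_refl (LL F)) hx
      rw [hi, hq, Nat.add_sub_cancel] at h2
      rw [hH] at h1
      have h3 : 2 * N ∣ (u + 1) * u := h2 ▸ Nat.mul_dvd_mul_left 2 h1
      have c : (2 * N).Coprime (u + 1) :=
        Nat.Coprime.mul_left ((Nat.Prime.coprime_iff_not_dvd Nat.prime_two).2 hq2) (cop _ hq2 hq3)
      obtain ⟨s, hs⟩ := c.dvd_of_dvd_mul_left h3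
      obtain ⟨v, hv⟩ : 2 ∣ u + 2 := by omega
      apply ht2
      refine ⟨s * v, Nat.eq_of_mul_eq_mul_left (show 0 < 2 * N by positivity) ?_⟩
      rw [← ht, hv]
      nth_rewrite 1 [hs]
      ring
    · have h1 : Nat.card H' ∣ Nat.card ↥(LL F ⊓ PS _ x y) := card_dvd_of_le (le_inf hL h)
      rw [htp.card_normalizer le_rfl, hH] at h1
      rcases htp.card_torus (p := p) (le_refl (LL F)) with ⟨-, -, e⟩ | ⟨-, -, e⟩
      · rw [hi, hq, Nat.add_sub_cancel] at e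
        have := h12.trans (e ▸ h1)
        left; omega
      · rw [hi, hq] at e
        have := h12.trans (e ▸ h1)
        right; left; omega
    · rw [card_of_A4 h] at hH; omega
    · rw [card_of_S4 h] at hH; omega
    · rw [card_of_A5 h] at hH
      have := hpr 5 (by norm_num) (by rw [← hH]; norm_num)
      omega
    · omega
    · exfalso
      classical
      haveI : Fintype K := Fintype.ofFinite K
      have h1 : Nat.card (cjg g (LK K.subtype)) ∣ N := hH ▸ card_dvd_of_le h.ge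
      rw [card_cjg] at h1
      have h2 := card_LK K.subtype
      have h3 : p ∣ Nat.gcd 2 (Fintype.card K - 1) * Nat.card (LK K.subtype) :=
        h2 ▸ Dvd.dvd.mul_right (char_dvd_card K p) _
      rcases (Nat.Prime.dvd_mul hpp).1 h3 with h4 | h4
      · have := Nat.le_of_dvd two_pos (h4.trans (Nat.gcd_dvd_left _ _))
        omega
      · have := hpr p hpp (h4.trans h1)
        omega
  · rintro (⟨h3, h4⟩ | ⟨h3, h4⟩ | h | h)
    · obtain ⟨D, -, ⟨e⟩⟩ := Cfsg.Agent.S0812.result hq (by simp only [Finset.mem_insert, Finset.mem_singleton]; omega)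
      refine sub_of_dih hG hs2 hs3 D e ?_
      rw [hg, Nat.add_sub_cancel, Nat.mul_div_cancel' (by omega)]
      obtain ⟨v, hv⟩ : 2 ∣ u + 2 := by omega
      refine (cop v (by omega) (by omega)).dvd_of_dvd_mul_right ⟨t, Nat.eq_of_mul_eq_mul_left two_pos ?_⟩
      rw [← mul_assoc 2 N, ← ht, hv]; ring
    · obtain ⟨D, -, ⟨e⟩⟩ := Cfsg.Agent.S0811.result hq (by simp only [Finset.mem_insert, Finset.mem_singleton]; omega)
      refine sub_of_dih hG hs2 hs3 D e ?_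
      rw [hg, Nat.mul_div_cancel' (by omega)]
      obtain ⟨v, hv⟩ : 2 ∣ u := by omega
      refine (cop v (by omega) (by omega)).dvd_of_dvd_mul_right ⟨t, Nat.eq_of_mul_eq_mul_left two_pos ?_⟩
      rw [← mul_assoc 2 N, ← ht]
      nth_rewrite 2 [hv]
      ring
    · obtain ⟨H, ⟨e⟩⟩ := (Cfsg.Agent.S0802.result p f hf).2 (by omega)
      exact ⟨H, by rw [card_of_A4 e]; omega⟩
    · obtain ⟨H, ⟨e⟩⟩ := (Cfsg.Agent.S0803.result hq).2 (by
        have : (u + 1) ^ 2 = 48 * t + 1 := by rw [← h, ← ht]; ring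
        omega)
      exact ⟨H, by rw [card_of_S4 e]; omega⟩

end Cfsg.Agent.S2537
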