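import Cfsg.Statements.S2540
import Cfsg.Agent.H4.As8

set_option autoImplicit false
open Cfsg

namespace Cfsg.Agent.S2540

/-- Let F be a finite field and n ≥ 1, excluding the case n = 2 with #F ≤ 3. A subgroup of GL_n(F) that is normalized by every element of SL_n(F) either consists of scalar matrices or contains SL_n(F). -/
theorem result {F : Type*} [Field F] [Fintype F] (n : ℕ) (hn : 1 ≤ n) (hex : ¬ (n = 2 ∧ Fintype.card F ≤ 3)) (G : Subgroup (Matrix.GeneralLinearGroup (Fin n) F)) (hG : ∀ s : Matrix.SpecialLinearGroup (Fin n) F, ∀ g ∈ G, (Matrix.SpecialLinearGroup.toGL s) * g * (Matrix.SpecialLinearGroup.toGL s)⁻¹ ∈ G) : (∀ g ∈ G, ∃ c : F, (g : Matrix (Fin n) (Fin n) F) = c • (1 : Matrix (Fin n) (Fin n) F)) ∨ (Matrix.SpecialLinearGroup.toGL : Matrix.SpecialLinearGroup (Fin n) F →* _).range ≤ G := by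
  have key : ∀ g : GL (Fin n) F, (∀ s ∈ Geo.specialLinear (Fin n) F, s * g = g * s) →
      ∃ c : F, (g : Matrix (Fin n) (Fin n) F) = c • (1 : Matrix (Fin n) (Fin n) F) := fun g h => by
    obtain ⟨c, hc⟩ := Matrix.mem_range_scalar_of_commute_transvectionStruct (M := g.1) fun t =>
      congrArg Units.val (h (Matrix.SpecialLinearGroup.toGL ⟨t.toMatrix, by simp⟩) (H4.range_toGL.le ⟨_, rfl⟩))
    exact ⟨c, by rw [← hc, Matrix.scalar_apply, Matrix.smul_one_eq_diagonal]⟩
  rcases hn.eq_or_lt with rfl | hn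
  · exact .inl fun g _ => key g fun s _ => Units.ext (by ext i j; simp [Matrix.mul_apply, Subsingleton.elim i 0, Subsingleton.elim j 0, mul_comm])
  have : Nonempty (Fin n) := ⟨⟨0, by omega⟩⟩
  let e : Matrix.SpecialLinearGroup (Fin n) F ≃* Geo.specialLinear (Fin n) F := H4.slEquivKer _ F
  have h1 : ⁅Geo.specialLinear (Fin n) F, Geo.specialLinear (Fin n) F⁆ = Geo.specialLinear (Fin n) F :=
    le_antisymm (H4.commutator_le_self _) ((H4.commutator_eq_top_iff _).1 (H4.commutator_eq_top_of_equiv e (by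
      rcases (Nat.succ_le_of_lt hn).eq_or_lt with rfl | h
      · obtain ⟨a, h1, h2⟩ := H4.exists_sq_ne_one (F := F) (by simp at hex; omega)
        exact Matrix.SL2.commutator_eq_top h1 h2
      · exact H4.SL_commutator_eq_top (by simp; omega))))
  have h2 : H4.As.Nm (Geo.specialLinear (Fin n) F) G := fun s hs => by
    obtain ⟨s, rfl⟩ := H4.range_toGL.ge hs
    exact hG s
  have hs := H4.PSL_simple (F := F) n hn fun h => by simp [h] at hex; omega
  rcases H4.As.min_of_simple (H4.quotCenterEquiv e).symm.isSimpleGroup h1 (fun g hg => H4.As.mem_sc.2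
    (key g fun s hs => congrArg Subtype.val (Subgroup.mem_center_iff.1 hg ⟨s, hs⟩))) ⁅G, Geo.specialLinear (Fin n) F⁆
    (@Subgroup.commutator_le_right _ _ _ _ (MonoidHom.normal_ker _)) (h2.comm .self) with h | h
  · exact .inl fun g hg => key g fun s hs => Subgroup.commutator_eq_bot_iff_le_centralizer.1
      (H4.As.comm_eq_bot (fun z hz => Subgroup.mem_center_iff.2 fun b =>
        Units.ext ((H4.As.mem_sc.1 hz).comm b.1).symm) h h1) hg s hs
  · exact .inr (H4.range_toGL.le.trans (h.ge.trans (H4.As.comm_le_of_nm h2)))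

end Cfsg.Agent.S2540
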