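import Cfsg.Statements.S2541
import Cfsg.Agent.H4.Dick9

set_option autoImplicit false
open Cfsg

namespace Cfsg.Agent.S2541

/-- Let F be a field with 9 elements. The symmetric group S_6 is not isomorphic to PGL_2(F) (although both have index-2 subgroups isomorphic to A_6). -/
theorem result {F : Type*} [Field F] [Fintype F] (hF : Fintype.card F = 9) : ¬ Nonempty (Equiv.Perm (Fin 6) ≃* Matrix.ProjGenLinGroup (Fin 2) F) := by
  open Cfsg.Agent.H4 in
  rintro ⟨e⟩
  obtain ⟨x, y, ht, hx⟩ := exists_tp_qd (F := F)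
  obtain ⟨c, -, hc⟩ := ht.exists_gen ⊤
  have h1 := ht.card_qd (Γ := ⊤) le_top hx
  rw [Subgroup.index_top, one_mul, hF, ← hc, ← e.symm.orderOf_eq] at h1
  have key : ∀ σ : Equiv.Perm (Fin 6), σ ^ 4 = 1 ∨ σ ^ 5 = 1 ∨ σ ^ 6 = 1 := by decide +kernel
  rcases key (e.symm c) with h | h | h <;> have := orderOf_le_of_pow_eq_one (by norm_num) h <;> omega

end Cfsg.Agent.S2541
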