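import Cfsg.Statements.S2543
import Cfsg.Agent.GS.L211

set_option autoImplicit false
open scoped Pointwise
open Cfsg

namespace Cfsg.Agent.S2543

/-- Let F be a field with 11 elements. PSL_2(F) has exactly 22 subgroups isomorphic to the alternating group A_5, and they form two conjugacy classes: there are two such subgroups that are not conjugate, and every such subgroup is conjugate to one of these two. -/
theorem result {F : Type*} [Field F] [Fintype F] (hF : Fintype.card F = 11) : Nat.card {H : Subgroup (Matrix.ProjectiveSpecialLinearGroup (Fin 2) F) // Nonempty (H ≃* alternatingGroup (Fin 5))} = 22 ∧ ∃ H K : Subgroup (Matrix.ProjectiveSpecialLinearGroup (Fin 2) F), Nonempty (H ≃* alternatingGroup (Fin 5)) ∧ Nonempty (K ≃* alternatingGroup (Fin 5)) ∧ (∀ g : Matrix.ProjectiveSpecialLinearGroup (Fin 2) F, MulAut.conj g • H ≠ K) ∧ ∀ L : Subgroup (Matrix.ProjectiveSpecialLinearGroup (Fin 2) F), Nonempty (L ≃* alternatingGroup (Fin 5)) → ∃ g : Matrix.ProjectiveSpecialLinearGroup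 (Fin 2) F, MulAut.conj g • L = H ∨ MulAut.conj g • L = K := by
  open Finset Pointwise Cfsg.Agent.St Cfsg.Agent.H6 in focus
    obtain ⟨H, K, i1, i2, e1, e2, -, hne, ⟨s, hs, c, hc⟩, ⟨s', hs', c', hc'⟩, h⟩ := L211 F hF
    refine ⟨?_, H, K, e1, e2, hne, h⟩
    haveI : Finite (Matrix.ProjectiveSpecialLinearGroup (Fin 2) F) := inferInstance
    have a1 := ncard_conj (i1 ▸ (by norm_num : Nat.Prime 11)) hs hc
    have a2 := ncard_conj (i2 ▸ (by norm_num : Nat.Prime 11)) hs' hc'
    have e : {L : Subgroup (Matrix.ProjectiveSpecialLinearGroup (Fin 2) F) | Nonempty (L ≃* alternatingGroup (Fin 5))} =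
        {L | ∃ g : Matrix.ProjectiveSpecialLinearGroup (Fin 2) F, MulAut.conj g • H = L} ∪
          {L | ∃ g : Matrix.ProjectiveSpecialLinearGroup (Fin 2) F, MulAut.conj g • K = L} := by
      ext L
      constructor
      · intro hL
        obtain ⟨g, hg⟩ := h L hL
        exact hg.imp (fun e => ⟨g⁻¹, by rw [← e, map_inv, inv_smul_smul]⟩) fun e => ⟨g⁻¹, by rw [← e, map_inv, inv_smul_smul]⟩
      · rintro (⟨g, rfl⟩ | ⟨g, rfl⟩)
        · exact ⟨(Subgroup.equivSMul _ _).symm.trans e1.some⟩
        · exact ⟨(Subgroup.equivSMul _ _).symm.trans e2.some⟩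
    refine (Nat.card_coe_set_eq _).trans ((congrArg Set.ncard e).trans ?_)
    rw [Set.ncard_union_eq (Set.disjoint_left.2 ?_), a1, a2, i1, i2]
    rintro _ ⟨g, rfl⟩ ⟨g', e⟩
    exact hne (g'⁻¹ * g) (by rw [map_mul, mul_smul, ← e, map_inv, inv_smul_smul])

end Cfsg.Agent.S2543
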