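import Cfsg.Statements.S2561
import Cfsg.Agent.H9.QF2

set_option autoImplicit false
open Cfsg

namespace Cfsg.Agent.S2561

open Cfsg.Agent Cfsg.Agent.H9

/-- Fix the non-singular alternating form on the 2m-dimensional space over the field of two elements obtained by polarizing the plus-type form Σ xᵢyᵢ (m ≥ 1). The functions q on the space with q(u + v) = q(u) + q(v) + f(u, v) (the quadratic forms polarizing to f) number 2^(2m); each is equivalent under an invertible linear map either to the plus-type form or to the minus-type form Σ xᵢyᵢ + (z₁² + z₁z₂ + z₂²); and those of plus type number 2^(2m−1) + 2^(m−1), those of minus type 2^(2m−1) − 2^(m−1). -/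
theorem result (m : ℕ) (hm : 1 ≤ m) :
    Nat.card {q : (Fin m ⊕ Fin m → ZMod 2) → ZMod 2 // (∀ u v : (Fin m ⊕ Fin m → ZMod 2), q (u + v) = q u + q v + (Cfsg.quadFormPlus m (ZMod 2) (u + v) - Cfsg.quadFormPlus m (ZMod 2) u - Cfsg.quadFormPlus m (ZMod 2) v))} = 2 ^ (2 * m) ∧
    (∀ q : (Fin m ⊕ Fin m → ZMod 2) → ZMod 2, (∀ u v : (Fin m ⊕ Fin m → ZMod 2), q (u + v) = q u + q v + (Cfsg.quadFormPlus m (ZMod 2) (u + v) - Cfsg.quadFormPlus m (ZMod 2) u - Cfsg.quadFormPlus m (ZMod 2) v)) →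
      (∃ g : (Fin m ⊕ Fin m → ZMod 2) ≃ₗ[ZMod 2] (Fin m ⊕ Fin m → ZMod 2), ∀ v, q v = Cfsg.quadFormPlus m (ZMod 2) (g v)) ∨
      (∃ g : (Fin m ⊕ Fin m → ZMod 2) ≃ₗ[ZMod 2] ((Fin (m - 1) ⊕ Fin (m - 1)) ⊕ Fin 2 → ZMod 2), ∀ v, q v = Cfsg.quadFormMinus (m - 1) (ZMod 2) 1 1 (g v))) ∧
    Nat.card {q : (Fin m ⊕ Fin m → ZMod 2) → ZMod 2 // (∀ u v : (Fin m ⊕ Fin m → ZMod 2), q (u + v) = q u + q v + (Cfsg.quadFormPlus m (ZMod 2) (u + v) - Cfsg.quadFormPlus m (ZMod 2) u - Cfsg.quadFormPlus m (ZMod 2) v)) ∧ ∃ g : (Fin m ⊕ Fin m → ZMod 2) ≃ₗ[ZMod 2] (Fin m ⊕ Fin m → ZMod 2), ∀ v, q v = Cfsg.quadFormPlus m (ZMod 2) (g v)} = 2 ^ (2 * m - 1) + 2 ^ (m - 1) ∧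
    Nat.card {q : (Fin m ⊕ Fin m → ZMod 2) → ZMod 2 // (∀ u v : (Fin m ⊕ Fin m → ZMod 2), q (u + v) = q u + q v + (Cfsg.quadFormPlus m (ZMod 2) (u + v) - Cfsg.quadFormPlus m (ZMod 2) u - Cfsg.quadFormPlus m (ZMod 2) v)) ∧ ∃ g : (Fin m ⊕ Fin m → ZMod 2) ≃ₗ[ZMod 2] ((Fin (m - 1) ⊕ Fin (m - 1)) ⊕ Fin 2 → ZMod 2), ∀ v, q v = Cfsg.quadFormMinus (m - 1) (ZMod 2) 1 1 (g v)} = 2 ^ (2 * m - 1) - 2 ^ (m - 1) := by
  obtain ⟨k, rfl⟩ : ∃ k, m = k + 1 := ⟨m - 1, by omega⟩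
  have hB : ∀ u v : Fin (k + 1) ⊕ Fin (k + 1) → ZMod 2, Cfsg.quadFormPlus (k + 1) (ZMod 2) (u + v) - Cfsg.quadFormPlus (k + 1) (ZMod 2) u - Cfsg.quadFormPlus (k + 1) (ZMod 2) v = (H4.plusF (ZMod 2) (k + 1)).B u v := fun u v => ((H4.plusF (ZMod 2) (k + 1)).orth_B_eq u v).symm
  simp only [hB, Nat.add_sub_cancel]
  set f := H4.plusF (ZMod 2) (k + 1) with hf
  have hn : f.Nondeg := H4.plusF_nondeg (k + 1)
  have hd : Module.finrank (ZMod 2) (Fin (k + 1) ⊕ Fin (k + 1) → ZMod 2) = 2 * k + 2 := by simp; ring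
  let P : ((Fin (k + 1) ⊕ Fin (k + 1) → ZMod 2) → ZMod 2) → Prop := fun q => ∀ u v, q (u + v) = q u + q v + f.B u v
  let F : (Fin (k + 1) ⊕ Fin (k + 1) → ZMod 2) → {q // P q} := fun w => ⟨fun v => f.Q v + f.B v w, fun u v => by
    simp only [f.orth_Q_add, f.B_add_left]; ring⟩
  have hF : Function.Bijective F := by
    constructor
    · intro w w' h
      exact hn.eq_of_B' fun z => add_left_cancel (congrFun (congrArg Subtype.val h) z)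
    · rintro ⟨q, hq⟩
      let d : (Fin (k + 1) ⊕ Fin (k + 1) → ZMod 2) →+ ZMod 2 := AddMonoidHom.mk' (fun v => q v - f.Q v) fun u v => by
        simp only [hq u v, f.orth_Q_add]; ring
      obtain ⟨z, hz⟩ := hn.exists_rep (d.toZModLinearMap 2)
      refine ⟨z, Subtype.ext (funext fun v => ?_)⟩
      show f.Q v + f.B v z = q v
      rw [← hz]
      show f.Q v + (q v - f.Q v) = q v
      ring
  let E := Equiv.ofBijective F hF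
  have hcard : Nat.card (Fin (k + 1) ⊕ Fin (k + 1) → ZMod 2) = 2 ^ (2 * (k + 1)) := by
    simp [Nat.card_eq_fintype_card, two_mul]
  have h2 : ∀ q, P q → (∃ g : (Fin (k + 1) ⊕ Fin (k + 1) → ZMod 2) ≃ₗ[ZMod 2] (Fin (k + 1) ⊕ Fin (k + 1) → ZMod 2), ∀ v, q v = Cfsg.quadFormPlus (k + 1) (ZMod 2) (g v)) ∨
      (∃ g : (Fin (k + 1) ⊕ Fin (k + 1) → ZMod 2) ≃ₗ[ZMod 2] ((Fin k ⊕ Fin k) ⊕ Fin 2 → ZMod 2), ∀ v, q v = Cfsg.quadFormMinus k (ZMod 2) 1 1 (g v)) := by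
    intro q hq
    rcases QF.type_of (QF.mkQ_nondeg hn q hq) hd with ⟨⟨e, he⟩, -⟩ | ⟨⟨e, he⟩, -⟩
    · exact .inl ⟨e, fun v => (he.2 v).symm⟩
    · exact .inr ⟨e, fun v => (he.2 v).symm⟩
  have h3 : ∀ q : (Fin (k + 1) ⊕ Fin (k + 1) → ZMod 2) → ZMod 2, (∃ g : (Fin (k + 1) ⊕ Fin (k + 1) → ZMod 2) ≃ₗ[ZMod 2] (Fin (k + 1) ⊕ Fin (k + 1) → ZMod 2), ∀ v, q v = Cfsg.quadFormPlus (k + 1) (ZMod 2) (g v)) →
      ¬ (∃ g : (Fin (k + 1) ⊕ Fin (k + 1) → ZMod 2) ≃ₗ[ZMod 2] ((Fin k ⊕ Fin k) ⊕ Fin 2 → ZMod 2), ∀ v, q v = Cfsg.quadFormMinus k (ZMod 2) 1 1 (g v)) := by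
    rintro q ⟨g, hg⟩ ⟨g', hg'⟩
    have e1 := (Equiv.sum_comp g.toEquiv fun v => QF.chi (Cfsg.quadFormPlus (k + 1) (ZMod 2) v)).trans (QF.sg_plus _)
    have e2 := (Equiv.sum_comp g'.toEquiv fun v => QF.chi (Cfsg.quadFormMinus k (ZMod 2) 1 1 v)).trans (QF.sg_minus _)
    simp only [LinearEquiv.coe_toEquiv, ← hg, ← hg'] at e1 e2
    have hp : (0 : ℤ) < 2 ^ (k + 1) := by positivity
    linarith
  have c0 : Nat.card {q // P q ∧ ∃ g : (Fin (k + 1) ⊕ Fin (k + 1) → ZMod 2) ≃ₗ[ZMod 2] (Fin (k + 1) ⊕ Fin (k + 1) → ZMod 2), ∀ v, q v = Cfsg.quadFormPlus (k + 1) (ZMod 2) (g v)} = Nat.card {w // f.Q w = 0} := by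
    rw [← Nat.card_congr (Equiv.subtypeSubtypeEquivSubtypeInter P _)]
    exact (Nat.card_congr (E.subtypeEquiv fun w => (QF.shift_iff hn hd w).symm)).symm
  have c1 : Nat.card {q // P q ∧ ∃ g : (Fin (k + 1) ⊕ Fin (k + 1) → ZMod 2) ≃ₗ[ZMod 2] ((Fin k ⊕ Fin k) ⊕ Fin 2 → ZMod 2), ∀ v, q v = Cfsg.quadFormMinus k (ZMod 2) 1 1 (g v)} = Nat.card {w // ¬ f.Q w = 0} := by
    rw [← Nat.card_congr (Equiv.subtypeSubtypeEquivSubtypeInter P _)]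
    refine (Nat.card_congr (E.subtypeEquiv fun w => ?_)).symm
    rw [← QF.shift_iff hn hd w]
    exact ⟨fun h => (h2 _ (E w).2).resolve_left h, fun h h' => h3 _ h' h⟩
  have s1 := QF.sg_plus (k + 1)
  simp only [QF.chi, Finset.sum_ite, Finset.sum_const, smul_eq_mul, nsmul_eq_mul, mul_one, mul_neg] at s1
  have s2 := Finset.card_filter_add_card_filter_not (s := Finset.univ) (fun w : Fin (k + 1) ⊕ Fin (k + 1) → ZMod 2 => f.Q w = 0)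
  rw [Finset.card_univ, ← Nat.card_eq_fintype_card, hcard] at s2
  rw [Nat.card_eq_fintype_card (α := {w // f.Q w = 0}), Fintype.card_subtype] at c0
  rw [Nat.card_eq_fintype_card (α := {w // ¬ f.Q w = 0}), Fintype.card_subtype] at c1
  have p1 : 2 ^ (2 * (k + 1)) = 2 * 2 ^ (2 * (k + 1) - 1) := by rw [← pow_succ']; congr 1
  have p2 : (2 : ℤ) ^ (k + 1) = 2 * ((2 ^ k : ℕ) : ℤ) := by push_cast; ring
  change ((Finset.univ.filter fun w => f.Q w = 0).card : ℤ) + -((Finset.univ.filter fun w => ¬ f.Q w = 0).card : ℤ) = _ at s1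
  refine ⟨(Nat.card_congr E).symm.trans hcard, h2, c0.trans ?_, c1.trans ?_⟩ <;> omega

end Cfsg.Agent.S2561
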