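import Cfsg.Statements.S2563
import Cfsg.Agent.H9.QF2

set_option autoImplicit false
open Cfsg

namespace Cfsg.Agent.S2563

open Cfsg.Agent Cfsg.Agent.H9

/-- For k ≥ 1 the symmetric group of degree 4k + 4 embeds in a full orthogonal group in dimension 4k + 2 over the field of two elements: in the isometry group of the plus-type form Σ xᵢyᵢ when k is odd, and in that of the minus-type form Σ xᵢyᵢ + (z₁² + z₁z₂ + z₂²) when k is even (through its action on even partitions of a (4k+4)-set, with the form 'half the size of a part, modulo 2'). -/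
theorem result (k : ℕ) (hk : 1 ≤ k) :
    (Odd k → ∃ φ : Equiv.Perm (Fin (4 * k + 4)) →* ↥(Cfsg.isometryGroup (ZMod 2) (Cfsg.quadFormPlus (2 * k + 1) (ZMod 2))), Function.Injective φ) ∧
    (Even k → ∃ φ : Equiv.Perm (Fin (4 * k + 4)) →* ↥(Cfsg.isometryGroup (ZMod 2) (Cfsg.quadFormMinus (2 * k) (ZMod 2) 1 1)), Function.Injective φ) := by
  have hΩ : Fintype.card (Fin (4 * k + 4)) = 4 * k + 4 := Fintype.card_fin _
  have hc : (Fintype.card (Fin (4 * k + 4)) : ZMod 2) = 0 := by
    rw [hΩ]; push_cast; rw [show (4 : ZMod 2) = 0 from rfl]; ring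
  let a : Fin (4 * k + 4) := ⟨0, by omega⟩
  let b : Fin (4 * k + 4) := ⟨1, by omega⟩
  have hab : b ≠ a := by simp [a, b]
  have hd := finrank_evL (F := ZMod 2) hab
  have hn : (QF.evQ a).Nondeg := QF.mkQ_nondeg (evForm_nondeg QF.hF2 QF.two_eq hc a) _ _
  have hs := QF.evQ_sum hΩ a
  have hm := QF.evQ_mem (k := k + 1) (by rw [hΩ]; ring) hc a
  have hi := evHom_injective QF.two_eq hc (by rw [hΩ]; omega) a
  have key : ∀ {ι : Type} [Fintype ι] [DecidableEq ι] (f : H4.CForm (H4.FType.orth (ZMod 2)) (ι → ZMod 2)),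
      (QF.evQ a).Isom f → ∃ φ : Equiv.Perm (Fin (4 * k + 4)) →* Cfsg.isometryGroup (ZMod 2) f.Q, Function.Injective φ := by
    intro ι _ _ f h
    obtain ⟨e⟩ := h.nonempty_iso
    refine ⟨((H4.isomEquiv f).symm.toMonoidHom.comp e.toMonoidHom).comp ((evHom hc a).codRestrict _ hm), ?_⟩
    intro σ τ h
    exact hi (congrArg Subtype.val (e.injective ((H4.isomEquiv f).symm.injective h)))
  have hp : (0 : ℤ) < 2 ^ (2 * k + 1) := by positivity
  have h4 : (2 : ℤ) ^ (2 * k + 1) = 2 * 4 ^ k := by rw [pow_succ, pow_mul]; ring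
  classical
  have ht := QF.type_of hn (m := 2 * k) (by omega)
  constructor
  · intro hk
    rcases ht with h | h
    · exact key _ h.1
    · have := h.2.symm.trans (by convert hs)
      rw [hk.neg_pow] at this
      linarith
  · intro hk
    rcases ht with h | h
    · have := h.2.symm.trans (by convert hs)
      rw [hk.neg_pow] at this
      linarith
    · exact key _ h.1

end Cfsg.Agent.S2563
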