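import Cfsg.Statements.S2565
import Cfsg.Agent.GS.Misc1
import Cfsg.Agent.S0825

set_option autoImplicit false
open Cfsg

namespace Cfsg.Agent.S2565

open Cfsg.Agent.H1

/-- The commutator subgroup of the full orthogonal group of the plus-type form Σ xᵢyᵢ in dimension 6 over the field of two elements (the group Ω⁺₆(2), of index 2) is isomorphic to the alternating group of degree 8. -/
theorem result :
    (Cfsg.Omega (ZMod 2) (Cfsg.quadFormPlus 3 (ZMod 2))).index = 2 ∧
    Nonempty (↥(Cfsg.Omega (ZMod 2) (Cfsg.quadFormPlus 3 (ZMod 2))) ≃* alternatingGroup (Fin 8)) := by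
  open Subgroup Pointwise commutatorElement Cfsg.Agent.BG Cfsg.Agent.GS in
  open Cfsg.Agent.H2 hiding card_lt_of_lt card_lt_of_ne_top isMulCommutative_of_le isPGroup_zpowers_iff mem_of_pow_mem_of_coprime inf_eq_bot_of_cop exists_maxElem_ge Sec in
  open Cfsg.Agent.H8 (Op Opp Fit SN) in
  open Cfsg.Agent.L (FPF) in focus
    obtain ⟨e⟩ := S0825.result (F := ZMod 2) rfl
    have a : (commutator _).map e.toMonoidHom = alternatingGroup (Fin 8) := by
      rw [map_commutator_eq, MonoidHom.range_eq_top.2 e.surjective, ← commutator_def, alternatingGroup.commutator_perm_eq (by simp)]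
    refine ⟨?_, ⟨(e.subgroupMap _).trans (MulEquiv.subgroupCongr a)⟩⟩
    rw [← index_map_equiv _ e, ← e.toMonoidHom_eq_coe, a, alternatingGroup.index_eq_two]

end Cfsg.Agent.S2565
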