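import Cfsg.Statements.S2566
import Cfsg.Agent.H9.TJ
import Cfsg.Agent.H4.Order
import Cfsg.Agent.H2.LX2
import Cfsg.Agent.L.Cores

set_option autoImplicit false
open Cfsg

namespace Cfsg.Agent.S2566

open Cfsg.Agent Cfsg.Agent.H9
open Subgroup Matrix

abbrev M4 := Matrix (Fin 2 ⊕ Fin 2) (Fin 2 ⊕ Fin 2) (ZMod 2)
abbrev O4 := ↥(Cfsg.isometryGroup (ZMod 2) (Cfsg.quadFormPlus 2 (ZMod 2)))

def mk (M N : M4) (h1 : M * N = 1) (h2 : N * M = 1)
    (h : ∀ u, quadFormPlus 2 (ZMod 2) (M *ᵥ u) = quadFormPlus 2 (ZMod 2) u) : O4 :=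
  ⟨⟨M, N, h1, h2⟩, fun u _ => h u⟩

def aa : O4 := mk (fromBlocks !![0, 0; 0, 0] !![0, 1; 1, 0] !![0, 1; 1, 0] !![1, 0; 0, 1])
  (fromBlocks !![1, 0; 0, 1] !![0, 1; 1, 0] !![0, 1; 1, 0] !![0, 0; 0, 0]) (by decide +kernel) (by decide +kernel)
  (by unfold quadFormPlus; decide +kernel)
def tt : O4 := mk (fromBlocks !![0, 0; 0, 0] !![0, 1; 1, 0] !![0, 1; 1, 0] !![0, 0; 0, 0])
  (fromBlocks !![0, 0; 0, 0] !![0, 1; 1, 0] !![0, 1; 1, 0] !![0, 0; 0, 0]) (by decide +kernel) (by decide +kernel)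
  (by unfold quadFormPlus; decide +kernel)
def gg : O4 := mk (fromBlocks !![1, 0; 0, 0] !![0, 0; 0, 1] !![0, 0; 0, 1] !![1, 0; 0, 0])
  (fromBlocks !![1, 0; 0, 0] !![0, 0; 0, 1] !![0, 0; 0, 1] !![1, 0; 0, 0]) (by decide +kernel) (by decide +kernel)
  (by unfold quadFormPlus; decide +kernel)

theorem eq_iff (x y : O4) : x = y ↔ (x.1.1 : M4) = y.1.1 :=
  ⟨fun h => by rw [h], fun h => Subtype.ext (Units.ext h)⟩

instance : DecidableEq O4 := fun x y => decidable_of_iff _ (eq_iff x y).symm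

/-- The full orthogonal group of the plus-type form x₁y₁ + x₂y₂ in dimension 4 over the field of two elements has order 72 and is isomorphic to the wreath product of the symmetric group of degree 3 by a group of order 2: it has a normal subgroup isomorphic to the direct product of two symmetric groups of degree 3, of index 2, whose two direct factors are interchanged by conjugation by some element. -/
theorem result :
    Nat.card ↥(Cfsg.isometryGroup (ZMod 2) (Cfsg.quadFormPlus 2 (ZMod 2))) = 72 ∧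
    ∃ (A B : Subgroup ↥(Cfsg.isometryGroup (ZMod 2) (Cfsg.quadFormPlus 2 (ZMod 2)))),
      Nonempty (↥A ≃* Equiv.Perm (Fin 3)) ∧ Nonempty (↥B ≃* Equiv.Perm (Fin 3)) ∧ A ⊓ B = ⊥ ∧ (∀ a ∈ A, ∀ b ∈ B, a * b = b * a) ∧
      (A ⊔ B).index = 2 ∧ ∃ g : ↥(Cfsg.isometryGroup (ZMod 2) (Cfsg.quadFormPlus 2 (ZMod 2))), A.map (MulAut.conj g).toMonoidHom = B := by
  have hc : Nat.card O4 = 72 := by
    have h := (H4.plusF_nondeg (F := ZMod 2) 2).orth_card_plus (m := 2) (by norm_num) (H4.plusF_wi 2) (by simp)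
    rw [← Nat.card_congr (H4.isomEquiv (H4.plusF (ZMod 2) 2)).toEquiv] at h
    simp at h; exact h
  haveI : Finite O4 := Nat.finite_of_card_ne_zero (by omega)
  haveI : Fact (Nat.Prime 3) := ⟨by norm_num⟩
  have h3 : orderOf aa = 3 := orderOf_eq_prime (by decide +kernel) (by decide +kernel)
  have h4 : tt ∉ zpowers aa := by
    intro h
    have h1 : tt ^ 3 = 1 := by
      obtain ⟨k, hk⟩ := h
      rw [← hk, ← zpow_natCast, ← _root_.zpow_mul, mul_comm, _root_.zpow_mul, zpow_natCast, ← h3, pow_orderOf_eq_one, _root_.one_zpow]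
    revert h1
    decide +kernel
  obtain ⟨e1⟩ := H2.closure_equiv_dihedral h3 (t := tt) (by decide +kernel) (by decide +kernel) h4
  obtain ⟨e2⟩ := H2.dih3_equiv
  let A : Subgroup O4 := closure {aa, tt}
  let e : A ≃* Equiv.Perm (Fin 3) := e1.trans e2
  let B : Subgroup O4 := A.map (MulAut.conj gg).toMonoidHom
  let f : B ≃* Equiv.Perm (Fin 3) := (A.equivMapOfInjective _ (MulAut.conj gg).injective).symm.trans e
  have hcomm : ∀ a ∈ A, ∀ b ∈ B, a * b = b * a := by
    have h1 : B ≤ centralizer ({aa, tt} : Set O4) := by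
      rw [map_le_iff_le_comap, closure_le]
      rintro x (rfl | rfl) y (rfl | rfl) <;> simp only [MulEquiv.coe_toMonoidHom, MulAut.conj_apply] <;> decide +kernel
    intro a ha b hb
    have h2 : A ≤ centralizer ({b} : Set O4) := by
      rw [closure_le]
      intro x hx
      exact mem_centralizer_singleton_iff.mpr (h1 hb x hx)
    exact mem_centralizer_singleton_iff.mp (h2 ha)
  have hinf : A ⊓ B = ⊥ := by
    rw [eq_bot_iff]
    intro x hx
    have h1 : ∀ s : Equiv.Perm (Fin 3), s * e ⟨x, hx.1⟩ = e ⟨x, hx.1⟩ * s := by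
      intro s
      obtain ⟨y, rfl⟩ := e.surjective s
      rw [← map_mul, ← map_mul]
      congr 1
      exact Subtype.ext (hcomm y y.2 x hx.2)
    have h2 : ∀ c : Equiv.Perm (Fin 3), (∀ s, s * c = c * s) → c = 1 := by decide
    have h5 := h2 _ h1
    rw [MulEquiv.map_eq_one_iff] at h5
    exact congrArg Subtype.val h5
  refine ⟨hc, A, B, ⟨e⟩, ⟨f⟩, hinf, hcomm, ?_, gg, rfl⟩
  have h5 := L.card_sup_mul_card_inf (H := A) (N := B) (fun a ha => centralizer_le_normalizer _ fun b hb => (hcomm a ha b hb).symm)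
  rw [hinf, card_bot, Nat.card_congr e.toEquiv, Nat.card_congr f.toEquiv, Nat.card_perm] at h5
  have h6 := card_mul_index (A ⊔ B)
  rw [hc] at h6
  simp [Nat.factorial] at h5
  rw [h5] at h6
  omega

end Cfsg.Agent.S2566
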