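import Cfsg.Statements.S2567
import Cfsg.Agent.GS.Cj3

set_option autoImplicit false
open Cfsg

namespace Cfsg.Agent.S2567

open Cfsg.Agent.H1

/-- Lifting elements of prime order from PGL to GL: let F be a finite field with q elements, r a prime not dividing q − 1, and x an element of order r in GL_n(F) modulo its centre (the scalar matrices). Then x has exactly one preimage in GL_n(F) of order r. -/
theorem result {F : Type*} [Field F] [Fintype F] {q n r : ℕ} (hF : Fintype.card F = q) (hr : r.Prime) (hdiv : ¬ r ∣ q - 1) (x : GL (Fin n) F ⧸ Subgroup.center (GL (Fin n) F)) (hx : orderOf x = r) : ∃! g : GL (Fin n) F, (QuotientGroup.mk g : GL (Fin n) F ⧸ Subgroup.center (GL (Fin n) F)) = x ∧ orderOf g = r := by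
  open Subgroup Pointwise commutatorElement Cfsg.Agent.BG Cfsg.Agent.GS in
  open Cfsg.Agent.H2 hiding card_lt_of_lt card_lt_of_ne_top isMulCommutative_of_le isPGroup_zpowers_iff mem_of_pow_mem_of_coprime inf_eq_bot_of_cop exists_maxElem_ge Sec in
  open Cfsg.Agent.H8 (Op Opp Fit SN) in
  open Cfsg.Agent.L (FPF) in focus
    haveI := Fact.mk hr
    rcases n.eq_zero_or_pos with rfl | hn
    · exact absurd (hx.symm.trans (orderOf_eq_one_iff.2 (Subsingleton.elim _ _))) hr.ne_one
    haveI : Nonempty (Fin n) := ⟨⟨0, hn⟩⟩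
    have c : (♯(center (GL (Fin n) F))).Coprime r := by rw [H4.card_center_GL, hF]; exact (hr.coprime_iff_not_dvd.2 hdiv).symm
    obtain ⟨g, rfl⟩ := QuotientGroup.mk_surjective x
    obtain ⟨a, b⟩ := orderOf_eq_prime_iff.1 hx
    obtain ⟨w, hw⟩ := (powCoprime c).surjective ⟨g ^ r, (QuotientGroup.eq_one_iff _).1 a⟩
    have k : ∀ (w : center (GL (Fin n) F)) (g : GL (Fin n) F), (g * w) ^ r = g ^ r * w ^ r := fun w g => Commute.mul_pow (mem_center_iff.1 w.2 g) r
    have e : (g * w⁻¹.1) ^ r = 1 := by rw [k, show g ^ r = w.1 ^ r from (congrArg Subtype.val hw).symm]; simp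
    refine ⟨g * w⁻¹.1, ⟨by simp, orderOf_eq_prime e fun h => b ?_⟩, fun g' ⟨h1, h2⟩ => ?_⟩
    · rw [mul_eq_one_iff_eq_inv.1 h]; simp
    · let z : center (GL (Fin n) F) := ⟨(g * w⁻¹.1)⁻¹ * g', QuotientGroup.eq.1 (by simp [h1])⟩
      have : z = 1 := (powCoprime c).injective (Subtype.ext (by
        have := k z (g * w⁻¹.1)
        rw [e, one_mul, mul_inv_cancel_left, ← h2, pow_orderOf_eq_one] at this
        simpa [h2] using this.symm))
      exact (inv_mul_eq_one.1 (congrArg Subtype.val this)).symm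

end Cfsg.Agent.S2567
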