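import Cfsg.Statements.S2568
import Cfsg.Agent.GS.Cj3

set_option autoImplicit false
open Cfsg

namespace Cfsg.Agent.S2568

open Cfsg.Agent.H1

/-- Number of conjugacy classes of elements of a given prime order r, coprime to the characteristic, in GL_n(q): if i is the multiplicative order of q modulo r and t = (r − 1)/i, the classes correspond to the non-zero t-tuples of natural numbers (a_1, …, a_t) with i(a_1 + ⋯ + a_t) ≤ n (a_j is the multiplicity of the j-th Frobenius orbit of nontrivial r-th roots of unity among the eigenvalues), so there are exactly C(⌊n/i⌋ + t, t) − 1 of them. -/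
theorem result {F : Type*} [Field F] [Fintype F] {p q : ℕ} [Fact p.Prime] [CharP F p] (hF : Fintype.card F = q) (n r i t : ℕ) (hr : r.Prime) (hrp : r ≠ p) (hi : i = orderOf (q : ZMod r)) (ht : t * i = r - 1) : Nat.card {C : ConjClasses (GL (Fin n) F) // ∃ g : GL (Fin n) F, ConjClasses.mk g = C ∧ orderOf g = r} = Nat.choose (n / i + t) t - 1 := by
  open Subgroup Pointwise commutatorElement Cfsg.Agent.BG Cfsg.Agent.GS in
  open Cfsg.Agent.H2 hiding card_lt_of_lt card_lt_of_ne_top isMulCommutative_of_le isPGroup_zpowers_iff mem_of_pow_mem_of_coprime inf_eq_bot_of_cop exists_maxElem_ge Sec in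
  open Cfsg.Agent.H8 (Op Opp Fit SN) in
  open Cfsg.Agent.L (FPF) in focus
    have h : (r : F) ≠ 0 := fun e => hrp ((Nat.prime_dvd_prime_iff_eq Fact.out hr).1 ((CharP.cast_eq_zero_iff F p r).1 e)).symm
    obtain ⟨a, b⟩ := cy_deg hr h
    rw [hF, ← hi] at a b
    have i0 : 0 < i := Nat.pos_of_ne_zero fun e => by have := hr.two_le; rw [e] at ht; omega
    rw [card_classes_prime hr, card_classes (β := {a : Cy r F → ℕ // ∑ f, a f ≤ n / i}) _ (fun a g => ∀ f : Cy r F, nk g.1.toLin' f = i * a.1 f), card_sum_le,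
      Nat.eq_of_mul_eq_mul_right i0 (b.trans ht.symm)]
    · intro g hg
      choose c hc using fun f : Cy r F => a f ▸ dvd_nk g.1.toLin' f.2.1 f.2.2.1
      have := cy_sum hr h (toLin'_pow_eq_one.2 (congrArg Units.val hg))
      simp only [hc, ← Finset.mul_sum, Module.finrank_fin_fun] at this
      exact ⟨⟨c, (Nat.le_div_iff_mul_le i0).2 (by rw [mul_comm]; omega)⟩, hc⟩
    · intro c
      obtain ⟨T, d, e⟩ := cy_model (V := Fin n → F) hr h c.1 (by simpa [a, ← Finset.mul_sum, mul_comm] using (Nat.le_div_iff_mul_le i0).1 c.2)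
      obtain ⟨A, rfl⟩ := exists_toLin' T
      obtain ⟨g, rfl, c⟩ := exists_gl_of_pow hr.ne_zero (toLin'_pow_eq_one.1 d)
      exact ⟨g, c, fun f => a f ▸ e f⟩
    · intro c d g k hg hk e f
      rw [isConj_units]
      exact ⟨fun j => Subtype.ext (funext fun x => Nat.eq_of_mul_eq_mul_left i0 ((e x).symm.trans ((IsConj.nk_eq j _).trans (f x)))), fun j =>
        isConj_iff_equiv.2 (cy_equiv hr h (toLin'_pow_eq_one.2 (congrArg Units.val hg)) (toLin'_pow_eq_one.2 (congrArg Units.val hk)) rfl
          fun x => (e x).trans (j ▸ (f x).symm))⟩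

end Cfsg.Agent.S2568
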