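import Cfsg.Statements.S2569
import Cfsg.Agent.GS.Cj3

set_option autoImplicit false
open Cfsg

namespace Cfsg.Agent.S2569

open Cfsg.Agent.H1

/-- In GL_n over a finite field of characteristic p, the conjugacy class of a semisimple element (an element of order prime to p) under the special linear group is its whole GL-conjugacy class: for every such x and every invertible g there is h of determinant one with h x h⁻¹ = g x g⁻¹. -/
theorem result {F : Type*} [Field F] [Fintype F] {p : ℕ} [Fact p.Prime] [CharP F p] {n : ℕ} (x g : GL (Fin n) F) (hx : (orderOf x).Coprime p) : ∃ h : GL (Fin n) F, (h : Matrix (Fin n) (Fin n) F).det = 1 ∧ h * x * h⁻¹ = g * x * g⁻¹ := by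
  open Subgroup Pointwise commutatorElement Cfsg.Agent.BG Cfsg.Agent.GS in
  open Cfsg.Agent.H2 hiding card_lt_of_lt card_lt_of_ne_top isMulCommutative_of_le isPGroup_zpowers_iff mem_of_pow_mem_of_coprime inf_eq_bot_of_cop exists_maxElem_ge Sec in
  open Cfsg.Agent.H8 (Op Opp Fit SN) in
  open Cfsg.Agent.L (FPF) in focus
    rcases n.eq_zero_or_pos with rfl | hn
    · exact ⟨1, by simp, Subsingleton.elim _ _⟩
    haveI : Nonempty (Fin n) := ⟨⟨0, hn⟩⟩
    obtain ⟨c, a, b⟩ := exists_det_comm (T := x.1.toLin') (Polynomial.X_pow_sub_one_separable_iff.2 fun e =>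
      (Fact.out : p.Prime).coprime_iff_not_dvd.1 hx.symm ((CharP.cast_eq_zero_iff F p _).1 e)).squarefree
      (aeval_cy.2 (toLin'_pow_eq_one.2 (val_pow (pow_orderOf_eq_one x)))) g.1.det⁻¹
    obtain ⟨c, rfl⟩ := exists_toLin' c
    rw [LinearMap.det_toLin'] at b
    have := g.det_ne_zero
    let d := Matrix.GeneralLinearGroup.mkOfDetNeZero c (b ▸ inv_ne_zero this)
    have e : d * x = x * d := Units.ext (toLin'_inj.1 (by simpa [d, ← Module.End.mul_eq_comp] using a.eq))
    exact ⟨g * d, by simp [d, b, this], by rw [mul_assoc g, e]; group⟩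

end Cfsg.Agent.S2569
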