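import Cfsg.Statements.S2570
import Cfsg.Agent.GS.Cj3

set_option autoImplicit false
open Cfsg

namespace Cfsg.Agent.S2570

open Cfsg.Agent.H1

/-- Number of conjugacy classes of elements of order p in GL_n over a finite field of characteristic p: they correspond to the Jordan types, that is, to the partitions of n with all parts at most p other than the partition into ones, so there are (number of partitions of n with parts ≤ p) − 1 of them. -/
theorem result {F : Type*} [Field F] [Fintype F] {p : ℕ} [Fact p.Prime] [CharP F p] (n : ℕ) : Nat.card {C : ConjClasses (GL (Fin n) F) // ∃ g : GL (Fin n) F, ConjClasses.mk g = C ∧ orderOf g = p} = (Finset.univ.filter (fun μ : Nat.Partition n => ∀ a ∈ μ.parts, a ≤ p)).card - 1 := by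
  open Subgroup Pointwise commutatorElement Cfsg.Agent.BG Cfsg.Agent.GS in
  open Cfsg.Agent.H2 hiding card_lt_of_lt card_lt_of_ne_top isMulCommutative_of_le isPGroup_zpowers_iff mem_of_pow_mem_of_coprime inf_eq_bot_of_cop exists_maxElem_ge Sec in
  open Cfsg.Agent.H8 (Op Opp Fit SN) in
  open Cfsg.Agent.L (FPF) in focus
    have hp : p.Prime := Fact.out
    rw [card_classes_prime hp, card_classes (β := {μ : n.Partition // ∀ a ∈ μ.parts, a ≤ p}) _ (fun μ g => JT g.1.toLin' 1 μ.1), Nat.card_eq_fintype_card,
      Fintype.card_subtype]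
    · intro g hg
      obtain ⟨μ, a, b⟩ := exists_JT' ((pow_char_eq_one_iff p).1 (val_pow hg)) (Fintype.card_fin n)
      exact ⟨⟨μ, b⟩, a⟩
    · intro μ
      obtain ⟨A, a, b⟩ := JT_model' (F := F) (Fintype.card_fin n) μ.1
      obtain ⟨g, rfl, c⟩ := exists_gl_of_pow hp.ne_zero ((pow_char_eq_one_iff p).2 (b p μ.2))
      exact ⟨g, c, a⟩
    · intro μ ν g h hg hh a b
      rw [isConj_units, JT.isConj_iff ((pow_char_eq_one_iff p).1 (val_pow hg)) ((pow_char_eq_one_iff p).1 (val_pow hh)) a b, Subtype.ext_iff]

end Cfsg.Agent.S2570
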