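import Cfsg.Statements.S2571
import Cfsg.Agent.GS.Cj3

set_option autoImplicit false
open Cfsg

namespace Cfsg.Agent.S2571

open Cfsg.Agent.H1

/-- Centraliser of a regular unipotent element in GL_n(q): if u is an invertible n × n matrix over the field with q elements, n ≥ 1, with (u − 1)^n = 0 and rank(u − 1) = n − 1 (a single unipotent Jordan block), then its centraliser in GL_n(q) has order (q − 1) q^(n−1). -/
theorem result {F : Type*} [Field F] [Fintype F] {q n : ℕ} (hF : Fintype.card F = q) (hn : 1 ≤ n) (u : GL (Fin n) F) (hnil : ((u : Matrix (Fin n) (Fin n) F) - 1) ^ n = 0) (hreg : ((u : Matrix (Fin n) (Fin n) F) - 1).rank = n - 1) : Nat.card ↥(Subgroup.centralizer ({u} : Set (GL (Fin n) F))) = (q - 1) * q ^ (n - 1) := by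
  open Subgroup Pointwise commutatorElement Cfsg.Agent.BG Cfsg.Agent.GS in
  open Cfsg.Agent.H2 hiding card_lt_of_lt card_lt_of_ne_top isMulCommutative_of_le isPGroup_zpowers_iff mem_of_pow_mem_of_coprime inf_eq_bot_of_cop exists_maxElem_ge Sec in
  open Cfsg.Agent.H8 (Op Opp Fit SN) in
  open Cfsg.Agent.L (FPF) in focus
    have h : RU u.1 := ⟨by simpa, by simpa⟩
    obtain ⟨v, hv⟩ := exists_cyc h.nil h.ker
    set N := (u.1 - 1).toLin'
    have r : Module.finrank F (LinearMap.range N) = n - 1 := hreg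
    have c : ∀ g : centralizer ({u} : Set (GL (Fin n) F)), Commute g.1.1.toLin' N := fun g =>
      ((Commute.sub_right (congrArg Units.val (mem_centralizer_singleton_iff.1 g.2)) (Commute.one_right _))).map Matrix.toLinAlgEquiv'
    have a : v ∉ LinearMap.range N := fun ⟨w, hw⟩ => by
      have : LinearMap.range N = ⊤ := eq_top_iff.2 fun x _ => by
        obtain ⟨p, rfl⟩ := hv x
        exact ⟨_, (LinearMap.congr_fun (commute_aeval N p) w).symm.trans (congrArg _ hw)⟩
      rw [this] at r; simp at r; omega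
    have b : ∀ g : centralizer ({u} : Set (GL (Fin n) F)), g.1.1.toLin' v ∉ LinearMap.range N := fun g ⟨w, hw⟩ => a ⟨g⁻¹.1.1.toLin' w, by
      rw [← Module.End.mul_apply, ← c g⁻¹, Module.End.mul_apply, hw]
      simp⟩
    rw [Nat.card_congr (Equiv.ofBijective (fun g => (⟨_, b g⟩ : {w // w ∉ LinearMap.range N}))
      ⟨fun g g' e => Subtype.ext (Units.ext (toLin'_inj.1 (hv.ext (c g) (c g') (congrArg Subtype.val e)))), fun ⟨w, hw⟩ => ?_⟩), H4.card_notMem, r, hF]
    · obtain ⟨n, rfl⟩ := Nat.exists_eq_add_of_le' hn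
      simp [pow_succ', Nat.sub_mul]
    obtain ⟨p, rfl⟩ := hv w
    have d : (Polynomial.aeval (u.1 - 1) p).det ≠ 0 := by
      rw [det_aeval_nilp ⟨n, hnil⟩]
      refine pow_ne_zero _ fun e => hw ⟨Polynomial.aeval N p.divX v, ?_⟩
      conv_rhs => rw [← p.X_mul_divX_add, e]
      simp
    refine ⟨⟨Matrix.GeneralLinearGroup.mkOfDetNeZero _ d, mem_centralizer_singleton_iff.2 (Units.ext ?_)⟩, Subtype.ext ?_⟩
    · have := ((Commute.all p (Polynomial.X + 1)).map (Polynomial.aeval (u.1 - 1))).eq
      rwa [map_add, map_one, Polynomial.aeval_X, sub_add_cancel] at this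
    · exact LinearMap.congr_fun (aeval_toLin' _ p).symm v

end Cfsg.Agent.S2571
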