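import Cfsg.Statements.S2572
import Cfsg.Agent.H9.TvC

set_option autoImplicit false
open Cfsg

namespace Cfsg.Agent.S2572

open Cfsg.Agent Cfsg.Agent.H9

/-- Centraliser of a transvection in GL_n(q), n ≥ 2: if t − 1 has rank one and square zero, the centraliser of t in GL_n(q) has order q^(2n−3) (q − 1) |GL_(n−2)(q)| (a group of order q^(2n−3) extended by GL_1(q) × GL_(n−2)(q)). -/
theorem result {F : Type*} [Field F] [Fintype F] {q n : ℕ} (hF : Fintype.card F = q) (hn : 2 ≤ n) (t : GL (Fin n) F) (ht : Cfsg.IsTransvection (t : Matrix (Fin n) (Fin n) F)) : Nat.card ↥(Subgroup.centralizer ({t} : Set (GL (Fin n) F))) = q ^ (2 * n - 3) * (q - 1) * ∏ i : Fin (n - 2), (q ^ (n - 2) - q ^ (i : ℕ)) := by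
  obtain ⟨n, rfl⟩ := Nat.exists_eq_add_of_le' hn
  have h1 := card_tv_class t ht
  have h2 := H2.card_isConj_mul t
  have hq : 2 ≤ q := by rw [← hF]; exact Fintype.one_lt_card
  rw [Matrix.card_GL_field, hF, card_GL_step q (by omega), card_GL_step q (by omega)] at h2
  rw [hF] at h1
  have h3 : 0 < (q ^ (n + 2) - 1) * (q ^ (n + 1) - 1) := by
    have a1 : 1 < q ^ (n + 2) := Nat.one_lt_pow (by omega) hq
    have a2 : 1 < q ^ (n + 1) := Nat.one_lt_pow (by omega) hq
    exact Nat.mul_pos (by omega) (by omega)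
  apply Nat.eq_of_mul_eq_mul_left h3
  have e : 2 * (n + 2) - 3 = (n + 1) + n := by omega
  rw [e]
  show _ = _ * (_ * _ * ∏ i : Fin n, (q ^ n - q ^ (i : ℕ)))
  conv_lhs => rw [← h1, mul_assoc, h2]
  ring

end Cfsg.Agent.S2572
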