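import Cfsg.Statements.S2574
import Cfsg.Agent.GS.Cj3

set_option autoImplicit false
open Cfsg

namespace Cfsg.Agent.S2574

open Cfsg.Agent.H1

/-- A regular unipotent element of the symplectic group has totally isotropic small invariant subspaces: over a finite field, if u ∈ Sp_2m(F) satisfies (u − 1)^(2m) = 0 and rank(u − 1) = 2m − 1, and W is a u-invariant subspace with 2 dim W ≤ 2m, then the alternating form vanishes identically on W. -/
theorem result {F : Type*} [Field F] [Finite F] {m : ℕ} (u : Matrix.symplecticGroup (Fin m) F) (hnil : ((u : Matrix (Fin m ⊕ Fin m) (Fin m ⊕ Fin m) F) - 1) ^ (2 * m) = 0) (hreg : ((u : Matrix (Fin m ⊕ Fin m) (Fin m ⊕ Fin m) F) - 1).rank = 2 * m - 1) (W : Submodule F (Fin m ⊕ Fin m → F)) (hW : ∀ v ∈ W, (u : Matrix (Fin m ⊕ Fin m) (Fin m ⊕ Fin m) F).mulVec v ∈ W) (hdim : 2 * Module.finrank F W ≤ 2 * m) : ∀ v ∈ W, ∀ w ∈ W, Cfsg.sympForm m F v w = 0 := by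
  open Subgroup Pointwise commutatorElement Cfsg.Agent.BG Cfsg.Agent.GS in
  open Cfsg.Agent.H2 hiding card_lt_of_lt card_lt_of_ne_top isMulCommutative_of_le isPGroup_zpowers_iff mem_of_pow_mem_of_coprime inf_eq_bot_of_cop exists_maxElem_ge Sec in
  open Cfsg.Agent.H8 (Op Opp Fit SN) in
  open Cfsg.Agent.L (FPF) in focus
    have h : RU u.1 := ⟨by simpa [two_mul] using hnil, by simpa [two_mul] using hreg⟩
    have k := fun W (hW : ∀ v ∈ W, u.1.mulVec v ∈ W) => inv_eq_ker h.nil h.ker (W := W) fun v hv => by simpa [Matrix.sub_mulVec] using sub_mem (hW v hv) hv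
    have a := k ((H4.spF F m).perp W) fun v hv => (H4.spF F m).mem_perp.2 fun w hw => by
      obtain ⟨⟨x, hx⟩, e⟩ := (LinearMap.injective_iff_surjective (f := u.1.toLin'.restrict hW)).1 (fun x y e => Subtype.ext
        ((H4.spEquiv F m u).1.injective (congrArg Subtype.val e))) ⟨w, hw⟩
      rw [← show u.1.mulVec x = w from congrArg Subtype.val e]
      exact (H4.mem_symplecticGroup_iff.1 u.2 v x).trans ((H4.spF F m).mem_perp.1 hv x hx)
    have b := (H4.spF_nondeg (F := F) m).finrank_perp W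
    intro v hv w hw
    refine (H4.spF F m).mem_perp.1 ?_ w hw
    rw [a]
    rw [k W hW] at hv
    exact (u.1 - 1).toLin'.iterateKer.monotone (by simp at b; omega) hv

end Cfsg.Agent.S2574
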