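import Cfsg.Statements.S2575
import Cfsg.Agent.GS.Cj3

set_option autoImplicit false
open Cfsg

namespace Cfsg.Agent.S2575

open Cfsg.Agent.H1

/-- Which diagonal involutions of PGL_n(q) lie in PSL_n(q), q odd: for the diagonal matrix t with i entries −1 and n − i entries 1, some non-zero scalar multiple of t has determinant one if and only if i is even or the 2-part of q − 1 exceeds the 2-part of n (that is, −1 is an n-th power in the field exactly in the latter case). -/
theorem result {F : Type*} [Field F] [Fintype F] {q : ℕ} (hF : Fintype.card F = q) (hq : Odd q) {n : ℕ} (hn : 1 ≤ n) (i : ℕ) (hi : i ≤ n) : (∃ c : F, c ≠ 0 ∧ (c • Matrix.diagonal (fun j : Fin n => if (j : ℕ) < i then (-1 : F) else 1)).det = 1) ↔ (Even i ∨ padicValNat 2 n < padicValNat 2 (q - 1)) := by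
  open Subgroup Pointwise commutatorElement Cfsg.Agent.BG Cfsg.Agent.GS in
  open Cfsg.Agent.H2 hiding card_lt_of_lt card_lt_of_ne_top isMulCommutative_of_le isPGroup_zpowers_iff mem_of_pow_mem_of_coprime inf_eq_bot_of_cop exists_maxElem_ge Sec in
  open Cfsg.Agent.H8 (Op Opp Fit SN) in
  open Cfsg.Agent.L (FPF) in focus
    have a : (Matrix.diagonal fun j : Fin n => if (j : ℕ) < i then (-1 : F) else 1).det = (-1) ^ i := by
      simp [Finset.prod_ite, Fin.card_filter_val_lt, hi]
    simp only [Matrix.det_smul, a, Fintype.card_fin]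
    rcases i.even_or_odd with h | h
    · exact iff_of_true ⟨1, one_ne_zero, by simp [h.neg_one_pow]⟩ (Or.inl h)
    have := Fintype.one_lt_card (α := F)
    haveI := H4.two_ne_zero_of_odd (hF ▸ hq)
    rw [or_iff_right (Nat.not_even_iff_odd.2 h), ← Nat.sub_pos_iff_lt, ← Nat.succ_le_iff, ← two_pow_dvd_div (by omega) (by omega), ← hF,
      show 2 ^ Nat.succ 0 = orderOf (-1 : F) by rw [orderOf_neg_one, if_neg fun e => this ((ringChar.spec F 2).2 e.dvd)]; rfl, ← isPow_iff (by simp) (by omega)]
    simp only [h.neg_one_pow, mul_neg_one, neg_eq_iff_eq_neg]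
    exact exists_congr fun c => and_iff_right_of_imp fun e h => by simp [h, zero_pow (show n ≠ 0 by omega)] at e

end Cfsg.Agent.S2575
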