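import Cfsg.Statements.S2576
import Cfsg.Agent.GS.Cj3

set_option autoImplicit false
open Cfsg

namespace Cfsg.Agent.S2576

open Cfsg.Agent.H1

/-- Which involutions of PGL_2m(q) coming from a scalar of the quadratic extension field lie in PSL_2m(q), q odd: let μ generate the Sylow 2-subgroup of the multiplicative group of the field with q elements (μ has order the 2-part of q − 1) and let t be the block-diagonal matrix with m diagonal blocks [[0, 1], [μ, 0]] (so t² is the scalar μ and t is an involution modulo scalars). Then some non-zero scalar multiple of t has determinant one if and only if q ≡ 3 (mod 4) or the 2-part of q − 1 is less than the 2-part of 2m. -/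
theorem result {F : Type*} [Field F] [Fintype F] {q : ℕ} (hF : Fintype.card F = q) (hq : Odd q) {m : ℕ} (hm : 1 ≤ m) (μ : F) (hμ : orderOf μ = 2 ^ padicValNat 2 (q - 1)) : (∃ c : F, c ≠ 0 ∧ (c • Matrix.blockDiagonal (fun _ : Fin m => !![(0 : F), 1; μ, 0])).det = 1) ↔ (q % 4 = 3 ∨ padicValNat 2 (q - 1) < padicValNat 2 (2 * m)) := by
  open Subgroup Pointwise commutatorElement Cfsg.Agent.BG Cfsg.Agent.GS in
  open Cfsg.Agent.H2 hiding card_lt_of_lt card_lt_of_ne_top isMulCommutative_of_le isPGroup_zpowers_iff mem_of_pow_mem_of_coprime inf_eq_bot_of_cop exists_maxElem_ge Sec in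
  open Cfsg.Agent.H8 (Op Opp Fit SN) in
  open Cfsg.Agent.L (FPF) in focus
    have := Fintype.one_lt_card (α := F)
    have h2 := H4.two_ne_zero_of_odd (hF ▸ hq)
    have m0 : μ ≠ 0 := by rintro rfl; simp at hμ; exact absurd hμ.symm (by positivity)
    have a : 1 ≤ padicValNat 2 (q - 1) := one_le_padicValNat_of_dvd (by omega) (by obtain ⟨k, rfl⟩ := hq; simp)
    have b : q % 4 = 3 ↔ padicValNat 2 (q - 1) = 1 := by
      have := padicValNat_dvd_iff_le (p := 2) (n := 2) (show q - 1 ≠ 0 by omega)
      obtain ⟨k, rfl⟩ := hq; omega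
    simp only [Matrix.det_smul, Matrix.det_blockDiagonal, Matrix.det_fin_two_of, Finset.prod_const, Finset.card_univ, Fintype.card_prod, Fintype.card_fin,
      mul_zero, one_mul, zero_sub]
    have c : (∃ c : F, c ≠ 0 ∧ c ^ (2 * m) * (-μ) ^ m = 1) ↔ ∃ c : F, c ^ (2 * m) = (-μ) ^ m :=
      ⟨fun ⟨c, d, e⟩ => ⟨c⁻¹, by rw [inv_pow, inv_eq_of_mul_eq_one_right e]⟩, fun ⟨c, e⟩ => by
        have : c ≠ 0 := fun h => by simp [h, zero_pow (show 2 * m ≠ 0 by omega), eq_comm, m0] at e
        exact ⟨c⁻¹, inv_ne_zero this, by rw [← e, ← mul_pow, inv_mul_cancel₀ this, one_pow]⟩⟩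
    rw [c, isPow_iff (by simp [m0]) (by omega), hF, b, padicValNat.mul two_ne_zero (by omega), padicValNat_self]
    obtain ⟨k, hk⟩ := Nat.exists_eq_add_of_le' a
    rw [hk] at hμ
    have d : μ ^ 2 ^ k = -1 := (sq_eq_one_iff.1 (by rw [← pow_mul, ← pow_succ, ← hμ, pow_orderOf_eq_one])).resolve_left
      (pow_ne_one_of_lt_orderOf (by positivity) (hμ ▸ Nat.pow_lt_pow_right one_lt_two k.lt_succ_self))
    rcases k with _ | k
    · simp_all
    have e : orderOf (-μ) = 2 ^ (k + 1 + 1) := orderOf_eq_prime_pow (by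
      rw [Even.neg_pow (by simp [parity_simps]), d]; exact fun e => h2 (by linear_combination -e)) (by
        rw [Even.neg_pow (by simp [parity_simps]), ← hμ, pow_orderOf_eq_one])
    obtain ⟨j, hj, f⟩ := (Nat.dvd_prime_pow Nat.prime_two).1 (Nat.div_dvd_of_dvd (Nat.gcd_dvd_left (2 ^ (k + 1 + 1)) m))
    have g := fun i => two_pow_dvd_div (N := 2 ^ (k + 1 + 1)) (n := m) (k := i) (by positivity) (by omega)
    rw [f, padicValNat.prime_pow] at g
    have := (g j).1 dvd_rfl
    have := (Nat.pow_dvd_pow_iff_le_right one_lt_two).1 ((g _).2 le_rfl)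
    rw [orderOf_pow' _ (by omega), e, f, two_pow_dvd_div (by omega) (by omega), padicValNat.mul two_ne_zero (by omega), padicValNat_self]
    omega

end Cfsg.Agent.S2576
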