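import Cfsg.Statements.S2577
import Cfsg.Agent.GS.Cj3

set_option autoImplicit false
open Cfsg

namespace Cfsg.Agent.S2577

open Polynomial Matrix Cfsg.Agent.GS Cfsg.Agent.H4

theorem fam1 {F : Type*} [Field F] (h2 : (2 : F) ≠ 0) : Fam (X ^ 2 - C 1 : F[X]) fun b : Bool => X - C (cond b 1 (-1)) := by
  have e : (X ^ 2 - C 1 : F[X]) = (X - C 1) * (X - C (-1)) := by simp; ring
  refine ⟨(separable_X_pow_sub_C 1 (by exact_mod_cast h2) one_ne_zero).squarefree, fun a b h => ?_,
    fun _ => irreducible_X_sub_C _, fun _ => monic_X_sub_C _, fun b => by rw [e]; cases b <;> simp, fun f a b h => ?_⟩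
  · have := C_injective (sub_right_injective h)
    cases a <;> cases b <;> first | rfl | exact absurd (by simp only [cond_true, cond_false] at this; grind) h2
  · rw [e, a.prime.dvd_mul] at h
    exact h.elim (fun h => ⟨true, (eq_of_monic_of_associated b (monic_X_sub_C _) (a.associated_of_dvd (irreducible_X_sub_C _) h)).symm⟩)
      fun h => ⟨false, (eq_of_monic_of_associated b (monic_X_sub_C _) (a.associated_of_dvd (irreducible_X_sub_C _) h)).symm⟩

theorem fam2 {F : Type*} [Field F] {μ : F} (h : ¬ IsSquare μ) : Fam (X ^ 2 - C μ : F[X]) fun _ : Unit => X ^ 2 - C μ := by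
  have h1 := X_pow_sub_C_irreducible_of_prime Nat.prime_two (a := μ) fun b e => h ⟨b, by rw [← e, sq]⟩
  exact ⟨h1.squarefree, fun _ _ _ => rfl, fun _ => h1, fun _ => monic_X_pow_sub_C _ two_ne_zero, fun _ => dvd_rfl, fun f a b e =>
    ⟨(), (eq_of_monic_of_associated b (monic_X_pow_sub_C _ two_ne_zero) (a.associated_of_dvd h1 e)).symm⟩⟩

variable {F : Type*} [Field F] {n : ℕ}

theorem ann {A : Matrix (Fin n) (Fin n) F} {a : F} : aeval A.toLin' (X ^ 2 - C a) = 0 ↔ A ^ 2 = a • 1 := by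
  rw [aeval_toLin'_eq_zero]; simp [sub_eq_zero, Algebra.algebraMap_eq_smul_one]

theorem mk_smul (c : Fˣ) (G : GL (Fin n) F) : ∃ H : GL (Fin n) F, H.1 = c.1 • G.1 ∧
    (H : GL (Fin n) F ⧸ Subgroup.center (GL (Fin n) F)) = G :=
  ⟨GeneralLinearGroup.scalar _ c * G, by simp [scalar_apply, ← smul_one_eq_diagonal], by
    rw [QuotientGroup.mk_mul, (QuotientGroup.eq_one_iff _).2 (GeneralLinearGroup.center_eq_range_scalar.ge ⟨c, rfl⟩), one_mul]⟩

theorem conj_iff {G H : GL (Fin n) F} : IsConj (G : GL (Fin n) F ⧸ Subgroup.center (GL (Fin n) F)) H ↔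
    ∃ c : Fˣ, IsConj (c.1 • G.1) H.1 := by
  refine ⟨fun h => ?_, fun ⟨c, h⟩ => ?_⟩
  · obtain ⟨x, hx⟩ := isConj_iff.1 h
    obtain ⟨x, rfl⟩ := QuotientGroup.mk_surjective x
    obtain ⟨c, hc⟩ := GeneralLinearGroup.center_eq_range_scalar.le (QuotientGroup.eq.1 hx)
    refine ⟨c, x, ?_⟩
    have := congrArg Units.val (eq_inv_mul_iff_mul_eq.1 hc)
    show x.1 * _ = _ * x.1
    rw [← this]
    simp [scalar_apply, ← smul_one_eq_diagonal, mul_assoc]
  · obtain ⟨K, h1, h2⟩ := mk_smul c G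
    exact h2 ▸ (QuotientGroup.mk' _).map_isConj (isConj_units.2 (h1 ▸ h))

theorem nk_neg (A : Matrix (Fin n) (Fin n) F) : nk (-A).toLin' (X - C (-1)) = nk A.toLin' (X - C 1) := by
  have : aeval (-A).toLin' (X - C (-1) : F[X]) = -aeval A.toLin' (X - C 1 : F[X]) := by simp; abel
  rw [nk, nk, this, LinearMap.ker_neg]

theorem sq_conj {A B : Matrix (Fin n) (Fin n) F} [Nonempty (Fin n)] {a b c : F} (h : IsConj (c • A) B) (hA : A ^ 2 = a • 1)
    (hB : B ^ 2 = b • 1) : c * c * a = b := by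
  have := h.pow 2
  rw [_root_.smul_pow, hA, hB, smul_smul] at this
  obtain ⟨x, hx⟩ := this
  have h1 := congrArg (· * x⁻¹.1) hx.eq
  simpa [sq, smul_left_injective F (one_ne_zero (α := Matrix (Fin n) (Fin n) F)) |>.eq_iff] using h1

/-- Number of conjugacy classes of involutions in PGL_n(q) for q odd and n ≥ 2: there are ⌊n/2⌋ classes represented by diagonal matrices with i entries −1 (1 ≤ i ≤ n/2) and, when n is even, one more class represented by a block-diagonal matrix of 2 × 2 blocks [[0, 1], [μ, 0]] with μ a non-square (a matrix squaring to a scalar but having no eigenvalue in the field); in all ⌊n/2⌋ + 1 classes if n is even and ⌊n/2⌋ if n is odd. -/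
theorem result {F : Type*} [Field F] [Fintype F] {q : ℕ} (hF : Fintype.card F = q) (hq : Odd q) {n : ℕ} (hn : 2 ≤ n) : Nat.card {C : ConjClasses (GL (Fin n) F ⧸ Subgroup.center (GL (Fin n) F)) // ∃ g : GL (Fin n) F ⧸ Subgroup.center (GL (Fin n) F), ConjClasses.mk g = C ∧ orderOf g = 2} = n / 2 + (if Even n then 1 else 0) := by
  have h2 := two_ne_zero_of_odd (hF ▸ hq)
  have : Nonempty (Fin n) := ⟨⟨0, by omega⟩⟩
  obtain ⟨μ, hμ⟩ := FiniteField.exists_nonsquare (F := F) fun h => h2 (by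
    have := ringChar.Nat.cast_ringChar (R := F); rw [h] at this; exact_mod_cast this)
  have hμ0 : μ ≠ 0 := by rintro rfl; exact hμ IsSquare.zero
  have h1 : ∀ A : Matrix (Fin n) (Fin n) F, A ^ 2 = (1 : F) • 1 → nk A.toLin' (X - C 1) + nk A.toLin' (X - C (-1)) = n :=
    fun A h => by simpa using (fam1 h2).sum_nk (ann.2 h)
  have h3 : ∀ (A : Matrix (Fin n) (Fin n) F) (a : F), a ≠ 0 → A ^ 2 = a • 1 → ∃ G : GL (Fin n) F, G.1 = A ∧
      (G : GL (Fin n) F ⧸ Subgroup.center (GL (Fin n) F)) ^ 2 = 1 := fun A a ha h => by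
    obtain ⟨G, rfl⟩ : IsUnit A := IsUnit.of_mul_eq_one (a⁻¹ • A) (by rw [mul_smul_comm, ← sq, h, smul_smul, inv_mul_cancel₀ ha, one_smul])
    exact ⟨G, rfl, (QuotientGroup.eq_one_iff (G ^ 2)).2 (GeneralLinearGroup.center_eq_range_scalar.ge
      ⟨Units.mk0 a ha, Units.ext (by simp [h, scalar_apply, ← smul_one_eq_diagonal])⟩)⟩
  refine ((card_classes_prime Nat.prime_two).trans (congrArg (· - 1) (card_classes (β := Fin (n / 2 + 1) ⊕ {_u : Unit // Even n})
    (fun g : GL (Fin n) F ⧸ Subgroup.center (GL (Fin n) F) => g ^ 2 = 1)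
    (fun b g => ∃ G : GL (Fin n) F, G = g ∧ b.elim (fun i : Fin (n / 2 + 1) => G.1 ^ 2 = (1 : F) • 1 ∧ nk G.1.toLin' (X - C (-1)) = i)
      fun _ => G.1 ^ 2 = μ • 1) (fun g hg => ?_) (fun b => ?_) ?_))).trans ?_
  rotate_right
  · split_ifs with h <;> simp [h]
  · obtain ⟨G, rfl⟩ := QuotientGroup.mk_surjective g
    obtain ⟨a, ha⟩ := GeneralLinearGroup.center_eq_range_scalar.le ((QuotientGroup.eq_one_iff (G ^ 2)).1 hg)
    have h4 : G.1 ^ 2 = a.1 • 1 := by simpa [scalar_apply, ← smul_one_eq_diagonal] using (congrArg Units.val ha).symm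
    by_cases h : IsSquare a.1
    · obtain ⟨c, hc⟩ := h
      have hc0 : c ≠ 0 := by rintro rfl; simp at hc
      obtain ⟨H, h5, h6⟩ := mk_smul (Units.mk0 c hc0)⁻¹ G
      have h7 : H.1 ^ 2 = (1 : F) • 1 := by rw [h5, _root_.smul_pow, h4, smul_smul, hc]; congr 1; simp; field_simp
      have h8 := h1 _ h7
      by_cases h9 : nk H.1.toLin' (X - C (-1)) ≤ n / 2
      · exact ⟨.inl ⟨_, Nat.lt_succ_of_le h9⟩, H, h6, h7, rfl⟩
      · obtain ⟨K, a, b⟩ := mk_smul (-1) H
        exact ⟨.inl ⟨nk H.1.toLin' (X - C 1), by omega⟩, K, b.trans h6, by simpa [a] using h7, by simpa [a] using nk_neg H.1⟩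
    · obtain ⟨c, hc⟩ : IsSquare (μ * a.1) := by
        classical
        rw [← quadraticChar_one_iff_isSquare (mul_ne_zero hμ0 a.ne_zero), map_mul, quadraticChar_neg_one_iff_not_isSquare.2 h,
          quadraticChar_neg_one_iff_not_isSquare.2 hμ]; rfl
      have hc0 : c ≠ 0 := by rintro rfl; simp [hμ0] at hc
      obtain ⟨H, h5, h6⟩ := mk_smul (Units.mk0 c hc0 * a⁻¹) G
      have h7 : H.1 ^ 2 = μ • 1 := by
        rw [h5, _root_.smul_pow, h4, smul_smul]; congr 1; simp; field_simp; linear_combination -hc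
      refine ⟨.inr ⟨(), by_contra fun e => hμ ?_⟩, H, h6, h7⟩
      obtain ⟨k, rfl⟩ := Nat.not_even_iff_odd.1 e
      have := congrArg det h7
      rw [det_pow, det_smul, det_one, Fintype.card_fin] at this
      exact ⟨H.1.det / μ ^ k, by field_simp; linear_combination -this⟩
  · rcases b with i | ⟨-, k, hk⟩
    · obtain ⟨T, a, b⟩ := (fam1 h2).model (V := Fin n → F) (fun b => cond b (n - i) i) (by have := i.2; simp; omega)
      obtain ⟨A, rfl⟩ := exists_toLin' T
      obtain ⟨G, rfl, c⟩ := h3 A 1 one_ne_zero (ann.1 a)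
      exact ⟨G, c, G, rfl, ann.1 a, (b false).trans (by rw [natDegree_X_sub_C, one_mul]; rfl)⟩
    · obtain ⟨T, a, -⟩ := (fam2 hμ).model (V := Fin n → F) (fun _ => k) (by simp; omega)
      obtain ⟨A, rfl⟩ := exists_toLin' T
      obtain ⟨G, rfl, c⟩ := h3 A μ hμ0 (ann.1 a)
      exact ⟨G, c, G, rfl, ann.1 a⟩
  · rintro (i | i) (j | j) _ _ - - ⟨G, rfl, a⟩ ⟨H, rfl, b⟩ <;> rw [conj_iff]
    · refine ⟨fun ⟨c, h⟩ => ?_, fun h => ⟨1, ?_⟩⟩
      · have h4 := IsConj.nk_eq h (X - C (-1))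
        have := h1 _ a.1
        have := i.2
        have := j.2
        have a2 := a.2
        have b2 := b.2
        obtain e | e := mul_self_eq_one_iff.1 ((mul_one _).symm.trans (sq_conj h a.1 b.1)) <;> rw [e] at h4
        · rw [one_smul] at h4; exact congrArg _ (Fin.ext (by omega))
        · rw [neg_one_smul, nk_neg] at h4; exact congrArg _ (Fin.ext (by omega))
      · obtain rfl := Sum.inl_injective h
        have := h1 _ a.1
        have := h1 _ b.1
        have a2 := a.2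
        have b2 := b.2
        rw [Units.val_one, one_smul]
        exact isConj_iff_equiv.2 ((fam1 h2).equiv (ann.2 a.1) (ann.2 b.1) rfl fun k => by cases k <;> simp only [cond_true, cond_false] <;> omega)
    · exact iff_of_false (fun ⟨c, h⟩ => hμ ⟨c, by rw [← sq_conj h a.1 b, mul_one]⟩) (by simp)
    · exact iff_of_false (fun ⟨c, h⟩ => hμ ⟨c⁻¹.1, by have := sq_conj h a b.1; simp; field_simp; linear_combination this⟩) (by simp)
    · refine iff_of_true ⟨1, ?_⟩ (congrArg _ (Subsingleton.elim _ _))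
      rw [Units.val_one, one_smul]
      have a' : aeval G.1.toLin' (X ^ 2 - C μ) = 0 := ann.2 a
      have b' : aeval H.1.toLin' (X ^ 2 - C μ) = 0 := ann.2 b
      exact isConj_iff_equiv.2 ((fam2 hμ).equiv a' b' rfl fun _ =>
        (nk_eq_finrank.2 a').trans (nk_eq_finrank.2 b').symm)

end Cfsg.Agent.S2577
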