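import Cfsg.Statements.S2578
import Cfsg.Agent.GS.Cj3

set_option autoImplicit false
open Cfsg

namespace Cfsg.Agent.S2578

open Cfsg.Agent.H1

/-- Regular unipotent classes of SL_n(q): for n ≥ 2 over the field with q elements, the matrices u of determinant one with (u − 1)^n = 0 and rank(u − 1) = n − 1 form a single GL_n(q)-class which splits into exactly gcd(n, q − 1) conjugacy classes of SL_n(q). -/
theorem result {F : Type*} [Field F] [Fintype F] {q : ℕ} (hF : Fintype.card F = q) {n : ℕ} (hn : 2 ≤ n) : Nat.card {C : ConjClasses (Matrix.SpecialLinearGroup (Fin n) F) // ∃ u : Matrix.SpecialLinearGroup (Fin n) F, ConjClasses.mk u = C ∧ ((u : Matrix (Fin n) (Fin n) F) - 1) ^ n = 0 ∧ ((u : Matrix (Fin n) (Fin n) F) - 1).rank = n - 1} = Nat.gcd n (q - 1) := by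
  open Subgroup Pointwise commutatorElement Cfsg.Agent.BG Cfsg.Agent.GS in
  open Cfsg.Agent.H2 hiding card_lt_of_lt card_lt_of_ne_top isMulCommutative_of_le isPGroup_zpowers_iff mem_of_pow_mem_of_coprime inf_eq_bot_of_cop exists_maxElem_ge Sec in
  open Cfsg.Agent.H8 (Op Opp Fit SN) in
  open Cfsg.Agent.L (FPF) in focus
    obtain ⟨u, hu⟩ : ∃ u : Matrix.SpecialLinearGroup (Fin n) F, RU u.1 := let ⟨u, hu⟩ := exists_RU F (Fin n); ⟨⟨u, det_unip hu.1⟩, hu⟩
    haveI : Nonempty (Fin n) := ⟨⟨0, by omega⟩⟩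
    rw [card_split Matrix.SpecialLinearGroup.toGL_injective H4.range_toGL Matrix.GeneralLinearGroup.det_surjective u
      fun v => (by simp [RU] : _ ↔ RU v.1).trans (by rw [isConj_units]; exact hu.isConj_iff), ← hF, ← H4.card_units_field, Nat.gcd_comm,
      ← IsCyclic.index_powMonoidHom_range]
    congr 1
    refine le_antisymm ?_ ?_
    · rintro _ ⟨g, hg, rfl⟩
      obtain ⟨p, hp⟩ := hu.eq_aeval (A := g.1) (congrArg Units.val (mem_centralizer_singleton_iff.1 hg))
      have := det_aeval_nilp ⟨_, hu.1⟩ p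
      rw [hp, Fintype.card_fin] at this
      exact ⟨Units.mk0 (p.coeff 0) fun e => g.det_ne_zero (by rw [this, e, zero_pow (by omega)]), Units.ext this.symm⟩
    · rintro _ ⟨a, rfl⟩
      exact ⟨Matrix.GeneralLinearGroup.scalar _ a, mem_centralizer_singleton_iff.2 (Units.ext (Matrix.scalar_commute _ (fun _ => Commute.all _ _) _)),
        Units.ext (by simp)⟩

end Cfsg.Agent.S2578
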