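import Cfsg.Statements.S2585
import Cfsg.Agent.H9.TJ

set_option autoImplicit false
open Cfsg

namespace Cfsg.Agent.S2585

open Cfsg.Agent Cfsg.Agent.H9

/-- Over a finite field of characteristic two every element of the symplectic group is orthogonal for a suitable quadratic form: for each A in Sp_2m(F) there is a quadratic form Q on F^(2m) whose polar form is the alternating form defining Sp_2m(F) (so Q is non-degenerate) and which A preserves. Equivalently, for m ≥ 1, Sp_2m(F) is the union of the conjugates of its two orthogonal subgroups O⁺_2m(F) and O⁻_2m(F). -/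
theorem result {F : Type*} [Field F] [Fintype F] [CharP F 2] {m : ℕ} (A : Matrix.symplecticGroup (Fin m) F) : ∃ Q : QuadraticForm F (Fin m ⊕ Fin m → F), (∀ u v : Fin m ⊕ Fin m → F, QuadraticMap.polar ⇑Q u v = Cfsg.sympForm m F u v) ∧ ∀ v : Fin m ⊕ Fin m → F, Q ((A : Matrix (Fin m ⊕ Fin m) (Fin m ⊕ Fin m) F).mulVec v) = Q v := by
  have h2 : (2 : F) = 0 := by exact_mod_cast CharP.cast_eq_zero F 2
  haveI : ExpChar F 2 := ExpChar.prime Nat.prime_two
  let B : (Fin m ⊕ Fin m → F) →ₗ[F] (Fin m ⊕ Fin m → F) →ₗ[F] F := LinearMap.mk₂ F (fun u v => ∑ i, u (.inl i) * v (.inr i))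
    (fun x y z => by simp [add_mul, Finset.sum_add_distrib]) (fun c x y => by simp [Finset.mul_sum, mul_assoc])
    (fun x y z => by simp [mul_add, Finset.sum_add_distrib]) (fun c x y => by simp [Finset.mul_sum, mul_left_comm])
  let Q0 : QuadraticForm F (Fin m ⊕ Fin m → F) := LinearMap.BilinMap.toQuadraticMap B
  have hp : ∀ u v, QuadraticMap.polar Q0 u v = Cfsg.sympForm m F u v := by
    intro u v
    rw [LinearMap.BilinMap.polar_toQuadraticMap]
    simp only [B, LinearMap.mk₂_apply, sympForm, Matrix.J, Matrix.fromBlocks_mulVec, dotProduct, Fintype.sum_sum_type]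
    simp only [Matrix.zero_mulVec, Matrix.neg_mulVec, Matrix.one_mulVec, zero_add, add_zero, Sum.elim_inl, Sum.elim_inr, Pi.neg_apply, Function.comp, mul_neg, Finset.sum_neg_distrib]
    rw [Finset.sum_congr rfl fun i _ => mul_comm (v (.inl i)) (u (.inr i))]
    linear_combination (∑ i, u (.inl i) * v (.inr i)) * h2
  let a : (Fin m ⊕ Fin m → F) →ₗ[F] (Fin m ⊕ Fin m → F) := Matrix.mulVecLin (A : Matrix (Fin m ⊕ Fin m) (Fin m ⊕ Fin m) F)
  have hA : ∀ u v, Cfsg.sympForm m F (a u) (a v) = Cfsg.sympForm m F u v := by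
    intro u v
    have h := SymplecticGroup.mem_iff'.mp A.2
    simp only [a, sympForm, Matrix.mulVecLin_apply]
    conv_rhs => rw [← h]
    rw [← Matrix.mulVec_mulVec, ← Matrix.mulVec_mulVec, Matrix.dotProduct_mulVec u, Matrix.vecMul_transpose]
  let fr := frobeniusEquiv F 2
  have hfr : ∀ x, fr x = x ^ 2 := fun x => rfl
  let lam : (Fin m ⊕ Fin m → F) →ₗ[F] F :=
    { toFun := fun v => fr.symm (Q0 (a v) - Q0 v)
      map_add' := fun u v => by
        rw [← map_add]; congr 1
        have h1 := hp u v
        have h3 := hp (a u) (a v)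
        rw [hA] at h3
        simp only [QuadraticMap.polar] at h1 h3
        rw [map_add]
        linear_combination h3 - h1
      map_smul' := fun c v => by
        apply fr.injective
        simp only [RingHom.id_apply, smul_eq_mul, map_mul, RingEquiv.apply_symm_apply, hfr c, map_smul, QuadraticMap.map_smul]
        ring }
  have hlam : ∀ v, lam v ^ 2 = Q0 (a v) - Q0 v := fun v => by rw [← hfr]; exact fr.apply_symm_apply _
  have hl : lam ∈ (LinearMap.ker (a - LinearMap.id)).dualAnnihilator := by
    rw [Submodule.mem_dualAnnihilator]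
    intro v hv
    have hv' : a v = v := sub_eq_zero.mp (LinearMap.mem_ker.mp hv)
    have := hlam v
    rw [hv', sub_self] at this
    exact pow_eq_zero_iff (two_ne_zero) |>.mp this
  rw [← LinearMap.range_dualMap_eq_dualAnnihilator_ker] at hl
  obtain ⟨mu, hmu⟩ := hl
  have hmu' : ∀ v, mu (a v) - mu v = lam v := fun v => by
    rw [← hmu]; simp
  refine ⟨Q0 + QuadraticMap.linMulLin mu mu, fun u v => ?_, fun v => ?_⟩
  · rw [← hp]
    simp only [QuadraticMap.polar, QuadraticMap.add_apply, QuadraticMap.linMulLin_apply, map_add]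
    linear_combination (mu u * mu v) * h2
  · show (Q0 + QuadraticMap.linMulLin mu mu) (a v) = _
    simp only [QuadraticMap.add_apply, QuadraticMap.linMulLin_apply]
    have h1 := hlam v
    rw [← hmu'] at h1
    linear_combination (-1 : F) * h1 + (mu (a v) ^ 2 - mu (a v) * mu v) * h2

end Cfsg.Agent.S2585
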