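import Cfsg.Statements.S2587
import Cfsg.Agent.GS.Cj4

set_option autoImplicit false
open Cfsg

namespace Cfsg.Agent.S2587

open Cfsg.Agent.H1

/-- Conjugacy in the finite general unitary group is controlled by the general linear group: two elements of GU_n(q) (the invertible matrices over the field with q² elements preserving the Hermitian form Σ u_i v_i^q) are conjugate in GU_n(q) if and only if they are conjugate in GL_n(q²). -/
theorem result {K : Type*} [Field K] [Fintype K] {q n : ℕ} (hK : Fintype.card K = q ^ 2) (A B : ↥(Cfsg.GU n K q)) : IsConj A B ↔ IsConj (A : GL (Fin n) K) (B : GL (Fin n) K) := by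
  open Subgroup Pointwise commutatorElement Cfsg.Agent.BG Cfsg.Agent.GS in
  open Cfsg.Agent.H2 hiding card_lt_of_lt card_lt_of_ne_top isMulCommutative_of_le isPGroup_zpowers_iff mem_of_pow_mem_of_coprime inf_eq_bot_of_cop exists_maxElem_ge Sec in
  open Cfsg.Agent.H8 (Op Opp Fit SN) in
  open Cfsg.Agent.L (FPF) in focus
    refine ⟨fun h => (GU n K q).subtype.map_isConj h, fun h => ?_⟩
    obtain ⟨e, he⟩ := isConj_iff_equiv.1 (isConj_units.1 h)
    exact (isConj_equiv (H4.guEquiv hK n)).1 (isConj_iso.2 (ic_unit (H4.frobq_ne hK) (H4.unF_nondeg hK n) (H4.unF_nondeg hK n)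
      (H4.guEquiv hK n A).2 (H4.guEquiv hK n B).2 e he))

end Cfsg.Agent.S2587
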