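import Cfsg.Statements.S2588
import Cfsg.Agent.GS.Cj8

set_option autoImplicit false
open Cfsg

namespace Cfsg.Agent.S2588

open Cfsg.Agent.H1

/-- An invertible matrix A over the field with q² elements is conjugate in GL_n(q²) to an element of the general unitary group GU_n(q) (isometries of the Hermitian form Σ u_i v_i^q) if and only if A is similar to the inverse transpose of its entrywise q-th power (A ~ A^(−qT), the image of A under the map sending a matrix to the inverse transpose of its entrywise q-th power — inverse transpose composed with the field automorphism — whose fixed points form GU_n(q)). -/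
theorem result {K : Type*} [Field K] [Fintype K] {q n : ℕ} (hK : Fintype.card K = q ^ 2) (A : GL (Fin n) K) : (∃ B : ↥(Cfsg.GU n K q), IsConj A (B : GL (Fin n) K)) ↔ IsConj (A : Matrix (Fin n) (Fin n) K) (((A : Matrix (Fin n) (Fin n) K).map (fun x : K => x ^ q)).transpose)⁻¹ := by
  open Subgroup Pointwise commutatorElement Cfsg.Agent.BG Cfsg.Agent.GS in
  open Cfsg.Agent.H2 hiding card_lt_of_lt card_lt_of_ne_top isMulCommutative_of_le isPGroup_zpowers_iff mem_of_pow_mem_of_coprime inf_eq_bot_of_cop exists_maxElem_ge Sec in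
  open Cfsg.Agent.H8 (Op Opp Fit SN) in
  open Cfsg.Agent.L (FPF) in focus
    letI := adjStar (H4.unF_nondeg hK n)
    have u : IsUnit (A.1.map (· ^ q)).transpose.det := by
      rw [Matrix.det_transpose]; exact (Matrix.isUnit_iff_isUnit_det _).1 (A.isUnit.map (H4.frobq hK).mapMatrix)
    have e : (A.1.map (· ^ q)).transpose⁻¹.toLin' * ajt (H4.unF_nondeg hK n) A.1.toLin' = 1 := by
      rw [ajt_unF, Module.End.mul_eq_comp, ← Matrix.toLin'_mul, Matrix.nonsing_inv_mul _ u, toLin'_one']
    simp only [isConj_units]
    exact ⟨fun ⟨B, h⟩ => isConj_toLin'.1 (isConj_of_unitary (isConj_toLin'.2 h) ((adj_mul_iff _).2 ((mem_GU' hK).1 B.2).1) e),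
      fun h => exists_GU hK A.isUnit (mul_eq_one_comm.1 e) (isConj_toLin'.2 h)⟩

end Cfsg.Agent.S2588
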