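import Cfsg.Statements.S2589
import Cfsg.Agent.GS.Cj4

set_option autoImplicit false
open Cfsg

namespace Cfsg.Agent.S2589

open Cfsg.Agent.H1

/-- Two semisimple elements of the finite symplectic group Sp_2m(F) (elements of order prime to the characteristic) are conjugate in Sp_2m(F) if and only if they are conjugate in GL_2m(F). -/
theorem result {F : Type*} [Field F] [Fintype F] {p : ℕ} [Fact p.Prime] [CharP F p] {m : ℕ} (A B : Matrix.symplecticGroup (Fin m) F) (hA : (orderOf A).Coprime p) : IsConj A B ↔ IsConj (A : Matrix (Fin m ⊕ Fin m) (Fin m ⊕ Fin m) F) (B : Matrix (Fin m ⊕ Fin m) (Fin m ⊕ Fin m) F) := by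
  open Subgroup Pointwise commutatorElement Cfsg.Agent.BG Cfsg.Agent.GS in
  open Cfsg.Agent.H2 hiding card_lt_of_lt card_lt_of_ne_top isMulCommutative_of_le isPGroup_zpowers_iff mem_of_pow_mem_of_coprime inf_eq_bot_of_cop exists_maxElem_ge Sec in
  open Cfsg.Agent.H8 (Op Opp Fit SN) in
  open Cfsg.Agent.L (FPF) in focus
    refine ⟨fun h => (Matrix.symplecticGroup (Fin m) F).subtype.map_isConj h, fun h => ?_⟩
    obtain ⟨e, he⟩ := isConj_iff_equiv.1 h
    exact (isConj_equiv (H4.spEquiv F m)).1 (isConj_iso.2 (ic_symp (H4.spF_nondeg m) (H4.spF_nondeg m)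
      (H4.spEquiv F m A).2 (H4.spEquiv F m B).2 (fun e => (Fact.out : p.Prime).coprime_iff_not_dvd.1 hA.symm ((CharP.cast_eq_zero_iff F p _).1 e))
      (toLin'_pow_eq_one.2 (congrArg Subtype.val (pow_orderOf_eq_one A))) e he))

end Cfsg.Agent.S2589
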