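import Cfsg.Statements.S2590
import Cfsg.Agent.GS.Cj4

set_option autoImplicit false
open Cfsg

namespace Cfsg.Agent.S2590

open Cfsg.Agent.H1

/-- Two semisimple elements of odd order of a finite orthogonal group (isometry group of a quadratic form on F^n with non-degenerate polar form, F finite of characteristic p; the elements have odd order prime to p) are conjugate in the orthogonal group if and only if they are conjugate in GL_n(F). -/
theorem result {F : Type*} [Field F] [Fintype F] {p : ℕ} [Fact p.Prime] [CharP F p] {n : ℕ} (Q : QuadraticForm F (Fin n → F)) (hQ : (QuadraticMap.polarBilin Q).Nondegenerate) (A B : ↥(Cfsg.isometryGroup F ⇑Q)) (hodd : Odd (orderOf A)) (hA : (orderOf A).Coprime p) : IsConj A B ↔ IsConj ((A : Matrix.GeneralLinearGroup (Fin n) F) : Matrix (Fin n) (Fin n) F) ((B : Matrix.GeneralLinearGroup (Fin n) F) : Matrix (Fin n) (Fin n) F) := by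
  open Subgroup Pointwise commutatorElement Cfsg.Agent.BG Cfsg.Agent.GS in
  open Cfsg.Agent.H2 hiding card_lt_of_lt card_lt_of_ne_top isMulCommutative_of_le isPGroup_zpowers_iff mem_of_pow_mem_of_coprime inf_eq_bot_of_cop exists_maxElem_ge Sec in
  open Cfsg.Agent.H8 (Op Opp Fit SN) in
  open Cfsg.Agent.L (FPF) in focus
    refine ⟨fun h => ((Units.coeHom _).comp (isometryGroup F Q).subtype).map_isConj h, fun h => ?_⟩
    obtain ⟨e, he⟩ := isConj_iff_equiv.1 h
    have a := H4.CForm.ofQuad_nondeg hQ
    exact (isConj_equiv (H4.isomEquiv (H4.CForm.ofQuad Q))).1 (isConj_iso.2 (ic_odd a a H4.CForm.Isom.refl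
      (H4.isomEquiv (H4.CForm.ofQuad Q) A).2 (H4.isomEquiv (H4.CForm.ofQuad Q) B).2 (fun e => (Fact.out : p.Prime).coprime_iff_not_dvd.1 hA.symm ((CharP.cast_eq_zero_iff F p _).1 e)) hodd
      (toLin'_pow_eq_one.2 (congrArg (·.1.1) (pow_orderOf_eq_one A))) e he))

end Cfsg.Agent.S2590
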