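import Cfsg.Statements.S2591
import Cfsg.Agent.H4.Cay2

set_option autoImplicit false
open Cfsg

namespace Cfsg.Agent.S2591

/-- Over a finite field of odd order and for m ≥ 1, the regular unipotent elements of Sp_2m(F) (u − 1 nilpotent of rank 2m − 1, a single Jordan block) form exactly two conjugacy classes of Sp_2m(F) (one class under the similarity group, which splits in two). -/
theorem result {F : Type*} [Field F] [Fintype F] {q : ℕ} (hF : Fintype.card F = q) (hq : Odd q) {m : ℕ} (hm : 1 ≤ m) : Nat.card {C : ConjClasses ↥(Matrix.symplecticGroup (Fin m) F) // ∃ u : Matrix.symplecticGroup (Fin m) F, ConjClasses.mk u = C ∧ ((u : Matrix (Fin m ⊕ Fin m) (Fin m ⊕ Fin m) F) - 1) ^ (2 * m) = 0 ∧ ((u : Matrix (Fin m ⊕ Fin m) (Fin m ⊕ Fin m) F) - 1).rank = 2 * m - 1} = 2 := by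
  open Cfsg.Agent.H4 Cfsg.Agent.GS Matrix Polynomial in
  subst hF
  have h2 := two_ne_zero_of_odd hq
  have hn : Fintype.card (Fin m ⊕ Fin m) = 2 * m := by simp [two_mul]
  have : Nonempty (Fin m) := ⟨⟨0, hm⟩⟩
  obtain ⟨u, hu⟩ := exists_sp_RU h2 hm
  let f : symplecticGroup (Fin m) F →* GSpM F m :=
    ((symplecticGroup (Fin m) F).subtype.toHomUnits.prod 1).codRestrict _ fun x => by
      show spAdj x.1 * x.1 = (1 : F) • 1
      rw [one_smul, mul_eq_one_comm, mem_Sp_spAdj.1 x.2]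
  let φ : GSpM F m →* Fˣ := (MonoidHom.snd _ _).comp (GSpM F m).subtype
  have h3 : f.range = φ.ker := le_antisymm (by rintro _ ⟨x, rfl⟩; rfl) fun g hg =>
    ⟨⟨g.1.1.1, mem_Sp_spAdj.2 (mul_eq_one_comm.1 (by
      have := g.2
      rwa [show g.1 ∈ GSpM F m ↔ spAdj g.1.1.1 * g.1.1.1 = (g.1.2 : F) • 1 from Iff.rfl, show g.1.2 = 1 from hg,
        Units.val_one, one_smul] at this))⟩, Subtype.ext (Prod.ext (Units.ext rfl) (Eq.symm hg))⟩
  have h4 : Function.Surjective φ := fun a => ⟨⟨(GeneralLinearGroup.mkOfDetNeZero (fromBlocks 1 0 0 ((a : F) • 1)) (by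
      simp [det_fromBlocks_zero₂₁]), a), by
    show spAdj (fromBlocks 1 0 0 ((a : F) • 1)) * fromBlocks 1 0 0 ((a : F) • 1) = (a : F) • 1
    rw [← fromBlocks_one (l := Fin m) (m := Fin m) (α := F), fromBlocks_smul]
    simp [spAdj_apply, J, fromBlocks_transpose, fromBlocks_multiply, fromBlocks_neg]⟩, rfl⟩
  rw [card_split (f := f) (fun x y h => Subtype.ext (congrArg (·.1.1.1) h)) h3 h4 u
    fun v => (by rw [RU, hn] : _ ↔ RU v.1).trans ⟨fun hv => ?_, fun h => hu.isConj_iff.2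
      (((Units.coeHom _).comp ((MonoidHom.fst _ _).comp (GSpM F m).subtype)).map_isConj h)⟩]
  · rw [show 2 = (Nat.card Fˣ).gcd 2 by
      rw [card_units_field, Nat.gcd_eq_right (Nat.Odd.sub_odd hq odd_one).two_dvd], ← IsCyclic.index_powMonoidHom_range]
    congr 1
    refine le_antisymm ?_ ?_
    · rintro _ ⟨g, hg, rfl⟩
      obtain ⟨p, hp⟩ := hu.eq_aeval (A := g.1.1.1) (congrArg (fun x : GSpM F m => x.1.1.1) (Subgroup.mem_centralizer_singleton_iff.1 hg))
      have h5 := isNilpotent_aeval_sub ⟨_, hu.1⟩ p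
      rw [hp] at h5
      generalize p.coeff 0 = c at h5
      obtain ⟨N, hN⟩ := h5
      have h6 : IsNilpotent (spAdj (g.1.1.1 - algebraMap F _ c)) := ⟨N, by rw [← spAdj_pow, hN, map_zero]⟩
      have h7 : spAdj g.1.1.1 * g.1.1.1 = (g.1.2 : F) • 1 := g.2
      have h8 : g.1.1.1 * spAdj g.1.1.1 = (g.1.2 : F) • 1 := by
        rw [← Units.mul_left_inj g.1.1, mul_assoc, h7]; simp
      have h9 : Commute (spAdj g.1.1.1) g.1.1.1 := h7.trans h8.symm
      simp only [Algebra.algebraMap_eq_smul_one, map_sub, map_smul, spAdj_one] at h6 hN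
      have h10 : IsNilpotent (algebraMap F (Matrix (Fin m ⊕ Fin m) (Fin m ⊕ Fin m) F) (g.1.2 - c * c)) := by
        rw [show algebraMap F (Matrix (Fin m ⊕ Fin m) (Fin m ⊕ Fin m) F) (g.1.2 - c * c) =
          (spAdj g.1.1.1 - c • 1) * g.1.1.1 + c • (g.1.1.1 - c • 1) by
            simp [Algebra.algebraMap_eq_smul_one, sub_mul, h7, smul_sub, sub_smul, smul_smul]]
        have h11 : Commute (spAdj g.1.1.1 - c • 1) g.1.1.1 := h9.sub_left ((Commute.one_left _).smul_left c)
        exact Commute.isNilpotent_add (((h11.sub_right ((Commute.one_right _).smul_right c)).mul_left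
          ((Commute.refl _).sub_right ((Commute.one_right _).smul_right c))).smul_right c)
          (h11.isNilpotent_mul_right h6) (IsNilpotent.smul ⟨N, hN⟩ c)
      have h11 := sub_eq_zero.1 ((IsNilpotent.map_iff (algebraMap F _).injective).1 h10).eq_zero
      exact ⟨Units.mk0 c fun e => g.1.2.ne_zero (by rw [h11, e, mul_zero]), Units.ext ((sq c).trans h11.symm)⟩
    · rintro _ ⟨a, rfl⟩
      refine ⟨⟨(GeneralLinearGroup.scalar _ a, a ^ 2), ?_⟩, Subgroup.mem_centralizer_singleton_iff.2 (Subtype.ext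
        (Prod.ext (Units.ext (scalar_commute _ (fun _ => Commute.all _ _) _)) (mul_comm _ _))), rfl⟩
      show spAdj (scalar _ a.1) * scalar _ a.1 = _
      simp [scalar_apply, ← smul_one_eq_diagonal, spAdj_one, smul_smul, sq]
  · obtain ⟨g, hg⟩ := exists_GSpM h2 hm hu hv
    exact isConj_iff.2 ⟨g, mul_inv_eq_iff_eq_mul.2 (Subtype.ext (Prod.ext (Units.ext hg) (mul_comm _ _)))⟩

end Cfsg.Agent.S2591
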