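import Cfsg.Statements.S2592
import Cfsg.Agent.H4.Cay1

set_option autoImplicit false
open Cfsg

namespace Cfsg.Agent.S2592

/-- Over a finite field with q elements, q odd, the centraliser in Sp_2m(F) (m ≥ 1) of a regular unipotent element (u − 1 nilpotent of rank 2m − 1) has order 2 q^m. -/
theorem result {F : Type*} [Field F] [Fintype F] {q : ℕ} (hF : Fintype.card F = q) (hq : Odd q) {m : ℕ} (hm : 1 ≤ m) (u : Matrix.symplecticGroup (Fin m) F) (hnil : ((u : Matrix (Fin m ⊕ Fin m) (Fin m ⊕ Fin m) F) - 1) ^ (2 * m) = 0) (hreg : ((u : Matrix (Fin m ⊕ Fin m) (Fin m ⊕ Fin m) F) - 1).rank = 2 * m - 1) : Nat.card ↥(Subgroup.centralizer ({u} : Set ↥(Matrix.symplecticGroup (Fin m) F))) = 2 * q ^ m := by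
  open Cfsg.Agent.H4 Cfsg.Agent.GS Matrix Polynomial in
  subst hF
  have h2 := two_ne_zero_of_odd hq
  have hn : Fintype.card (Fin m ⊕ Fin m) = 2 * m := by simp [two_mul]
  have : Nonempty (Fin m) := ⟨⟨0, hm⟩⟩
  have hU : RU u.1 := ⟨by rwa [hn], by rwa [hn]⟩
  have h2' : IsUnit (2 : Matrix (Fin m ⊕ Fin m) (Fin m ⊕ Fin m) F) := by
    simpa [map_ofNat] using (Ne.isUnit h2).map (algebraMap F (Matrix (Fin m ⊕ Fin m) (Fin m ⊕ Fin m) F))
  have hu := mem_Sp_spAdj.1 u.2
  have hu' := mul_eq_one_comm.1 hu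
  let R := Subalgebra.centralizer F {u.1}
  have hR : ∀ x, x ∈ R ↔ Commute x u.1 := fun x => by simp [R, Subalgebra.mem_centralizer_iff, Commute, SemiconjBy, eq_comm]
  have hc : ∀ x y : R, x * y = y * x := fun x y => by
    obtain ⟨p, hp⟩ := hU.eq_aeval ((hR _).1 x.2)
    obtain ⟨p', hp'⟩ := hU.eq_aeval ((hR _).1 y.2)
    exact Subtype.ext (by rw [R.coe_mul, R.coe_mul, ← hp, ← hp', ← map_mul, mul_comm, map_mul])
  let _ : CommRing R := { (inferInstance : Ring R) with mul_comm := hc }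
  have hτ : ∀ x ∈ R, spAdj x ∈ R := fun x hx => (hR _).2 (by
    have := congrArg spAdj ((hR _).1 hx).eq
    rw [spAdj_mul, spAdj_mul] at this
    show _ * _ = _ * _
    rw [← one_mul (spAdj x * u.1), ← hu, mul_assoc, ← mul_assoc (spAdj u.1), this, mul_assoc, hu', mul_one])
  let τ : R →+* R :=
    { toFun x := ⟨spAdj x.1, hτ _ x.2⟩
      map_one' := Subtype.ext spAdj_one
      map_mul' x y := Subtype.ext (by rw [hc x y]; exact spAdj_mul _ _)
      map_zero' := Subtype.ext (map_zero _)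
      map_add' x y := Subtype.ext (map_add _ _ _) }
  let v : R := ⟨u.1, (hR _).2 (Commute.refl _)⟩
  have hv : v * τ v = 1 := Subtype.ext hu
  have h2R : IsUnit (2 : R) := by simpa [map_ofNat] using (Ne.isUnit h2).map (algebraMap F R)
  have hvn : IsNilpotent (v - 1) := ⟨2 * m, Subtype.ext (by simpa using hnil)⟩
  obtain ⟨z, hz⟩ := (hvn.isUnit_add_left_of_commute h2R (Commute.all _ _)).exists_right_inv
  obtain ⟨t, ht⟩ : ∃ t : R, t = (v - 1) * z := ⟨_, rfl⟩
  have ht1 : τ t = -t := by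
    have h5 := congrArg τ hz
    simp only [map_mul, map_add, map_sub, map_one, map_ofNat] at h5
    rw [ht, map_mul, map_sub, map_one]
    linear_combination (-(τ v - 1) * τ z) * hz + (-(v - 1) * z) * h5 + 2 * z * τ z * hv
  have ht1' : spAdj t.1 = -t.1 := congrArg Subtype.val ht1
  have ht2 : t.1 ^ (2 * m) = 0 := by
    have : t ^ (2 * m) = 0 := by rw [ht, mul_pow, show (v - 1) ^ (2 * m) = 0 from Subtype.ext (by simpa using hnil), zero_mul]
    simpa using congrArg Subtype.val this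
  have hzu : IsUnit z.1 := (IsUnit.of_mul_eq_one_right _ hz).map R.val
  have hT : RU (t.1 + 1) := ⟨by rwa [hn, add_sub_cancel_right], by
    rw [add_sub_cancel_right, ht, R.coe_mul, rank_mul_eq_left_of_isUnit_det _ _ ((isUnit_iff_isUnit_det _).1 hzu)]
    exact hU.2⟩
  have ht3 : t.1 ^ (2 * m - 1) ≠ 0 := fun h => by
    have h1 := nk_unip (t.1 + 1) (2 * m - 1)
    rw [hT.nk, add_sub_cancel_right, h, rank_zero, hn] at h1
    omega
  have hp : ∀ x : R, ∃ p : F[X], aeval t.1 p = x := fun x => by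
    simpa using hT.eq_aeval ((show Commute x.1 t.1 from congrArg Subtype.val (hc x t)).add_right (Commute.one_right _))
  have hN : ∀ x : R, ∃ c : F, IsNilpotent (x - algebraMap F R c) ∧ IsNilpotent (τ x - algebraMap F R c) := fun x => by
    obtain ⟨p, hp⟩ := hp x
    refine ⟨p.coeff 0, (IsNilpotent.map_iff (f := R.val) Subtype.val_injective).1 ?_,
      (IsNilpotent.map_iff (f := R.val) Subtype.val_injective).1 ?_⟩
    · have := isNilpotent_aeval_sub ⟨_, ht2⟩ p
      rwa [hp] at this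
    · have := isNilpotent_aeval_sub (IsNilpotent.neg ⟨_, ht2⟩) p
      rwa [← ht1', ← spAdj_aeval, hp] at this
  have hF : ∀ c : F, IsNilpotent (algebraMap F R c) → c = 0 := fun c h =>
    ((IsNilpotent.map_iff (algebraMap F R).injective).1 h).eq_zero
  have h3 := card_cayley h2R τ (fun x => Subtype.ext (spAdj_spAdj _)) (fun x hx => by
      obtain ⟨c, h4, h5⟩ := hN x
      have := hF (-(2 * c)) (by
        rw [show algebraMap F R (-(2 * c)) = x - algebraMap F R c + (τ x - algebraMap F R c) by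
          rw [hx, map_neg, map_mul, map_ofNat]; ring]
        exact (Commute.all _ _).isNilpotent_add h4 h5)
      simpa [show c = 0 by simpa [h2] using this] using h4) (fun g hg => by
      obtain ⟨c, h4, h5⟩ := hN g
      have := hF (1 - c * c) (by
        rw [show algebraMap F R (1 - c * c) = g * (τ g - algebraMap F R c) + algebraMap F R c * (g - algebraMap F R c) by
          rw [map_sub, map_one, map_mul]; linear_combination -hg]
        exact (Commute.all _ _).isNilpotent_add ((Commute.all g _).isNilpotent_mul_left h5)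
          ((Commute.all (algebraMap F R c) _).isNilpotent_mul_left h4))
      obtain rfl | rfl := mul_self_eq_one_iff.1 (sub_eq_zero.1 this).symm
      · exact Or.inl (by simpa using h4)
      · exact Or.inr (by simpa using h4))
  have h4 : LinearIndependent F fun i : Fin m => t.1 ^ (2 * (i : ℕ) + 1) :=
    (linearIndependent_pow_nil (F := F) (by rwa [Nat.sub_add_cancel (by omega)]) ht3).comp
      (fun i : Fin m => (⟨2 * i + 1, by omega⟩ : Fin (2 * m - 1 + 1))) fun i j h => by simpa [Fin.ext_iff] using h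
  let W := Submodule.span F (Set.range fun i : Fin m => t.1 ^ (2 * (i : ℕ) + 1))
  have h5 : ∀ x, x ∈ W ↔ x ∈ R ∧ spAdj x = -x := fun x => ⟨fun hx => by
      refine Submodule.span_induction (p := fun x _ => x ∈ R ∧ spAdj x = -x) ?_ (by simp) (fun x y _ _ a b => ⟨add_mem a.1 b.1, by simp [a.2, b.2, add_comm]⟩)
        (fun c x _ a => ⟨R.smul_mem a.1 c, by simp [a.2]⟩) hx
      rintro _ ⟨i, rfl⟩
      exact ⟨pow_mem t.2 _, by rw [spAdj_pow, ht1', (odd_two_mul_add_one _).neg_pow]⟩, fun hx => by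
      obtain ⟨p, hp⟩ := hp ⟨x, hx.1⟩
      have h6 : aeval t.1 p - spAdj (aeval t.1 p) ∈ W := by
        rw [aeval_eq_sum_range, map_sum, ← Finset.sum_sub_distrib]
        refine sum_mem fun k _ => ?_
        rw [map_smul, ← smul_sub, spAdj_pow, ht1']
        refine W.smul_mem _ ?_
        obtain ⟨j, rfl | rfl⟩ := Nat.even_or_odd' k
        · simp [pow_mul]
        · rw [(odd_two_mul_add_one _).neg_pow, sub_neg_eq_add]
          by_cases h : j < m
          · exact add_mem (Submodule.subset_span ⟨⟨j, h⟩, rfl⟩) (Submodule.subset_span ⟨⟨j, h⟩, rfl⟩)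
          · simp [pow_eq_zero_of_le (show 2 * m ≤ 2 * j + 1 by omega) ht2]
      rwa [show aeval t.1 p = x from hp, hx.2, sub_neg_eq_add, ← two_smul F, W.smul_mem_iff h2] at h6⟩
  have h6 : Nat.card {x // τ x = -x} = Nat.card W := Nat.card_congr
    ⟨fun x => ⟨x.1.1, (h5 _).2 ⟨x.1.2, congrArg Subtype.val x.2⟩⟩,
      fun x => ⟨⟨x.1, ((h5 _).1 x.2).1⟩, Subtype.ext ((h5 _).1 x.2).2⟩, fun _ => rfl, fun _ => rfl⟩
  rw [h6, Module.natCard_eq_pow_finrank (K := F) (V := W), finrank_span_eq_card h4, Fintype.card_fin, Nat.card_eq_fintype_card (α := F)] at h3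
  rw [← h3]
  exact Nat.card_congr ⟨fun g => ⟨⟨g.1.1, (hR _).2 (congrArg Subtype.val (Subgroup.mem_centralizer_singleton_iff.1 g.2))⟩,
      Subtype.ext (mem_Sp_spAdj.1 g.1.2)⟩,
    fun g => ⟨⟨g.1.1, mem_Sp_spAdj.2 (congrArg Subtype.val g.2)⟩, Subgroup.mem_centralizer_singleton_iff.2
      (Subtype.ext ((hR _).1 g.1.2))⟩, fun _ => rfl, fun _ => rfl⟩

end Cfsg.Agent.S2592
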