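import Cfsg.Statements.S2593
import Cfsg.Agent.GS.Iv2

set_option autoImplicit false
open Cfsg

namespace Cfsg.Agent.S2593

open Cfsg.Agent.H1

/-- Number of conjugacy classes of involutions in the symplectic group Sp_2m(F) over a finite field of characteristic two (m ≥ 1): for each s with 1 ≤ s ≤ m there is one class with rank(t − 1) = s if s is odd and two if s is even (according as v ↦ f(v, tv), f the symplectic form, vanishes identically or not), so m + ⌊m/2⌋ classes in all. -/
theorem result {F : Type*} [Field F] [Fintype F] [CharP F 2] {m : ℕ} (hm : 1 ≤ m) : Nat.card {C : ConjClasses ↥(Matrix.symplecticGroup (Fin m) F) // ∃ g : Matrix.symplecticGroup (Fin m) F, ConjClasses.mk g = C ∧ orderOf g = 2} = m + m / 2 := by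
  open Subgroup Pointwise commutatorElement Cfsg.Agent.BG Cfsg.Agent.GS in
  open Cfsg.Agent.H2 hiding card_lt_of_lt card_lt_of_ne_top isMulCommutative_of_le isPGroup_zpowers_iff mem_of_pow_mem_of_coprime inf_eq_bot_of_cop exists_maxElem_ge Sec in
  open Cfsg.Agent.H8 (Op Opp Fit SN) in
  open Cfsg.Agent.L (FPF) in focus
    refine (card_classes_equiv (H4.spEquiv F m) (Q := fun g => orderOf g = 2) fun g => by rw [MulEquiv.orderOf_eq]; try rfl).trans ?_
    have w : 2 * m = 2 * (H4.spF F m).wi := by simpa [two_mul] using (H4.spF_nondeg (F := F) m).symp_finrank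
    rw [count_inv t2_symp (H4.spF_nondeg m) (m := m) (by simp [two_mul]) (by omega), show (H4.spF F m).wi = m by omega]

end Cfsg.Agent.S2593
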