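import Cfsg.Statements.S2594
import Cfsg.Agent.GS.Iv2

set_option autoImplicit false
open Cfsg

namespace Cfsg.Agent.S2594

open Cfsg.Agent.H1

/-- Over a finite field with q elements, q even, an element t of Sp_2m(F) with rank(t − 1) = 1 (a symplectic transvection) has centraliser in Sp_2m(F) of order q^(2m−1) · |Sp_(2m−2)(q)| = q^(2m−1) · q^((m−1)²) · Π_(i=1)^(m−1) (q^(2i) − 1). -/
theorem result {F : Type*} [Field F] [Fintype F] [CharP F 2] {q : ℕ} (hF : Fintype.card F = q) {m : ℕ} (hm : 1 ≤ m) (t : Matrix.symplecticGroup (Fin m) F) (ht : ((t : Matrix (Fin m ⊕ Fin m) (Fin m ⊕ Fin m) F) - 1).rank = 1) : Nat.card ↥(Subgroup.centralizer ({t} : Set ↥(Matrix.symplecticGroup (Fin m) F))) = q ^ (2 * m - 1) * (q ^ ((m - 1) ^ 2) * ∏ i : Fin (m - 1), (q ^ (2 * ((i : ℕ) + 1)) - 1)) := by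
  open Subgroup Pointwise commutatorElement Cfsg.Agent.BG Cfsg.Agent.GS in
  open Cfsg.Agent.H2 hiding card_lt_of_lt card_lt_of_ne_top isMulCommutative_of_le isPGroup_zpowers_iff mem_of_pow_mem_of_coprime inf_eq_bot_of_cop exists_maxElem_ge Sec in
  open Cfsg.Agent.H8 (Op Opp Fit SN) in
  open Cfsg.Agent.L (FPF) in focus
    subst hF
    have hf := H4.spF_nondeg (F := F) m
    have r := (rank_dsp (x := (H4.spEquiv F m t).1) fun _ => rfl).trans ht
    have h2 : H4.spEquiv F m t * H4.spEquiv F m t = 1 := by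
      generalize H4.spEquiv F m t = x at r
      refine Subtype.ext (LinearEquiv.ext fun v => ?_)
      obtain ⟨⟨u, hu⟩, -, z⟩ := finrank_eq_one_iff'.1 r
      have k : dsp x.1 ≤ H4.fixS x.1 := by
        rw [← hf.perp_perp (H4.fixS _), ← hf.range_eq_perp_fixS x.2]
        intro a ha b hb
        obtain ⟨c, hc⟩ := z ⟨a, ha⟩
        obtain ⟨d, hd⟩ := z ⟨b, hb⟩
        obtain rfl : c • u = a := congrArg Subtype.val hc
        obtain rfl : d • u = b := congrArg Subtype.val hd
        simp [H4.CForm.symp_B_self]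
      have : x.1 (x.1 v - v) = x.1 v - v := k ⟨v, rfl⟩
      rw [map_sub] at this
      change x.1 (x.1 v) = v
      linear_combination (norm := module) this + (CharTwo.two_eq_zero (R := F)) • (x.1 v - v)
    obtain ⟨a, c, e, b, -⟩ := cent_symp hf h2 (m := m) (by simp [two_mul]) r
    rw [card_cent_equiv (H4.spEquiv F _), e, b 0 rfl, spo_eq, show 2 * m - 1 = 1 * (2 * (m - 1)) + Nat.choose 1 2 + 1 by simp; omega]
    simp [spo]

end Cfsg.Agent.S2594
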