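import Cfsg.Statements.S2597
import Cfsg.Agent.GS.Iv2

set_option autoImplicit false
open Cfsg

namespace Cfsg.Agent.S2597

open Cfsg.Agent.H1

/-- Number of conjugacy classes of involutions in Ω⁺_2m(F) (the commutator subgroup of the orthogonal group of Σ x_i y_i) over a finite field F of characteristic two, m ≥ 1, excluding the case m = 2 over the field of two elements: the involutions of Ω are those with s = rank(t − 1) even, giving two O-classes for each even s with 2 ≤ s ≤ m, each of which is a single Ω-class except that for m even the class with s = m and v ↦ f(v, tv) identically zero splits in two; in all 2⌊m/2⌋ + 1 classes if m is even and 2⌊m/2⌋ if m is odd. -/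
theorem result {F : Type*} [Field F] [Fintype F] [CharP F 2] {m : ℕ} (hm : 1 ≤ m) (h : Fintype.card F ≠ 2 ∨ m ≠ 2) : Nat.card {C : ConjClasses ↥(Cfsg.Omega F (Cfsg.quadFormPlus m F)) // ∃ g : ↥(Cfsg.Omega F (Cfsg.quadFormPlus m F)), ConjClasses.mk g = C ∧ orderOf g = 2} = 2 * (m / 2) + (if Even m then 1 else 0) := by
  open Subgroup Pointwise commutatorElement Cfsg.Agent.BG Cfsg.Agent.GS in
  open Cfsg.Agent.H2 hiding card_lt_of_lt card_lt_of_ne_top isMulCommutative_of_le isPGroup_zpowers_iff mem_of_pow_mem_of_coprime inf_eq_bot_of_cop exists_maxElem_ge Sec in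
  open Cfsg.Agent.H8 (Op Opp Fit SN) in
  open Cfsg.Agent.L (FPF) in focus
    refine (card_classes_equiv (H4.omegaEquiv (H4.plusF F m)) (Q := fun g => orderOf g = 2) fun g => by rw [MulEquiv.orderOf_eq]; try rfl).trans ?_
    have h4 : H4.N24 F (Fin m ⊕ Fin m → F) := H4.n24_of_card (n := 2 * m) (h.imp_right (by omega)) (by simp [two_mul])
    rw [count_om (H4.plusF_nondeg m) (dk_n24 (H4.plusF_nondeg m) h4) hm (by simp [two_mul]) (by simp [H4.plusF_wi]) fun _ => h4, H4.plusF_wi]
    simp only [and_true]; omega

end Cfsg.Agent.S2597
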