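import Cfsg.Statements.S2599
import Cfsg.Agent.H4.Omega

set_option autoImplicit false
open Cfsg

namespace Cfsg.Agent.S2599

/-- An irreducible invariant subspace of a semisimple isometry is non-degenerate or totally singular: let Q be a quadratic form on F^n (F finite of characteristic p) with non-degenerate polar form f, x an isometry of Q of order prime to p, and U a non-zero x-invariant subspace containing no x-invariant subspace other than 0 and U. Then U meets its f-orthogonal trivially, or Q vanishes on U, or p = 2, U is a line spanned by a non-singular vector and x fixes U pointwise. -/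
theorem result {F : Type*} [Field F] [Fintype F] {p : ℕ} [Fact p.Prime] [CharP F p] {n : ℕ} (Q : QuadraticForm F (Fin n → F)) (hQ : (QuadraticMap.polarBilin Q).Nondegenerate) (x : ↥(Cfsg.isometryGroup F ⇑Q)) (hx : (orderOf x).Coprime p) (U : Submodule F (Fin n → F)) (hU0 : U ≠ ⊥) (hUx : ∀ u ∈ U, ((x : Matrix.GeneralLinearGroup (Fin n) F) : Matrix (Fin n) (Fin n) F).mulVec u ∈ U) (hirr : ∀ W : Submodule F (Fin n → F), W ≤ U → (∀ w ∈ W, ((x : Matrix.GeneralLinearGroup (Fin n) F) : Matrix (Fin n) (Fin n) F).mulVec w ∈ W) → W = ⊥ ∨ W = U) : U ⊓ LinearMap.BilinForm.orthogonal (QuadraticMap.polarBilin Q) U = ⊥ ∨ (∀ u ∈ U, Q u = 0) ∨ (p = 2 ∧ Module.finrank F U = 1 ∧ (∃ u ∈ U, Q u ≠ 0) ∧ ∀ u ∈ U, ((x : Matrix.GeneralLinearGroup (Fin n) F) : Matrix (Fin n) (Fin n) F).mulVec u = u) := by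
  open Cfsg.Agent.H4 Module in
  have hf := CForm.ofQuad_nondeg hQ
  have hg := (mem_isometryGroup (f := CForm.ofQuad Q)).1 x.2
  set f := CForm.ofQuad Q
  rw [← perp_ofQuad]
  have hst : glE (x : GL (Fin n) F) ∈ stab U := mem_stab_iff_le.2 hUx
  rcases hirr (U ⊓ f.perp U) inf_le_left (fun w hw => ⟨hUx w hw.1,
    (CForm.stab_perp hg hst w).1 hw.2⟩) with h | h
  · exact Or.inl h
  right
  have hB : ∀ u ∈ U, ∀ v ∈ U, f.B u v = 0 := fun u hu => f.mem_perp.1 (h.ge hu).2
  let W : Submodule F (Fin n → F) :=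
    { carrier := {u | u ∈ U ∧ f.Q u = 0}
      add_mem' := fun {a b} ha hb => ⟨add_mem ha.1 hb.1, by
        rw [f.Q_add_of_perp (hB _ ha.1 _ hb.1), ha.2, hb.2, add_zero]⟩
      zero_mem' := ⟨zero_mem _, f.Q_zero⟩
      smul_mem' := fun c a ha => ⟨U.smul_mem c ha.1, f.Q_smul_of_Q ha.2 c⟩ }
  rcases hirr W (fun u hu => hu.1) (fun w hw => ⟨hUx w hw.1, (CForm.iso_Q hg w).trans hw.2⟩) with h' | h'
  swap
  · exact Or.inl fun u hu => (h'.ge hu).2
  right
  have han : ∀ u ∈ U, f.Q u = 0 → u = 0 := fun u hu hQ => by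
    have : u ∈ W := ⟨hu, hQ⟩
    rwa [h'] at this
  obtain ⟨u, hu, hu0⟩ := (Submodule.ne_bot_iff _).1 hU0
  have hQu : f.Q u ≠ 0 := fun h => hu0 (han u hu h)
  have h2 : (2 : F) = 0 := by
    have := hB u hu u hu
    rw [CForm.orth_B_self] at this
    exact (mul_eq_zero.1 this).resolve_right hQu
  have hsp : ∀ v ∈ U, ∀ r, f.Q v = r ^ 2 * f.Q u → v = r • u := fun v hv r hr => by
    have := han (v - r • u) (sub_mem hv (U.smul_mem r hu)) (by
      rw [f.Q_sub, hB _ hv _ (U.smul_mem r hu), CForm.orth_Q_smul, hr]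
      simp only [map_zero]
      linear_combination r ^ 2 * f.Q u * h2)
    exact sub_eq_zero.1 this
  have hU : U = Submodule.span F {u} := by
    refine le_antisymm (fun v hv => ?_) (by simpa using hu)
    obtain ⟨r, hr⟩ := isSquare_of_two_eq_zero h2 (f.Q v / f.Q u)
    exact Submodule.mem_span_singleton.2 ⟨r, (hsp v hv r (by rw [pow_two, ← hr]; simp [hQu])).symm⟩
  refine ⟨?_, by rw [hU, finrank_span_singleton hu0], ⟨u, hu, hQu⟩, fun v hv => ?_⟩
  · have := (CharP.cast_eq_zero_iff F p 2).1 (by simpa using h2)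
    exact (Nat.prime_dvd_prime_iff_eq Fact.out Nat.prime_two).1 this
  · rw [hU] at hv
    obtain ⟨c, rfl⟩ := Submodule.mem_span_singleton.1 hv
    rw [Matrix.mulVec_smul, hsp _ (hUx u hu) 1 (by simpa using CForm.iso_Q hg u), one_smul]

end Cfsg.Agent.S2599
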