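import Cfsg.Statements.S2612
import Cfsg.Agent.H4.Block

set_option autoImplicit false
open Cfsg

namespace Cfsg.Agent.S2612

/-- For the hyperbolic quadratic form Σ x_i y_i on F^(2m) (F finite, m ≥ 1, excluding m = 2 over the field of two elements), Ω⁺_2m(F) (the commutator subgroup of the orthogonal group) contains an element interchanging the two complementary maximal totally singular subspaces {y = 0} and {x = 0} if and only if m is even (dimension divisible by 4). -/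
theorem result {F : Type*} [Field F] [Fintype F] {m : ℕ} (hm : 1 ≤ m) (h : Fintype.card F ≠ 2 ∨ m ≠ 2) : (∃ g : ↥(Cfsg.isometryGroup F (Cfsg.quadFormPlus m F)), g ∈ Cfsg.Omega F (Cfsg.quadFormPlus m F) ∧ (∀ v : Fin m ⊕ Fin m → F, (∀ i, v (Sum.inr i) = 0) → ∀ i, (((g : Matrix.GeneralLinearGroup (Fin m ⊕ Fin m) F) : Matrix (Fin m ⊕ Fin m) (Fin m ⊕ Fin m) F).mulVec v) (Sum.inl i) = 0) ∧ (∀ v : Fin m ⊕ Fin m → F, (∀ i, v (Sum.inl i) = 0) → ∀ i, (((g : Matrix.GeneralLinearGroup (Fin m ⊕ Fin m) F) : Matrix (Fin m ⊕ Fin m) (Fin m ⊕ Fin m) F).mulVec v) (Sum.inr i) = 0)) ↔ Even m := by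
  open Cfsg.Agent.H4 Module in
  have hf := plusF_nondeg (F := F) m
  have h4 : N24 F (Fin m ⊕ Fin m → F) := n24_of_card (n := 2 * m) (by omega) (by simp [two_mul])
  have hd : finrank F (Fin m ⊕ Fin m → F) = 2 * finrank F (inlSub F m) := by
    simp [finrank_inlSub, two_mul]
  refine (exists_Omega_iff (f := plusF F m) (P := fun g : GL (Fin m ⊕ Fin m) F =>
    (∀ v : Fin m ⊕ Fin m → F, (∀ i, v (Sum.inr i) = 0) → ∀ i, (g.1.mulVec v) (Sum.inl i) = 0) ∧
    (∀ v : Fin m ⊕ Fin m → F, (∀ i, v (Sum.inl i) = 0) → ∀ i, (g.1.mulVec v) (Sum.inr i) = 0))).trans ?_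
  have key : ∀ g ∈ (plusF F m).iso, (∀ v : Fin m ⊕ Fin m → F, (∀ i, v (Sum.inr i) = 0) →
      ∀ i, g v (Sum.inl i) = 0) → (CForm.dk g = 1 ↔ Even m) := fun g hg h1 => by
    rw [hf.dk_eq_one_iff_even h4 (plusF_TS_inlSub m) hd hg, finrank_inlSub]
    have : inlSub F m ⊓ (inlSub F m).map (g : _ →ₗ[F] _) = ⊥ := by
      rw [eq_bot_iff]
      rintro _ ⟨hx, y, hy, rfl⟩
      ext (i | i)
      exacts [h1 y (mem_inlSub.1 hy) i, mem_inlSub.1 hx i]
    rw [this]; simp
  refine ⟨fun ⟨g, hg, h1, _⟩ => ?_, fun he => ?_⟩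
  · have hg' := commutator_le_self _ hg
    exact (key _ hg' h1).1 ((hf.mem_Om h4 hg').1 hg).1
  · let s : (Fin m ⊕ Fin m → F) ≃ₗ[F] (Fin m ⊕ Fin m → F) :=
      LinearEquiv.funCongrLeft F F (Equiv.sumComm _ _)
    have hs : s ∈ (plusF F m).iso := CForm.orth_mem_iso.2 fun x => by
      simp [s, plusF_Q, quadFormPlus, mul_comm]
    obtain ⟨_, ⟨t, rfl⟩, -, h⟩ := hf.exists_adjust_Om h4 (S := (glE.toMonoidHom.comp lev).range) hs
      (Or.inl ((key s hs fun v hv i => by simp [s, hv]).2 he)) fun h2 => by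
        obtain ⟨a, ha, ha'⟩ := exists_not_isSquare h2
        have : Nonempty (Fin m) := ⟨⟨0, hm⟩⟩
        obtain ⟨A, hA⟩ := Matrix.GeneralLinearGroup.det_surjective (n := Fin m) (R := F)
          (Units.mk0 a ha)
        have h1 := hf.dk_of_stab h4 (plusF_TS_inlSub m) hd (lev_mem_plusF A) (lev_mem_stab A)
        refine ⟨_, ⟨A, rfl⟩, lev_mem_plusF A, h1, (Int.units_eq_one_or _).resolve_left fun h => ha' ?_⟩
        have := (lev_mem_Om hm h4 A).1 ((hf.mem_Om h4 (lev_mem_plusF A)).2 ⟨h1, h⟩)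
        rwa [← Matrix.GeneralLinearGroup.val_det_apply, hA] at this
    refine ⟨glE.symm (glE (lev t) * s), by simpa using h, fun v hv i => ?_, fun v hv i => ?_⟩
    · have : (s v) ∘ Sum.inl = 0 := funext fun j => by simp [s, hv]
      simp [glE_symm_mulVec, glE_lev, this, -glE_apply, -map_mul]
    · have : (s v) ∘ Sum.inr = 0 := funext fun j => by simp [s, hv]
      simp [glE_symm_mulVec, glE_lev, this, -glE_apply, -map_mul]

end Cfsg.Agent.S2612
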