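import Cfsg.Statements.S2613
import Cfsg.Agent.H4.Block

set_option autoImplicit false
open Cfsg

namespace Cfsg.Agent.S2613

open Cfsg.Agent.H4 Module in
theorem key {F : Type*} [Field F] [Fintype F] (hq : Odd (Fintype.card F)) {ι : Type} [Fintype ι]
    [DecidableEq ι] {f : CForm (FType.orth F) (ι → F)} (hf : f.Nondeg) {m : ℕ} (a b : Fin m → ι)
    (hQ : ∀ i, f.Q (Pi.single (a i) 1) = 0) (hQ' : ∀ i, f.Q (Pi.single (b i) 1) = 0)
    (h1 : ∀ x i, f.B x (Pi.single (a i) 1) = x (b i)) (h2 : ∀ x i, f.B x (Pi.single (b i) 1) = x (a i))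
    (ha : Function.Injective a) (hab : ∀ i j, a i ≠ b j) {i : ℕ} (him : i ≤ m) (c : ι → ℕ)
    (hc : ∀ j, c (a j) = j ∧ c (b j) = j) (hc' : ∀ k, c k < i → ∃ j, k = a j ∨ k = b j) :
    (∃ g : isometryGroup F f.Q, g ∈ Omega F f.Q ∧ ((g : GL ι F) : Matrix ι ι F) =
      Matrix.diagonal fun k => if c k < i then (-1 : F) else 1) ↔ Fintype.card F ^ i % 4 = 1 := by
  let D : Matrix ι ι F := Matrix.diagonal fun k => if c k < i then (-1 : F) else 1
  have hD : D * D = 1 := by
    rw [Matrix.diagonal_mul_diagonal, ← Matrix.diagonal_one]; congr 1; ext k; split_ifs <;> simp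
  have h2' := two_ne_zero_of_odd hq
  rw [exists_Omega_eq_iff ⟨D, D, hD, hD⟩ rfl, ← isSquare_neg_one_pow_iff hq]
  obtain ⟨k1, k2, k3⟩ := hf.neg_pairs h2' (fun j => Pi.single (a j) 1) (fun j => Pi.single (b j) 1)
    hQ hQ' (fun i => by simp [h2]) (fun i j => by simp [h1, Pi.single_apply, (hab i j).symm])
    (fun i j => by simp [h2, Pi.single_apply, hab]) (fun i j h => by
      simp [h2, Pi.single_apply, ha.eq_iff, h.symm]) (Finset.univ.filter fun j => (j : ℕ) < i)
    (glE ⟨D, D, hD, hD⟩) (fun j hj => by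
      simp only [Finset.mem_filter, Finset.mem_univ, true_and] at hj
      constructor <;> ext k <;> simp [D, Matrix.mulVec_diagonal, Pi.single_apply] <;>
        split_ifs <;> simp_all) (fun x hx => by
      ext k
      simp only [glE_apply, D, Matrix.mulVec_diagonal]
      split_ifs with h
      · obtain ⟨j, rfl | rfl⟩ := hc' k h
        · have := (hx j (by simpa [hc] using h)).2
          rw [h2] at this; simp [this]
        · have := (hx j (by simpa [hc] using h)).1
          rw [h1] at this; simp [this]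
      · simp)
  rw [hf.mem_Om (n24_of_two h2') k1, k2, k3, Fin.card_filter_val_lt, min_eq_right him]
  simp

/-- For the hyperbolic form Σ x_j y_j on F^(2m), F finite with q elements, q odd, and 1 ≤ i ≤ m: the involution negating the first i hyperbolic pairs (x_j, y_j ↦ −x_j, −y_j for j < i) and fixing the rest lies in Ω⁺_2m(q) (commutator subgroup of the orthogonal group) if and only if q^i ≡ 1 (mod 4); its (−1)-eigenspace is a hyperbolic 2i-space. -/
theorem result {F : Type*} [Field F] [Fintype F] {q : ℕ} (hF : Fintype.card F = q) (hq : Odd q) {m : ℕ} (i : ℕ) (hi : 1 ≤ i) (him : i ≤ m) : (∃ g : ↥(Cfsg.isometryGroup F (Cfsg.quadFormPlus m F)), g ∈ Cfsg.Omega F (Cfsg.quadFormPlus m F) ∧ ((g : Matrix.GeneralLinearGroup (Fin m ⊕ Fin m) F) : Matrix (Fin m ⊕ Fin m) (Fin m ⊕ Fin m) F) = Matrix.diagonal (fun k : Fin m ⊕ Fin m => if (Sum.elim (fun j : Fin m => (j : ℕ)) (fun j : Fin m => (j : ℕ)) k) < i then (-1 : F) else 1)) ↔ q ^ i % 4 = 1 := by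
  open Cfsg.Agent.H4 Module in
  subst hF
  exact key hq (plusF_nondeg m) Sum.inl Sum.inr (fun i => by simp [plusF_Q, quadFormPlus])
    (fun i => by simp [plusF_Q, quadFormPlus])
    (fun x i => by simp [plusF_B, polar_plus, Pi.single_apply])
    (fun x i => by simp [plusF_B, polar_plus, Pi.single_apply]) Sum.inl_injective (by simp) him _
    (by simp) (by rintro (k | k) _ <;> simp)

end Cfsg.Agent.S2613
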