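import Cfsg.Statements.S2614
import Cfsg.Agent.H4.Block
import Cfsg.Agent.S2613

set_option autoImplicit false
open Cfsg

namespace Cfsg.Agent.S2614

/-- For the form x_0² + Σ x_j y_j on F^(2m+1), F finite with q elements, q odd, and 1 ≤ i ≤ m: the involution of determinant one negating the first i hyperbolic pairs (and fixing x_0 and the other pairs) lies in Ω_(2m+1)(q) (commutator subgroup of the orthogonal group) if and only if q^i ≡ 1 (mod 4); its (−1)-eigenspace is a hyperbolic 2i-space. -/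
theorem result {F : Type*} [Field F] [Fintype F] {q : ℕ} (hF : Fintype.card F = q) (hq : Odd q) {m : ℕ} (i : ℕ) (hi : 1 ≤ i) (him : i ≤ m) : (∃ g : ↥(Cfsg.isometryGroup F (Cfsg.quadFormOdd m F)), g ∈ Cfsg.Omega F (Cfsg.quadFormOdd m F) ∧ ((g : Matrix.GeneralLinearGroup (Unit ⊕ (Fin m ⊕ Fin m)) F) : Matrix (Unit ⊕ (Fin m ⊕ Fin m)) (Unit ⊕ (Fin m ⊕ Fin m)) F) = Matrix.diagonal (fun k : Unit ⊕ (Fin m ⊕ Fin m) => if (Sum.elim (fun _ : Unit => i) (Sum.elim (fun j : Fin m => (j : ℕ)) (fun j : Fin m => (j : ℕ))) k) < i then (-1 : F) else 1)) ↔ q ^ i % 4 = 1 := by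
  open Cfsg.Agent.H4 Module in
  subst hF
  exact Cfsg.Agent.S2613.key hq (oddF_nondeg (two_ne_zero_of_odd hq) m) (fun j => .inr (.inl j))
    (fun j => .inr (.inr j)) (fun i => by simp [oddF_Q, quadFormOdd])
    (fun i => by simp [oddF_Q, quadFormOdd])
    (fun x i => by simp [oddF_B, polar_odd, Pi.single_apply])
    (fun x i => by simp [oddF_B, polar_odd, Pi.single_apply]) (fun _ _ => by simp) (by simp) him _
    (by simp) (by rintro (k | k | k) <;> simp)

end Cfsg.Agent.S2614
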