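import Cfsg.Statements.S2618
import Cfsg.Agent.H4.Basis

set_option autoImplicit false
open Cfsg

namespace Cfsg.Agent.S2618

/-- Standard (parabolic) basis of a non-degenerate quadratic space of odd dimension 2m + 1 over a finite field (the non-degeneracy of the polar form forces the characteristic to be odd): there is a basis e_i, f_i (i < m), x with Q(e_i) = Q(f_i) = 0, B(e_i, f_j) = δ_ij (B the polar form), the e's pairwise orthogonal and the f's pairwise orthogonal, x orthogonal to all of them and Q(x) ≠ 0. -/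
theorem result {F V : Type*} [Field F] [Finite F] [AddCommGroup V] [Module F V] [FiniteDimensional F V] {m : ℕ} (hV : Module.finrank F V = 2 * m + 1) (Q : QuadraticForm F V) (hQ : (QuadraticMap.polarBilin Q).Nondegenerate) : ∃ b : Module.Basis (Unit ⊕ (Fin m ⊕ Fin m)) F V, Q (b (Sum.inl ())) ≠ 0 ∧ (∀ i, QuadraticMap.polar ⇑Q (b (Sum.inl ())) (b (Sum.inr (Sum.inl i))) = 0 ∧ QuadraticMap.polar ⇑Q (b (Sum.inl ())) (b (Sum.inr (Sum.inr i))) = 0) ∧ (∀ i, Q (b (Sum.inr (Sum.inl i))) = 0 ∧ Q (b (Sum.inr (Sum.inr i))) = 0) ∧ (∀ i j, QuadraticMap.polar ⇑Q (b (Sum.inr (Sum.inl i))) (b (Sum.inr (Sum.inr j))) = if i = j then 1 else 0) ∧ (∀ i j, QuadraticMap.polar ⇑Q (b (Sum.inr (Sum.inl i))) (b (Sum.inr (Sum.inl j))) = 0 ∧ QuadraticMap.polar ⇑Q (b (Sum.inr (Sum.inr i))) (b (Sum.inr (Sum.inr j))) = 0) := by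
  open Cfsg.Agent.H4 Module in
  let f := CForm.ofQuad Q
  have hf : f.Nondeg := CForm.ofQuad_nondeg hQ
  have h1 := hf.orth_finrank_le
  have h2 := hf.two_mul_wi_le
  have hw : f.wi = m := by omega
  obtain ⟨v, hv1, hv2, hv3, hv4⟩ := hf.exists_perp_split (by omega)
  obtain ⟨c, c1, c2, c3, c4⟩ := (hf.res_perp_singleton hv1).exists_hyp_basis (m := m) (by omega) (by omega)
  have hv0 : v ≠ 0 := by rintro rfl; simp at hv2
  obtain ⟨d, d1, d2⟩ := CForm.exists_basis_sum (hf.isCompl_perp (CForm.singleton_nondeg hv1))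
    ((Basis.singleton Unit F).map (LinearEquiv.toSpanNonzeroSingleton F V v hv0)) c
  have d1' : d (.inl ()) = v := by rw [d1]; simp
  have hp : ∀ i, f.B v (c i) = 0 := fun i => f.B_zero_symm (f.mem_perp_singleton.1 (c i).2)
  refine ⟨d, ?_⟩
  simp only [d1', d2]
  exact ⟨hv2, fun i => ⟨hp _, hp _⟩, fun i => ⟨c1 _, c1 _⟩, c2, fun i j => ⟨c3 i j, c4 i j⟩⟩

end Cfsg.Agent.S2618
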