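import Cfsg.Statements.S2619
import Mathlib

set_option autoImplicit false
open Cfsg

namespace Cfsg.Agent.S2619

/-- Over a finite field of characteristic two, given an alternating bilinear form B on a finite-dimensional space, a basis (v_i) and scalars (λ_i), there is exactly one quadratic form whose polar form is B and whose value at each v_i is λ_i. -/
theorem result {F V ι : Type*} [Field F] [Finite F] [CharP F 2] [AddCommGroup V] [Module F V] [Fintype ι] (b : Module.Basis ι F V) (B : LinearMap.BilinForm F V) (hB : B.IsAlt) (c : ι → F) : ∃! Q : QuadraticForm F V, QuadraticMap.polarBilin Q = B ∧ ∀ i, Q (b i) = c i := by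
  classical
  have h2 : (2 : F) = 0 := CharTwo.two_eq_zero
  let e := Fintype.equivFin ι
  let B' : LinearMap.BilinForm F V := b.constr F fun i => b.constr F fun j =>
    if e i < e j then B (b i) (b j) else if i = j then c i else 0
  have hB' : ∀ i j, B' (b i) (b j) = if e i < e j then B (b i) (b j) else if i = j then c i else 0 :=
    fun i j => by simp only [B', Module.Basis.constr_basis]
  refine ⟨LinearMap.BilinMap.toQuadraticMap B', ⟨?_, fun i => by simp [hB']⟩, ?_⟩
  · rw [LinearMap.BilinMap.polarBilin_toQuadraticMap]
    refine b.ext fun i => b.ext fun j => ?_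
    simp only [LinearMap.add_apply, LinearMap.flip_apply, hB']
    rcases lt_trichotomy (e i) (e j) with h | h | h
    · have : j ≠ i := fun h' => by simp [h'] at h
      simp [h, h.not_gt, this]
    · obtain rfl := e.injective h
      simp only [lt_irrefl, if_false, if_true]
      rw [hB.self_eq_zero, ← two_mul, h2, zero_mul]
    · have : i ≠ j := fun h' => by simp [h'] at h
      simp only [h, h.not_gt, this, if_false, if_true, zero_add]
      rw [← hB.neg_eq, CharTwo.neg_eq]
  · rintro Q ⟨h1, h3⟩
    have key : ∀ Q' : QuadraticForm F V, QuadraticMap.polarBilin Q' = B → (∀ i, Q' (b i) = c i) →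
        Q = Q' := fun Q' k1 k3 => by
      ext x
      have hx : x ∈ Submodule.span F (Set.range b) := by rw [b.span_eq]; trivial
      induction hx using Submodule.span_induction with
      | mem x hx => obtain ⟨i, rfl⟩ := hx; rw [h3, k3]
      | zero => simp
      | add x y _ _ hx hy =>
        have e1 : QuadraticMap.polar Q x y = QuadraticMap.polar Q' x y := by
          rw [← QuadraticMap.polarBilin_apply_apply, ← QuadraticMap.polarBilin_apply_apply, h1, k1]
        simp only [QuadraticMap.polar] at e1
        linear_combination e1 + hx + hy
      | smul a x _ hx => rw [Q.map_smul, Q'.map_smul, hx]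
    refine key _ ?_ fun i => by simp [hB']
    rw [LinearMap.BilinMap.polarBilin_toQuadraticMap]
    refine b.ext fun i => b.ext fun j => ?_
    simp only [LinearMap.add_apply, LinearMap.flip_apply, hB']
    rcases lt_trichotomy (e i) (e j) with h | h | h
    · have : j ≠ i := fun h' => by simp [h'] at h
      simp [h, h.not_gt, this]
    · obtain rfl := e.injective h
      simp only [lt_irrefl, if_false, if_true]
      rw [hB.self_eq_zero, ← two_mul, h2, zero_mul]
    · have : i ≠ j := fun h' => by simp [h'] at h
      simp only [h, h.not_gt, this, if_false, if_true, zero_add]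
      rw [← hB.neg_eq, CharTwo.neg_eq]

end Cfsg.Agent.S2619
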