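import Cfsg.Statements.S2621
import Cfsg.Agent.H4.Basis

set_option autoImplicit false
open Cfsg

namespace Cfsg.Agent.S2621

/-- Discriminant of an elliptic quadratic form Σ_(i<m−1) x_i y_i + z₁² + a z₁z₂ + c z₂² (binary part anisotropic) in dimension 2m over a field with q elements, q odd, m ≥ 1: the determinant of the Gram matrix of its polar form in any basis is a square if and only if m(q − 1)/2 is odd (equivalently q^m ≡ 3 (mod 4)). -/
theorem result {F : Type*} [Field F] [Fintype F] {q : ℕ} (hF : Fintype.card F = q) (hq : Odd q) {m : ℕ} (hm : 1 ≤ m) (a c : F) (hac : ∀ z₁ z₂ : F, z₁ ^ 2 + a * z₁ * z₂ + c * z₂ ^ 2 = 0 → z₁ = 0 ∧ z₂ = 0) {ι : Type*} [Fintype ι] [DecidableEq ι] (b : Module.Basis ι F ((Fin (m - 1) ⊕ Fin (m - 1)) ⊕ Fin 2 → F)) : IsSquare (Matrix.of (fun i j : ι => QuadraticMap.polar (Cfsg.quadFormMinus (m - 1) F a c) (b i) (b j))).det ↔ ¬ Even (m * (q - 1) / 2) := by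
  open Cfsg.Agent.H4 Module in
  subst hF
  refine ((minusF (m - 1) a c).isSquare_gram b).trans ?_
  obtain ⟨k, rfl⟩ : ∃ k, m = k + 1 := ⟨m - 1, by omega⟩
  have h := not_isSquare_disc (two_ne_zero_of_odd hq) hac
  have h0 : a ^ 2 - 4 * c ≠ 0 := fun h' => h (by rw [h']; exact ⟨0, by simp⟩)
  rw [← CForm.isSquare_gram (Pi.basisFun F _), det_gram_minusF, ← isSquare_neg_one_pow_iff' hq,
    show (-1 : F) ^ (k + 1 - 1) * (4 * c - a ^ 2) = (-1) ^ (k + 1) * (a ^ 2 - 4 * c) by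
      simp [pow_succ]; ring, isSquare_mul_iff_iff (by simp) h0]
  simp [h]

end Cfsg.Agent.S2621
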