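import Cfsg.Statements.S2622
import Cfsg.Agent.H4.Basis

set_option autoImplicit false
open Cfsg

namespace Cfsg.Agent.S2622

open Cfsg.Agent.H4 Module in
theorem aux {F V : Type*} [Field F] [Finite F] [AddCommGroup V] [Module F V] [FiniteDimensional F V]
    (h2 : (2 : F) = 0) (B : LinearMap.BilinForm F V) (hS : ∀ x y, B x y = B y x) (n : ℕ) :
    ∀ W : Submodule F V, finrank F W = n → (∀ x ∈ W, (∀ y ∈ W, B x y = 0) → x = 0) →
      (n = 0 ∨ ∃ v ∈ W, B v v ≠ 0) →
      ∃ b : Fin n → V, (∀ i, b i ∈ W) ∧ ∀ i j, B (b i) (b j) = if i = j then 1 else 0 := by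
  induction n with
  | zero => intro W _ _ _; exact ⟨Fin.elim0, fun i => i.elim0, fun i => i.elim0⟩
  | succ n ih =>
    intro W hW hnd h
    obtain ⟨v, hvW, hv⟩ := h.resolve_left (by omega)
    obtain ⟨r, hr⟩ := isSquare_of_two_eq_zero h2 (B v v)⁻¹
    have hv1 : B (r • v) (r • v) = 1 := by
      simp only [map_smul, LinearMap.smul_apply, smul_eq_mul]
      rw [← mul_assoc, ← hr, inv_mul_cancel₀ hv]
    have hperp : ∀ v ∈ W, B v v = 1 → finrank F (W ⊓ LinearMap.ker (B v) : Submodule F V) = n ∧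
        ∀ x ∈ W ⊓ LinearMap.ker (B v), (∀ y ∈ W ⊓ LinearMap.ker (B v), B x y = 0) → x = 0 := by
      intro v hvW hv1
      have hdec : ∀ y ∈ W, y - B v y • v ∈ W ⊓ LinearMap.ker (B v) := fun y hy =>
        ⟨W.sub_mem hy (W.smul_mem _ hvW), by simp [hv1]⟩
      refine ⟨?_, fun x hx h => hnd x hx.1 fun y hy => ?_⟩
      · have e1 : W = (W ⊓ LinearMap.ker (B v)) ⊔ Submodule.span F {v} := by
          refine le_antisymm (fun y hy => ?_) (sup_le inf_le_left (by simpa using hvW))
          exact mem_sup_span_singleton.2 ⟨_, hdec y hy, B v y, by simp⟩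
        have e2 := CForm.finrank_sup_singleton (W := W ⊓ LinearMap.ker (B v)) (u := v)
          (by simp [hv1])
        rw [← e1] at e2
        omega
      · have := h _ (hdec y hy)
        have hx2 : B x v = 0 := by rw [hS]; exact hx.2
        simpa [hx2] using this
    obtain ⟨v, hvW, hv1, hv2⟩ : ∃ v ∈ W, B v v = 1 ∧
        (n = 0 ∨ ∃ u ∈ W ⊓ LinearMap.ker (B v), B u u ≠ 0) := by
      by_cases hc : n = 0 ∨ ∃ u ∈ W ⊓ LinearMap.ker (B (r • v)), B u u ≠ 0
      · exact ⟨_, W.smul_mem r hvW, hv1, hc⟩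
      push Not at hc
      obtain ⟨k1, k2⟩ := hperp _ (W.smul_mem r hvW) hv1
      set w := r • v
      have hne : W ⊓ LinearMap.ker (B w) ≠ ⊥ := by
        intro h; rw [h] at k1; simp at k1; exact hc.1 k1.symm
      obtain ⟨z, hz, hz0⟩ := (Submodule.ne_bot_iff _).1 hne
      obtain ⟨y, hy, hzy⟩ : ∃ y ∈ W ⊓ LinearMap.ker (B w), B z y ≠ 0 := by
        by_contra h; push Not at h; exact hz0 (k2 z hz h)
      have hy' : (B z y)⁻¹ • y ∈ W ⊓ LinearMap.ker (B w) := Submodule.smul_mem _ _ hy
      have hzy' : B z ((B z y)⁻¹ • y) = 1 := by simp [hzy]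
      generalize (B z y)⁻¹ • y = y' at hy' hzy'
      have a1 : B w z = 0 := hz.2
      have a2 : B w y' = 0 := hy'.2
      have hw : w ∈ W := W.smul_mem r hvW
      refine ⟨w + z, W.add_mem hw hz.1, by simp [hv1, a1, hS z w, hc.2 z hz], Or.inr ⟨w + y',
        ⟨W.add_mem hw hy'.1, ?_⟩, by simp [hv1, a2, hS y' w, hc.2 y' hy']⟩⟩
      simp [hv1, a1, a2, hS z w, hzy']
      linear_combination h2
    obtain ⟨k1, k2⟩ := hperp v hvW hv1
    obtain ⟨b, hb1, hb2⟩ := ih _ k1 k2 hv2
    refine ⟨Fin.cons v b, fun i => ?_, fun i j => ?_⟩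
    · refine Fin.cases ?_ (fun i => ?_) i
      · simpa using hvW
      · simpa using (hb1 i).1
    · refine Fin.cases ?_ (fun i => ?_) i <;> refine Fin.cases ?_ (fun j => ?_) j
      · simpa using hv1
      · simpa [(Fin.succ_ne_zero j).symm] using (hb1 j).2
      · rw [hS]; simpa using (hb1 i).2
      · simpa using hb2 i j

/-- Over a finite field of characteristic two, a non-degenerate symmetric bilinear form that is not alternating (some vector v has B(v, v) ≠ 0) admits an orthonormal basis. -/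
theorem result {F V : Type*} [Field F] [Finite F] [CharP F 2] [AddCommGroup V] [Module F V] [FiniteDimensional F V] {n : ℕ} (hV : Module.finrank F V = n) (B : LinearMap.BilinForm F V) (hS : B.IsSymm) (hB : B.Nondegenerate) (hna : ∃ v : V, B v v ≠ 0) : ∃ b : Module.Basis (Fin n) F V, ∀ i j, B (b i) (b j) = if i = j then 1 else 0 := by
  open Cfsg.Agent.H4 Module in
  obtain ⟨b, -, hb⟩ := aux CharTwo.two_eq_zero B (fun x y => hS.eq x y) n ⊤ (by simpa using hV)
    (fun x _ h => hB.1 x fun y => h y trivial) (Or.inr (by simpa using hna))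
  have hli : LinearIndependent F b := by
    rw [Fintype.linearIndependent_iff]
    intro g hg j
    have : B (∑ i, g i • b i) (b j) = 0 := by rw [hg]; simp
    simpa [hb] using this
  exact ⟨basisOfLinearIndependentOfCardEqFinrank' b hli (by simp [hV]), by simpa using hb⟩

end Cfsg.Agent.S2622
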