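import Cfsg.Statements.S2623
import Cfsg.Agent.H4.Basis

set_option autoImplicit false
open Cfsg

namespace Cfsg.Agent.S2623

/-- Over a finite field of odd order, two quadratic forms on F^n with non-degenerate polar forms are isometric (related by an invertible linear change of variables) if and only if their discriminants (determinants of the Gram matrices of their polar forms) lie in the same square class. -/
theorem result {F : Type*} [Field F] [Fintype F] (h2 : (2 : F) ≠ 0) {n : ℕ} (Q₁ Q₂ : QuadraticForm F (Fin n → F)) (h₁ : (QuadraticMap.polarBilin Q₁).Nondegenerate) (h₂ : (QuadraticMap.polarBilin Q₂).Nondegenerate) : (∃ g : (Fin n → F) ≃ₗ[F] (Fin n → F), ∀ v, Q₂ (g v) = Q₁ v) ↔ IsSquare ((Matrix.of (fun i j : Fin n => QuadraticMap.polar ⇑Q₁ (Pi.single i 1) (Pi.single j 1))).det * (Matrix.of (fun i j : Fin n => QuadraticMap.polar ⇑Q₂ (Pi.single i 1) (Pi.single j 1))).det) := by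
  open Cfsg.Agent.H4 Module in
  have hf := CForm.ofQuad_nondeg h₁
  have hf' := CForm.ofQuad_nondeg h₂
  have := hf.orth_isom_iff hf' h2 rfl
  rw [← CForm.isSquare_mul_gram (Pi.basisFun F _), mul_comm,
    ← CForm.isSquare_mul_gram (Pi.basisFun F _), mul_comm] at this
  simp only [Pi.basisFun_apply, CForm.ofQuad_B] at this
  rw [← this]
  refine ⟨fun ⟨g, hg⟩ => ⟨g, fun x y => ?_, hg⟩, fun ⟨g, hg⟩ => ⟨g, hg.Q⟩⟩
  rw [CForm.orth_B_eq, CForm.orth_B_eq, ← map_add]
  simp only [CForm.ofQuad_Q, LinearEquiv.coe_coe, hg]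

end Cfsg.Agent.S2623
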