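import Cfsg.Statements.S2625
import Cfsg.Agent.H4.Basis

set_option autoImplicit false
open Cfsg

namespace Cfsg.Agent.S2625

/-- For a quadratic form Q on F^n with non-degenerate polar form, F finite and n odd (so |F| is odd), the multiplier of any similarity is a square: if g is an invertible linear map with Q(g v) = c·Q(v) for all v then c is a square. -/
theorem result {F : Type*} [Field F] [Fintype F] {n : ℕ} (hn : Odd n) (Q : QuadraticForm F (Fin n → F)) (hQ : (QuadraticMap.polarBilin Q).Nondegenerate) (g : (Fin n → F) ≃ₗ[F] (Fin n → F)) (c : F) (hg : ∀ v, Q (g v) = c * Q v) : IsSquare c := by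
  open Cfsg.Agent.H4 Module in
  have hf := CForm.ofQuad_nondeg hQ
  by_cases hc : c = 0
  · exact ⟨0, by simp [hc]⟩
  have h : CForm.Isom ((CForm.ofQuad Q).osmul c) (CForm.ofQuad Q) := ⟨g, fun x y => by
    rw [CForm.orth_B_eq, CForm.orth_B_eq, ← map_add]
    simp only [CForm.ofQuad_Q, LinearEquiv.coe_coe, hg, CForm.osmul_Q], hg⟩
  have := (h.isSquare_mul_disc (CForm.ofQuad Q).disc).2 ⟨_, rfl⟩
  obtain ⟨k, rfl⟩ := hn
  rw [CForm.disc_osmul, mul_left_comm, mul_comm, isSquare_mul_self_mul hf.disc_ne] at this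
  simp only [finrank_fin_fun] at this
  rwa [pow_succ, pow_mul', isSquare_sq_mul (pow_ne_zero _ hc)] at this

end Cfsg.Agent.S2625
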