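import Cfsg.Statements.S2628
import Cfsg.Agent.H4.Block

set_option autoImplicit false
open Cfsg

namespace Cfsg.Agent.S2628

/-- For the orthogonal direct sum Q ⊕ Q of two copies of a quadratic form Q with non-degenerate polar form on F^k (F finite), every isometry g of Q acting diagonally, diag(g, g), lies in Ω(Q ⊕ Q), the commutator subgroup of the orthogonal group of Q ⊕ Q. (Excluded: k = 2 over the field of two elements, where Q ⊕ Q is the hyperbolic 4-space whose orthogonal group's commutator subgroup is smaller than the group usually called Ω.) -/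
theorem result {F : Type*} [Field F] [Fintype F] {k : ℕ} (h : Fintype.card F ≠ 2 ∨ k ≠ 2) (Q : QuadraticForm F (Fin k → F)) (hQ : (QuadraticMap.polarBilin Q).Nondegenerate) (g : ↥(Cfsg.isometryGroup F ⇑Q)) : ∃ x : ↥(Cfsg.isometryGroup F (fun v : Fin k ⊕ Fin k → F => Q (v ∘ Sum.inl) + Q (v ∘ Sum.inr))), x ∈ Cfsg.Omega F (fun v : Fin k ⊕ Fin k → F => Q (v ∘ Sum.inl) + Q (v ∘ Sum.inr)) ∧ ((x : Matrix.GeneralLinearGroup (Fin k ⊕ Fin k) F) : Matrix (Fin k ⊕ Fin k) (Fin k ⊕ Fin k) F) = Matrix.fromBlocks ((g : Matrix.GeneralLinearGroup (Fin k) F) : Matrix (Fin k) (Fin k) F) 0 0 ((g : Matrix.GeneralLinearGroup (Fin k) F) : Matrix (Fin k) (Fin k) F) := by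
  open Cfsg.Agent.H4 Module in
  have hf := CForm.ofQuad_nondeg hQ
  refine (exists_Omega_eq_iff (f := (CForm.ofQuad Q).sum (CForm.ofQuad Q)) (blk (g, g)) rfl).2 ?_
  let s : (Fin k ⊕ Fin k → F) ≃ₗ[F] (Fin k ⊕ Fin k → F) :=
    LinearEquiv.funCongrLeft F F (Equiv.sumComm _ _)
  have hs : s ∈ ((CForm.ofQuad Q).sum (CForm.ofQuad Q)).iso := CForm.orth_mem_iso.2 fun x => by
    simp only [CForm.sum_Q]; exact add_comm _ _
  have := (hf.sum hf).sq_mem_Om (n24_of_card (n := 2 * k) (by omega) (by simp [two_mul]))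
    (CForm.blk_mem_iso (g' := 1) ((mem_isometryGroup (f := CForm.ofQuad Q)).1 g.2)
      (by simp [one_mem])) hs
  convert this using 1
  refine LinearEquiv.ext fun x => ?_
  simp only [LinearEquiv.mul_apply, glE_blk, map_one]
  rfl

end Cfsg.Agent.S2628
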