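import Cfsg.Statements.S2634
import Cfsg.Agent.H4.Omega

set_option autoImplicit false
open Cfsg

namespace Cfsg.Agent.S2634

/-- Over a finite field of characteristic two, Ω (the commutator subgroup of the orthogonal group of a quadratic form Q on F^n with non-degenerate polar form; excluding dimension 4 over the field of two elements) acts transitively on the non-singular 1-spaces: for u, v with Q(u) ≠ 0 and Q(v) ≠ 0 some element of Ω carries the line through u to the line through v. -/
theorem result {F : Type*} [Field F] [Fintype F] [CharP F 2] {n : ℕ} (h : Fintype.card F ≠ 2 ∨ n ≠ 4) (Q : QuadraticForm F (Fin n → F)) (hQ : (QuadraticMap.polarBilin Q).Nondegenerate) (u v : Fin n → F) (hu : Q u ≠ 0) (hv : Q v ≠ 0) : ∃ g : ↥(Cfsg.isometryGroup F ⇑Q), g ∈ Cfsg.Omega F ⇑Q ∧ (F ∙ ((g : Matrix.GeneralLinearGroup (Fin n) F) : Matrix (Fin n) (Fin n) F).mulVec u) = F ∙ v := by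
  open Cfsg.Agent.H4 Module in
  have hf := CForm.ofQuad_nondeg hQ
  obtain ⟨r, hr⟩ := isSquare_of_two_eq_zero CharTwo.two_eq_zero (Q u / Q v)
  have hr0 : r ≠ 0 := by rintro rfl; simp [hu, hv] at hr
  have hv0 : v ≠ 0 := by rintro rfl; simp at hv
  obtain ⟨g, hg, hg'⟩ := hf.witt_vec (v := u) (v' := r • v) (by rintro rfl; simp at hu)
    (smul_ne_zero hr0 hv0) (by
      rw [CForm.orth_Q_smul, pow_two, ← hr]; simp [hv])
  obtain ⟨g, h1, h2⟩ := exists_Omega_map (f := CForm.ofQuad Q) (hf.exists_Om_map (h4_of_card h)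
    (U := F ∙ u) (W := F ∙ v) hg (by
      rw [Submodule.map_span, Set.image_singleton, LinearEquiv.coe_coe, hg',
        Submodule.span_singleton_smul_eq (Ne.isUnit hr0)])
    (Or.inr ⟨_, CForm.rfx_mem_stab (Or.inl (Submodule.mem_span_singleton_self v)),
      CForm.rfx_mem_iso v, hf.dk_rfx hv⟩) fun h => absurd CharTwo.two_eq_zero h)
  exact ⟨g, h1, by simpa [Submodule.map_span] using h2⟩

end Cfsg.Agent.S2634
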