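import Cfsg.Statements.S2635
import Cfsg.Agent.H4.Omega

set_option autoImplicit false
open Cfsg

namespace Cfsg.Agent.S2635

/-- Over a finite field of characteristic two, for a quadratic form Q on F^n with non-degenerate polar form, n ≥ 2, other than dimension 4 over the field of two elements, Ω (the commutator subgroup of the orthogonal group) is exactly the subgroup generated by the products of two reflections (orthogonal transvections) x ↦ x − Q(v)⁻¹ f(x, v) v, Q(v) ≠ 0: the products of an even number of reflections. -/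
theorem result {F : Type*} [Field F] [Fintype F] [CharP F 2] {n : ℕ} (hn : 2 ≤ n) (h : Fintype.card F ≠ 2 ∨ n ≠ 4) (Q : QuadraticForm F (Fin n → F)) (hQ : (QuadraticMap.polarBilin Q).Nondegenerate) : Cfsg.Omega F ⇑Q = Subgroup.closure {g : ↥(Cfsg.isometryGroup F ⇑Q) | ∃ u v : Fin n → F, Q u ≠ 0 ∧ Q v ≠ 0 ∧ ((g : Matrix.GeneralLinearGroup (Fin n) F) : Matrix (Fin n) (Fin n) F) = Cfsg.reflectionMatrix ⇑Q u * Cfsg.reflectionMatrix ⇑Q v} := by
  open Cfsg.Agent.H4 Module in
  have hf := CForm.ofQuad_nondeg hQ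
  have h4 := h4_of_card h
  set f := CForm.ofQuad Q
  ext g
  refine Iff.trans ?_ (mem_closure_equiv (isomEquiv f) (t := {g | ∃ u v, Q u ≠ 0 ∧ Q v ≠ 0 ∧ g = f.rfx u * f.rfx v})
    (by rintro _ ⟨u, v, -, -, rfl⟩; exact mul_mem (CForm.rfx_mem_iso u) (CForm.rfx_mem_iso v))
    (fun x => by
      simp only [Set.mem_setOf_eq, isomEquiv_coe, ← eq_reflectionMatrix_mul_iff]; rfl) g).symm
  refine (mem_Omega (f := f)).trans ⟨fun hg => ?_, fun hg => ?_⟩
  · obtain ⟨s, l, hl, h1, -⟩ := hf.exists_SpN h4 (commutator_le_self _ hg)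
    change glE (g : GL (Fin n) F) ∈ _
    rw [h1]
    rw [h1, hf.list_mem_Om h4 hl] at hg
    obtain ⟨k, hk⟩ := hg.1
    clear hg h1
    induction k generalizing l with
    | zero =>
      obtain rfl : l = [] := List.length_eq_zero_iff.1 hk
      exact one_mem _
    | succ k ih =>
      match l, hl, hk with
      | [], _, hk => simp at hk
      | [_], _, hk => simp at hk; omega
      | u :: v :: l, hl, hk =>
        simp only [List.map_cons, List.prod_cons, ← mul_assoc]
        refine mul_mem (Subgroup.subset_closure ⟨u, v, hl u (by simp), hl v (by simp), rfl⟩)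
          (ih l (fun x hx => hl x (by simp [hx])) (by simp at hk; omega))
  · refine (Subgroup.closure_le (K := ⁅f.iso, f.iso⁆)).2 ?_ hg
    rintro _ ⟨u, v, hu, hv, rfl⟩
    have := (hf.list_mem_Om h4 (l := [u, v]) (by simp [f, hu, hv])).2
      ⟨by simp, isSquare_of_two_eq_zero CharTwo.two_eq_zero _⟩
    simpa using this

end Cfsg.Agent.S2635
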