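import Cfsg.Statements.S2636
import Cfsg.Agent.GS.Cj9

set_option autoImplicit false
open Cfsg

namespace Cfsg.Agent.S2636

open Cfsg.Agent.H1

/-- Centraliser of a field automorphism in PGL_n: let F be the field with q = q₀^r elements, σ a field automorphism of F of prime order r (so its fixed field has q₀ elements) and n ≥ 1. The invertible matrices g whose entrywise image under σ is a scalar multiple of g — those whose coset modulo scalars is fixed by σ — number (q − 1)/(q₀ − 1) · |GL_n(q₀)|; equivalently the centraliser in PGL_n(q) of the induced automorphism has the order of PGL_n(q₀). -/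
theorem result {F : Type*} [Field F] [Fintype F] {q₀ r n : ℕ} (hr : r.Prime) (hn : 1 ≤ n) (hF : Fintype.card F = q₀ ^ r) (σ : F ≃+* F) (hσ : orderOf σ = r) : Nat.card {g : GL (Fin n) F // ∃ c : F, c ≠ 0 ∧ (g : Matrix (Fin n) (Fin n) F).map σ = c • (g : Matrix (Fin n) (Fin n) F)} = (q₀ ^ r - 1) / (q₀ - 1) * ∏ i : Fin n, (q₀ ^ n - q₀ ^ (i : ℕ)) := by
  open Subgroup Pointwise commutatorElement Cfsg.Agent.BG Cfsg.Agent.GS in
  open Cfsg.Agent.H2 hiding card_lt_of_lt card_lt_of_ne_top isMulCommutative_of_le isPGroup_zpowers_iff mem_of_pow_mem_of_coprime inf_eq_bot_of_cop exists_maxElem_ge Sec in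
  open Cfsg.Agent.H8 (Op Opp Fit SN) in
  open Cfsg.Agent.L (FPF) in focus
    haveI : Nonempty (Fin n) := ⟨⟨0, hn⟩⟩
    let F₀ := FixedPoints.subfield (Subgroup.zpowers σ) F
    haveI := Fintype.ofFinite F₀
    have a : Fintype.card F₀ = q₀ := Nat.pow_left_injective hr.ne_zero (by simpa [hσ, hF] using H4.card_fixed_pow σ)
    have h : ∀ x, σ x = x ↔ ∃ y, F₀.subtype y = x := fun x => H4.mem_fixed_subfield.symm.trans (by simp [F₀])
    have := card_semifix (ι := Fin n) (σ : F →+* F) ⊤ ⊤ (by simp) fun g _ c p e => by simpa using exists_hilbert (σ := (σ : F →+* F)) p e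
    simp only [Subgroup.mem_top, true_and, RingHom.coe_coe] at this
    have b := card_fix_map (ι := Fin n) F₀.subtype h (P := fun _ => True) (Q := fun _ => True) (by simp)
    simp only [true_and, Nat.card_congr (Equiv.subtypeUnivEquiv fun _ => trivial), Matrix.card_GL_field, a] at b
    rw [← b, Nat.card_congr (Equiv.subtypeUnivEquiv (α := Fˣ) fun _ => trivial), Nat.card_units, Nat.card_eq_fintype_card (α := F), hF, ← Nat.card_eq_of_bijective (fun d : F₀ˣ => (⟨Units.map F₀.subtype.toMonoidHom d, (h _).2 ⟨_, rfl⟩⟩ :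
      {d : Fˣ // σ d = d})) ⟨fun d e k => Units.ext (Subtype.ext congr(($k).1.1)), fun ⟨d, k⟩ => let ⟨y, e⟩ := (h _).1 k
        ⟨Units.mk0 y (by rintro rfl; exact d.ne_zero (e.symm.trans (map_zero _))), Subtype.ext (Units.ext e)⟩⟩, Nat.card_units, Nat.card_eq_fintype_card (α := F₀), a] at this
    have c : 0 < q₀ - 1 := by have := Fintype.one_lt_card (α := F₀); omega
    refine Nat.eq_of_mul_eq_mul_right c (this.trans ?_)
    rw [mul_right_comm, Nat.div_mul_cancel (by simpa using Nat.sub_dvd_pow_sub_pow q₀ 1 r)]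

end Cfsg.Agent.S2636
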