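import Cfsg.Statements.S2637
import Cfsg.Agent.GS.Cj9

set_option autoImplicit false
open Cfsg

namespace Cfsg.Agent.S2637

open Cfsg.Agent.H1

/-- Centraliser of a fixed-point-free element of order three in Sp_2m(q) when q ≡ 2 (mod 3): if x ∈ Sp_2m(F) (|F| = q, m ≥ 1) satisfies x³ = 1 and x − 1 is invertible, then its centraliser in Sp_2m(F) has the order of the unitary group GU_m(q), namely q^(m(m−1)/2) Π_(i=1)^m (q^i − (−1)^i) (x lies in the centre of a subgroup GU_m(q) of Sp_2m(q)). -/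
theorem result {F : Type*} [Field F] [Fintype F] {q : ℕ} (hF : Fintype.card F = q) (hq : q % 3 = 2) {m : ℕ} (hm : 1 ≤ m) (x : Matrix.symplecticGroup (Fin m) F) (hx3 : x ^ 3 = 1) (hfpf : IsUnit ((x : Matrix (Fin m ⊕ Fin m) (Fin m ⊕ Fin m) F) - 1)) : (Nat.card ↥(Subgroup.centralizer ({x} : Set ↥(Matrix.symplecticGroup (Fin m) F))) : ℤ) = (q : ℤ) ^ (m * (m - 1) / 2) * ∏ i : Fin m, ((q : ℤ) ^ ((i : ℕ) + 1) - (-1) ^ ((i : ℕ) + 1)) := by
  open Subgroup Pointwise commutatorElement Cfsg.Agent.BG Cfsg.Agent.GS in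
  open Cfsg.Agent.H2 hiding card_lt_of_lt card_lt_of_ne_top isMulCommutative_of_le isPGroup_zpowers_iff mem_of_pow_mem_of_coprime inf_eq_bot_of_cop exists_maxElem_ge Sec in
  open Cfsg.Agent.H8 (Op Opp Fit SN) in
  open Cfsg.Agent.L (FPF) in focus
    rw [card_cent_equiv (H4.spEquiv F m), card_cent_three hF hq (H4.spF_nondeg m) (m := m) (by simp [two_mul]), Nat.choose_two_right, Finset.prod_range]
    intro v
    have h3 : x.1 ^ 3 = 1 := congrArg Subtype.val hx3
    have : (x.1 - 1) * (x.1 * x.1 + x.1 + 1) = 0 := by linear_combination (norm := noncomm_ring) h3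
    change x.1.mulVec (x.1.mulVec v) = -v - x.1.mulVec v
    rw [Matrix.mulVec_mulVec, show x.1 * x.1 = -1 - x.1 by linear_combination (norm := noncomm_ring) hfpf.mul_right_eq_zero.1 this]
    simp [Matrix.sub_mulVec, Matrix.neg_mulVec]

end Cfsg.Agent.S2637
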