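import Cfsg.Statements.S2638
import Cfsg.Agent.GS.Cj3

set_option autoImplicit false
open Cfsg

namespace Cfsg.Agent.S2638

open Cfsg.Agent.H1

/-- If an element x of GL_n(q), n ≥ 1, has prime order r and the multiplicative order of q modulo r is n (r is a primitive prime divisor of q^n − 1, so x acts irreducibly), then the centraliser of x in GL_n(q) is cyclic of order q^n − 1 (the multiplicative group of the field with q^n elements, a Singer cycle). -/
theorem result {F : Type*} [Field F] [Fintype F] {p q : ℕ} [Fact p.Prime] [CharP F p] (hF : Fintype.card F = q) {n r : ℕ} (hn : 1 ≤ n) (hr : r.Prime) (hrp : r ≠ p) (hi : orderOf (q : ZMod r) = n) (x : GL (Fin n) F) (hx : orderOf x = r) : IsCyclic ↥(Subgroup.centralizer ({x} : Set (GL (Fin n) F))) ∧ Nat.card ↥(Subgroup.centralizer ({x} : Set (GL (Fin n) F))) = q ^ n - 1 := by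
  open Subgroup Pointwise commutatorElement Cfsg.Agent.BG Cfsg.Agent.GS in
  open Cfsg.Agent.H2 hiding card_lt_of_lt card_lt_of_ne_top isMulCommutative_of_le isPGroup_zpowers_iff mem_of_pow_mem_of_coprime inf_eq_bot_of_cop exists_maxElem_ge Sec in
  open Cfsg.Agent.H8 (Op Opp Fit SN) in
  open Cfsg.Agent.L (FPF) in focus
    have h := char_ne (F := F) hr hrp
    haveI : Nonempty (Fin n) := ⟨⟨0, hn⟩⟩
    obtain ⟨a, -⟩ := cy_deg hr h
    rw [hF, hi] at a
    have b := cy_sum hr h (toLin'_pow_eq_one.2 (val_pow (hx ▸ pow_orderOf_eq_one x)))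
    obtain ⟨f, -, hf⟩ := Finset.exists_ne_zero_of_sum_ne_zero fun e : ∑ f : Cy r F, nk x.1.toLin' f = 0 => by
      rw [e, add_zero, nk_eq_finrank, aeval_toLin'_eq_zero] at b
      exact hr.ne_one (hx.symm.trans (orderOf_eq_one_iff.2 (Units.ext (by simpa [sub_eq_zero] using b))))
    haveI := Fact.mk f.2.1
    obtain ⟨φ, -, c⟩ := exists_field (T := x.1.toLin') (f := f) (nk_eq_finrank.1 (le_antisymm (Submodule.finrank_le _) (by
      simpa [a] using Nat.le_of_dvd (Nat.pos_of_ne_zero hf) (dvd_nk _ f.2.1 f.2.2.1)))) (by simp [a])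
    let ψ := (Matrix.toLinAlgEquiv'.symm.toAlgHom.comp φ)
    have d : (Units.map ψ.toMonoidHom).range = centralizer {x} := Subgroup.ext fun g => by
      rw [mem_centralizer_singleton_iff]
      refine ⟨?_, fun e => ?_⟩
      · rintro ⟨y, rfl⟩
        obtain ⟨z, hz⟩ := c _ (Commute.refl _)
        have : ψ z = x.1 := (congrArg Matrix.toLinAlgEquiv'.symm hz).trans (Matrix.toLinAlgEquiv'.symm_apply_apply _)
        exact Units.ext (show ψ y * x.1 = x.1 * ψ y by rw [← this, ← map_mul, mul_comm, map_mul])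
      · obtain ⟨z, hz⟩ := c g.1.toLin' (Commute.map (congrArg Units.val e) Matrix.toLinAlgEquiv')
        have : ψ z = g.1 := (congrArg Matrix.toLinAlgEquiv'.symm hz).trans (Matrix.toLinAlgEquiv'.symm_apply_apply _)
        exact ⟨Units.mk0 z fun e => g.ne_zero (by rw [← this, e, map_zero]), Units.ext this⟩
    haveI : FiniteDimensional F (AdjoinRoot f.1) := fd_quot f.2.1.ne_zero
    haveI : Finite (AdjoinRoot f.1) := Module.finite_of_finite F
    let e := MonoidHom.ofInjective (Units.map_injective (f := ψ.toMonoidHom) ψ.injective)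
    rw [← d]
    exact ⟨isCyclic_of_surjective e e.surjective, by
      rw [← Nat.card_congr e.toEquiv, Nat.card_units, H4.card_vec (F := F), hF, ← a f]; exact congrArg (q ^ · - 1) (finrank_quot _)⟩

end Cfsg.Agent.S2638
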