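import Cfsg.Statements.S2639
import Cfsg.Agent.GS.Cj9

set_option autoImplicit false
open Cfsg

namespace Cfsg.Agent.S2639

open Cfsg.Agent.H1

/-- The unitary group embeds in the symplectic group of twice the dimension over the subfield: for a field K with q² elements and a field F with q elements (isomorphic to the subfield of K of order q), there is an injective homomorphism GU_m(q) → Sp_2m(F). -/
theorem result {K F : Type*} [Field K] [Fintype K] [Field F] [Fintype F] {q : ℕ} (hK : Fintype.card K = q ^ 2) (hF : Fintype.card F = q) (m : ℕ) : ∃ φ : ↥(Cfsg.GU m K q) →* ↥(Matrix.symplecticGroup (Fin m) F), Function.Injective φ := by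
  open Subgroup Pointwise commutatorElement Cfsg.Agent.BG Cfsg.Agent.GS in
  open Cfsg.Agent.H2 hiding card_lt_of_lt card_lt_of_ne_top isMulCommutative_of_le isPGroup_zpowers_iff mem_of_pow_mem_of_coprime inf_eq_bot_of_cop exists_maxElem_ge Sec in
  open Cfsg.Agent.H8 (Op Opp Fit SN) in
  open Cfsg.Agent.L (FPF) in focus
    obtain ⟨φ, h⟩ := exists_alg hK hF
    letI := φ.toAlgebra
    obtain ⟨g, a, b⟩ := exists_res_unit_symp (F := F) (H4.frobq_ne hK) h (H4.unF_nondeg hK m)
    exact exists_emb (a.symp_isom (H4.spF_nondeg m) (by simp [Module.finrank_pi_fintype, finrank_two hK hF, mul_two])) (H4.spEquiv F m)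
      ((resHom' F K _).comp ((Subgroup.subtype _).comp (H4.guEquiv hK m).toMonoidHom))
      ((LinearEquiv.restrictScalars_injective F).comp (Subtype.val_injective.comp (H4.guEquiv hK m).injective)) fun x => b _ (H4.guEquiv hK m x).2

end Cfsg.Agent.S2639
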