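import Cfsg.Statements.S2640
import Cfsg.Agent.GS.Cj9

set_option autoImplicit false
open Cfsg

namespace Cfsg.Agent.S2640

open Cfsg.Agent.H1

/-- For m even, the unitary group GU_m(q) (over the field with q² elements) embeds in the orthogonal group O⁺_2m(q) of the hyperbolic form Σ x_i y_i over the field with q elements (there is an injective homomorphism). -/
theorem result {K F : Type*} [Field K] [Fintype K] [Field F] [Fintype F] {q : ℕ} (hK : Fintype.card K = q ^ 2) (hF : Fintype.card F = q) (m : ℕ) (hm : Even m) : ∃ φ : ↥(Cfsg.GU m K q) →* ↥(Cfsg.isometryGroup F (Cfsg.quadFormPlus m F)), Function.Injective φ := by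
  open Subgroup Pointwise commutatorElement Cfsg.Agent.BG Cfsg.Agent.GS in
  open Cfsg.Agent.H2 hiding card_lt_of_lt card_lt_of_ne_top isMulCommutative_of_le isPGroup_zpowers_iff mem_of_pow_mem_of_coprime inf_eq_bot_of_cop exists_maxElem_ge Sec in
  open Cfsg.Agent.H8 (Op Opp Fit SN) in
  open Cfsg.Agent.L (FPF) in focus
    obtain ⟨φ, h⟩ := exists_alg hK hF
    letI := φ.toAlgebra
    haveI : Module.Finite F K := Module.Finite.of_finite
    obtain ⟨g, a, c, d, b⟩ := exists_GU_orth hK hF h m
    exact exists_emb (a.isom_plusF c (d.2 hm)) (H4.isomEquiv (H4.plusF F m))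
      ((resHom' F K _).comp ((Subgroup.subtype _).comp (H4.guEquiv hK m).toMonoidHom))
      ((LinearEquiv.restrictScalars_injective F).comp (Subtype.val_injective.comp (H4.guEquiv hK m).injective)) fun x => b _ (H4.guEquiv hK m x).2

end Cfsg.Agent.S2640
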