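import Cfsg.Statements.S2641
import Cfsg.Agent.GS.Cj9

set_option autoImplicit false
open Cfsg

namespace Cfsg.Agent.S2641

open Cfsg.Agent.H1

/-- For m odd, the unitary group GU_m(q) (over the field with q² elements) embeds in the orthogonal group O⁻_2m(q) of an elliptic form (Σ_(i<m−1) x_i y_i plus an anisotropic binary form) over the field with q elements (there is an injective homomorphism). -/
theorem result {K F : Type*} [Field K] [Fintype K] [Field F] [Fintype F] {q : ℕ} (hK : Fintype.card K = q ^ 2) (hF : Fintype.card F = q) (m : ℕ) (hm : Odd m) (a b : F) (hab : ∀ z₁ z₂ : F, z₁ ^ 2 + a * z₁ * z₂ + b * z₂ ^ 2 = 0 → z₁ = 0 ∧ z₂ = 0) : ∃ φ : ↥(Cfsg.GU m K q) →* ↥(Cfsg.isometryGroup F (Cfsg.quadFormMinus (m - 1) F a b)), Function.Injective φ := by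
  open Subgroup Pointwise commutatorElement Cfsg.Agent.BG Cfsg.Agent.GS in
  open Cfsg.Agent.H2 hiding card_lt_of_lt card_lt_of_ne_top isMulCommutative_of_le isPGroup_zpowers_iff mem_of_pow_mem_of_coprime inf_eq_bot_of_cop exists_maxElem_ge Sec in
  open Cfsg.Agent.H8 (Op Opp Fit SN) in
  open Cfsg.Agent.L (FPF) in focus
    obtain ⟨φ, h⟩ := exists_alg hK hF
    letI := φ.toAlgebra
    haveI : Module.Finite F K := Module.Finite.of_finite
    obtain ⟨g, e, c, d, k⟩ := exists_GU_orth hK hF h m
    obtain ⟨m, rfl⟩ := Nat.exists_eq_add_of_le' hm.pos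
    exact exists_emb (e.isom_minusF c (mt d.1 (Nat.not_even_iff_odd.2 hm)) hab) (H4.isomEquiv (H4.minusF m a b))
      ((resHom' F K _).comp ((Subgroup.subtype _).comp (H4.guEquiv hK _).toMonoidHom))
      ((LinearEquiv.restrictScalars_injective F).comp (Subtype.val_injective.comp (H4.guEquiv hK _).injective)) fun x => k _ (H4.guEquiv hK _ x).2

end Cfsg.Agent.S2641
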