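import Cfsg.Statements.S2642
import Cfsg.Agent.GS.Cj8

set_option autoImplicit false
open Cfsg

namespace Cfsg.Agent.S2642

open Cfsg.Agent.H1

/-- Number of conjugacy classes of elements of order p in the general unitary group GU_n(q), q a power of p: every unipotent Jordan type occurs and the classes correspond to the partitions of n with all parts at most p other than the all-ones partition, exactly as in GL_n; so there are (number of partitions of n with parts ≤ p) − 1 classes. -/
theorem result {K : Type*} [Field K] [Fintype K] {p q n : ℕ} [Fact p.Prime] [CharP K p] (hK : Fintype.card K = q ^ 2) : Nat.card {C : ConjClasses ↥(Cfsg.GU n K q) // ∃ g : ↥(Cfsg.GU n K q), ConjClasses.mk g = C ∧ orderOf g = p} = (Finset.univ.filter (fun μ : Nat.Partition n => ∀ a ∈ μ.parts, a ≤ p)).card - 1 := by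
  open Subgroup Pointwise commutatorElement Cfsg.Agent.BG Cfsg.Agent.GS in
  open Cfsg.Agent.H2 hiding card_lt_of_lt card_lt_of_ne_top isMulCommutative_of_le isPGroup_zpowers_iff mem_of_pow_mem_of_coprime inf_eq_bot_of_cop exists_maxElem_ge Sec in
  open Cfsg.Agent.H8 (Op Opp Fit SN) in
  open Cfsg.Agent.L (FPF) in focus
    have hp : p.Prime := Fact.out
    have v : ∀ {g : GU n K q}, g ^ p = 1 → (g.1.1 - 1) ^ p = 0 := fun h => (pow_char_eq_one_iff p).1 (congrArg (·.1.1) h)
    rw [card_classes_prime hp, card_classes (β := {μ : n.Partition // ∀ a ∈ μ.parts, a ≤ p}) _ (fun μ g => JT g.1.1.toLin' 1 μ.1), Nat.card_eq_fintype_card,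
      Fintype.card_subtype]
    · intro g hg
      obtain ⟨μ, a, b⟩ := exists_JT' (v hg) (Fintype.card_fin n)
      exact ⟨⟨μ, b⟩, a⟩
    · intro μ
      obtain ⟨A, a, b⟩ := JT_model' (F := K) (Fintype.card_fin n) μ.1
      obtain ⟨g, c⟩ := exists_GU_unip hK (b p μ.2)
      exact ⟨g, Subtype.ext (Units.ext (isConj_one_right.1 ((pow_char_eq_one_iff p).2 (b p μ.2) ▸ c.pow p))), fun k => (IsConj.nk_eq c _).symm.trans (a k)⟩
    · intro μ ν g h hg hh a b
      rw [isConj_GU hK, JT.isConj_iff (v hg) (v hh) a b, Subtype.ext_iff]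

end Cfsg.Agent.S2642
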