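import Cfsg.Statements.S2643
import Cfsg.Agent.GS.Cj8

set_option autoImplicit false
open Cfsg

namespace Cfsg.Agent.S2643

open Cfsg.Agent.H1

/-- Regular unipotent classes of SU_n(q), n ≥ 2: the elements u of the special unitary group (isometries of Σ u_i v_i^q of determinant one over the field with q² elements) with (u − 1)^n = 0 and rank(u − 1) = n − 1 form exactly gcd(n, q + 1) conjugacy classes of SU_n(q). -/
theorem result {K : Type*} [Field K] [Fintype K] {q n : ℕ} (hK : Fintype.card K = q ^ 2) (hn : 2 ≤ n) : Nat.card {C : ConjClasses ↥(Cfsg.SU n K q) // ∃ u : ↥(Cfsg.SU n K q), ConjClasses.mk u = C ∧ (((u : GL (Fin n) K) : Matrix (Fin n) (Fin n) K) - 1) ^ n = 0 ∧ (((u : GL (Fin n) K) : Matrix (Fin n) (Fin n) K) - 1).rank = n - 1} = Nat.gcd n (q + 1) := by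
  open Subgroup Pointwise commutatorElement Cfsg.Agent.BG Cfsg.Agent.GS in
  open Cfsg.Agent.H2 hiding card_lt_of_lt card_lt_of_ne_top isMulCommutative_of_le isPGroup_zpowers_iff mem_of_pow_mem_of_coprime inf_eq_bot_of_cop exists_maxElem_ge Sec in
  open Cfsg.Agent.H8 (Op Opp Fit SN) in
  open Cfsg.Agent.L (FPF) in focus
    obtain ⟨u, hu⟩ : ∃ u : SU n K q, RU u.1.1 := by
      obtain ⟨u, hu⟩ := exists_RU K (Fin n)
      obtain ⟨g, c⟩ := exists_GU_unip hK hu.1
      exact ⟨⟨⟨_, det_unip (hu.isConj_iff.2 c).1⟩, g.2⟩, hu.isConj_iff.2 c⟩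
    haveI : Nonempty (Fin n) := ⟨⟨0, by omega⟩⟩
    haveI : NeZero (q + 1) := ⟨by omega⟩
    rw [card_split suF_inj (range_suF hK) (detU_surj hK (by omega)) u
      fun v => (by simp [RU] : _ ↔ RU v.1.1).trans (by rw [isConj_GU hK]; exact hu.isConj_iff), Nat.gcd_comm,
      ← congrArg (Nat.gcd · n) (H4.CForm.card_rootsOfUnity_succ hK), ← IsCyclic.index_powMonoidHom_range]
    congr 1
    refine le_antisymm ?_ ?_
    · rintro _ ⟨g, hg, rfl⟩
      obtain ⟨p, hp⟩ := hu.eq_aeval (A := g.1.1) (congrArg (fun x : GU n K q => x.1.1) (mem_centralizer_singleton_iff.1 hg))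
      have d := fun p => (det_aeval_nilp ⟨_, hu.1⟩ p).trans (congrArg _ (Fintype.card_fin n))
      have a := norm_coeff (H4.unF_nondeg hK n) hu.nil (p := p) (by rw [aeval_toLin', hp]; exact (mem_GU' hK).1 g.2)
      exact ⟨⟨Units.mkOfMulEqOne _ _ a, (H4.CForm.mem_rootsOfUnity_succ hK).2 a⟩, Subtype.ext (Units.ext ((d p).symm.trans (congrArg _ hp)))⟩
    · rintro _ ⟨a, rfl⟩
      have b := (H4.CForm.mem_rootsOfUnity_succ hK).1 a.2
      exact ⟨⟨Matrix.GeneralLinearGroup.scalar _ a, (H4.mem_GU hK).2 (H4.CForm.unit_mem_iso.2 fun u v => by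
        simp [-H4.unF_B, ← mul_assoc, mul_comm _ a.1.1, show a.1.1 * a.1.1 ^ q = 1 from b])⟩,
        mem_centralizer_singleton_iff.2 (Subtype.ext (Units.ext (Matrix.scalar_commute _ (fun _ => Commute.all _ _) _))), Subtype.ext (Units.ext (by simp [detU]))⟩

end Cfsg.Agent.S2643
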