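import Cfsg.Statements.S2644
import Cfsg.Agent.GS.Cj8

set_option autoImplicit false
open Cfsg

namespace Cfsg.Agent.S2644

open Cfsg.Agent.H1

/-- In the special unitary group SU_n(q) with n ≥ 3 (isometries of Σ u_i v_i^q of determinant one over the field with q² elements), any two transvections (elements t with t − 1 of rank one and square zero) are conjugate. -/
theorem result {K : Type*} [Field K] [Fintype K] {q n : ℕ} (hK : Fintype.card K = q ^ 2) (hn : 3 ≤ n) (s t : ↥(Cfsg.SU n K q)) (hs : Cfsg.IsTransvection (((s : GL (Fin n) K) : Matrix (Fin n) (Fin n) K))) (ht : Cfsg.IsTransvection (((t : GL (Fin n) K) : Matrix (Fin n) (Fin n) K))) : IsConj s t := by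
  open Subgroup Pointwise commutatorElement Cfsg.Agent.BG Cfsg.Agent.GS in
  open Cfsg.Agent.H2 hiding card_lt_of_lt card_lt_of_ne_top isMulCommutative_of_le isPGroup_zpowers_iff mem_of_pow_mem_of_coprime inf_eq_bot_of_cop exists_maxElem_ge Sec in
  open Cfsg.Agent.H8 (Op Opp Fit SN) in
  open Cfsg.Agent.L (FPF) in focus
    have a : (⟨0, by omega⟩ : Fin n) ≠ ⟨1, by omega⟩ := by simp
    refine isConj_of_split suF_inj (range_suF hK) ((isConj_GU hK).2 ((IsTransvection.isConj hs a).trans (IsTransvection.isConj ht a).symm)) fun g => ?_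
    have b := nk_unip s.1.1 1
    rw [nk_eq_ker, pow_one, pow_one, show (s.1.1 - 1).rank = 1 from hs.1, Fintype.card_fin] at b
    obtain ⟨v, hv, c⟩ : ∃ v ∈ LinearMap.ker (s.1.1 - 1).toLin', (H4.unF hK n).Q v ≠ 0 := by
      by_contra! h
      obtain ⟨t, ht⟩ := H4.exists_trace_ne_zero (H4.frobq_ne hK)
      have := H4.CForm.TS.two_mul_finrank_le (H4.unF_nondeg hK n) ⟨h, fun x hx y hy => by_contra fun e => ht (by
        simpa [H4.CForm.Q_add, H4.CForm.Q_smul, h x hx, h y hy, e, -H4.unF_Q, -H4.unF_B] using h _ (add_mem (Submodule.smul_mem _ (t / (H4.unF hK n).B x y) hx) hy))⟩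
      rw [Module.finrank_fin_fun] at this; omega
    obtain ⟨r, hr⟩ := H4.CForm.unit_exists_smul_Q (H4.frobq_ne hK) c (map_one _)
    have d := (H4.CForm.mem_rootsOfUnity_succ hK).1 (detU hK n g).2
    refine ⟨(H4.guEquiv hK n).symm ⟨_, (H4.CForm.unit_tvOk hr d).mem_iso⟩, (H4.guEquiv hK n).injective (Subtype.ext ?_),
      (detU_eq hK).2 (Units.ext (by simpa using H4.CForm.det_unit_tv hr d))⟩
    have := H4.CForm.tv_conj (H4.guEquiv hK n (suF n K q s)).2 (r • v) ((detU hK n g).1.1 - 1)
    rw [map_smul, show (H4.guEquiv hK n (suF n K q s)).1 v = v from show s.1.1.mulVec v = v by simpa [Matrix.sub_mulVec, sub_eq_zero] using hv, mul_inv_eq_iff_eq_mul] at this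
    simpa using this.symm

end Cfsg.Agent.S2644
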