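import Cfsg.Statements.S2665
import Cfsg.Agent.GS.Misc1

set_option autoImplicit false
open scoped MatrixGroups
open Cfsg

namespace Cfsg.Agent.S2665

open Cfsg.Agent.H1

section
open Subgroup Pointwise commutatorElement Cfsg.Agent.BG Cfsg.Agent.GS
open Cfsg.Agent.H2 hiding card_lt_of_lt card_lt_of_ne_top isMulCommutative_of_le isPGroup_zpowers_iff mem_of_pow_mem_of_coprime inf_eq_bot_of_cop exists_maxElem_ge Sec
open Cfsg.Agent.H8 (Op Opp Fit SN)
open Cfsg.Agent.L (FPF)
universe u

open Polynomial in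
theorem exists_fixed {K V : Type*} [Field K] [IsAlgClosed K] [AddCommGroup V] [Module K V] {σ : K →+* K} {q : ℕ} (hq : 1 < q) (hσ : ∀ x, σ x = x ^ q)
    (T : V →ₛₗ[σ] V) (hT : Function.Injective T) {v : V} (hv : v ≠ 0) (k : ℕ) : ∀ a : ℕ → K, (∃ i ≤ k, a i ≠ 0) →
      ∑ i ∈ Finset.range (k + 1), a i • T^[i] v = 0 → ∃ w ≠ 0, T w = w := by
  induction k with
  | zero => intro a ⟨i, p, r⟩ h; simp_all
  | succ k ih =>
    intro a ⟨i, p, r⟩ h
    by_cases e : a (k + 1) = 0
    · exact ih a ⟨i, Nat.le_of_lt_succ (p.lt_of_ne fun g => r (g ▸ e)), r⟩ (by simpa [Finset.sum_range_succ _ (k + 1), e] using h)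
    by_cases e' : a 0 = 0
    · choose b hb using fun i => IsAlgClosed.exists_pow_nat_eq (a (i + 1)) (by omega : 0 < q)
      refine ih b ⟨k, le_rfl, fun g => e (by rw [← hb, g, zero_pow (by omega)])⟩ (hT ?_)
      simpa [Finset.sum_range_succ' _ (k + 1), e', hσ, hb, Function.iterate_succ_apply', -Function.iterate_succ] using h
    obtain ⟨P, P0, P1⟩ : ∃ P : ℕ → K[X], P 0 = C (a 0) * X ∧ ∀ n, P (n + 1) = P n ^ q + C (a (n + 1)) * X :=
      ⟨fun n => n.rec (C (a 0) * X) fun n p => p ^ q + C (a (n + 1)) * X, rfl, fun _ => rfl⟩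
    have d : ∀ n, (P n).natDegree = q ^ n ∧ X ∣ P n := fun n => by
      induction n with
      | zero => rw [P0]; exact ⟨by simpa using natDegree_C_mul_X _ e', dvd_mul_left _ _⟩
      | succ n ih =>
        have : (P n ^ q).natDegree = q ^ (n + 1) := by rw [natDegree_pow, ih.1, pow_succ']
        rw [P1]
        exact ⟨(natDegree_add_eq_left_of_natDegree_lt ((natDegree_C_mul_le _ _).trans_lt (by rw [this, natDegree_X]; exact Nat.one_lt_pow n.succ_ne_zero hq))).trans this,
          dvd_add (dvd_pow ih.2 (by omega)) (dvd_mul_left _ _)⟩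
    obtain ⟨x, hx⟩ := IsAlgClosed.exists_root (P (k + 1)).divX (by
      have := Nat.one_lt_pow (by omega : k + 1 ≠ 0) hq
      exact ne_of_gt (natDegree_pos_iff_degree_pos.1 (by rw [natDegree_divX_eq_natDegree_tsub_one, (d _).1]; omega)))
    have x0 : x ≠ 0 := by
      rintro rfl
      have := X_pow_dvd_iff.1 (pow_dvd_pow_of_dvd (d k).2 q) 1 hq
      rw [IsRoot, ← coeff_zero_eq_eval_zero, coeff_divX, P1] at hx
      exact e (by simpa [this] using hx)
    have z : (P (k + 1)).eval x = 0 := by rw [← divX_mul_X_add (P _), X_dvd_iff.1 (d _).2]; simp [hx.eq_zero]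
    by_cases w : ∑ i ∈ Finset.range (k + 1), (P i).eval x • T^[i] v = 0
    · exact ih _ ⟨0, by simp, by simp [P0, e', x0]⟩ w
    refine ⟨_, w, sub_eq_zero.1 (Eq.trans ?_ ((congrArg (-x • ·) h).trans (smul_zero _)))⟩
    have : ∀ n, T (∑ i ∈ Finset.range (n + 1), (P i).eval x • T^[i] v) - ∑ i ∈ Finset.range (n + 1), (P i).eval x • T^[i] v =
        -x • ∑ i ∈ Finset.range (n + 2), a i • T^[i] v + (P (n + 1)).eval x • T^[n + 1] v := fun n => by
      induction n with
      | zero => simp [P0, P1, hσ, Finset.sum_range_succ]; module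
      | succ n ih =>
        rw [Finset.sum_range_succ _ (n + 1), map_add, add_sub_add_comm, ih, Finset.sum_range_succ _ (n + 2), T.map_smulₛₗ, hσ, ← Function.iterate_succ_apply' T, P1 (n + 1)]
        simp only [eval_add, eval_pow, eval_mul, eval_C, eval_X]; module
    rw [this, z, zero_smul, add_zero]

theorem span_fixed {K V : Type*} [Field K] [IsAlgClosed K] [AddCommGroup V] [Module K V] [FiniteDimensional K V] {σ : K →+* K} {q : ℕ} (hq : 1 < q)
    (hσ : ∀ x, σ x = x ^ q) (T : V →ₛₗ[σ] V) (hT : Function.Injective T) : Submodule.span K {v | T v = v} = ⊤ := by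
  set W := Submodule.span K {v | T v = v}
  have a : ∀ c : K, ∀ w ∈ W, (T w ∈ W) ∧ (∃ u ∈ W, T u = c • w) ∧ ∃ u ∈ W, T u - u = c • w := fun c w hw => by
    induction hw using Submodule.span_induction generalizing c with
    | mem w h =>
      obtain ⟨b, hb⟩ := IsAlgClosed.exists_pow_nat_eq c (by omega : 0 < q)
      obtain ⟨d, hd⟩ := IsAlgClosed.exists_root (.X ^ q - (.X + .C c) : Polynomial K) (ne_of_gt (Polynomial.natDegree_pos_iff_degree_pos.1 (by
        rw [Polynomial.natDegree_sub_eq_left_of_natDegree_lt] <;> simp <;> omega)))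
      have m := Submodule.subset_span (R := K) h
      exact ⟨h.symm ▸ m, ⟨b • w, W.smul_mem _ m, by simp [hσ, hb, show T w = w from h]⟩, d • w, W.smul_mem _ m, by
        rw [T.map_smulₛₗ, hσ, show T w = w from h, ← sub_smul]; congr 1; simp at hd; linear_combination hd⟩
    | zero => simpa using ⟨⟨0, zero_mem _, map_zero _⟩, 0, zero_mem _, by simp⟩
    | add x y _ _ p r =>
      obtain ⟨p1, ⟨u, p2, p3⟩, u', p4, p5⟩ := p c
      obtain ⟨r1, ⟨v, r2, r3⟩, v', r4, r5⟩ := r c
      exact ⟨map_add T x y ▸ add_mem p1 r1, ⟨u + v, add_mem p2 r2, by simp [p3, r3]⟩, u' + v', add_mem p4 r4, by rw [map_add, add_sub_add_comm, p5, r5, smul_add]⟩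
    | smul d x _ p => exact ⟨T.map_smulₛₗ d x ▸ W.smul_mem _ (p c).1, by simpa only [smul_smul] using (p (c * d)).2⟩
  by_contra h
  haveI := Submodule.Quotient.nontrivial_iff.2 h
  obtain ⟨v, hv⟩ := exists_ne (0 : V ⧸ W)
  let S := W.mapQ W T fun w hw => (a 1 w hw).1
  obtain ⟨c, e, i, hi⟩ := Fintype.not_linearIndependent_iff.1 fun l : LinearIndependent K fun i : Fin (Module.finrank K (V ⧸ W) + 1) => S^[i] v => by
    simpa using l.fintype_card_le_finrank
  obtain ⟨w, p, r⟩ := exists_fixed hq hσ S ((injective_iff_map_eq_zero S).2 fun u hu => by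
      obtain ⟨u, rfl⟩ := W.mkQ_surjective u
      obtain ⟨y, p, r⟩ := (a 1 _ ((Submodule.Quotient.mk_eq_zero _).1 hu)).2.1
      exact (Submodule.Quotient.mk_eq_zero _).2 (hT (r.trans (one_smul _ _)) ▸ p)) hv _ (fun j => if h : j < _ then c ⟨j, h⟩ else 0)
    ⟨i, Nat.le_of_lt_succ i.2, by simpa only [i.2, dif_pos] using hi⟩ (by simpa only [Finset.sum_range, Fin.is_lt, dif_pos] using e)
  obtain ⟨w, rfl⟩ := W.mkQ_surjective w
  obtain ⟨y, s, t⟩ := (a 1 _ ((Submodule.Quotient.eq _).1 r)).2.2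
  exact p ((Submodule.Quotient.mk_eq_zero _).2 (by
    simpa using add_mem (Submodule.subset_span (s := {v | T v = v}) (show T (w - y) = w - y by rw [map_sub]; linear_combination (norm := module) -t)) s))

end

/-- The Lang–Steinberg Theorem for the general linear group. Let `K` be an algebraically closed field of prime characteristic `p`, let `q = p^f` with `f ≥ 1`, and let `σ` be the endomorphism of GL_n(K) raising every matrix entry to the `q`-th power. Then every element `g` of GL_n(K) can be written `g = x · σ(x)⁻¹` for some `x` in GL_n(K): the map `x ↦ x σ(x)⁻¹` is surjective. -/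
theorem result {K : Type*} [Field K] [IsAlgClosed K] (p : ℕ) [Fact p.Prime] [CharP K p]
    (f : ℕ) (hf : 1 ≤ f) (n : ℕ) (g : GL (Fin n) K) :
    ∃ x : GL (Fin n) K, g = x * (Matrix.GeneralLinearGroup.map (iterateFrobenius K p f) x)⁻¹ := by
  open Subgroup Pointwise commutatorElement Cfsg.Agent.BG Cfsg.Agent.GS in
  open Cfsg.Agent.H2 hiding card_lt_of_lt card_lt_of_ne_top isMulCommutative_of_le isPGroup_zpowers_iff mem_of_pow_mem_of_coprime inf_eq_bot_of_cop exists_maxElem_ge Sec in
  open Cfsg.Agent.H8 (Op Opp Fit SN) in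
  open Cfsg.Agent.L (FPF) in focus
    let T : (Fin n → K) →ₛₗ[iterateFrobenius K p f] Fin n → K := ⟨⟨fun v => g.1.mulVec (iterateFrobenius K p f ∘ v), fun u v => by
      rw [← Matrix.mulVec_add]; congr 1; ext; simp⟩, fun c v => (congrArg g.1.mulVec (by ext; simp)).trans (Matrix.mulVec_smul _ _ _)⟩
    obtain ⟨s, a, b, c⟩ := exists_linearIndependent K {v | T v = v}
    rw [span_fixed (Nat.one_lt_pow (by omega) (Fact.out : p.Prime).one_lt) (iterateFrobenius_def p f) T fun u v e =>
      (iterateFrobenius K p f).injective.comp_left (Matrix.mulVec_injective_iff_isUnit.2 g.isUnit e)] at b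
    let B := (Module.Basis.mk c (by simp [b])).reindex ((Module.Basis.mk c (by simp [b])).indexEquiv (Pi.basisFun K (Fin n)))
    obtain ⟨x, hx⟩ := Matrix.linearIndependent_cols_iff_isUnit.1 (show LinearIndependent K (Matrix.of fun i j => B j i).col from B.linearIndependent)
    refine ⟨x, eq_mul_inv_of_mul_eq (Units.ext (Matrix.ext fun i j => ?_))⟩
    have : T (B j) = B j := a (by simp [B])
    simpa [hx, Matrix.mul_apply, T, Matrix.mulVec, dotProduct] using congrFun this i

end Cfsg.Agent.S2665
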