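import Cfsg.Statements.S2669
import Cfsg.Agent.H9.TJ

set_option autoImplicit false
open Cfsg

namespace Cfsg.Agent.S2669

open Cfsg.Agent Cfsg.Agent.H9
theorem count {X : Type*} [Group X] (τ : MulAut X) (Y : Subgroup X) (hY : ∀ y ∈ Y, τ y ∈ Y)
    (hL : ∀ y ∈ Y, ∃ a ∈ Y, y = a * (τ a)⁻¹) (Q : X → Prop) (hQ : ∀ x, ∀ y ∈ Y, Q x → Q (x * y)) :
    Nat.card {k : ↥((MulEquiv.toMonoidHom τ).eqLocus (MonoidHom.id X)) // Q k} =
      Nat.card {ω : X ⧸ Y // ∃ x : X, (x : X ⧸ Y) = ω ∧ x⁻¹ * τ x ∈ Y ∧ Q x} *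
        Nat.card ↥(Y ⊓ (MulEquiv.toMonoidHom τ).eqLocus (MonoidHom.id X)) := by
  have h1 : ∀ ω : {ω : X ⧸ Y // ∃ x : X, (x : X ⧸ Y) = ω ∧ x⁻¹ * τ x ∈ Y ∧ Q x}, ∃ k : X, (k : X ⧸ Y) = ω ∧ τ k = k ∧ Q k := by
    rintro ⟨_, x, rfl, hx, hq⟩
    obtain ⟨b, hb, e⟩ := hL _ hx
    refine ⟨x * b, QuotientGroup.mk_mul_of_mem x hb, ?_, hQ x b hb hq⟩
    rw [map_mul]
    calc τ x * τ b = x * (x⁻¹ * τ x) * τ b := by group
      _ = _ := by rw [e]; group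
  choose s hs1 hs2 hs3 using h1
  rw [← Nat.card_prod]
  symm
  refine Nat.card_congr (Equiv.ofBijective (fun z => ⟨⟨s z.1 * z.2, ?_⟩, hQ _ _ z.2.2.1 (hs3 z.1)⟩) ⟨?_, ?_⟩)
  · show τ (s z.1 * z.2) = s z.1 * z.2
    rw [map_mul, hs2]; exact congrArg _ z.2.2.2
  · rintro ⟨ω, y⟩ ⟨ω', y'⟩ h
    have h2 : s ω * y = s ω' * y' := congrArg (fun z => z.1.1) h
    have h3 : ω = ω' := Subtype.ext (by
      rw [← hs1, ← hs1, ← QuotientGroup.mk_mul_of_mem (s ω) y.2.1, h2, QuotientGroup.mk_mul_of_mem _ y'.2.1])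
    subst h3
    rw [Subtype.ext (mul_left_cancel h2 : (y : X) = y')]
  · rintro ⟨⟨k, hk⟩, hq⟩
    have hk' : τ k = k := hk
    let ω : {ω : X ⧸ Y // ∃ x : X, (x : X ⧸ Y) = ω ∧ x⁻¹ * τ x ∈ Y ∧ Q x} := ⟨k, k, rfl, by rw [hk']; simp, hq⟩
    refine ⟨(ω, ⟨(s ω)⁻¹ * k, QuotientGroup.eq.mp (hs1 ω), ?_⟩), Subtype.ext (Subtype.ext (mul_inv_cancel_left _ _))⟩
    show τ ((s ω)⁻¹ * k) = _
    rw [map_mul, map_inv, hs2, hk']; rfl

/-- Shintani descent preserves numbers of fixed points on coset spaces (abstract form). Let `σ` be an automorphism of a group `X` and `e ≥ 1`; write `G` for the fixed points of `σᵉ` and `H` for the fixed points of `σ`, and assume `G` is finite. Let `Y` be a `σ`-stable subgroup of `X` on which the maps `a ↦ a σ(a)⁻¹` and `a ↦ a σᵉ(a)⁻¹` are surjective (as for a closed connected `σ`-stable subgroup of an algebraic group). Let `g ∈ G`,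 let `a ∈ X` satisfy `g = a σ(a)⁻¹` and put `x = σᵉ(a)⁻¹ a` (the Shintani image, an element of `H`). The element `g σ` of the semidirect product acts on the cosets of `Y ∩ G` in `G` by `k (Y ∩ G) ↦ g σ(k) (Y ∩ G)`, fixing that coset exactly when `k⁻¹ g σ(k) ∈ Y`; and `x` fixes the coset `h (Y ∩ H)` of `H` exactly when `h⁻¹ x h ∈ Y`. Then the two numbers of fixed cosets agree; in cross-multiplied form, `#{k ∈ G : k⁻¹ g σ(k) ∈ Y} · |Y ∩ H| = #{h ∈ H : h⁻¹ x h ∈ Y} · |Y ∩ G|`. -/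
theorem result {X : Type*} [Group X] (σ : MulAut X) (e : ℕ) (he : 1 ≤ e)
    [Finite ↥((MulEquiv.toMonoidHom (σ ^ e)).eqLocus (MonoidHom.id X))]
    (Y : Subgroup X) (hY : ∀ y : X, y ∈ Y ↔ σ y ∈ Y)
    (hYL : ∀ y ∈ Y, ∃ a ∈ Y, y = a * (σ a)⁻¹) (hYLe : ∀ y ∈ Y, ∃ a ∈ Y, y = a * ((σ ^ e) a)⁻¹)
    (g : X) (hg : g ∈ (MulEquiv.toMonoidHom (σ ^ e)).eqLocus (MonoidHom.id X)) (a : X) (ha : g = a * (σ a)⁻¹) :
    Nat.card {k : ↥((MulEquiv.toMonoidHom (σ ^ e)).eqLocus (MonoidHom.id X)) // (k : X)⁻¹ * g * σ k ∈ Y} *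
        Nat.card ↥(Y ⊓ (MulEquiv.toMonoidHom σ).eqLocus (MonoidHom.id X)) =
      Nat.card {h : ↥((MulEquiv.toMonoidHom σ).eqLocus (MonoidHom.id X)) // (h : X)⁻¹ * (((σ ^ e) a)⁻¹ * a) * h ∈ Y} *
        Nat.card ↥(Y ⊓ (MulEquiv.toMonoidHom (σ ^ e)).eqLocus (MonoidHom.id X)) := by
  have hYe : ∀ n : ℕ, ∀ y ∈ Y, (σ ^ n) y ∈ Y := fun n => by
    induction n with
    | zero => exact fun y hy => hy
    | succ n ih => exact fun y hy => by rw [pow_succ']; exact (hY _).mp (ih y hy)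
  rw [count (σ ^ e) Y (hYe e) hYLe (fun k => k⁻¹ * g * σ k ∈ Y) (fun x y hy h => by
      rw [show (x * y)⁻¹ * g * σ (x * y) = y⁻¹ * (x⁻¹ * g * σ x) * σ y by rw [map_mul]; group]
      exact Y.mul_mem (Y.mul_mem (Y.inv_mem hy) h) ((hY y).mp hy)),
    count σ Y (fun y => (hY y).mp) hYL (fun h => h⁻¹ * (((σ ^ e) a)⁻¹ * a) * h ∈ Y) (fun x y hy h => by
      rw [show (x * y)⁻¹ * (((σ ^ e) a)⁻¹ * a) * (x * y) = y⁻¹ * (x⁻¹ * (((σ ^ e) a)⁻¹ * a) * x) * y by group]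
      exact Y.mul_mem (Y.mul_mem (Y.inv_mem hy) h) hy), mul_right_comm]
  congr 2
  symm
  refine Nat.card_congr ((MulAction.toPerm a).subtypeEquiv fun ω => ?_)
  have key : ∀ x : X, (x⁻¹ * σ x ∈ Y ∧ x⁻¹ * (((σ ^ e) a)⁻¹ * a) * x ∈ Y) ↔
      ((a * x)⁻¹ * (σ ^ e) (a * x) ∈ Y ∧ (a * x)⁻¹ * g * σ (a * x) ∈ Y) := by
    intro x
    rw [show (a * x)⁻¹ * g * σ (a * x) = x⁻¹ * σ x by rw [ha, map_mul]; group, and_comm]
    refine and_congr_left fun hx => ?_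
    have h1 : ∀ n : ℕ, x⁻¹ * (σ ^ n) x ∈ Y := fun n => by
      induction n with
      | zero => simp
      | succ n ih =>
        have := Y.mul_mem ih (hYe n _ hx)
        rw [map_mul, map_inv, mul_assoc, mul_inv_cancel_left] at this
        rw [pow_succ]; exact this
    rw [show (a * x)⁻¹ * (σ ^ e) (a * x) = (x⁻¹ * (((σ ^ e) a)⁻¹ * a) * x)⁻¹ * (x⁻¹ * (σ ^ e) x) by rw [map_mul]; group,
      Y.mul_mem_cancel_right (h1 e), Y.inv_mem_iff]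
  constructor
  · rintro ⟨x, rfl, hx⟩
    exact ⟨a * x, rfl, (key x).mp hx⟩
  · rintro ⟨x, h1, hx⟩
    refine ⟨a⁻¹ * x, ?_, (key _).mpr (by rwa [mul_inv_cancel_left])⟩
    rw [MulAction.toPerm_apply, ← inv_smul_eq_iff] at h1
    exact h1

end Cfsg.Agent.S2669
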