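import Cfsg.Statements.S2677
import Cfsg.Agent.GS.Cj9

set_option autoImplicit false
open Cfsg

namespace Cfsg.Agent.S2677

open Cfsg.Agent.H1

section
open Subgroup Pointwise commutatorElement Cfsg.Agent.BG Cfsg.Agent.GS
open Cfsg.Agent.H2 hiding card_lt_of_lt card_lt_of_ne_top isMulCommutative_of_le isPGroup_zpowers_iff mem_of_pow_mem_of_coprime inf_eq_bot_of_cop exists_maxElem_ge Sec
open Cfsg.Agent.H8 (Op Opp Fit SN)
open Cfsg.Agent.L (FPF)
universe u

theorem mem_GU_iff {K : Type*} [Field K] [Fintype K] {q n : ℕ} (hK : Fintype.card K = q ^ 2) {g : GL (Fin n) K} :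
    g ∈ GU n K q ↔ (g.1.map (· ^ q)).transpose * g.1 = 1 := by
  rw [← GS.toLin'_inj, Matrix.toLin'_mul, ← GS.ajt_unF hK, GS.toLin'_one', H4.mem_GU hK, H4.CForm.unit_mem_iso]
  exact (GS.adj_mul_iff _).symm

end

/-- Centraliser of a field automorphism of odd prime order in PGU_n(q): let q = q₀^r with r an odd prime, K the field with q² elements and σ a field automorphism of K of order r (fixed field of order q₀²). The elements g of GU_n(q) whose entrywise image under σ is a scalar multiple of g — those whose coset modulo the q + 1 unitary scalars is fixed by σ — number (q + 1)/(q₀ + 1) · |GU_n(q₀)|; equivalently the centraliser in PGU_n(q) of the induced automorphism has the order of PGU_n(q₀). -/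
theorem result {K : Type*} [Field K] [Fintype K] {q₀ q r n : ℕ} (hr : r.Prime) (hr2 : r ≠ 2) (hn : 1 ≤ n) (hq : q = q₀ ^ r) (hK : Fintype.card K = q ^ 2) (σ : K ≃+* K) (hσ : orderOf σ = r) : (Nat.card {g : ↥(Cfsg.GU n K q) // ∃ c : K, c ≠ 0 ∧ ((g : GL (Fin n) K) : Matrix (Fin n) (Fin n) K).map σ = c • ((g : GL (Fin n) K) : Matrix (Fin n) (Fin n) K)} : ℤ) = ((q + 1) / (q₀ + 1) : ℕ) * ((q₀ : ℤ) ^ (n * (n - 1) / 2) * ∏ i : Fin n, ((q₀ : ℤ) ^ ((i : ℕ) + 1) - (-1) ^ ((i : ℕ) + 1))) := by
  open Subgroup Pointwise commutatorElement Cfsg.Agent.BG Cfsg.Agent.GS in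
  open Cfsg.Agent.H2 hiding card_lt_of_lt card_lt_of_ne_top isMulCommutative_of_le isPGroup_zpowers_iff mem_of_pow_mem_of_coprime inf_eq_bot_of_cop exists_maxElem_ge Sec in
  open Cfsg.Agent.H8 (Op Opp Fit SN) in
  open Cfsg.Agent.L (FPF) in focus
    haveI : Nonempty (Fin n) := ⟨⟨0, hn⟩⟩
    let F₀ := FixedPoints.subfield (Subgroup.zpowers σ) K
    haveI := Fintype.ofFinite F₀
    have a : Fintype.card F₀ = q₀ ^ 2 := Nat.pow_left_injective hr.ne_zero (by simpa [hσ, hK, hq, ← pow_mul, mul_comm] using H4.card_fixed_pow σ)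
    have h : ∀ x, σ x = x ↔ ∃ y, F₀.subtype y = x := fun x => H4.mem_fixed_subfield.symm.trans (by simp [F₀])
    obtain ⟨k, hk⟩ := hr.odd_of_ne_two hr2
    have p : ∀ y : F₀, F₀.subtype y ^ q = F₀.subtype (y ^ q₀) := fun y => by rw [← map_pow, hq, hk, pow_succ, pow_mul, pow_mul q₀, ← a, FiniteField.pow_card_pow]
    have p' : ∀ y : F₀, y.1 ^ q = y.1 ^ q₀ := p
    have := card_semifix (ι := Fin n) (σ : K →+* K) (GU n K q) (rootsOfUnity (q + 1) K) (fun d hd => (mem_GU_iff hK).2 (by
      have := congrArg Units.val ((mem_rootsOfUnity _ _).1 hd)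
      ext i j; by_cases e : i = j <;> simp [e, Matrix.mul_diagonal, ← pow_succ, H4.two_le_of_card_sq hK, zero_pow (show q ≠ 0 by have := H4.two_le_of_card_sq hK; omega)]
      subst e; simpa using this)) fun g hg c c0 e => by
        obtain ⟨d, hd⟩ := exists_hilbert (σ := (σ : K →+* K)) c0 e
        have b := congr($((mem_GU_iff hK).1 hg) ⟨0, hn⟩ ⟨0, hn⟩)
        have t : c ^ (q + 1) = 1 := by
          have := congrArg σ b
          simp only [Matrix.mul_apply, Matrix.transpose_apply, Matrix.map_apply, map_sum, map_mul, map_pow, Matrix.one_apply_eq, map_one,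
            show ∀ i j, σ (g.1 i j) = c * g.1 i j from fun i j => congr($e i j)] at this b
          rw [← this, ← mul_one (c ^ (q + 1)), ← b, Finset.mul_sum]
          exact Finset.sum_congr rfl fun _ _ => by ring
        obtain ⟨y, hy⟩ := (h (d ^ (q + 1))).1 (by rw [map_pow, ← one_mul (_ ^ _), ← t, ← mul_pow]; exact congrArg (· ^ _) hd)
        obtain ⟨z, hz⟩ := H4.exists_norm_eq a (μ := y) (F₀.subtype.injective (by
          rw [← p, hy, ← pow_mul, add_mul, pow_add, ← sq, ← hK, FiniteField.pow_card, one_mul, pow_succ']))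
        have z0 : F₀.subtype z ≠ 0 := fun e => pow_ne_zero _ d.ne_zero (by rw [← hy, ← hz, pow_succ, map_mul, e, mul_zero])
        exact ⟨d / Units.mk0 _ z0, (mem_rootsOfUnity _ _).2 (Units.ext (by simp [div_pow, ← hy, ← hz, pow_succ z.1, p', show z.1 ≠ 0 from z0])),
          by simp [← mul_div_assoc, show σ z = z from (h _).2 ⟨z, rfl⟩, show c * σ d = d from hd]⟩
    simp only [RingHom.coe_coe] at this
    rw [← card_fix_map (ι := Fin n) F₀.subtype h (P := (· ∈ GU n F₀ q₀)) fun g => by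
        rw [mem_GU_iff a, mem_GU_iff hK, ← (Matrix.map_injective F₀.subtype.injective).eq_iff]
        simp only [Matrix.map_mul, Matrix.transpose_map, Matrix.map_one _ (map_zero _) (map_one _)]
        exact Iff.of_eq (congrArg (Matrix.transpose · * _ = 1) (Matrix.ext fun i j => (p _).symm)),
      H4.CForm.card_rootsOfUnity_succ hK, ← Nat.card_eq_of_bijective (fun d : rootsOfUnity (q₀ + 1) F₀ => (⟨Units.map F₀.subtype.toMonoidHom d, (mem_rootsOfUnity _ _).2
        (Units.ext (by simpa [pow_succ, p'] using congrArg (F₀.subtype ·.1) ((mem_rootsOfUnity _ _).1 d.2))), (h _).2 ⟨_, rfl⟩⟩ :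
          {d : Kˣ // d ∈ rootsOfUnity (q + 1) K ∧ σ d = d})) ⟨fun d e k => Subtype.ext (Units.ext (Subtype.ext congr(($k).1.1))), fun ⟨d, l, k⟩ => let ⟨y, e⟩ := (h _).1 k
        ⟨⟨Units.mk0 y (by rintro rfl; exact d.ne_zero (e.symm.trans (map_zero _))), (mem_rootsOfUnity _ _).2 (Units.ext (F₀.subtype.injective (by
          simpa [pow_succ, ← e, p'] using congrArg Units.val ((mem_rootsOfUnity _ _).1 l))))⟩, Subtype.ext (Units.ext e)⟩⟩,
      H4.CForm.card_rootsOfUnity_succ a] at this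
    have b := (H4.unF_nondeg a n).unit_card_iso_int a
    rw [← Nat.card_congr (H4.guEquiv a n).toEquiv, Module.finrank_fin_fun, Nat.choose_two_right, Finset.prod_range] at b
    rw [← b, ← Nat.cast_mul, Nat.cast_inj, Nat.card_congr (Equiv.subtypeSubtypeEquivSubtypeInter _ fun g : GL (Fin n) K => ∃ c, c ≠ 0 ∧ g.1.map σ = c • g.1)]
    refine Nat.eq_of_mul_eq_mul_right q₀.succ_pos (this.trans ?_)
    rw [mul_right_comm, Nat.div_mul_cancel (by simpa [hq] using Odd.nat_add_dvd_pow_add_pow q₀ 1 ⟨k, hk⟩)]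

end Cfsg.Agent.S2677
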