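import Cfsg.Statements.S2678
import Cfsg.Agent.GS.Cj9

set_option autoImplicit false
open Cfsg

namespace Cfsg.Agent.S2678

open Cfsg.Agent.H1

/-- Field-extension embedding of symplectic groups: for a field K with q² elements and a field F with q elements there is an injective homomorphism Sp_2a(K) → Sp_4a(F). -/
theorem result {K F : Type*} [Field K] [Fintype K] [Field F] [Fintype F] {q : ℕ} (hK : Fintype.card K = q ^ 2) (hF : Fintype.card F = q) (a : ℕ) : ∃ φ : ↥(Matrix.symplecticGroup (Fin a) K) →* ↥(Matrix.symplecticGroup (Fin (2 * a)) F), Function.Injective φ := by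
  open Subgroup Pointwise commutatorElement Cfsg.Agent.BG Cfsg.Agent.GS in
  open Cfsg.Agent.H2 hiding card_lt_of_lt card_lt_of_ne_top isMulCommutative_of_le isPGroup_zpowers_iff mem_of_pow_mem_of_coprime inf_eq_bot_of_cop exists_maxElem_ge Sec in
  open Cfsg.Agent.H8 (Op Opp Fit SN) in
  open Cfsg.Agent.L (FPF) in focus
    obtain ⟨φ, h⟩ := exists_alg hK hF
    letI := φ.toAlgebra
    haveI : Module.Finite F K := Module.Finite.of_finite
    obtain ⟨g, c, b⟩ := exists_res_symp (F := F) (H4.spF_nondeg (F := K) a)
    exact exists_emb (c.symp_isom (H4.spF_nondeg (2 * a)) (by simp [Module.finrank_pi_fintype, finrank_two hK hF]; ring)) (H4.spEquiv F (2 * a))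
      ((resHom' F K _).comp ((Subgroup.subtype _).comp (H4.spEquiv K a).toMonoidHom))
      ((LinearEquiv.restrictScalars_injective F).comp (Subtype.val_injective.comp (H4.spEquiv K a).injective)) fun x => b _ (H4.spEquiv K a x).2

end Cfsg.Agent.S2678
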