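import Cfsg.Statements.S2679
import Cfsg.Agent.GS.Cj9

set_option autoImplicit false
open Cfsg

namespace Cfsg.Agent.S2679

open Cfsg.Agent.H1

/-- An elliptic orthogonal group embeds in the hyperbolic orthogonal group of the same dimension over the quadratic extension: for a field F with q elements and a field K with q² elements there is an injective homomorphism from O⁻_2m(F) (isometries of Σ_(j<m−1) x_j y_j + z₁² + a z₁z₂ + c z₂², binary part anisotropic) to O⁺_2m(K) (isometries of Σ_(j<m) x_j y_j over K). -/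
theorem result {F K : Type*} [Field F] [Fintype F] [Field K] [Fintype K] {q : ℕ} (hF : Fintype.card F = q) (hK : Fintype.card K = q ^ 2) {m : ℕ} (hm : 1 ≤ m) (a c : F) (hac : ∀ z₁ z₂ : F, z₁ ^ 2 + a * z₁ * z₂ + c * z₂ ^ 2 = 0 → z₁ = 0 ∧ z₂ = 0) : ∃ φ : ↥(Cfsg.isometryGroup F (Cfsg.quadFormMinus (m - 1) F a c)) →* ↥(Cfsg.isometryGroup K (Cfsg.quadFormPlus m K)), Function.Injective φ := by
  open Subgroup Pointwise commutatorElement Cfsg.Agent.BG Cfsg.Agent.GS in
  open Cfsg.Agent.H2 hiding card_lt_of_lt card_lt_of_ne_top isMulCommutative_of_le isPGroup_zpowers_iff mem_of_pow_mem_of_coprime inf_eq_bot_of_cop exists_maxElem_ge Sec in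
  open Cfsg.Agent.H8 (Op Opp Fit SN) in
  open Cfsg.Agent.L (FPF) in focus
    obtain ⟨φ, h⟩ := exists_alg hK hF
    letI := φ.toAlgebra
    obtain ⟨m, rfl⟩ := Nat.exists_eq_add_of_le' hm
    have d : 4 * φ c - φ a ^ 2 ≠ 0 := by simpa [map_ofNat] using (map_ne_zero φ).2 (H4.aniso_disc_ne hac)
    obtain ⟨t, ht⟩ : ∃ t : K, t ^ 2 + φ a * t + φ c = 0 := by
      have e : (Polynomial.X ^ 2 + .C a * .X + .C c : Polynomial F).natDegree = 2 := by compute_degree!
      obtain ⟨g, p, r⟩ := Polynomial.exists_irreducible_of_natDegree_pos (e ▸ two_pos)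
      haveI := Fact.mk p
      have := (Polynomial.natDegree_le_of_dvd r (by rintro k; simp [k] at e)).trans e.le
      have := p.natDegree_pos
      obtain ⟨ψ⟩ := FiniteField.nonempty_algHom_of_finrank_dvd (F := F) (K := AdjoinRoot g) (L := K) (by
        rw [finrank_two hK hF, show Module.finrank F (AdjoinRoot g) = _ from finrank_quot g]
        interval_cases g.natDegree <;> simp)
      exact ⟨_, by simpa [RingHom.algebraMap_toAlgebra] using Polynomial.aeval_eq_zero_of_dvd_aeval_eq_zero r (AdjoinRoot.aeval_algHom_eq_zero g ψ)⟩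
    have n := H4.minusF_nondeg' m d
    have e : H4.CForm.Ext φ (LinearEquiv.refl _ _) (H4.minusF m a c) (H4.minusF m (φ a) (φ c)) 1 := ⟨H4.FType.orth_hom φ, one_ne_zero, rfl,
      fun x y => by simp [H4.jv_refl, H4.cv, H4.minusF_B, H4.polar_minus, map_ofNat], fun x => by simp [H4.jv_refl, H4.cv, H4.minusF_Q, quadFormMinus]⟩
    exact exists_emb (n.isom_plusF (by simp; ring) (minusF_wi' d ht)) (H4.isomEquiv (H4.plusF K (m + 1)))
      ((H4.bk φ (.refl _ _)).comp ((Subgroup.subtype _).comp (H4.isomEquiv (H4.minusF m a c)).toMonoidHom))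
      ((H4.bk_injective φ _).comp (Subtype.val_injective.comp (H4.isomEquiv (H4.minusF m a c)).injective)) fun x => e.bk_mem_iso n (H4.isomEquiv (H4.minusF m a c) x).2

end Cfsg.Agent.S2679
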