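import Cfsg.Statements.S2680
import Cfsg.Agent.GS.Iv2

set_option autoImplicit false
open Cfsg

namespace Cfsg.Agent.S2680

open Cfsg.Agent.H1

/-- Centraliser order of an involution t of Sp_2m(q), q even, with s = rank(t − 1) odd (type b_s): |C(t)| = q^(2ms − (3s² − s)/2) · |Sp_(s−1)(q)| · |Sp_(2m−2s)(q)|, where |Sp_2k(q)| = q^(k²) Π_(i=1)^k (q^(2i) − 1). -/
theorem result {F : Type*} [Field F] [Fintype F] [CharP F 2] {q : ℕ} (hF : Fintype.card F = q) {m s : ℕ} (t : Matrix.symplecticGroup (Fin m) F) (ht : t ^ 2 = 1) (hs : ((t : Matrix (Fin m ⊕ Fin m) (Fin m ⊕ Fin m) F) - 1).rank = s) (hodd : Odd s) : Nat.card ↥(Subgroup.centralizer ({t} : Set ↥(Matrix.symplecticGroup (Fin m) F))) = q ^ (2 * m * s - (3 * s ^ 2 - s) / 2) * ((q : ℕ) ^ (((s - 1) / 2) ^ 2) * ∏ i : Fin ((s - 1) / 2), (q ^ (2 * ((i : ℕ) + 1)) - 1)) * ((q : ℕ) ^ ((m - s) ^ 2) * ∏ i : Fin (m - s), (q ^ (2 * ((i : ℕ) + 1)) - 1)) := by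
  open Subgroup Pointwise commutatorElement Cfsg.Agent.BG Cfsg.Agent.GS in
  open Cfsg.Agent.H2 hiding card_lt_of_lt card_lt_of_ne_top isMulCommutative_of_le isPGroup_zpowers_iff mem_of_pow_mem_of_coprime inf_eq_bot_of_cop exists_maxElem_ge Sec in
  open Cfsg.Agent.H8 (Op Opp Fit SN) in
  open Cfsg.Agent.L (FPF) in focus
    subst hF
    obtain ⟨k, rfl⟩ := hodd
    obtain ⟨a, c, e, b, -⟩ := cent_symp (H4.spF_nondeg m) (x := H4.spEquiv F m t) (by rw [← map_mul, ← sq, ht, map_one]) (m := m) (by simp [two_mul])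
      ((rank_dsp fun _ => rfl).trans hs)
    obtain ⟨d, rfl⟩ := Nat.exists_eq_add_of_le a
    rw [card_cent_equiv (H4.spEquiv F _), e, b k rfl, spo_eq, spo_eq, choose_od, add_tsub_cancel_left, add_tsub_cancel_right, Nat.mul_div_cancel_left _ two_pos,
      ex_eq (e := (2 * k + 1) * (3 * k + 1)) (f := (2 * k + 1) * (2 * d) + (2 * k + 1) * k + (2 * k + 1)) (by ring) (by ring)]

end Cfsg.Agent.S2680
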