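import Cfsg.Statements.S2682
import Cfsg.Agent.GS.Iv2

set_option autoImplicit false
open Cfsg

namespace Cfsg.Agent.S2682

open Cfsg.Agent.H1

/-- Centraliser order of an involution t of Sp_2m(q), q even, with s = rank(t − 1) even and f(v, tv) ≠ 0 for some v, f the symplectic form (type c_s): |C(t)| = q^(2ms − (3s² − 3s)/2 − 1) · |Sp_(s−2)(q)| · |Sp_(2m−2s)(q)|. -/
theorem result {F : Type*} [Field F] [Fintype F] [CharP F 2] {q : ℕ} (hF : Fintype.card F = q) {m s : ℕ} (t : Matrix.symplecticGroup (Fin m) F) (ht : t ^ 2 = 1) (hs : ((t : Matrix (Fin m ⊕ Fin m) (Fin m ⊕ Fin m) F) - 1).rank = s) (heven : Even s) (hna : ∃ v : Fin m ⊕ Fin m → F, Cfsg.sympForm m F v ((t : Matrix (Fin m ⊕ Fin m) (Fin m ⊕ Fin m) F).mulVec v) ≠ 0) : Nat.card ↥(Subgroup.centralizer ({t} : Set ↥(Matrix.symplecticGroup (Fin m) F))) = q ^ (2 * m * s - (3 * s ^ 2 - 3 * s) / 2 - 1) * ((q : ℕ) ^ (((s - 2) / 2) ^ 2) * ∏ i : Fin ((s - 2) / 2),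 (q ^ (2 * ((i : ℕ) + 1)) - 1)) * ((q : ℕ) ^ ((m - s) ^ 2) * ∏ i : Fin (m - s), (q ^ (2 * ((i : ℕ) + 1)) - 1)) := by
  open Subgroup Pointwise commutatorElement Cfsg.Agent.BG Cfsg.Agent.GS in
  open Cfsg.Agent.H2 hiding card_lt_of_lt card_lt_of_ne_top isMulCommutative_of_le isPGroup_zpowers_iff mem_of_pow_mem_of_coprime inf_eq_bot_of_cop exists_maxElem_ge Sec in
  open Cfsg.Agent.H8 (Op Opp Fit SN) in
  open Cfsg.Agent.L (FPF) in focus
    subst hF
    have r := (rank_dsp (x := (H4.spEquiv F m t).1) fun _ => rfl).trans hs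
    have n : ¬ Alt (H4.spF F m) (H4.spEquiv F m t).1 := fun h => hna.elim fun v hv => hv (h v)
    obtain ⟨k, rfl⟩ : ∃ k, s = 2 * k + 2 := by
      obtain ⟨k, rfl⟩ := heven
      have : k + k ≠ 0 := fun z => n fun v => by rw [dsp_rank_zero.1 (r.trans z)]; exact H4.CForm.symp_B_self _ v
      exact ⟨k - 1, by omega⟩
    obtain ⟨a, c, e, -, -, b⟩ := cent_symp (H4.spF_nondeg m) (x := H4.spEquiv F m t) (by rw [← map_mul, ← sq, ht, map_one]) (m := m) (by simp [two_mul]) r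
    obtain ⟨d, rfl⟩ := Nat.exists_eq_add_of_le a
    have := choose_ev (k + 1)
    rw [card_cent_equiv (H4.spEquiv F _), e, b k rfl n, spo_eq, spo_eq, add_tsub_cancel_left, add_tsub_cancel_right, Nat.mul_div_cancel_left _ two_pos, ← mul_assoc, ← pow_add,
      ex_eq (e := 3 * (k + 1) * (2 * k + 1)) (f := (2 * k + 2) * (2 * d) + (2 * k + 2).choose 2 + (2 * k + 2) + (2 * k + 1) + 1) (by ring)
      (by rw [mul_add 2 k 1] at this; nlinarith), add_tsub_cancel_right]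

end Cfsg.Agent.S2682
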