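import Cfsg.Statements.S2685
import Cfsg.Agent.GS.Iv2

set_option autoImplicit false
open Cfsg

namespace Cfsg.Agent.S2685

open Cfsg.Agent.H1

/-- For the hyperbolic form Q = Σ x_j y_j on F^(2m) over a finite field with q elements, q even (excluding m = 2 over the field of two elements), and an involution x of the orthogonal group with s = rank(x − 1) even and Q not vanishing on the image of x − 1 (f(v, xv) ≠ 0 for some v, where f(u, w) = Q(u + w) − Q(u) − Q(w) is the bilinear form of Q; type c_s, which lies in Ω): its centraliser in Ω (the commutator subgroup of the orthogonal group) has order q^(2m(s−1) − (3s² − 5s)/2 − 1) · |Sp_(s−2)(q)| · |Sp_(2m−2s)(q)|. -/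
theorem result {F : Type*} [Field F] [Fintype F] [CharP F 2] {q : ℕ} (hF : Fintype.card F = q) {m s : ℕ} (h : Fintype.card F ≠ 2 ∨ m ≠ 2) (x : ↥(Cfsg.isometryGroup F (Cfsg.quadFormPlus m F))) (hx : x ^ 2 = 1) (hs : (((x : Matrix.GeneralLinearGroup (Fin m ⊕ Fin m) F) : Matrix (Fin m ⊕ Fin m) (Fin m ⊕ Fin m) F) - 1).rank = s) (heven : Even s) (hna : ∃ v : Fin m ⊕ Fin m → F, Cfsg.quadFormPlus m F ((((x : Matrix.GeneralLinearGroup (Fin m ⊕ Fin m) F) : Matrix (Fin m ⊕ Fin m) (Fin m ⊕ Fin m) F) - 1).mulVec v) ≠ 0) : Nat.card {g : ↥(Cfsg.Omega F (Cfsg.quadFormPlus m F)) // (g : ↥(Cfsg.isometryGroup F (Cfsg.quadFormPlus m F))) * x = x * (g : ↥(Cfsg.isometryGroup F (Cfsg.quadFormPlus m F)))} = q ^ (2 * m * (s - 1) - (3 * s ^ 2 - 5 * s) / 2 - 1) * ((q : ℕ) ^ (((s - 2) / 2) ^ 2) * ∏ i : Fin ((s - 2) / 2), (q ^ (2 * ((i : ℕ) + 1)) - 1)) * ((q : ℕ) ^ ((m - s) ^ 2) * ∏ i : Fin (m - s), (q ^ (2 * ((i : ℕ) + 1)) - 1)) := by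
  open Subgroup Pointwise commutatorElement Cfsg.Agent.BG Cfsg.Agent.GS in
  open Cfsg.Agent.H2 hiding card_lt_of_lt card_lt_of_ne_top isMulCommutative_of_le isPGroup_zpowers_iff mem_of_pow_mem_of_coprime inf_eq_bot_of_cop exists_maxElem_ge Sec in
  open Cfsg.Agent.H8 (Op Opp Fit SN) in
  open Cfsg.Agent.L (FPF) in focus
    subst hF
    have h4 : H4.N24 F (Fin m ⊕ Fin m → F) := H4.n24_of_card (n := 2 * m) (h.imp_right (by omega)) (by simp [two_mul])
    have hf := H4.plusF_nondeg (F := F) m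
    have h2 : H4.isomEquiv (H4.plusF F m) x * H4.isomEquiv (H4.plusF F m) x = 1 := (map_mul _ _ _).symm.trans ((congrArg _ ((sq x).symm.trans hx)).trans (map_one _))
    have r := (rank_dsp (x := (H4.isomEquiv (H4.plusF F m) x).1) fun _ => rfl).trans hs
    have n : ¬ Alt _ (H4.isomEquiv (H4.plusF F m) x).1 := fun h => hna.elim fun v hv => hv (by
      rw [Matrix.sub_mulVec, Matrix.one_mulVec]; exact (alt_iff hf h2).1 h _ ⟨v, rfl⟩)
    obtain ⟨k, rfl⟩ : ∃ k, s = 2 * k + 1 + 1 := by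
      obtain ⟨k, rfl⟩ := heven
      have : k + k ≠ 0 := fun z => n fun v => by rw [dsp_rank_zero.1 (r.trans z)]; exact t2_orth.self _ v
      exact ⟨k - 1, by omega⟩
    obtain ⟨a, c, e, -, b⟩ := cent_om_nalt hf h4 h2 n (m := m) (by simp [two_mul]) (H4.plusF_wi m) r
    obtain ⟨d, rfl⟩ := Nat.exists_eq_add_of_le a
    refine (card_om_equiv (H4.plusF F _) x).trans ?_
    rw [e, b k rfl, spo_eq, spo_eq, add_tsub_cancel_left, add_tsub_cancel_right, show (2 * k + 1 + 1 - 2) / 2 = k by omega, ← mul_assoc, ← pow_add, choose_od,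
      ex_eq (e := (k + 1) * (6 * k + 1)) (f := (2 * k + 1) * (2 * d + 1) + (2 * k + 1) * k + (2 * k + 1) + 1) (by ring) (by ring), add_tsub_cancel_right]

end Cfsg.Agent.S2685
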