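import Cfsg.Statements.S2697
import Cfsg.Agent.H4.Lang5

set_option autoImplicit false
open Cfsg

namespace Cfsg.Agent.S2697

/-- Let T = PSL_n(F) be simple over a finite field (n ≥ 2; |F| ≥ 4 when n = 2) and let x be a field automorphism or a graph-field automorphism of T of prime order r. Then an element y of the coset Inndiag(T)·x (that is, y = δ x with δ in the inner-diagonal group, the image of PGL_n(F)) has order r if and only if y is conjugate to x by an element of Inndiag(T). -/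
theorem result {F : Type*} [Field F] [Fintype F] {p f : ℕ} [Fact p.Prime] (hF : Fintype.card F = p ^ f) (hf : 1 ≤ f) {n : ℕ} (hn : 2 ≤ n) (hs : n = 2 → 4 ≤ Fintype.card F) (x δ : MulAut (Matrix.ProjectiveSpecialLinearGroup (Fin n) F)) (hx : Cfsg.IsFieldAutClassPSL x ∨ Cfsg.IsGraphFieldAutClassPSL x) {r : ℕ} (hr : r.Prime) (hxr : orderOf x = r) (hδ : δ ∈ Cfsg.inndiagPSL n F) :
    orderOf (δ * x) = r ↔ Cfsg.IsConjUnder (Cfsg.inndiagPSL n F) x (δ * x) := by
  open Cfsg.Agent.H4 Module Gam in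
  have := inndiagPSL_normal (F := F) hn
  rcases hx with ⟨α, σ, h1, h2⟩ | ⟨h3, α, φ, γ, σ, h1, h2, h4, h5⟩
  · have h4 := ((slM_fld hn).1 h2).symm
    have h5 : orderOf σ = r := by
      rw [← orderOf_slΦ_fld hn, ← h4, ← hxr]; exact MulEquiv.orderOf_eq (MulAut.conj α) x
    exact lang_transfer h4 hxr hδ (h5 ▸ sl_lang hn σ)
  · rw [← (slM_fld hn).1 h2, slι_iff.1 h4] at h5
    have h6 : (slΦ F hn (fld _ σ) * slι F n) ^ r = 1 := by
      rw [← h5, conj_pow, ← hxr, pow_orderOf_eq_one]; simp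
    obtain rfl : r = 2 := hr.even_iff.1 (slΦι_pow hn h3 h6)
    refine lang_transfer h5 hxr hδ fun δ hδ h => ?_
    obtain ⟨g, rfl⟩ := (mem_inndiagPSL hn).1 hδ
    rw [← mul_assoc, ← map_mul] at h ⊢
    refine sl_lang_herm hn (orderOf_eq_prime ?_ h1) (by simp) h6 h
    rw [slΦι_sq, dual_fld, ← sq, map_pow] at h6
    exact ((slM F hn).pow_ρ_eq_one h6).2

end Cfsg.Agent.S2697
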