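import Cfsg.Statements.S2698
import Cfsg.Agent.H4.Lang5

set_option autoImplicit false
open Cfsg

namespace Cfsg.Agent.S2698

/-- Let T = PSL_n(F) be simple over the field F with p^f elements (n ≥ 2; p^f ≥ 4 when n = 2), G = Inndiag(T) the image of PGL_n(F) in Aut(T), and x a field automorphism of T of prime order r. Then r divides f; the centralizer C_G(x) is isomorphic to PGL_n(F₀) for the subfield size |F₀| = p^(f/r); and the G-class of x is the union of exactly gcd(n, (p^f − 1)/(p^(f/r) − 1)) classes under conjugation by T (the inner automorphism group). -/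
theorem result {F : Type*} [Field F] [Fintype F] {p f : ℕ} [Fact p.Prime] (hF : Fintype.card F = p ^ f) (hf : 1 ≤ f) {n : ℕ} (hn : 2 ≤ n) (hs : n = 2 → 4 ≤ Fintype.card F) (x : MulAut (Matrix.ProjectiveSpecialLinearGroup (Fin n) F)) (hx : Cfsg.IsFieldAutClassPSL x) {r : ℕ} (hr : r.Prime) (hxr : orderOf x = r) (F₀ : Type*) [Field F₀] [Fintype F₀] (hF₀ : Fintype.card F₀ = p ^ (f / r)) :
    r ∣ f ∧ Nonempty (↥(Cfsg.inndiagPSL n F ⊓ Subgroup.centralizer {x}) ≃* Matrix.ProjGenLinGroup (Fin n) F₀) ∧ Cfsg.splitClassCount (Cfsg.inndiagPSL n F) (Cfsg.Inn (Matrix.ProjectiveSpecialLinearGroup (Fin n) F)) x = Nat.gcd n ((p ^ f - 1) / (p ^ (f / r) - 1)) := by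
  open Cfsg.Agent.H4 Module Gam in
  have := inndiagPSL_normal (F := F) hn
  obtain ⟨α, σ, h1, h2⟩ := hx
  have h4 := ((slM_fld hn).1 h2).symm
  have h5 : orderOf σ = r := by
    rw [← orderOf_slΦ_fld hn, ← h4, ← hxr]; exact MulEquiv.orderOf_eq (MulAut.conj α) x
  subst h5
  obtain ⟨φ, hσ⟩ := exists_fixed_hom' hF σ hF₀
  exact ⟨orderOf_dvd_of_card hF σ, cent_transfer h4 (sl_cent hn hσ),
    by rw [split_transfer (Inn_le_inndiagPSL hn) h4, sl_split hn hσ, hF, hF₀]⟩

end Cfsg.Agent.S2698
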