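import Cfsg.Statements.S2699
import Cfsg.Agent.H5.GrE
import Cfsg.Agent.S0304

set_option autoImplicit false
open Cfsg

namespace Cfsg.Agent.S2699

/-- Let T = PSL_n(F) over the field with p^f elements with n ≥ 3 odd, n = 2m + 1, and G = Inndiag(T) the image of PGL_n(F). Every involutory graph automorphism γ of T (an inner-diagonal automorphism followed by inverse-transpose, of order 2) has centralizer C_G(γ) isomorphic to the projective conformal orthogonal group of the form x₀² + Σ xᵢ yᵢ in dimension n (for q even this group is isomorphic to Sp_{n−1}(q)), and any two involutory graph automorphisms are G-conjugate. -/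
theorem result {F : Type*} [Field F] [Fintype F] {p f : ℕ} [Fact p.Prime] (hF : Fintype.card F = p ^ f) (hf : 1 ≤ f) {n : ℕ} (hn : 3 ≤ n) {m : ℕ} (hnm : n = 2 * m + 1) (γ γ' : MulAut (Matrix.ProjectiveSpecialLinearGroup (Fin n) F)) (hγ : Cfsg.IsGraphAutClassPSL γ) (hγ2 : orderOf γ = 2) (hγ' : Cfsg.IsGraphAutClassPSL γ') (hγ'2 : orderOf γ' = 2) :
    Nonempty (↥(Cfsg.inndiagPSL n F ⊓ Subgroup.centralizer {γ}) ≃* Cfsg.PGO F (Cfsg.quadFormOdd m F)) ∧ Cfsg.IsConjUnder (Cfsg.inndiagPSL n F) γ γ' := by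
  open Cfsg.Agent.H4 Cfsg.Agent.H4.CForm Cfsg.Agent.H5 Module Matrix in
  have h0 : 2 ≤ n := by omega
  obtain ⟨k, rfl⟩ := (graph_class_iff h0 hn).1 hγ
  obtain ⟨k', rfl⟩ := (graph_class_iff h0 hn).1 hγ'
  have hs : ∀ k : (Fin n → F) ≃ₗ[F] (Fin n → F), orderOf (gK h0 k) = 2 → ∀ x y, y ⬝ᵥ k.symm x = x ⬝ᵥ k.symm y := fun k ho => by
    obtain ⟨c, hc⟩ := (order_gK_iff h0 hn k).1 ho
    refine (kform_cases h0 hc).elim id fun s => ?_
    by_cases h2 : (2 : F) = 0
    · exact fun x y => by linear_combination s x y - (x ⬝ᵥ k.symm y) * h2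
    have hf : (mkAlt (fun x y => x ⬝ᵥ k.symm y) (by simp) (by simp) s fun x => mul_left_cancel₀ h2 (by
      linear_combination s x x)).Nondeg := kform_nondeg k
    have := hf.symp_finrank
    simp at this
    omega
  have s := hs k hγ2
  have s' := hs k' hγ'2
  by_cases h2 : (2 : F) = 0
  · obtain ⟨e, he⟩ := exists_kodd h2 s hnm
    obtain ⟨e', he'⟩ := exists_kodd h2 s' hnm
    haveI : CharP F 2 := CharTwo.of_one_ne_zero_of_two_eq_zero one_ne_zero h2
    obtain ⟨e1⟩ := cent_kodd h2 h0 he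
    obtain ⟨e2⟩ := S0304.result (F := F) m
    obtain ⟨e3⟩ := pgo_two h2 (oddF F m) (v := Pi.single (.inl ()) 1) (by simp [oddF_Q, quadFormOdd])
    exact ⟨⟨e1.trans (e2.symm.trans e3)⟩, (isConj_gK_iff h0 _ _).2 ⟨e.trans e'.symm, 1, fun x y => by rw [he', he]; simp⟩⟩
  have key : ∀ {k : (Fin n → F) ≃ₗ[F] (Fin n → F)} (s : ∀ x y, y ⬝ᵥ k.symm x = x ⬝ᵥ k.symm y), ∃ a : F, a ≠ 0 ∧
      Isom ((mkSymm h2 (fun x y => x ⬝ᵥ k.symm y) (by simp) (by simp) s).osmul a) (oddF F m) := fun {k} s => by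
    set g := mkSymm h2 (fun x y => x ⬝ᵥ k.symm y) (by simp) (by simp) s
    have hg : g.Nondeg := kform_nondeg k
    have h3 := mul_ne_zero hg.disc_ne (oddF_nondeg h2 m).disc_ne
    refine ⟨_, h3, ((hg.osmul h3).orth_isom_iff (oddF_nondeg h2 m) h2 (by simp; omega)).2 ?_⟩
    rw [disc_osmul, mul_assoc, ← pow_succ, finrank_fin_fun]
    exact Even.isSquare_pow ⟨m + 1, by omega⟩ _
  obtain ⟨a, ha, h⟩ := key s
  obtain ⟨a', ha', h'⟩ := key s'
  refine ⟨cent_graph_quad h0 h2 k h ha fun _ _ => rfl, (isConj_gK_iff h0 _ _).2 ?_⟩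
  obtain ⟨g, hg, -⟩ := h.trans h'.symm
  refine ⟨g, Units.mk0 (a'⁻¹ * a) (by simp [ha, ha']), fun x y => mul_left_cancel₀ ha' ((hg x y).trans ?_)⟩
  simp [← mul_assoc, ha']

end Cfsg.Agent.S2699
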