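import Cfsg.Statements.S2700
import Cfsg.Agent.H5.GrD

set_option autoImplicit false
open Cfsg

namespace Cfsg.Agent.S2700

/-- Let T = PSL_n(F) over a finite field of odd order with n = 2m ≥ 4 even, and G = Inndiag(T) the image of PGL_n(F). The involutory graph automorphisms of T fall into exactly three G-classes, with representatives γ₁, γ₂, γ₃ whose centralizers in G are isomorphic respectively to the projective conformal symplectic group PGSp_n(F), the projective conformal orthogonal group of the plus-type form Σ xᵢ yᵢ, and that of a minus-type form Σ xᵢ yᵢ + z₁² + a z₁ z₂ + b z₂² (anisotropic binary part) in dimension n. -/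
theorem result {F : Type*} [Field F] [Fintype F] (hodd : Odd (Fintype.card F)) {n m : ℕ} (hm : 2 ≤ m) (hnm : n = 2 * m) :
    ∃ (γ₁ γ₂ γ₃ : MulAut (Matrix.ProjectiveSpecialLinearGroup (Fin n) F)) (a b : F), (∀ z₁ z₂ : F, z₁ ^ 2 + a * z₁ * z₂ + b * z₂ ^ 2 = 0 → z₁ = 0 ∧ z₂ = 0) ∧ Cfsg.IsGraphAutClassPSL γ₁ ∧ orderOf γ₁ = 2 ∧ Cfsg.IsGraphAutClassPSL γ₂ ∧ orderOf γ₂ = 2 ∧ Cfsg.IsGraphAutClassPSL γ₃ ∧ orderOf γ₃ = 2 ∧ ¬ Cfsg.IsConjUnder (Cfsg.inndiagPSL n F) γ₁ γ₂ ∧ ¬ Cfsg.IsConjUnder (Cfsg.inndiagPSL n F) γ₁ γ₃ ∧ ¬ Cfsg.IsConjUnder (Cfsg.inndiagPSL n F) γ₂ γ₃ ∧ (∀ γ : MulAut (Matrix.ProjectiveSpecialLinearGroup (Fin n) F), Cfsg.IsGraphAutClassPSL γ → orderOf γ = 2 → Cfsg.IsConjUnder (Cfsg.inndiagPSL n F) γ₁ γ ∨ Cfsg.IsConjUnder (Cfsg.inndiagPSL n F) γ₂ γ ∨ Cfsg.IsConjUnder (Cfsg.inndiagPSL n F) γ₃ γ) ∧ Nonempty (↥(Cfsg.inndiagPSL n F ⊓ Subgroup.centralizer {γ₁}) ≃* Cfsg.PGSp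 m F) ∧ Nonempty (↥(Cfsg.inndiagPSL n F ⊓ Subgroup.centralizer {γ₂}) ≃* Cfsg.PGO F (Cfsg.quadFormPlus m F)) ∧ Nonempty (↥(Cfsg.inndiagPSL n F ⊓ Subgroup.centralizer {γ₃}) ≃* Cfsg.PGO F (Cfsg.quadFormMinus (m - 1) F a b)) := by
  open Cfsg.Agent.H4 Cfsg.Agent.H4.CForm Cfsg.Agent.H5 Module Matrix in
  have h2 := two_ne_zero_of_odd hodd
  have hn : 2 ≤ n := by omega
  have h3 : 3 ≤ n := by omega
  have hd : finrank F (Fin n → F) = 2 * m := by simp [hnm]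
  obtain ⟨a, b, hab⟩ := exists_aniso F
  let e₁ : (Fin n → F) ≃ₗ[F] (Fin m ⊕ Fin m → F) := LinearEquiv.ofFinrankEq _ _ (by simp; omega)
  let e₃ : (Fin n → F) ≃ₗ[F] ((Fin (m - 1) ⊕ Fin (m - 1)) ⊕ Fin 2 → F) := LinearEquiv.ofFinrankEq _ _ (by simp; omega)
  obtain ⟨k₁, p₁⟩ := exists_kform (fun _ => rfl) (spF_nondeg (F := F) m) e₁
  obtain ⟨k₂, p₂⟩ := exists_kform (fun _ => rfl) (plusF_nondeg (F := F) m) e₁
  obtain ⟨k₃, p₃⟩ := exists_kform (fun _ => rfl) (minusF_nondeg (F := F) (m - 1) hab) e₃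
  have s₁ : ∀ x y, y ⬝ᵥ k₁.symm x = -(x ⬝ᵥ k₁.symm y) := fun x y => by rw [p₁, p₁, (spF F m).symm]; simp
  have s₂ : ∀ x y, y ⬝ᵥ k₂.symm x = x ⬝ᵥ k₂.symm y := fun x y => by rw [p₂, p₂, orth_symm]
  have s₃ : ∀ x y, y ⬝ᵥ k₃.symm x = x ⬝ᵥ k₃.symm y := fun x y => by rw [p₃, p₃, orth_symm]
  have nc : ∀ k : (Fin n → F) ≃ₗ[F] (Fin n → F), (∀ x y, y ⬝ᵥ k.symm x = x ⬝ᵥ k.symm y) →
      ¬ IsConjUnder (inndiagPSL n F) (gK hn k₁) (gK hn k) := fun k s h => by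
    obtain ⟨g, c, e⟩ := (isConj_gK_iff hn _ _).1 h
    have h4 := kform_nondeg k₁ (Pi.single ⟨0, by omega⟩ 1) fun y => mul_left_cancel₀ (mul_ne_zero h2 c.ne_zero) (by
      have h5 := e y (Pi.single ⟨0, by omega⟩ 1)
      rw [s, e, s₁ _ y] at h5
      linear_combination h5)
    simpa using congrFun h4 ⟨0, by omega⟩
  have cj : ∀ {T : FType F} {W : Type _} [AddCommGroup W] [Module F W] {f : CForm T (Fin n → F)} {f' : CForm T W}
      {k k' : (Fin n → F) ≃ₗ[F] (Fin n → F)} {e : (Fin n → F) ≃ₗ[F] W}, (∀ x y, x ⬝ᵥ k'.symm y = f'.B (e x) (e y)) →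
      (∀ x y, f.B x y = x ⬝ᵥ k.symm y) → Isom f f' → IsConjUnder (inndiagPSL n F) (gK hn k') (gK hn k) :=
    fun {_ _ _ _ _ _ _ _ e} p q ⟨g, hg, _⟩ => (isConj_gK_iff hn _ _).2 ⟨e.trans g.symm, 1, fun x y => by
      rw [← q, ← hg, p]; simp⟩
  refine ⟨gK hn k₁, gK hn k₂, gK hn k₃, a, b, hab, (graph_class_iff hn h3).2 ⟨_, rfl⟩,
    (order_gK_iff hn h3 _).2 ⟨-1, by simpa using s₁⟩, (graph_class_iff hn h3).2 ⟨_, rfl⟩,
    (order_gK_iff hn h3 _).2 ⟨1, by simpa using s₂⟩, (graph_class_iff hn h3).2 ⟨_, rfl⟩,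
    (order_gK_iff hn h3 _).2 ⟨1, by simpa using s₃⟩, nc _ s₂, nc _ s₃, fun h => ?_, fun γ hγ ho => ?_,
    cent_graph hn k₁ e₁ fun g => exists_congr fun c => ⟨fun h x y => ?_, fun h x y => ?_⟩,
    cent_graph_quad (f' := plusF F m) hn h2 k₂ (isom_comap e₁) one_ne_zero fun x y => by rw [p₂, one_mul]; rfl,
    cent_graph_quad (f' := minusF (m - 1) a b) hn h2 k₃ (isom_comap e₃) one_ne_zero fun x y => by rw [p₃, one_mul]; rfl⟩
  · obtain ⟨g, c, e⟩ := (isConj_gK_iff hn _ _).1 h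
    simp only [p₂, p₃] at e
    have h4 : Isom ((plusF F m).osmul (c : F)) (minusF (m - 1) a b) := ⟨(e₁.symm.trans g).trans e₃, fun x y => by
      simpa using e (e₁.symm x) (e₁.symm y), fun x => mul_left_cancel₀ h2 (by
        have h5 := e (e₁.symm x) (e₁.symm x)
        simp only [B_self, FType.orth_β, LinearEquiv.apply_symm_apply] at h5
        exact h5.trans (mul_left_comm _ _ _))⟩
    have h5 := h4.wi_eq
    rw [osmul_wi c.ne_zero, plusF_wi, minusF_wi _ hab] at h5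
    omega
  · obtain ⟨k, rfl⟩ := (graph_class_iff hn h3).1 hγ
    obtain ⟨c, hc⟩ := (order_gK_iff hn h3 k).1 ho
    rcases kform_cases hn hc with s | s
    · let f := mkSymm h2 (fun x y => x ⬝ᵥ k.symm y) (by simp) (by simp) s
      have hf : f.Nondeg := kform_nondeg k
      by_cases hw : f.wi = m
      · exact .inr (.inl (cj p₂ (fun _ _ => rfl) (hf.isom_plusF hd hw)))
      · exact .inr (.inr (cj p₃ (fun _ _ => rfl) (hf.isom_minusF (by omega) (by omega) hab)))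
    · let f := mkAlt (fun x y => x ⬝ᵥ k.symm y) (by simp) (by simp) s fun x => mul_left_cancel₀ h2 (by
        linear_combination s x x)
      have hf : f.Nondeg := kform_nondeg k
      exact .inl (cj p₁ (fun _ _ => rfl) (hf.symp_isom (spF_nondeg m) (by simp; omega)))
  · simpa [p₁] using h (e₁ x) (e₁ y)
  · simpa [p₁] using h (e₁.symm x) (e₁.symm y)

end Cfsg.Agent.S2700
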