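import Cfsg.Statements.S2701
import Cfsg.Agent.H5.GrF

set_option autoImplicit false
open Cfsg

namespace Cfsg.Agent.S2701

/-- Let T = PSL_n(F) over a finite field of characteristic 2 with n = 2m ≥ 4 even, and G = Inndiag(T) the image of PGL_n(F). The involutory graph automorphisms of T fall into exactly two G-classes, with representatives γ₁ and γ₃ whose centralizers in G are isomorphic respectively to the symplectic group Sp_n(F) and to the centralizer in Sp_n(F) of a symplectic transvection. -/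
theorem result {F : Type*} [Field F] [Fintype F] [CharP F 2] {n m : ℕ} (hm : 2 ≤ m) (hnm : n = 2 * m) :
    ∃ (γ₁ γ₃ : MulAut (Matrix.ProjectiveSpecialLinearGroup (Fin n) F)) (t : ↥(Matrix.symplecticGroup (Fin m) F)), Cfsg.IsTransvection (t : Matrix (Fin m ⊕ Fin m) (Fin m ⊕ Fin m) F) ∧ Cfsg.IsGraphAutClassPSL γ₁ ∧ orderOf γ₁ = 2 ∧ Cfsg.IsGraphAutClassPSL γ₃ ∧ orderOf γ₃ = 2 ∧ ¬ Cfsg.IsConjUnder (Cfsg.inndiagPSL n F) γ₁ γ₃ ∧ (∀ γ : MulAut (Matrix.ProjectiveSpecialLinearGroup (Fin n) F), Cfsg.IsGraphAutClassPSL γ → orderOf γ = 2 → Cfsg.IsConjUnder (Cfsg.inndiagPSL n F) γ₁ γ ∨ Cfsg.IsConjUnder (Cfsg.inndiagPSL n F) γ₃ γ) ∧ Nonempty (↥(Cfsg.inndiagPSL n F ⊓ Subgroup.centralizer {γ₁}) ≃* ↥(Matrix.symplecticGroup (Fin m) F)) ∧ Nonempty (↥(Cfsg.inndiagPSL n F ⊓ Subgroup.centralizer {γ₃}) ≃* ↥(Subgroup.centralizer ({t} : Set ↥(Matrix.symplecticGroup (Fin m) F)))) := by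
  open Cfsg.Agent.H4 Cfsg.Agent.H4.CForm Cfsg.Agent.H5 Module Matrix in
  have h2 : (2 : F) = 0 := CharTwo.two_eq_zero
  have hn : 2 ≤ n := by omega
  have h3 : 3 ≤ n := by omega
  let e : (Fin n → F) ≃ₗ[F] (Fin m ⊕ Fin m → F) := LinearEquiv.ofFinrankEq _ _ (by simp; omega)
  let w : Fin m ⊕ Fin m → F := Pi.single (.inl ⟨0, by omega⟩) 1
  have hw : w ≠ 0 := by simp [w]
  have hw1 : (spF F m).B (Pi.single (.inr ⟨0, by omega⟩) 1) w = 1 := by simp [w, sympForm_single_inl]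
  obtain ⟨k₁, p₁⟩ := exists_kw e 0
  obtain ⟨k₃, p₃⟩ := exists_kw e w
  obtain ⟨t, ht⟩ := (spEquiv F m).surjective ⟨_, symp_tv_mem_iso (f := spF F m) w 1⟩
  have h4 : ∀ x, ((t : Matrix (Fin m ⊕ Fin m) (Fin m ⊕ Fin m) F) - 1) *ᵥ x = (spF F m).B x w • w := fun x => by
    rw [Matrix.sub_mulVec, ← spEquiv_apply, ht, Matrix.one_mulVec]
    simp [symp_tv_apply, -spF_B]
  have ho : ∀ {k : (Fin n → F) ≃ₗ[F] (Fin n → F)} {w}, (∀ x y, x ⬝ᵥ k.symm y = (spF F m).B (e x) (e y) +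
      (spF F m).B (e x) w * (spF F m).B (e y) w) → orderOf (gK hn k) = 2 := fun p => (order_gK_iff hn h3 _).2 ⟨1, fun x y => by
    rw [p, p, (spF F m).symm (e x) (e y)]
    simp [CharTwo.neg_eq, mul_comm, -spF_B]⟩
  have cj : ∀ {k k' : (Fin n → F) ≃ₗ[F] (Fin n → F)} {e' : (Fin n → F) ≃ₗ[F] (Fin m ⊕ Fin m → F)} {w w' g},
      (∀ x y, x ⬝ᵥ k.symm y = (spF F m).B (e x) (e y) + (spF F m).B (e x) w * (spF F m).B (e y) w) →
      (∀ x y, x ⬝ᵥ k'.symm y = (spF F m).B (e' x) (e' y) + (spF F m).B (e' x) w' * (spF F m).B (e' y) w') →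
      g ∈ (spF F m).iso → g w = w' → IsConjUnder (inndiagPSL n F) (gK hn k) (gK hn k') :=
    fun {_ _ e' _ _ g} p p' hg h => (isConj_gK_iff hn _ _).2 ⟨(e.trans g).trans e'.symm, 1, fun x y => by
      rw [p, p', ← h]; simp [hg.1, -spF_B]⟩
  refine ⟨gK hn k₁, gK hn k₃, t, ⟨?_, matrix_ext_mulVec fun x => ?_⟩, (graph_class_iff hn h3).2 ⟨_, rfl⟩, ho p₁,
    (graph_class_iff hn h3).2 ⟨_, rfl⟩, ho p₃, fun h => ?_, fun γ hγ hγ2 => ?_,
    (cent_keven h2 hn p₁ (K := ⊤) fun g => by simp).map (·.trans Subgroup.topEquiv), cent_keven h2 hn p₃ fun g => ?_⟩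
  · rw [Matrix.rank, ← finrank_span_singleton (K := F) hw]
    refine congrArg (fun U : Submodule F (Fin m ⊕ Fin m → F) => finrank F U) ?_
    refine le_antisymm ?_ ((Submodule.span_singleton_le_iff_mem _ _).2 ⟨_, (h4 _).trans (by rw [hw1, one_smul])⟩)
    rintro _ ⟨x, rfl⟩
    exact Submodule.mem_span_singleton.2 ⟨_, (h4 x).symm⟩
  · rw [← Matrix.mulVec_mulVec, h4, h4, B_smul_left, symp_B_self]; simp
  · obtain ⟨g, c, h⟩ := (isConj_gK_iff hn _ _).1 h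
    obtain ⟨x, hx⟩ := (g.trans e).surjective (Pi.single (.inr ⟨0, by omega⟩) 1)
    have h5 := h x x
    rw [p₁, p₃, show e (g x) = _ from hx, hw1, symp_B_self, symp_B_self] at h5
    simp only [map_zero, mul_zero, add_zero, zero_add, mul_one, one_ne_zero] at h5
  · obtain ⟨k, rfl⟩ := (graph_class_iff hn h3).1 hγ
    obtain ⟨c, hc⟩ := (order_gK_iff hn h3 k).1 hγ2
    obtain ⟨e', w', p⟩ := exists_keven h2 ((kform_cases hn hc).elim id fun s x y => (s x y).trans (CharTwo.neg_eq _)) hnm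
    by_cases h0 : w' = 0
    · exact .inl (cj p₁ p (one_mem _) h0.symm)
    · obtain ⟨g, hg, h⟩ := (spF_nondeg m).witt_vec hw h0 (by rw [symp_Q, symp_Q])
      exact .inr (cj p₃ p hg h)
  · rw [Subgroup.mem_centralizer_singleton_iff, ← mul_inv_eq_iff_eq_mul, ← (spEquiv F m).injective.eq_iff, map_mul, map_mul,
      map_inv, ht, Subtype.ext_iff]
    change (spEquiv F m g).1 * _ * (spEquiv F m g).1⁻¹ = _ ↔ _
    rw [tv_conj (spEquiv F m g).2]
    refine ⟨fun h => ?_, fun h => by rw [h]⟩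
    generalize (spEquiv F m g).1 w = u at h
    have h5 : ∀ x, (spF F m).B x u • u = (spF F m).B x w • w := fun x => by
      simpa [symp_tv_apply, -spF_B] using LinearEquiv.congr_fun h x
    have h6 := h5 (Pi.single (.inr ⟨0, by omega⟩) 1)
    rw [hw1, one_smul] at h6
    have h7 := hw1
    rw [← h6, B_smul_right] at h7
    have h8 : (spF F m).B (Pi.single (.inr ⟨0, by omega⟩) 1) u = 1 := (mul_self_eq_one_iff.1 h7).elim id fun h => h.trans (CharTwo.neg_eq _)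
    rwa [h8, one_smul] at h6

end Cfsg.Agent.S2701
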