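import Cfsg.Statements.S2702
import Cfsg.Agent.H5.GrD

set_option autoImplicit false
open Cfsg

namespace Cfsg.Agent.S2702

open Cfsg.Agent.H4 Cfsg.Agent.H4.CForm Cfsg.Agent.H4.Gam Cfsg.Agent.H5 Module Matrix

variable {F : Type*} [Field F] [Fintype F]

omit [Fintype F] in
theorem det_sq {n : ℕ} {k g : (Fin n → F) ≃ₗ[F] (Fin n → F)} {c : Fˣ} (h : ∀ x y, g x ⬝ᵥ k (g y) = c * (x ⬝ᵥ k y)) :
    LinearEquiv.det g ^ 2 = c ^ n := by
  have h1 : k * g = scal _ c * gr g * k := LinearEquiv.ext fun y => eq_of_dot fun z => by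
    obtain ⟨x, rfl⟩ := g.surjective z
    simp only [LinearEquiv.mul_apply, h, scal_apply, dotProduct_smul, gr_dot, smul_eq_mul]
  have h2 := congrArg LinearEquiv.det h1
  rw [map_mul, map_mul, map_mul, det_scal, det_gr, mul_comm, mul_left_inj, finrank_fin_fun, eq_mul_inv_iff_mul_eq] at h2
  rw [sq, h2]

theorem index_pow (r : ℕ) : (powMonoidHom r : Fˣ →* Fˣ).range.index = Nat.gcd r (Fintype.card F - 1) := by
  rw [IsCyclic.index_powMonoidHom_range, card_units_field, Nat.gcd_comm]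

omit [Fintype F] in
theorem symp_det {n m : ℕ} (hm : n = 2 * m) (h0 : 0 < m) {f : CForm (FType.symp F) (Fin n → F)} (hf : f.Nondeg) :
    (∀ μ : Fˣ, ∃ δ ∈ f.Sim, LinearEquiv.det δ = μ ^ m) ∧ ∀ g ∈ f.Sim, ∃ μ : Fˣ, LinearEquiv.det g = μ ^ m := by
  have : Nonempty (Fin n) := ⟨⟨0, by omega⟩⟩
  obtain ⟨e, he, -⟩ := hf.symp_isom (spF_nondeg m) (by simp; omega)
  have h1 : ∀ μ : Fˣ, ∃ δ : (Fin n → F) ≃ₗ[F] (Fin n → F), (∀ x y, f.B (δ x) (δ y) = μ * f.B x y) ∧
      LinearEquiv.det δ = μ ^ m := fun μ => by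
    let d : GL (Fin m ⊕ Fin m) F := ⟨diagonal (Sum.elim (fun _ => μ) fun _ => 1), diagonal (Sum.elim (fun _ => μ⁻¹) fun _ => 1),
      by rw [diagonal_mul_diagonal, ← diagonal_one]; congr 1; ext (i | i) <;> simp,
      by rw [diagonal_mul_diagonal, ← diagonal_one]; congr 1; ext (i | i) <;> simp⟩
    refine ⟨cgE e (glE d), fun x y => ?_, (LinearEquiv.det_conj (glE d) e.symm).trans ?_⟩
    · rw [← he, ← he]
      simp [d, sympForm_eq, mulVec_diagonal, Finset.mul_sum, mul_sub, mul_assoc, mul_left_comm]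
    · rw [det_glE]; ext; simp [d, Fintype.prod_sum_type]
  refine ⟨fun μ => (h1 μ).imp fun δ h => ⟨symp_mem_GamS.2 ⟨μ, h.1⟩, h.2⟩, fun g hg => ?_⟩
  obtain ⟨μ, hμ⟩ := symp_mem_GamS.1 hg
  obtain ⟨δ, h3, h4⟩ := h1 μ
  have h5 : δ⁻¹ * g ∈ f.iso := symp_mem_iso.2 fun x y => mul_left_cancel₀ μ.ne_zero (by
    rw [← h3]; simpa using hμ x y)
  have h6 := mem_SLg.1 (hf.symp_iso_le (S := SLg F _) (fun p c => mem_SLg.2 (Units.ext (by
    rw [det_tv (by simp [symp_B_self])]; simp [symp_B_self]))) h5)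
  rw [map_mul, map_inv, inv_mul_eq_one] at h6
  exact ⟨μ, h6 ▸ h4⟩

theorem not_surj (h2 : (2 : F) ≠ 0) {m : ℕ} (hm : 2 ≤ m) (φ : PGSp m F →* ℤˣ × ℤˣ) : ¬ Function.Surjective φ := fun hφ => by
  have : Nonempty (Fin m) := ⟨⟨0, by omega⟩⟩
  have hf := spF_nondeg (F := F) m
  obtain ⟨η, h5, h6⟩ := exists_projQuot (K := GSp m F) (K' := (spF F m).Sim) fun g => mem_GSp
  obtain ⟨W, hW, hW'⟩ := (spF F m).exists_TS_wi
  have h7 := hf.symp_finrank
  have hp := hf.symp_perfect_of_two hW (by simp at h7; omega) (a := -1) (by simp) fun h => h2 (by linear_combination -h)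
  have h1 : ∀ g, sqc (hf.muH g) = 1 → φ (η g) = 1 := fun g hg => by
    obtain ⟨c, u, hu, e⟩ := exists_iso_of_sq hf (fun _ => rfl) g.2 (sqc_eq_one.1 hg)
    obtain ⟨u, h8, rfl⟩ := (Subgroup.map_subtype_commutator _).ge (hp hu)
    rw [show g = ⟨_, scal_mem_Sim c⟩ * Subgroup.inclusion iso_le_Sim u from Subtype.ext e, map_mul, (h6 _).2 ⟨c, rfl⟩, one_mul]
    exact Abelianization.commutator_subset_ker (φ.comp (η.comp (Subgroup.inclusion iso_le_Sim))) h8
  obtain ⟨a, ha⟩ := (hφ.comp h5) (-1, 1)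
  obtain ⟨b, hb⟩ := (hφ.comp h5) (1, -1)
  have ha' := (Int.units_eq_one_or _).resolve_left fun h => absurd (ha.symm.trans (h1 a h)) (by decide)
  have hb' := (Int.units_eq_one_or _).resolve_left fun h => absurd (hb.symm.trans (h1 b h)) (by decide)
  have h9 := h1 (a * b) (by rw [map_mul, map_mul, ha', hb']; decide)
  rw [map_mul, map_mul, show φ (η a) = _ from ha, show φ (η b) = _ from hb] at h9
  exact absurd h9 (by decide)

/-- Let T = PSL_n(F) over the field with q = p^f elements, n ≥ 3, G = Inndiag(T) the image of PGL_n(F), and γ an involutory graph automorphism of T. The G-class of γ is the union of exactly c T-classes, where: if n is even and q is odd, c = gcd(n/2, q − 1) when C_G(γ) is isomorphic to the projective conformal symplectic group PGSp_n(F) (symplectic type) and c = gcd(n, q − 1)/2 otherwise; and c = gcd(n, q − 1) when n is odd or q is even. -/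
theorem result {F : Type*} [Field F] [Fintype F] {p f : ℕ} [Fact p.Prime] (hF : Fintype.card F = p ^ f) (hf : 1 ≤ f) {n : ℕ} (hn : 3 ≤ n) (γ : MulAut (Matrix.ProjectiveSpecialLinearGroup (Fin n) F)) (hγ : Cfsg.IsGraphAutClassPSL γ) (hγ2 : orderOf γ = 2) :
    ((Even n ∧ Odd p ∧ Nonempty (↥(Cfsg.inndiagPSL n F ⊓ Subgroup.centralizer {γ}) ≃* Cfsg.PGSp (n / 2) F)) → Cfsg.splitClassCount (Cfsg.inndiagPSL n F) (Cfsg.Inn (Matrix.ProjectiveSpecialLinearGroup (Fin n) F)) γ = Nat.gcd (n / 2) (p ^ f - 1)) ∧ ((Even n ∧ Odd p ∧ ¬ Nonempty (↥(Cfsg.inndiagPSL n F ⊓ Subgroup.centralizer {γ}) ≃* Cfsg.PGSp (n / 2) F)) → Cfsg.splitClassCount (Cfsg.inndiagPSL n F) (Cfsg.Inn (Matrix.ProjectiveSpecialLinearGroup (Fin n) F)) γ = Nat.gcd n (p ^ f - 1) / 2) ∧ (¬ (Even n ∧ Odd p) → Cfsg.splitClassCount (Cfsg.inndiagPSL n F) (Cfsg.Inn (Matrix.ProjectiveSpecialLinearGroup (Fin n) F)) γ = Nat.gcd n (p ^ f - 1)) := by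
  have h0 : 2 ≤ n := by omega
  have : Nonempty (Fin n) := ⟨⟨0, by omega⟩⟩
  obtain ⟨k, rfl⟩ := (graph_class_iff h0 hn).1 hγ
  obtain ⟨c, hc⟩ := (order_gK_iff h0 hn k).1 hγ2
  have hs := fun {B : Subgroup Fˣ} h => sl_split_graph h0 (a := lin k) (B := B) le_rfl
    (fun g hg => ⟨1, g, hg, scal_one_mul g⟩) h
  have hp : Odd p → (2 : F) ≠ 0 := fun h => two_ne_zero_of_odd (hF ▸ h.pow)
  rw [← hF]
  have key : Even n → (2 : F) ≠ 0 → (Nonempty (↥(inndiagPSL n F ⊓ Subgroup.centralizer {gK h0 k}) ≃* PGSp (n / 2) F) ∧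
      splitClassCount (inndiagPSL n F) (Inn _) (gK h0 k) = Nat.gcd (n / 2) (Fintype.card F - 1)) ∨
      (¬ Nonempty (↥(inndiagPSL n F ⊓ Subgroup.centralizer {gK h0 k}) ≃* PGSp (n / 2) F) ∧
      splitClassCount (inndiagPSL n F) (Inn _) (gK h0 k) = Nat.gcd n (Fintype.card F - 1) / 2) := fun he h2 => by
    obtain ⟨m, hm⟩ : ∃ m, n = 2 * m := he.two_dvd
    rw [show n / 2 = m by omega]
    have hd : finrank F (Fin n → F) = 2 * m := by simp [hm]
    rcases kform_cases h0 hc with s | s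
    · let g := mkSymm h2 (fun x y => x ⬝ᵥ k y) (by simp) (by simp) fun x y => by
        simpa [dotProduct_comm] using s (k y) (k x)
      have hg : g.Nondeg := kform_nondeg k.symm
      have hb : bsim (lin k) = g.Sim := Subgroup.ext fun u => ⟨fun ⟨c, h⟩ => orth_mem_GamS.2 ⟨c, fun x => by
        change u x ⬝ᵥ k (u x) / 2 = c * (x ⬝ᵥ k x / 2)
        rw [← mul_div_assoc]; exact congrArg (· / 2) (h x x)⟩, fun h =>
          let ⟨c, h1, h3, _⟩ := mem_GamS.1 h; ⟨Units.mk0 c h1, h3⟩⟩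
      obtain ⟨r, hr, hr', -⟩ := hg.exists_dk_spn h2 (by omega) (-1) 1
      have hr2 : LinearEquiv.det r = -1 := (hg.det_iso hr).resolve_left fun h =>
        absurd (hr'.symm.trans ((hg.det_eq_one_iff_dk h2 hr).1 h)) (by decide)
      refine .inr ⟨fun ⟨E⟩ => ?_, (hs (B := (powMonoidHom n).range.comap (powMonoidHom 2)) fun c => ⟨fun ⟨d, hd'⟩ => ?_, ?_⟩).trans ?_⟩
      · obtain ⟨η, h5, h6⟩ := exists_projQuot (K := g.Sim.comap glE.toMonoidHom) (K' := g.Sim) fun _ => Iff.rfl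
        obtain ⟨E'⟩ := sl_cent_graph h0 (a := lin k) hb.ge (fun g hg => ⟨1, g, hb.le hg, scal_one_mul g⟩) η h5 h6
        obtain ⟨φ, hφ⟩ := exists_lift_of_surj η h5 ((sqc.comp hg.muH).prod (hg.eps h2 hd (by omega))) fun u hu => by
          obtain ⟨c, hc⟩ := (h6 u).1 hu
          rw [show u = ⟨_, scal_mem_Sim c⟩ from Subtype.ext hc]
          exact Prod.ext (sqc_eq_one.2 ⟨(c : F), hg.mu_sc c⟩) (hg.eps_scal h2 hd _ c)
        refine not_surj h2 (by omega) (φ.comp (E.symm.trans E').toMonoidHom) (Function.Surjective.comp (g := φ) (fun x => ?_)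
          (E.symm.trans E').surjective)
        obtain ⟨μ, hμ⟩ := sqc_surj h2 x.1
        obtain ⟨δ, h7, h8, -⟩ := hg.exists_delta h2 hd (by omega) μ
        obtain ⟨u, hu, hu', -⟩ := hg.exists_dk_spn h2 (by omega) ((hg.eps h2 hd (by omega) ⟨δ, h7⟩)⁻¹ * x.2) 1
        refine ⟨η (⟨δ, h7⟩ * ⟨u, iso_le_Sim hu⟩), (hφ _).trans (Prod.ext ?_ ?_)⟩
        · change sqc (hg.muH _) = _
          rw [map_mul, Nondeg.muH_apply, Nondeg.muH_apply, h8, hg.mu_iso hu, mul_one, hμ]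
        · change hg.eps h2 hd _ _ = _
          rw [map_mul, hg.eps_iso h2 hd _ hu, hu', mul_inv_cancel_left]
      · obtain ⟨δ, h7, -, -, h8⟩ := hg.exists_delta h2 hd (by omega) (-d)
        have h9 : (c : F) ^ 2 = ((d : F) ^ m) ^ 2 := by
          rw [← pow_mul', ← hm]; exact_mod_cast congrArg Units.val hd'.symm
        rw [neg_neg] at h8
        rcases sq_eq_sq_iff_eq_or_eq_neg.1 h9 with h | h
        · exact ⟨δ, hb.ge h7, h8.trans (Units.ext (by simp [h]))⟩
        · exact ⟨δ * r, hb.ge (mul_mem h7 (iso_le_Sim hr)), by rw [map_mul, h8, hr2]; exact Units.ext (by simp [h])⟩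
      · rintro ⟨u, ⟨d, hd'⟩, rfl⟩
        exact ⟨d, (det_sq hd').symm⟩
      · have h7 := Subgroup.relIndex_mul_index (H := (powMonoidHom n : Fˣ →* Fˣ).range) (K := (powMonoidHom 2).range)
          (by rintro _ ⟨d, rfl⟩; exact ⟨d ^ m, by simp [hm, pow_mul']⟩)
        have h8 : Nat.gcd 2 (Fintype.card F - 1) = 2 := by
          have := FiniteField.odd_card_of_char_ne_two (F := F) fun h => h2 (by exact_mod_cast (ringChar.spec F 2).2 (h ▸ dvd_rfl))
          exact Nat.gcd_eq_left (by omega)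
        rw [index_pow, index_pow, h8] at h7
        rw [Subgroup.index_comap, ← h7, Nat.mul_div_cancel _ two_pos]
        exact Nat.gcd_eq_right ((Dvd.intro _ h7).trans (Nat.gcd_dvd_left _ _))
    · have s' : ∀ x y, y ⬝ᵥ k x = -(x ⬝ᵥ k y) := fun x y => by simpa [dotProduct_comm] using s (k y) (k x)
      let g := mkAlt (fun x y => x ⬝ᵥ k y) (by simp) (by simp) s' fun x => mul_left_cancel₀ h2 (by linear_combination s' x x)
      obtain ⟨h5, h6⟩ := symp_det hm (by omega) (f := g) (kform_nondeg k.symm)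
      let g' := mkAlt (fun x y => x ⬝ᵥ k.symm y) (by simp) (by simp) s fun x => mul_left_cancel₀ h2 (by linear_combination s x x)
      obtain ⟨e, he, -⟩ := Nondeg.symp_isom (f := g') (kform_nondeg k) (spF_nondeg m) (by simp; omega)
      have p₁ : ∀ x y, x ⬝ᵥ k.symm y = sympForm m F (e x) (e y) := fun x y => (he x y).symm
      refine .inl ⟨cent_graph h0 k e fun g => exists_congr fun c => ⟨fun h x y => ?_, fun h x y => ?_⟩,
        (hs (B := (powMonoidHom m).range) fun c => ⟨?_, ?_⟩).trans ?_⟩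
      · simpa [p₁] using h (e x) (e y)
      · simpa [p₁] using h (e.symm x) (e.symm y)
      · rintro ⟨d, rfl⟩
        exact (h5 d).imp fun δ h => ⟨(symp_mem_GamS (f := g) (a := lin δ)).1 h.1, h.2⟩
      · rintro ⟨u, hu, rfl⟩
        exact (h6 u ((symp_mem_GamS (f := g)).2 hu)).imp fun _ h => h.symm
      · rw [index_pow]
        exact Nat.gcd_eq_right ((Nat.gcd_dvd_left _ _).trans ⟨2, by omega⟩)
  refine ⟨fun h => ((key h.1 (hp h.2.1)).resolve_right fun h' => h'.1 h.2.2).2,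
    fun h => ((key h.1 (hp h.2.1)).resolve_left fun h' => h.2.2 h'.1).2, fun h =>
      (hs (B := (powMonoidHom n).range) fun c => ⟨?_, ?_⟩).trans (by rw [index_pow, Nat.gcd_gcd_self_right_left])⟩
  · rintro ⟨d, rfl⟩
    exact ⟨scal _ d, ⟨d * d, fun x y => by simp [mul_assoc]⟩, by rw [det_scal, finrank_fin_fun]; rfl⟩
  · rintro ⟨u, ⟨d, hd'⟩, rfl⟩
    have h5 := det_sq hd'
    rcases Nat.even_or_odd n with he | ⟨m, hm⟩
    · have h2 : (2 : F) = 0 := by
        obtain rfl := (Fact.out : p.Prime).eq_two_or_odd'.resolve_right fun h' => h ⟨he, h'⟩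
        have := FiniteField.cast_card_eq_zero F
        rw [hF] at this
        exact pow_eq_zero_iff (n := f) (by omega) |>.1 (by exact_mod_cast this)
      obtain ⟨a, ha⟩ := isSquare_of_two_eq_zero h2 (d : F)
      have h6 : a ≠ 0 := fun e => d.ne_zero (by rw [ha, e, mul_zero])
      have h7 : (LinearEquiv.det u : F) ^ 2 = (a ^ n) ^ 2 := by
        rw [← pow_mul', pow_mul, sq a, ← ha]; exact_mod_cast congrArg Units.val h5
      refine ⟨Units.mk0 a h6, Units.ext ?_⟩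
      rcases sq_eq_sq_iff_eq_or_eq_neg.1 h7 with h | h
      · simpa using h.symm
      · simpa using (by linear_combination -h + a ^ n * h2 : a ^ n = LinearEquiv.det u)
    · refine ⟨LinearEquiv.det u * (d ^ m)⁻¹, ?_⟩
      rw [powMonoidHom_apply, mul_pow, inv_pow, ← pow_mul, mul_inv_eq_iff_eq_mul, mul_comm m, pow_mul, ← h5, ← pow_mul, ← pow_succ',
        ← hm]

end Cfsg.Agent.S2702
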