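import Cfsg.Statements.S2703
import Cfsg.Agent.H5.GrC

set_option autoImplicit false
open Cfsg

namespace Cfsg.Agent.S2703

/-- Let T = PSL_n(F) over the field with q elements, q odd, n = 2m ≥ 4 even, and ι the inverse-transpose automorphism. Its centralizer in G = Inndiag(T) (the image of PGL_n(F)) is isomorphic to the projective conformal orthogonal group of the plus-type form Σ xᵢ yᵢ in dimension n when n(q − 1)/4 is even, and to that of a minus-type form (Σ xᵢ yᵢ + z₁² + a z₁ z₂ + b z₂² with anisotropic binary part) when n(q − 1)/4 is odd. -/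
theorem result {F : Type*} [Field F] [Fintype F] (hodd : Odd (Fintype.card F)) {n m : ℕ} (hm : 2 ≤ m) (hnm : n = 2 * m) (ι : MulAut (Matrix.ProjectiveSpecialLinearGroup (Fin n) F)) (hι : Cfsg.IsInverseTransposeAutPSL ι) :
    (Even (n * (Fintype.card F - 1) / 4) → Nonempty (↥(Cfsg.inndiagPSL n F ⊓ Subgroup.centralizer {ι}) ≃* Cfsg.PGO F (Cfsg.quadFormPlus m F))) ∧ (¬ Even (n * (Fintype.card F - 1) / 4) → ∃ a b : F, (∀ z₁ z₂ : F, z₁ ^ 2 + a * z₁ * z₂ + b * z₂ ^ 2 = 0 → z₁ = 0 ∧ z₂ = 0) ∧ Nonempty (↥(Cfsg.inndiagPSL n F ⊓ Subgroup.centralizer {ι}) ≃* Cfsg.PGO F (Cfsg.quadFormMinus (m - 1) F a b))) := by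
  open Cfsg.Agent.H4 Cfsg.Agent.H5 Module in
  have h2 := two_ne_zero_of_odd hodd
  have hn : 2 ≤ n := by omega
  obtain rfl := slι_iff.1 hι
  have hf : (dotF F n).Nondeg := CForm.nondeg_of_gram (Pi.basisFun F _) (by rw [dotF_gram]; exact pow_ne_zero _ h2)
  have hd : finrank F (Fin n → F) = 2 * m := by simp [hnm]
  have h3 : (dotF F n).wi = m ↔ Even (n * (Fintype.card F - 1) / 4) := by
    rw [hf.plus_iff_disc h2 hd, ← CForm.isSquare_mul_gram (Pi.basisFun F _), dotF_gram, hnm, pow_mul', mul_comm,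
      isSquare_sq_mul (pow_ne_zero _ h2), isSquare_neg_one_pow_iff' hodd, mul_assoc,
      show 4 = 2 * 2 from rfl, Nat.mul_div_mul_left _ _ two_pos]
  have h4 : ∀ {κ : Type} [Fintype κ] [DecidableEq κ] {f' : CForm (FType.orth F) (κ → F)}, CForm.Isom (dotF F n) f' →
      Nonempty (↥(inndiagPSL n F ⊓ Subgroup.centralizer {slι F n}) ≃* PGO F f'.Q) := fun h => by
    have := cent_graph_quad hn h2 1 h h2 fun x y => polar_dot x y
    rwa [map_one, map_one, one_mul] at this
  refine ⟨fun h => h4 (hf.isom_plusF hd (h3.2 h)), fun h => ?_⟩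
  obtain ⟨a, b, hab⟩ := exists_aniso F
  exact ⟨a, b, hab, h4 (hf.isom_minusF (m := m - 1) (by omega) (fun e => h (h3.1 (by omega))) hab)⟩

end Cfsg.Agent.S2703
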