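import Cfsg.Statements.S2704
import Cfsg.Agent.H4.Lang5

set_option autoImplicit false
open Cfsg

namespace Cfsg.Agent.S2704

/-- Let T = PSL_n(F) over the field F with p^f elements, n ≥ 3, and G = Inndiag(T) the image of PGL_n(F). If x is an involutory graph-field automorphism of T then f is even; x is G-conjugate to every other involutory graph-field automorphism; C_G(x) is isomorphic to the projective general unitary group PGU_n(q₀) with q₀² = p^f, realised over F itself through the Hermitian form Σ uᵢ vᵢ^{q₀}; and the G-class of x is the union of exactly gcd(n, q₀ − 1) T-classes. -/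
theorem result {F : Type*} [Field F] [Fintype F] {p f : ℕ} [Fact p.Prime] (hF : Fintype.card F = p ^ f) (hf : 1 ≤ f) {n : ℕ} (hn : 3 ≤ n) (x : MulAut (Matrix.ProjectiveSpecialLinearGroup (Fin n) F)) (hx : Cfsg.IsGraphFieldAutClassPSL x) (hx2 : orderOf x = 2) :
    Even f ∧ (∀ y : MulAut (Matrix.ProjectiveSpecialLinearGroup (Fin n) F), Cfsg.IsGraphFieldAutClassPSL y → orderOf y = 2 → Cfsg.IsConjUnder (Cfsg.inndiagPSL n F) x y) ∧ Nonempty (↥(Cfsg.inndiagPSL n F ⊓ Subgroup.centralizer {x}) ≃* Cfsg.PGU n F (p ^ (f / 2))) ∧ Cfsg.splitClassCount (Cfsg.inndiagPSL n F) (Cfsg.Inn (Matrix.ProjectiveSpecialLinearGroup (Fin n) F)) x = Nat.gcd n (p ^ (f / 2) - 1) := by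
  open Cfsg.Agent.H4 Module Gam in
  have h2 : 2 ≤ n := by omega
  have := inndiagPSL_normal (F := F) h2
  have : Nonempty (Fin n) := ⟨⟨0, by omega⟩⟩
  have key : ∀ x, IsGraphFieldAutClassPSL x → orderOf x = 2 → ∃ σ : F ≃+* F, σ ≠ 1 ∧ σ ^ 2 = 1 ∧
      (∃ α, α * x * α⁻¹ = slΦ F h2 (fld (Fin n) σ) * slι F n) ∧
      ∃ a : Gam F (Fin n → F), a.ρ = σ ∧ x = slΦ F h2 a * slι F n := by
    rintro x ⟨h3, α, φ, γ, σ, h1, h6, h4, h5⟩ hx
    rw [← (slM_fld h2).1 h6, slι_iff.1 h4] at h5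
    have h6 : (slΦ F h2 (fld _ σ) * slι F n) ^ 2 = 1 := by
      rw [← h5, conj_pow, ← hx, pow_orderOf_eq_one]; simp
    rw [slΦι_sq, dual_fld, ← sq, map_pow] at h6
    refine ⟨σ, h1, ((slM F h2).pow_ρ_eq_one h6).2, ⟨α, h5⟩, ?_⟩
    have h7 : x = α⁻¹ * (slΦ F h2 (fld _ σ) * slι F n) * α := by rw [← h5]; group
    obtain ⟨b, h | ⟨-, h⟩⟩ := slM_exists h2 α⁻¹
    · refine ⟨b * fld _ σ * dual b⁻¹, by simp [ringAut_comm b.ρ], ?_⟩
      rw [h7, ← inv_inv α, h, inv_inv, ← map_inv, mul_assoc, mul_assoc, slι_mul_Φ]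
      simp only [map_mul, mul_assoc]
    · refine ⟨b * fld _ σ * dual b⁻¹, by simp [ringAut_comm b.ρ], ?_⟩
      rw [h7, ← inv_inv α, h, inv_inv, mul_inv_rev, slι_inv, ← map_inv, mul_assoc, mul_assoc, mul_assoc,
        ← mul_assoc (slι F n) (slι F n), slι_mul, one_mul, ← map_mul, slι_mul_Φ]
      simp only [map_mul, mul_assoc, dual_fld]
  obtain ⟨σ, h1, h3, ⟨α, h4⟩, a, rfl, h6⟩ := key x hx hx2
  have h7 : orderOf a.ρ = 2 := orderOf_eq_prime h3 h1
  have he : 2 ∣ f := h7 ▸ orderOf_dvd_of_card hF a.ρ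
  have hF' : Fintype.card F = (p ^ (f / 2)) ^ 2 := by rw [hF, ← pow_mul, Nat.div_mul_cancel he]
  have k1 : (unF hF' n).iso ≤ bsim (fld (Fin n) a.ρ) := fun g hg =>
    (mem_bsim_fld hF' (eq_frobq hF' h1 h3)).2 (CForm.iso_le_Sim hg)
  have k2 := fun g (hg : g ∈ bsim (fld (Fin n) a.ρ)) => unT_exists_scal hF' (unF_nondeg hF' n)
    ((mem_bsim_fld hF' (eq_frobq hF' h1 h3)).1 hg)
  obtain ⟨η, e1, e2⟩ := exists_projQuot fun g : GL (Fin n) F => mem_GU hF'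
  refine ⟨even_iff_two_dvd.2 he, fun y hy hy2 => ?_, cent_transfer h4 (sl_cent_graph h2 k1 k2 η e1 e2), ?_⟩
  · obtain ⟨τ, h8, h9, -, b, rfl, rfl⟩ := key y hy hy2
    rw [h6] at hx2 ⊢
    exact sl_lang_herm h2 h7 (eq_of_sq_eq_one h8 h9 h1 h3) (hx2 ▸ pow_orderOf_eq_one _)
      (hy2 ▸ pow_orderOf_eq_one _)
  · rw [split_transfer (Inn_le_inndiagPSL h2) h4, sl_split_graph h2 k1 k2 (unF_det_iff hF' (by omega)),
      index_rootsOfUnity_succ hF']

end Cfsg.Agent.S2704
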