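import Cfsg.Statements.S2707
import Cfsg.Agent.H5.GrU
import Cfsg.Agent.S2700

set_option autoImplicit false
open Cfsg

namespace Cfsg.Agent.S2707

/-- Let T = PSU_n(q) with n = 2m ≥ 4 even and q odd, realised over the field F with q² elements, and G = Inndiag(T) the image of PGU_n(q). The involutory graph automorphisms of T fall into exactly three G-classes, with representatives whose centralizers in G are isomorphic respectively to the projective conformal symplectic group PGSp_n(F₀), the projective conformal orthogonal group of the plus-type form Σ xᵢ yᵢ, and that of a minus-type form Σ xᵢ yᵢ + z₁² + a z₁ z₂ + b z₂² (anisotropic binary part) in dimension n, all over a field F₀ with q elements. -/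
theorem result {F : Type*} [Field F] [Fintype F] {q : ℕ} (hodd : Odd q) (hF : Fintype.card F = q ^ 2) {n m : ℕ} (hm : 2 ≤ m) (hnm : n = 2 * m) (F₀ : Type*) [Field F₀] [Fintype F₀] (hF₀ : Fintype.card F₀ = q) :
    ∃ (γ₁ γ₂ γ₃ : MulAut (Cfsg.PSU n F q)) (a b : F₀), (∀ z₁ z₂ : F₀, z₁ ^ 2 + a * z₁ * z₂ + b * z₂ ^ 2 = 0 → z₁ = 0 ∧ z₂ = 0) ∧ Cfsg.IsGraphAutClassPSU γ₁ ∧ orderOf γ₁ = 2 ∧ Cfsg.IsGraphAutClassPSU γ₂ ∧ orderOf γ₂ = 2 ∧ Cfsg.IsGraphAutClassPSU γ₃ ∧ orderOf γ₃ = 2 ∧ ¬ Cfsg.IsConjUnder (Cfsg.inndiagPSU n F q) γ₁ γ₂ ∧ ¬ Cfsg.IsConjUnder (Cfsg.inndiagPSU n F q) γ₁ γ₃ ∧ ¬ Cfsg.IsConjUnder (Cfsg.inndiagPSU n F q) γ₂ γ₃ ∧ (∀ γ : MulAut (Cfsg.PSU n F q), Cfsg.IsGraphAutClassPSU γ → orderOf γ = 2 → Cfsg.IsConjUnder (Cfsg.inndiagPSU n F q) γ₁ γ ∨ Cfsg.IsConjUnder (Cfsg.inndiagPSU n F q) γ₂ γ ∨ Cfsg.IsConjUnder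 (Cfsg.inndiagPSU n F q) γ₃ γ) ∧ Nonempty (↥(Cfsg.inndiagPSU n F q ⊓ Subgroup.centralizer {γ₁}) ≃* Cfsg.PGSp m F₀) ∧ Nonempty (↥(Cfsg.inndiagPSU n F q ⊓ Subgroup.centralizer {γ₂}) ≃* Cfsg.PGO F₀ (Cfsg.quadFormPlus m F₀)) ∧ Nonempty (↥(Cfsg.inndiagPSU n F q ⊓ Subgroup.centralizer {γ₃}) ≃* Cfsg.PGO F₀ (Cfsg.quadFormMinus (m - 1) F₀ a b)) := by
  open Cfsg.Agent.H4 Cfsg.Agent.H5 in
  have h0 : 2 ≤ n := by omega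
  have hn : 3 ≤ n := by omega
  have hs : ¬ (n = 3 ∧ q = 2) := by omega
  obtain ⟨σ, φ, h1, h2, h3⟩ := exists_frob hF hF₀
  obtain ⟨_, _, _, a, b, hab, a1, b1, a2, b2, a3, b3, c1, c2, c3, c4, ⟨e1⟩, ⟨e2⟩, ⟨e3⟩⟩ := S2700.result (F := F₀) (hF₀ ▸ hodd) hm hnm
  obtain ⟨k₁, rfl⟩ := (graph_class_iff h0 hn).1 a1
  obtain ⟨k₂, rfl⟩ := (graph_class_iff h0 hn).1 a2
  obtain ⟨k₃, rfl⟩ := (graph_class_iff h0 hn).1 a3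
  obtain ⟨j₁, m1, u1, g1, o1⟩ := exists_su_graph hF h3 h2 hn hs h0 h1 k₁ b1
  obtain ⟨j₂, m2, u2, g2, o2⟩ := exists_su_graph hF h3 h2 hn hs h0 h1 k₂ b2
  obtain ⟨j₃, m3, u3, g3, o3⟩ := exists_su_graph hF h3 h2 hn hs h0 h1 k₃ b3
  obtain ⟨f1⟩ := u1.cent hF h3 hn hs h0 m1
  obtain ⟨f2⟩ := u2.cent hF h3 hn hs h0 m2
  obtain ⟨f3⟩ := u3.cent hF h3 hn hs h0 m3
  refine ⟨_, _, _, a, b, hab, g1, o1, g2, o2, g3, o3, mt (u1.conj hF h3 hn hs h0 u2 m1 m2).1 c1,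
    mt (u1.conj hF h3 hn hs h0 u3 m1 m3).1 c2, mt (u2.conj hF h3 hn hs h0 u3 m2 m3).1 c3, fun γ hγ ho => ?_,
    ⟨f1.trans e1⟩, ⟨f2.trans e2⟩, ⟨f3.trans e3⟩⟩
  obtain ⟨k, h4, rfl, k₀, h5, h6⟩ := su_graph hF h3 h2 hn hs h0 hγ ho
  exact (c4 _ ((graph_class_iff h0 hn).2 ⟨k₀, rfl⟩) h6).imp (u1.conj hF h3 hn hs h0 h5 m1 h4).2
    (Or.imp (u2.conj hF h3 hn hs h0 h5 m2 h4).2 (u3.conj hF h3 hn hs h0 h5 m3 h4).2)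

end Cfsg.Agent.S2707
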