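import Cfsg.Statements.S2708
import Cfsg.Agent.H5.GrU
import Cfsg.Agent.S2701

set_option autoImplicit false
open Cfsg

namespace Cfsg.Agent.S2708

/-- Let T = PSU_n(q) with n = 2m ≥ 4 even and q even, realised over the field F (of characteristic 2) with q² elements, and G = Inndiag(T) the image of PGU_n(q). The involutory graph automorphisms of T fall into exactly two G-classes, with representatives whose centralizers in G are isomorphic respectively to the symplectic group Sp_n(F₀) and to the centralizer in Sp_n(F₀) of a symplectic transvection, F₀ a field with q elements. -/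
theorem result {F : Type*} [Field F] [Fintype F] [CharP F 2] {q : ℕ} (hF : Fintype.card F = q ^ 2) {n m : ℕ} (hm : 2 ≤ m) (hnm : n = 2 * m) (F₀ : Type*) [Field F₀] [Fintype F₀] (hF₀ : Fintype.card F₀ = q) :
    ∃ (γ₁ γ₃ : MulAut (Cfsg.PSU n F q)) (t : ↥(Matrix.symplecticGroup (Fin m) F₀)), Cfsg.IsTransvection (t : Matrix (Fin m ⊕ Fin m) (Fin m ⊕ Fin m) F₀) ∧ Cfsg.IsGraphAutClassPSU γ₁ ∧ orderOf γ₁ = 2 ∧ Cfsg.IsGraphAutClassPSU γ₃ ∧ orderOf γ₃ = 2 ∧ ¬ Cfsg.IsConjUnder (Cfsg.inndiagPSU n F q) γ₁ γ₃ ∧ (∀ γ : MulAut (Cfsg.PSU n F q), Cfsg.IsGraphAutClassPSU γ → orderOf γ = 2 → Cfsg.IsConjUnder (Cfsg.inndiagPSU n F q) γ₁ γ ∨ Cfsg.IsConjUnder (Cfsg.inndiagPSU n F q) γ₃ γ) ∧ Nonempty (↥(Cfsg.inndiagPSU n F q ⊓ Subgroup.centralizer {γ₁}) ≃* ↥(Matrix.symplecticGroup (Fin m) F₀)) ∧ Nonempty (↥(Cfsg.inndiagPSU n F q ⊓ Subgroup.centralizer {γ₃}) ≃* ↥(Subgroup.centralizer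 ({t} : Set ↥(Matrix.symplecticGroup (Fin m) F₀)))) := by
  open Cfsg.Agent.H4 Cfsg.Agent.H5 in
  have h0 : 2 ≤ n := by omega
  have hn : 3 ≤ n := by omega
  have hs : ¬ (n = 3 ∧ q = 2) := by omega
  obtain ⟨σ, φ, h1, h2, h3⟩ := exists_frob hF hF₀
  haveI : CharP F₀ 2 := φ.charP φ.injective 2
  obtain ⟨_, _, t, ht, a1, b1, a3, b3, c2, c4, ⟨e1⟩, ⟨e3⟩⟩ := S2701.result (F := F₀) hm hnm
  obtain ⟨k₁, rfl⟩ := (graph_class_iff h0 hn).1 a1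
  obtain ⟨k₃, rfl⟩ := (graph_class_iff h0 hn).1 a3
  obtain ⟨j₁, m1, u1, g1, o1⟩ := exists_su_graph hF h3 h2 hn hs h0 h1 k₁ b1
  obtain ⟨j₃, m3, u3, g3, o3⟩ := exists_su_graph hF h3 h2 hn hs h0 h1 k₃ b3
  obtain ⟨f1⟩ := u1.cent hF h3 hn hs h0 m1
  obtain ⟨f3⟩ := u3.cent hF h3 hn hs h0 m3
  refine ⟨_, _, t, ht, g1, o1, g3, o3, mt (u1.conj hF h3 hn hs h0 u3 m1 m3).1 c2, fun γ hγ ho => ?_,
    ⟨f1.trans e1⟩, ⟨f3.trans e3⟩⟩
  obtain ⟨k, h4, rfl, k₀, h5, h6⟩ := su_graph hF h3 h2 hn hs h0 hγ ho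
  exact (c4 _ ((graph_class_iff h0 hn).2 ⟨k₀, rfl⟩) h6).imp (u1.conj hF h3 hn hs h0 h5 m1 h4).2
    (u3.conj hF h3 hn hs h0 h5 m3 h4).2

end Cfsg.Agent.S2708
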