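import Cfsg.Statements.S2709
import Cfsg.Agent.H5.GrU
import Cfsg.Agent.S2702

set_option autoImplicit false
open Cfsg

namespace Cfsg.Agent.S2709

open Cfsg.Agent.H4 Cfsg.Agent.H4.CForm Cfsg.Agent.H4.Gam Cfsg.Agent.H5 Module Matrix

section
variable {F : Type*} [Field F] [Fintype F] {q n : ℕ} (hF : Fintype.card F = q ^ 2) {F₀ : Type*} [Field F₀] {φ : F₀ →+* F}
  {k : (Fin n → F) ≃ₗ[F] (Fin n → F)} {k₀ : (Fin n → F₀) ≃ₗ[F₀] (Fin n → F₀)}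
  {σ : F ≃+* F} (hσ : ∀ x, σ x = x ↔ ∃ y, φ y = x) (hq : ∀ x, σ x = frobq hF x)
include hσ hq

theorem hilb (ζ : rootsOfUnity (q + 1) F) : ∃ (d : Fˣ) (μ : F₀ˣ), (d : F) * σ d * φ μ = 1 ∧ (ζ.1 : F) = (d : F) ^ 2 * φ μ := by
  have hσσ : ∀ a, σ (σ a) = a := fun a => by rw [hq, hq, frobq_frobq]
  have h1 : (ζ.1 : F) * σ ζ.1 = 1 := hq _ ▸ (mem_rootsOfUnity_succ hF).1 ζ.2
  obtain ⟨z, hz⟩ : ∃ z, z + (ζ.1 : F) * σ z ≠ 0 := by
    by_contra! h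
    refine frobq_ne hF (RingHom.ext fun x => (hq x).symm.trans ?_)
    have h2 := h 1
    rw [map_one] at h2
    change σ x = x
    linear_combination σ x * h2 - h x
  have h2 : (ζ.1 : F) * σ (z + ζ.1 * σ z) = z + ζ.1 * σ z := by rw [map_add, map_mul, hσσ]; linear_combination z * h1
  generalize z + ζ.1 * σ z = d at hz h2
  have h3 := (map_ne_zero σ).2 hz
  obtain ⟨y, hy⟩ := (hσ (d * σ d)⁻¹).1 (by rw [map_inv₀, map_mul, hσσ, mul_comm])
  refine ⟨Units.mk0 d hz, Units.mk0 y fun e => by simp [e, hz, eq_comm (a := (0 : F))] at hy, ?_, ?_⟩ <;> simp only [Units.val_mk0, hy] <;> field_simp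
  exact h2

theorem split (hn : 3 ≤ n) (hs : ¬ (n = 3 ∧ q = 2)) (h : UB hF φ k k₀) (hγ : gk k σ ∈ (unF hF n).GamS)
    {B : Subgroup (rootsOfUnity (q + 1) F)}
    (h1 : ∀ (g : (Fin n → F₀) ≃ₗ[F₀] (Fin n → F₀)) (μ : F₀ˣ), (∀ x y, g x ⬝ᵥ k₀.symm (g y) = μ * (x ⬝ᵥ k₀.symm y)) → ∀ (d : F)
      (ζ c : rootsOfUnity (q + 1) F), (ζ.1 : F) = d ^ 2 * φ μ → (c.1 : F) = d ^ n * φ (LinearEquiv.det g) → c ∈ B)
    (h2 : ∀ c ∈ B, ∃ (d : Fˣ) (g : (Fin n → F₀) ≃ₗ[F₀] (Fin n → F₀)) (μ : F₀ˣ), (∀ x y, g x ⬝ᵥ k₀.symm (g y) = μ * (x ⬝ᵥ k₀.symm y)) ∧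
      (d : F) * σ d * φ μ = 1 ∧ (c.1 : F) = (d : F) ^ n * φ (LinearEquiv.det g)) :
    splitClassCount (inndiagPSU n F q) (Inn _) ((suM hF hn hs).Φ ⟨_, hγ⟩) = Nat.gcd n B.index := by
  have : Nonempty (Fin n) := ⟨⟨0, by omega⟩⟩
  have hσσ : ∀ a, σ (σ a) = a := fun a => by rw [hq, hq, frobq_frobq]
  have hf := unF_nondeg hF n
  have hB : ∀ (d : Fˣ) (g : (Fin n → F₀) ≃ₗ[F₀] (Fin n → F₀)) (μ : F₀ˣ), (∀ x y, g x ⬝ᵥ k₀.symm (g y) = μ * (x ⬝ᵥ k₀.symm y)) →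
      ∀ u v, (unF hF n).B ((scal _ d * bk φ k g : (Fin n → F) ≃ₗ[F] (Fin n → F)) u) ((scal _ d * bk φ k g : (Fin n → F) ≃ₗ[F] (Fin n → F)) v) = d * σ d * φ μ * (unF hF n).B u v := fun d g μ hg u v => by
    have h3 : ∀ u v, (unF hF n).B (bk φ k g u) (bk φ k g v) = (unF hF n).mu (lin (bk φ k g)) * (unF hF n).B u v :=
      mu_B ((h.sim hF h (by omega) g).2 ⟨μ, hg⟩)
    obtain ⟨x, y, hxy⟩ := hf.exists_jv_B φ k
    obtain ⟨l, l0, hl⟩ := h
    have h4 := h3 (jv φ k x) (jv φ k y)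
    rw [bk_jv, bk_jv, hl, hg, map_mul, mul_left_comm, ← hl, mul_left_inj' hxy] at h4
    simp only [LinearEquiv.mul_apply, scal_apply, map_smulₛₗ, LinearMap.smul_apply, smul_eq_mul, RingHom.id_apply, h3, h4,
      FType.unit_σ, ← hq]
    ring
  have hD : ∀ (d : Fˣ) g, (LinearEquiv.det (scal _ d * bk φ k g) : F) = (d : F) ^ n * φ (LinearEquiv.det g) := fun d g => by
    rw [map_mul, det_scal, det_bk]; simp
  let M := suM hF hn hs
  let K := (Subgroup.centralizer {M.Φ ⟨_, hγ⟩}).comap ((Subgroup.subtype _).comp (M.rs (K := (unF hF n).iso) iso_le_Sim))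
  rw [splitClassCount_eq (Inn_le_inndiagPSU hF hn hs), inndiagPSU_eq_iso hF hn hs, ← M.range_κ iso_le_Sim,
    show (M.im ((unF hF n).iso.map lin) ⊓ Subgroup.centralizer {M.Φ ⟨_, hγ⟩}).map (QuotientGroup.mk' _) =
      ((M.κ iso_le_Sim).comp K.subtype).range from Subgroup.ext fun x => ⟨by
        rintro ⟨_, ⟨⟨⟨_, ha⟩, ⟨g, hg, rfl⟩, rfl⟩, e⟩, rfl⟩; exact ⟨⟨⟨g, hg⟩, e⟩, rfl⟩, by
        rintro ⟨g, rfl⟩; exact ⟨_, ⟨Subtype.prop _, g.2⟩, rfl⟩⟩,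
    su_relIndex hF hn hs K.subtype (B := B.map (Subgroup.subtype _)) fun c => ⟨?_, ?_⟩, Subgroup.relIndex, Subgroup.subgroupOf,
    Subgroup.comap_map_eq_self_of_injective (Subgroup.subtype_injective _)]
  · rintro ⟨c, hc, rfl⟩
    obtain ⟨d, g, μ, h3, h4, h5⟩ := h2 c hc
    have h6 := hB d g μ h3
    simp only [h4, one_mul] at h6
    refine ⟨⟨⟨scal _ d * bk φ k g, h6, fun x => h6 x x⟩, Subgroup.mem_centralizer_singleton_iff.2 ?_⟩, Units.ext ((hD d g).trans h5.symm)⟩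
    change M.Φ _ * _ = _ * M.Φ _
    rw [← map_mul, ← map_mul, M.Φ_eq_iff]
    refine ⟨d * (Units.map (σ : F →* F) d)⁻¹, ext' (fun x => ?_) ((mul_one _).trans ((one_mul _).symm.trans ((mul_one _).symm.trans (one_mul _).symm)))⟩
    have := congrArg (fun a : Gam F (Fin n → F) => a.s x) (commute_gk_bk k hσ g)
    change (d : F) • bk φ k g ((gk k σ).s x) = ((d * (Units.map (σ : F →* F) d)⁻¹ : Fˣ) : F) • (gk k σ).s ((d : F) • bk φ k g x)
    rw [(gk k σ).smul, smul_smul, show bk φ k g ((gk k σ).s x) = (gk k σ).s (bk φ k g x) from this]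
    congr 1
    simp [show (gk k σ).ρ = σ from rfl]
  · rintro ⟨⟨⟨u, hu⟩, e⟩, rfl⟩
    have e' : M.Φ ⟨lin u, iso_le_Sim hu⟩ * _ = _ * M.Φ ⟨lin u, iso_le_Sim hu⟩ := Subgroup.mem_centralizer_singleton_iff.1 e
    rw [← map_mul, ← map_mul, M.Φ_eq_iff] at e'
    obtain ⟨c, e'⟩ := e'
    obtain ⟨d, g, rfl⟩ := exists_bk_of_comm k hσ (orderOf_pos σ) e'
    obtain ⟨μ, hμ⟩ := (h.sim hF h (by omega) g).1 ((Subgroup.mul_mem_cancel_left _ (scal_mem_Sim d)).1 (iso_le_Sim hu))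
    obtain ⟨x, y, hxy⟩ := hf.exists_jv_B φ k
    have h3 := (mul_left_eq_self₀.1 ((hB d g μ hμ _ _).symm.trans (hu.1 _ _))).resolve_right hxy
    have h4 : σ (φ μ) = φ μ := (hσ _).2 ⟨_, rfl⟩
    exact ⟨⟨_, (unF_det_iff hF (by omega) _).2 ⟨_, hu, rfl⟩⟩, h1 g μ hμ d ⟨d ^ 2 * Units.map (φ : F₀ →* F) μ,
      (mem_rootsOfUnity_succ hF).2 (by
        simp only [Units.val_mul, Units.val_pow_eq_pow_val, Units.coe_map, MonoidHom.coe_coe, FType.unit_σ, ← hq, map_mul, map_pow, h4]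
        linear_combination ((d : F) * σ d * φ μ + 1) * h3)⟩ _ rfl (hD d g), rfl⟩

end

theorem symp_det {F : Type*} [Field F] {n m : ℕ} (hm : n = 2 * m) (h0 : 0 < m) {f : CForm (FType.symp F) (Fin n → F)} (hf : f.Nondeg) :
    (∀ μ : Fˣ, ∃ δ : (Fin n → F) ≃ₗ[F] (Fin n → F), (∀ x y, f.B (δ x) (δ y) = μ * f.B x y) ∧ LinearEquiv.det δ = μ ^ m) ∧
      ∀ (g : (Fin n → F) ≃ₗ[F] (Fin n → F)) (μ : Fˣ), (∀ x y, f.B (g x) (g y) = μ * f.B x y) → LinearEquiv.det g = μ ^ m := by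
  have : Nonempty (Fin n) := ⟨⟨0, by omega⟩⟩
  obtain ⟨e, he, -⟩ := hf.symp_isom (spF_nondeg m) (by simp; omega)
  have h1 : ∀ μ : Fˣ, ∃ δ : (Fin n → F) ≃ₗ[F] (Fin n → F), (∀ x y, f.B (δ x) (δ y) = μ * f.B x y) ∧
      LinearEquiv.det δ = μ ^ m := fun μ => by
    let d : GL (Fin m ⊕ Fin m) F := ⟨diagonal (Sum.elim (fun _ => μ) fun _ => 1), diagonal (Sum.elim (fun _ => μ⁻¹) fun _ => 1),
      by rw [diagonal_mul_diagonal, ← diagonal_one]; congr 1; ext (i | i) <;> simp,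
      by rw [diagonal_mul_diagonal, ← diagonal_one]; congr 1; ext (i | i) <;> simp⟩
    refine ⟨cgE e (glE d), fun x y => ?_, (LinearEquiv.det_conj (glE d) e.symm).trans ?_⟩
    · rw [← he, ← he]
      simp [d, sympForm_eq, mulVec_diagonal, Finset.mul_sum, mul_sub, mul_assoc, mul_left_comm]
    · rw [det_glE]; ext; simp [d, Fintype.prod_sum_type]
  refine ⟨h1, fun g μ hμ => ?_⟩
  obtain ⟨δ, h3, h4⟩ := h1 μ
  have h5 : δ⁻¹ * g ∈ f.iso := symp_mem_iso.2 fun x y => mul_left_cancel₀ μ.ne_zero (by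
    rw [← h3]; simpa using hμ x y)
  have h6 := mem_SLg.1 (hf.symp_iso_le (S := SLg F _) (fun p c => mem_SLg.2 (Units.ext (by
    rw [det_tv (by simp [symp_B_self])]; simp [symp_B_self]))) h5)
  rw [map_mul, map_inv, inv_mul_eq_one] at h6
  exact h6 ▸ h4

/-- Let T = PSU_n(q) be simple (n ≥ 3, (n,q) ≠ (3,2), q = p^f), realised over the field F with q² elements, G = Inndiag(T) the image of PGU_n(q), and γ an involutory graph automorphism of T. The G-class of γ is the union of exactly c T-classes, where: if n is even and q is odd, c = gcd(n/2, q + 1) when C_G(γ) is isomorphic to PGSp_n(F₀) for a field F₀ with q elements (symplectic type) and c = gcd(n, q + 1)/2 otherwise; and c = gcd(n, q + 1) when n is odd or q is even. -/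
theorem result {F : Type*} [Field F] [Fintype F] {p f q : ℕ} [Fact p.Prime] (hq : q = p ^ f) (hf : 1 ≤ f) (hF : Fintype.card F = q ^ 2) {n : ℕ} (hn : 3 ≤ n) (hs : ¬ (n = 3 ∧ q = 2)) (F₀ : Type*) [Field F₀] [Fintype F₀] (hF₀ : Fintype.card F₀ = q) (γ : MulAut (Cfsg.PSU n F q)) (hγ : Cfsg.IsGraphAutClassPSU γ) (hγ2 : orderOf γ = 2) :
    ((Even n ∧ Odd q ∧ Nonempty (↥(Cfsg.inndiagPSU n F q ⊓ Subgroup.centralizer {γ}) ≃* Cfsg.PGSp (n / 2) F₀)) → Cfsg.splitClassCount (Cfsg.inndiagPSU n F q) (Cfsg.Inn (Cfsg.PSU n F q)) γ = Nat.gcd (n / 2) (q + 1)) ∧ ((Even n ∧ Odd q ∧ ¬ Nonempty (↥(Cfsg.inndiagPSU n F q ⊓ Subgroup.centralizer {γ}) ≃* Cfsg.PGSp (n / 2) F₀)) → Cfsg.splitClassCount (Cfsg.inndiagPSU n F q) (Cfsg.Inn (Cfsg.PSU n F q)) γ = Nat.gcd n (q + 1) / 2) ∧ (¬ (Even n ∧ Odd q) → Cfsg.splitClassCount (Cfsg.inndiagPSU n F q) (Cfsg.Inn (Cfsg.PSU n F q)) γ = Nat.gcd n (q + 1))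 := by
  have h0 : 2 ≤ n := by omega
  have : Nonempty (Fin n) := ⟨⟨0, by omega⟩⟩
  obtain ⟨σ, φ, h1, hq', hσ⟩ := exists_frob hF hF₀
  obtain ⟨k, h4, rfl, k₀, hU, h6⟩ := su_graph hF hσ hq' hn hs h0 hγ hγ2
  obtain ⟨c, hc⟩ := (order_gK_iff h0 hn k₀).1 h6
  have hS := fun {B} => split hF hσ hq' hn hs hU h4 (B := B)
  have hR := card_rootsOfUnity_succ hF
  have hI : ∀ r, (powMonoidHom r : rootsOfUnity (q + 1) F →* _).range.index = Nat.gcd r (q + 1) := fun r => by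
    rw [IsCyclic.index_powMonoidHom_range, hR, Nat.gcd_comm]
  have hE : ∀ a b : rootsOfUnity (q + 1) F, (a.1 : F) = b.1 → a = b := fun a b h => Subtype.ext (Units.ext h)
  have hsq : ∀ (g : (Fin n → F₀) ≃ₗ[F₀] (Fin n → F₀)) (μ : F₀ˣ), (∀ x y, g x ⬝ᵥ k₀.symm (g y) = μ * (x ⬝ᵥ k₀.symm y)) → ∀ (d : F)
      (ζ c : rootsOfUnity (q + 1) F), (ζ.1 : F) = d ^ 2 * φ μ → (c.1 : F) = d ^ n * φ (LinearEquiv.det g) → ζ ^ n = c ^ 2 :=
    fun g μ hg d ζ c e1 e2 => hE _ _ (by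
      have := congrArg (fun u : F₀ˣ => φ u) (S2702.det_sq hg)
      simp only [Units.val_pow_eq_pow_val, map_pow, SubmonoidClass.coe_pow] at this ⊢
      rw [e1, e2, mul_pow, mul_pow, this, ← pow_mul, ← pow_mul, mul_comm n])
  obtain ⟨E₀⟩ := hU.cent hF hσ hn hs h0 h4
  have key : Even n → Odd q → (Nonempty (↥(inndiagPSL n F₀ ⊓ Subgroup.centralizer {gK h0 k₀}) ≃* PGSp (n / 2) F₀) ∧
      splitClassCount (inndiagPSU n F q) (Inn _) ((suM hF hn hs).Φ ⟨_, h4⟩) = Nat.gcd (n / 2) (q + 1)) ∨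
      (¬ Nonempty (↥(inndiagPSL n F₀ ⊓ Subgroup.centralizer {gK h0 k₀}) ≃* PGSp (n / 2) F₀) ∧
      splitClassCount (inndiagPSU n F q) (Inn _) ((suM hF hn hs).Φ ⟨_, h4⟩) = Nat.gcd n (q + 1) / 2) := fun he ho => by
    have h2 : (2 : F₀) ≠ 0 := two_ne_zero_of_odd (hF₀ ▸ ho)
    obtain ⟨m, hm⟩ : ∃ m, n = 2 * m := he.two_dvd
    rw [show n / 2 = m by omega]
    have hd : finrank F₀ (Fin n → F₀) = 2 * m := by simp [hm]
    rcases kform_cases h0 hc with s | s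
    · let g := mkSymm h2 (fun x y => x ⬝ᵥ k₀.symm y) (by simp) (by simp) s
      have hg : g.Nondeg := kform_nondeg k₀
      have hb : ∀ u, u ∈ g.Sim ↔ ∃ c : F₀ˣ, ∀ x y, u x ⬝ᵥ k₀.symm (u y) = c * (x ⬝ᵥ k₀.symm y) := fun u =>
        ⟨fun h => let ⟨c, h1, h3, _⟩ := mem_GamS.1 h; ⟨Units.mk0 c h1, h3⟩, fun ⟨c, h⟩ => orth_mem_GamS.2 ⟨c, fun x => by
          change u x ⬝ᵥ k₀.symm (u x) / 2 = c * (x ⬝ᵥ k₀.symm x / 2)
          rw [← mul_div_assoc]; exact congrArg (· / 2) (h x x)⟩⟩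
      obtain ⟨r, hr, hr', -⟩ := hg.exists_dk_spn h2 (by omega) (-1) 1
      have hr2 : LinearEquiv.det r = -1 := (hg.det_iso hr).resolve_left fun h =>
        absurd (hr'.symm.trans ((hg.det_eq_one_iff_dk h2 hr).1 h)) (by decide)
      refine .inr ⟨fun ⟨E⟩ => ?_, (hS (B := (powMonoidHom n).range.comap (powMonoidHom 2))
        (fun g μ hg d ζ c e1 e2 => ⟨ζ, hsq g μ hg d ζ c e1 e2⟩) fun c ⟨ζ, hζ⟩ => ?_).trans ?_⟩
      · obtain ⟨η, h5, h6⟩ := exists_projQuot (K := g.Sim.comap glE.toMonoidHom) (K' := g.Sim) fun _ => Iff.rfl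
        obtain ⟨E'⟩ := cent_graph h0 k₀ (LinearEquiv.refl _ _) (K := g.Sim.comap glE.toMonoidHom) fun u => hb (glE u)
        obtain ⟨φ, hφ⟩ := exists_lift_of_surj η h5 ((sqc.comp hg.muH).prod (hg.eps h2 hd (by omega))) fun u hu => by
          obtain ⟨c, hc⟩ := (h6 u).1 hu
          rw [show u = ⟨_, scal_mem_Sim c⟩ from Subtype.ext hc]
          exact Prod.ext (sqc_eq_one.2 ⟨(c : F₀), hg.mu_sc c⟩) (hg.eps_scal h2 hd _ c)
        refine S2702.not_surj h2 (by omega) (φ.comp (E.symm.trans E').toMonoidHom) (Function.Surjective.comp (g := φ) (fun x => ?_)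
          (E.symm.trans E').surjective)
        obtain ⟨μ, hμ⟩ := sqc_surj h2 x.1
        obtain ⟨δ, h7, h8, -⟩ := hg.exists_delta h2 hd (by omega) μ
        obtain ⟨u, hu, hu', -⟩ := hg.exists_dk_spn h2 (by omega) ((hg.eps h2 hd (by omega) ⟨δ, h7⟩)⁻¹ * x.2) 1
        refine ⟨η (⟨δ, h7⟩ * ⟨u, iso_le_Sim hu⟩), (hφ _).trans (Prod.ext ?_ ?_)⟩
        · change sqc (hg.muH _) = _
          rw [map_mul, Nondeg.muH_apply, Nondeg.muH_apply, h8, hg.mu_iso hu, mul_one, hμ]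
        · change hg.eps h2 hd _ _ = _
          rw [map_mul, hg.eps_iso h2 hd _ hu, hu', mul_inv_cancel_left]
      · obtain ⟨d, μ, e1, e2⟩ := hilb hF hσ hq' ζ
        obtain ⟨δ, h7, h8, -, h9⟩ := hg.exists_delta h2 hd (by omega) μ
        have h10 : ∀ x y, δ x ⬝ᵥ k₀.symm (δ y) = μ * (x ⬝ᵥ k₀.symm y) := h8 ▸ mu_B h7
        have h11 : (c.1 : F) ^ 2 = ((d : F) ^ n * φ (LinearEquiv.det δ)) ^ 2 := by
          have := congrArg (fun u : rootsOfUnity (q + 1) F => (u.1 : F)) hζ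
          simp only [powMonoidHom_apply, SubmonoidClass.coe_pow, Units.val_pow_eq_pow_val] at this
          rw [← this, e2, h9, hm]
          simp only [Units.val_pow_eq_pow_val, Units.val_neg, map_pow, map_neg]
          rw [mul_pow _ _ 2, ← pow_mul (-_), mul_comm m 2, (even_two_mul m).neg_pow]
          ring
        rcases sq_eq_sq_iff_eq_or_eq_neg.1 h11 with h | h
        · exact ⟨d, δ, μ, h10, e1, h⟩
        · exact ⟨d, δ * r, μ, fun x y => (h10 _ _).trans (congrArg _ (hr.1 x y)), e1, by rw [h, map_mul, hr2]; simp⟩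
      · have h7 := Subgroup.relIndex_mul_index (H := (powMonoidHom n : rootsOfUnity (q + 1) F →* _).range) (K := (powMonoidHom 2).range)
          (by rintro _ ⟨d, rfl⟩; exact ⟨d ^ m, by simp [hm, pow_mul']⟩)
        have h8 : Nat.gcd 2 (q + 1) = 2 := Nat.gcd_eq_left ho.add_one.two_dvd
        rw [hI, hI, h8] at h7
        rw [Subgroup.index_comap, ← h7, Nat.mul_div_cancel _ two_pos]
        exact Nat.gcd_eq_right ((Dvd.intro _ h7).trans (Nat.gcd_dvd_left _ _))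
    · let g' := mkAlt (fun x y => x ⬝ᵥ k₀.symm y) (by simp) (by simp) s fun x => mul_left_cancel₀ h2 (by linear_combination s x x)
      obtain ⟨h5, h6⟩ := symp_det hm (by omega) (f := g') (kform_nondeg k₀)
      obtain ⟨e, he, -⟩ := Nondeg.symp_isom (f := g') (kform_nondeg k₀) (spF_nondeg m) (by simp; omega)
      have p₁ : ∀ x y, x ⬝ᵥ k₀.symm y = sympForm m F₀ (e x) (e y) := fun x y => (he x y).symm
      refine .inl ⟨cent_graph h0 k₀ e fun g => exists_congr fun c => ⟨fun h x y => ?_, fun h x y => ?_⟩,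
        (hS (B := (powMonoidHom m).range) (fun g μ hg d ζ c e1 e2 => ⟨ζ, hE _ _ ?_⟩) ?_).trans ?_⟩
      · simpa [p₁] using h (e x) (e y)
      · simpa [p₁] using h (e.symm x) (e.symm y)
      · rw [e2, h6 g μ hg, hm]; simp [e1, mul_pow, pow_mul]
      · rintro _ ⟨ζ, rfl⟩
        obtain ⟨d, μ, e1, e2⟩ := hilb hF hσ hq' ζ
        obtain ⟨δ, h7, h8⟩ := h5 μ
        exact ⟨d, δ, μ, h7, e1, by rw [h8, hm]; simp [e2, mul_pow, pow_mul]⟩
      · rw [hI]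
        exact Nat.gcd_eq_right ((Nat.gcd_dvd_left _ _).trans ⟨2, by omega⟩)
  refine ⟨fun ⟨h1, h2, ⟨E⟩⟩ => ((key h1 h2).resolve_right fun h' => h'.1 ⟨E₀.symm.trans E⟩).2,
    fun h => ((key h.1 h.2.1).resolve_left fun ⟨⟨E⟩, _⟩ => h.2.2 ⟨E₀.trans E⟩).2, fun h =>
      (hS (B := (powMonoidHom n).range) (fun g μ hg d ζ c e1 e2 => ?_) ?_).trans (by rw [hI, Nat.gcd_gcd_self_right_left])⟩
  · have h5 := hsq g μ hg d ζ c e1 e2
    rcases Nat.even_or_odd n with he | ⟨m, hm⟩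
    · have h2 : (Nat.card (rootsOfUnity (q + 1) F)).Coprime 2 := by
        rw [hR, Nat.coprime_two_right]
        exact (Nat.not_odd_iff_even.1 fun h' => h ⟨he, h'⟩).add_one
      obtain ⟨a, rfl⟩ := (powCoprime h2).surjective ζ
      exact ⟨a, (powCoprime h2).injective (by simpa [← pow_mul, mul_comm] using h5)⟩
    · refine ⟨c * (ζ ^ m)⁻¹, ?_⟩
      rw [powMonoidHom_apply, mul_pow, inv_pow, ← pow_mul, mul_inv_eq_iff_eq_mul, mul_comm m, pow_mul, h5, ← pow_mul, ← pow_succ',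
        ← hm]
  · rintro _ ⟨d, rfl⟩
    exact ⟨d.1, 1, 1, fun x y => by simp, by simpa [hq'] using (mem_rootsOfUnity_succ hF).1 d.2, by simp⟩

end Cfsg.Agent.S2709
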