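import Cfsg.Statements.S2710
import Cfsg.Agent.H5.GrC

set_option autoImplicit false
open Cfsg

namespace Cfsg.Agent.S2710

open Cfsg.Agent.H4 Cfsg.Agent.H4.CForm Cfsg.Agent.H4.Gam Cfsg.Agent.H5 Module Matrix

theorem mem_dot {F : Type*} [Field F] {n : ℕ} (h2 : (2 : F) ≠ 0) {g} : g ∈ (dotF F n).Sim ↔
    ∃ c : Fˣ, ∀ x y, g x ⬝ᵥ g y = c * (x ⬝ᵥ y) :=
  ⟨fun h => let ⟨c, h0, h1, _⟩ := mem_GamS.1 h; ⟨Units.mk0 c h0, fun x y => mul_left_cancel₀ h2 (by
    simpa [dotF, polar_dot, mul_left_comm] using h1 x y)⟩, fun ⟨c, h⟩ => orth_mem_GamS.2 ⟨c, fun x => h x x⟩⟩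

theorem cg_mem {F V W : Type*} [Field F] [AddCommGroup V] [Module F V] [AddCommGroup W] [Module F W]
    {f : CForm (FType.orth F) V} {f' : CForm (FType.orth F) W} {e : V ≃ₗ[F] W} (h : ∀ x, f'.Q (e x) = f.Q x) {g}
    (hg : g ∈ f'.Sim) : cgE e g ∈ f.Sim :=
  let ⟨c, hc⟩ := orth_mem_GamS.1 hg
  orth_mem_GamS.2 ⟨c, fun x => by simpa [← h] using hc (e x)⟩

/-- Let T = PSU_n(q) with n ≥ 4 divisible by 4 (n = 2m) and q odd, realised over the field F with q² elements, G = Inndiag(T) the image of PGU_n(q), and φ the standard field automorphism of T attached to the q-th power map of F (it induces inverse-transpose on the unitary matrices and is a graph automorphism). Its centralizer in G is isomorphic to the projective conformal orthogonal group of the plus-type form Σ xᵢ yᵢ in dimension n over a field F₀ with q elements. (Dimensions n ≡ 2 (mod 4) are not covered.) -/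
theorem result {F : Type*} [Field F] [Fintype F] {q : ℕ} (hodd : Odd q) (hF : Fintype.card F = q ^ 2) {n m : ℕ} (hm : 2 ≤ m) (hnm : n = 2 * m) (h4 : 4 ∣ n) (F₀ : Type*) [Field F₀] [Fintype F₀] (hF₀ : Fintype.card F₀ = q) (σ : F ≃+* F) (hσ : ∀ a : F, σ a = a ^ q) (φ : MulAut (Cfsg.PSU n F q)) (hφ : Cfsg.IsFieldAutPSUOf σ φ) :
    Nonempty (↥(Cfsg.inndiagPSU n F q ⊓ Subgroup.centralizer {φ}) ≃* Cfsg.PGO F₀ (Cfsg.quadFormPlus m F₀)) := by
  have h3 : 3 ≤ n := by omega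
  have hs : ¬ (n = 3 ∧ q = 2) := by omega
  have h2 : (2 : F₀) ≠ 0 := two_ne_zero_of_odd (hF₀ ▸ hodd)
  have : Nonempty (Fin n) := ⟨⟨0, by omega⟩⟩
  have ho : orderOf σ = 2 := orderOf_eq_prime (RingEquiv.ext fun x => by
    rw [sq, RingAut.mul_apply, hσ, hσ]; exact frobq_frobq hF x) fun e => frobq_ne hF (RingHom.ext fun x => by
      rw [frobq_apply, ← hσ, e]; rfl)
  obtain ⟨ψ, hψ⟩ := exists_fixed_hom σ F₀ (by rw [ho, hF₀, hF])
  have key : ∀ x y, (unF hF n).B (jv ψ (LinearEquiv.refl _ _) x) (jv ψ (LinearEquiv.refl _ _) y) = ψ (x ⬝ᵥ y) := fun x y => by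
    simp only [unF_B, hermForm, jv_refl, cv, dotProduct, map_sum, map_mul]
    exact Finset.sum_congr rfl fun i _ => congrArg _ ((hσ _).symm.trans ((hψ _).2 ⟨_, rfl⟩))
  have k1 : ∀ g ∈ (dotF F₀ n).Sim, bk ψ (LinearEquiv.refl _ _) g ∈ (unF hF n).Sim := fun g hg => by
    obtain ⟨c, hc⟩ := (mem_dot h2).1 hg
    refine (unT_mem_GamS hF).2 ⟨Units.map (ψ : F₀ →* F) c, fun x y => ?_⟩
    simp only [lin_s, lin_ρ, RingAut.one_apply]
    induction x using jv_induction ψ (LinearEquiv.refl F (Fin n → F)) with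
    | h x =>
      induction y using jv_induction ψ (LinearEquiv.refl F (Fin n → F)) with
      | h y => rw [bk_jv, bk_jv, key, key, hc, map_mul]; rfl
      | ha y z h h' => simp only [map_add, h, h', mul_add]
      | hs a y h => simp only [map_smul, B_smul_right, h, mul_left_comm]
    | ha x z h h' => simp only [map_add, LinearMap.add_apply, h, h', mul_add]
    | hs a x h => simp only [map_smul, LinearMap.smul_apply, smul_eq_mul, h, mul_left_comm]
  have k2 : ∀ g, bk ψ (LinearEquiv.refl _ _) g ∈ (unF hF n).Sim → g ∈ (dotF F₀ n).Sim := fun g hg => by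
    obtain ⟨c, hc⟩ := (unT_mem_GamS hF).1 hg
    have h5 : ∀ x y, ψ (g x ⬝ᵥ g y) = c * ψ (x ⬝ᵥ y) := fun x y => by
      have := hc (jv ψ (LinearEquiv.refl _ _) x) (jv ψ (LinearEquiv.refl _ _) y)
      simpa only [lin_s, lin_ρ, RingAut.one_apply, bk_jv, key] using this
    have h6 := h5 (Pi.single ⟨0, by omega⟩ 1) (Pi.single ⟨0, by omega⟩ 1)
    rw [single_dotProduct, Pi.single_eq_same, one_mul, map_one, mul_one] at h6
    refine (mem_dot h2).2 ⟨Units.mk0 (g (Pi.single ⟨0, by omega⟩ 1) ⬝ᵥ g (Pi.single ⟨0, by omega⟩ 1)) fun e => c.ne_zero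
      (by rw [← h6, e, map_zero]), fun x y => ψ.injective ?_⟩
    rw [h5, map_mul, Units.val_mk0, h6]
  have hf : (dotF F₀ n).Nondeg := nondeg_of_gram (Pi.basisFun F₀ _) (by rw [dotF_gram]; exact pow_ne_zero _ h2)
  have hd : finrank F₀ (Fin n → F₀) = 2 * m := by simp [hnm]
  obtain ⟨e, -, he⟩ := hf.isom_plusF hd (by
    rw [hf.plus_iff_disc h2 hd, ← isSquare_mul_gram (Pi.basisFun F₀ _), dotF_gram, hnm, pow_mul', mul_comm,
      isSquare_sq_mul (pow_ne_zero _ h2), Even.neg_one_pow ⟨n / 4, by omega⟩]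
    exact IsSquare.one)
  have he' : ∀ x, (dotF F₀ n).Q (e.symm x) = (plusF F₀ m).Q x := fun x => by rw [← he]; simp
  obtain ⟨η, h5, h6⟩ := exists_projQuot (K := Geo.quadSimilarityGroup (F := F₀) (quadFormPlus m F₀)) (K' := (plusF F₀ m).Sim)
    fun g => mem_quadSim (f := plusF F₀ m)
  rw [← (suM_fld hF h3 hs).1 hφ, inndiagPSU_eq_Sim hF h3 hs]
  refine Mdl.cent_equiv _ le_rfl k1 hψ (orderOf_pos σ) (fld_mem_unF hF n σ)
    (fun c g hg => ⟨1, g, k2 g ((Subgroup.mul_mem_cancel_left _ (scal_mem_Sim c)).1 hg), scal_one_mul g⟩)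
    (η.comp (((cgE e.symm).comp (dotF F₀ n).Sim.subtype).codRestrict _ fun g => cg_mem he' g.2))
    (h5.comp fun g => ⟨⟨cgE e g.1, cg_mem he g.2⟩, Subtype.ext (LinearEquiv.ext fun x => by simp)⟩) fun g => ?_
  refine (h6 _).trans (exists_congr fun c => ⟨fun h => LinearEquiv.ext fun x => e.injective ?_, fun h => LinearEquiv.ext fun x => ?_⟩)
  · simpa using LinearEquiv.congr_fun h (e x)
  · simp [h]

end Cfsg.Agent.S2710
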