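import Cfsg.Statements.S2711
import Cfsg.Agent.H4.Lang5

set_option autoImplicit false
open Cfsg

namespace Cfsg.Agent.S2711

/-- Let T = PSU_n(q) be simple (n ≥ 3, (n,q) ≠ (3,2)), realised over the field F with q² elements, and let x be a field automorphism of T (conjugate to a standard field automorphism of odd order) of prime order r. Then an element y of the coset Inndiag(T)·x (y = δ x with δ in the image of PGU_n(q)) has order r if and only if y is conjugate to x by an element of Inndiag(T). (T has no graph-field automorphisms.) -/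
theorem result {F : Type*} [Field F] [Fintype F] {p f q : ℕ} [Fact p.Prime] (hq : q = p ^ f) (hf : 1 ≤ f) (hF : Fintype.card F = q ^ 2) {n : ℕ} (hn : 3 ≤ n) (hs : ¬ (n = 3 ∧ q = 2)) (x δ : MulAut (Cfsg.PSU n F q)) (hx : Cfsg.IsFieldAutClassPSU x) {r : ℕ} (hr : r.Prime) (hxr : orderOf x = r) (hδ : δ ∈ Cfsg.inndiagPSU n F q) :
    orderOf (δ * x) = r ↔ Cfsg.IsConjUnder (Cfsg.inndiagPSU n F q) x (δ * x) := by
  open Cfsg.Agent.H4 Module Gam in
  have := inndiagPSU_normal hF hn hs
  obtain ⟨α, _, σ, h1, hro, h2, rfl⟩ := hx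
  have h4 := ((suM_fld hF hn hs).1 h2).symm
  have h5 : orderOf σ = r := by
    rw [← (suM hF hn hs).orderOf_gk (k := LinearEquiv.refl _ _) (fld_mem_unF hF n σ), ← hxr]
    exact (congrArg _ h4.symm).trans (MulEquiv.orderOf_eq (MulAut.conj α) x)
  subst h5
  have hF' : Fintype.card F = p ^ (2 * f) := by rw [hF, hq, ← pow_mul, mul_comm]
  have hd : orderOf σ ∣ f := (Nat.coprime_two_right.2 hro).dvd_of_dvd_mul_left (orderOf_dvd_of_card hF' σ)
  obtain ⟨F₀, _, _, φ, hσ, h6⟩ := exists_fixed_field σ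
  have hF₁ : Fintype.card F₀ = (p ^ (f / orderOf σ)) ^ 2 := Nat.pow_left_injective hr.ne_zero (by
    simp only [h6, Nat.card_eq_fintype_card, hF', ← pow_mul]
    rw [mul_right_comm, Nat.div_mul_cancel hd, mul_comm])
  have hT := unT_hom hF hF₁ φ hro (by rw [hq, ← pow_mul, Nat.div_mul_cancel hd])
  exact lang_transfer h4 hxr hδ (su_lang hF hF₁ hn hs hT hσ)

end Cfsg.Agent.S2711
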