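import Cfsg.Statements.S2715
import Cfsg.Agent.H5.OutF

set_option autoImplicit false
open Cfsg

namespace Cfsg.Agent.S2715

/-- Let T = PΩ⁺_{2m}(F) (m ≥ 4, |F| = p^f; the form Σ xᵢ yᵢ), G = Inndiag(T) the image of the class-preserving similarities in Aut(T), and x a field automorphism of T of prime order r. Then r divides f; C_G(x) is isomorphic to Inndiag(PΩ⁺_{2m}(F₀)) for a field F₀ with p^(f/r) elements; and the G-class of x is the union of exactly c T-classes, where c = 1 if r is odd or p = 2, and otherwise (r = 2, p odd) c = 2 when m is odd and p^(f/2) ≡ 1 (mod 4), and c = 4 in the remaining cases. -/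
theorem result {F : Type*} [Field F] [Fintype F] {p f : ℕ} [Fact p.Prime] (hF : Fintype.card F = p ^ f) (hf : 1 ≤ f) {m : ℕ} (hm : 4 ≤ m) (x : MulAut (Cfsg.POmega F (Cfsg.quadFormPlus m F))) (hx : Cfsg.IsFieldAutClassPOmega (Cfsg.quadFormPlus m F) x) {r : ℕ} (hr : r.Prime) (hxr : orderOf x = r) (F₀ : Type*) [Field F₀] [Fintype F₀] (hF₀ : Fintype.card F₀ = p ^ (f / r)) :
    r ∣ f ∧ Nonempty (↥(Cfsg.inndiagPOmegaPlus m F ⊓ Subgroup.centralizer {x}) ≃* ↥(Cfsg.inndiagPOmegaPlus m F₀)) ∧ ((Odd r ∨ p = 2) → Cfsg.splitClassCount (Cfsg.inndiagPOmegaPlus m F) (Cfsg.Inn (Cfsg.POmega F (Cfsg.quadFormPlus m F))) x = 1) ∧ ((r = 2 ∧ p ≠ 2 ∧ Odd m ∧ p ^ (f / 2) % 4 = 1) → Cfsg.splitClassCount (Cfsg.inndiagPOmegaPlus m F) (Cfsg.Inn (Cfsg.POmega F (Cfsg.quadFormPlus m F))) x = 2) ∧ ((r = 2 ∧ p ≠ 2 ∧ ¬ (Odd m ∧ p ^ (f / 2) % 4 = 1)) → Cfsg.splitClassCount (Cfsg.inndiagPOmegaPlus m F) (Cfsg.Inn (Cfsg.POmega F (Cfsg.quadFormPlus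 m F))) x = 4) := by
  open Cfsg.Agent.H4 Module Gam in
  have hn := plusF_nondeg (F := F) m
  have h7 : 7 ≤ Fintype.card (Fin m ⊕ Fin m) := by simp; omega
  have h5 : 5 ≤ finrank F (Fin m ⊕ Fin m → F) := by simp; omega
  have hd : finrank F (Fin m ⊕ Fin m → F) = 2 * m := by simp; omega
  have hN : ((omM hn h7).im ((hn.SimP hd h5).map lin)).Normal := by
    by_cases h4 : m = 4
    · subst h4; exact H5.om4_normal h7 hd h5
    · exact hn.im_SimP_normal hd h5 (omM hn h7) (omM_surj hn h7 fun h => by simp at h; omega)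
  obtain ⟨α, σ, h1, h3, h4⟩ := om_fld_class hn h7 (fld_mem_plusF m) hx
  obtain rfl := h4.trans hxr
  obtain ⟨φ, hσ⟩ := exists_fixed_hom' hF σ hF₀
  have h := plusF_ext φ m
  have he := orderOf_dvd_of_card hF σ
  have hq : Fintype.card F₀ ^ orderOf σ = Fintype.card F := by rw [hF₀, hF, ← pow_mul, Nat.div_mul_cancel he]
  have hp : p ≠ 2 → (2 : F) ≠ 0 := fun hp =>
    two_ne_zero_of_odd (hF ▸ ((Fact.out : p.Prime).odd_of_ne_two hp).pow)
  have hs := split_transfer ((omM hn h7).Inn_le (hn.SimP_le hd h5) (hn.E_le_SimP hd h5)) h3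
  have hs2 := fun (e : orderOf σ = 2) h2 => hs.trans (plus_split_fld (by omega) (omM hn h7) hσ (e ▸ hq) h2 hd h5)
  rw [inndiagPOmegaPlus_eq h7 hd h5, inndiagPOmegaPlus_eq (F := F₀) h7 (by simp; omega) (by simp; omega)]
  refine ⟨he, cent_transfer h3 (h.even_cent hn _ h5 hσ hd _), ?_,
    fun g => (hs2 g.1 (hp g.2.1)).trans (if_pos (by rw [hF₀, g.1]; exact g.2.2)),
    fun g => (hs2 g.1 (hp g.2.1)).trans (if_neg (by rw [hF₀, g.1]; exact g.2.2))⟩
  rintro (ho | rfl)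
  · exact hs.trans (h.even_split_odd hn _ h5 hσ hd hq ho)
  · have h2 : (2 : F) = 0 := by
      have := FiniteField.cast_card_eq_zero F
      rw [hF] at this
      exact pow_eq_zero_iff (n := f) (by omega) |>.1 (by exact_mod_cast this)
    have h4 := hn.im_SimP_two hd h5 (omM hn h7) h2
    rw [h4] at hN ⊢
    exact @splitClassCount_self _ _ _ hN _

end Cfsg.Agent.S2715
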