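import Cfsg.Statements.S2716
import Cfsg.Agent.H4.Lang7

set_option autoImplicit false
open Cfsg

namespace Cfsg.Agent.S2716

/-- Let T = PΩ⁻_{2m+2}(F) (m ≥ 3, |F| = p^f; the form Σ xᵢ yᵢ + z₁² + a z₁ z₂ + b z₂² with anisotropic binary part), G = Inndiag(T), and x a field automorphism of T of prime order r. Then r is odd and divides f; C_G(x) is isomorphic to Inndiag(PΩ⁻_{2m+2}(F₀)) for a field F₀ with p^(f/r) elements and some anisotropic binary part over F₀; and the G-class of x is a single T-class. -/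
theorem result {F : Type*} [Field F] [Fintype F] {p f : ℕ} [Fact p.Prime] (hF : Fintype.card F = p ^ f) (hf : 1 ≤ f) {m : ℕ} (hm : 3 ≤ m) (a b : F) (hab : (∀ z₁ z₂ : F, z₁ ^ 2 + a * z₁ * z₂ + b * z₂ ^ 2 = 0 → z₁ = 0 ∧ z₂ = 0)) (x : MulAut (Cfsg.POmega F (Cfsg.quadFormMinus m F a b))) (hx : Cfsg.IsFieldAutClassPOmegaMinus m x) {r : ℕ} (hr : r.Prime) (hxr : orderOf x = r) (F₀ : Type*) [Field F₀] [Fintype F₀] (hF₀ : Fintype.card F₀ = p ^ (f / r)) :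
    Odd r ∧ r ∣ f ∧ (∃ a₀ b₀ : F₀, (∀ z₁ z₂ : F₀, z₁ ^ 2 + a₀ * z₁ * z₂ + b₀ * z₂ ^ 2 = 0 → z₁ = 0 ∧ z₂ = 0) ∧ Nonempty (↥(Cfsg.inndiagPOmegaMinus m F a b ⊓ Subgroup.centralizer {x}) ≃* ↥(Cfsg.inndiagPOmegaMinus m F₀ a₀ b₀))) ∧ Cfsg.splitClassCount (Cfsg.inndiagPOmegaMinus m F a b) (Cfsg.Inn (Cfsg.POmega F (Cfsg.quadFormMinus m F a b))) x = 1 := by
  open Cfsg.Agent.H4 Module Gam in
  have hn := minusF_nondeg m hab
  have h7 : 7 ≤ Fintype.card ((Fin m ⊕ Fin m) ⊕ Fin 2) := by simp; omega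
  have h5 : 5 ≤ finrank F ((Fin m ⊕ Fin m) ⊕ Fin 2 → F) := by simp; omega
  have hd : finrank F ((Fin m ⊕ Fin m) ⊕ Fin 2 → F) = 2 * (m + 1) := by simp; omega
  obtain ⟨γ, h3, h1, h2⟩ := exists_minus_fld hab h7 hx
  obtain rfl := orderOf_eq_of_prime hr h1 ((omM hn h7).pow_ρ_eq_one
    (conj_pow_eq_one (α := 1) (((mul_one _).trans (one_mul _)).trans h3.symm) hxr)).2
  have ho : Odd (orderOf γ.1.ρ) := hr.odd_of_ne_two fun h =>
    minusF_not_sq (by omega) hab γ.2 h1 (by have h4 := h2; rw [h] at h4; rw [h4]; exact one_mem _)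
  obtain ⟨φ, hσ⟩ := exists_fixed_hom' hF γ.1.ρ hF₀
  obtain ⟨d, k, f₀, l, k1, h⟩ := hn.lang (ι := (Fin m ⊕ Fin m) ⊕ Fin 2) (FType.orth_hom φ) (by simp) γ.2
    hσ (h2 ▸ one_mem _)
  obtain ⟨a₀, b₀, hab₀⟩ := exists_aniso F₀
  obtain ⟨g, hg⟩ := h.isom ((h.nondeg hn).isom_minusF (m := m) (by simp; omega) (by
    have := h.wi_le
    rw [minusF_wi m hab] at this
    omega) hab₀).symm
  have e : (omM hn h7).Φ ⟨_, hg.gk_mem hσ⟩ = x :=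
    ((omM hn h7).Φ_eq_iff.2 ⟨d, by rw [k1]; exact gk_trans k hσ g⟩).trans h3
  rw [inndiagPOmegaMinus_eq hab h7 hd h5, ← e]
  refine ⟨ho, orderOf_dvd_of_card hF _, ⟨a₀, b₀, hab₀, ?_⟩, hg.even_split_odd hn _ h5 hσ hd
    (by rw [hF₀, hF, ← pow_mul, Nat.div_mul_cancel (orderOf_dvd_of_card hF _)]) ho⟩
  rw [inndiagPOmegaMinus_eq hab₀ h7 (by simp; omega) (by simp; omega)]
  exact hg.even_cent hn _ h5 hσ hd _

end Cfsg.Agent.S2716
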