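import Cfsg.Statements.S2717
import Cfsg.Agent.H4.Lang7

set_option autoImplicit false
open Cfsg

namespace Cfsg.Agent.S2717

/-- Let T = PΩ⁺_{2m}(F) with m ≥ 5 (dimension 2m ≠ 8) and |F| = p^f, G = Inndiag(T), and x an involutory graph-field automorphism of T. Then f is even; any two involutory graph-field automorphisms of T are G-conjugate; C_G(x) is isomorphic to Inndiag(PΩ⁻_{2m}(F₀)) for a field F₀ with p^(f/2) elements (some anisotropic binary part over F₀); and the G-class of x is the union of exactly c T-classes with c = 1 if p = 2, c = 4 if p is odd, m is odd and p^(f/2) ≡ 1 (mod 4), and c = 2 otherwise. -/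
theorem result {F : Type*} [Field F] [Fintype F] {p f : ℕ} [Fact p.Prime] (hF : Fintype.card F = p ^ f) (hf : 1 ≤ f) {m : ℕ} (hm : 5 ≤ m) (x : MulAut (Cfsg.POmega F (Cfsg.quadFormPlus m F))) (hx : Cfsg.IsGraphFieldAutClassPOmegaPlus m x) (hx2 : orderOf x = 2) (F₀ : Type*) [Field F₀] [Fintype F₀] (hF₀ : Fintype.card F₀ = p ^ (f / 2)) :
    Even f ∧ (∀ y : MulAut (Cfsg.POmega F (Cfsg.quadFormPlus m F)), Cfsg.IsGraphFieldAutClassPOmegaPlus m y → orderOf y = 2 → Cfsg.IsConjUnder (Cfsg.inndiagPOmegaPlus m F) x y) ∧ (∃ a₀ b₀ : F₀, (∀ z₁ z₂ : F₀, z₁ ^ 2 + a₀ * z₁ * z₂ + b₀ * z₂ ^ 2 = 0 → z₁ = 0 ∧ z₂ = 0) ∧ Nonempty (↥(Cfsg.inndiagPOmegaPlus m F ⊓ Subgroup.centralizer {x}) ≃* ↥(Cfsg.inndiagPOmegaMinus (m - 1) F₀ a₀ b₀))) ∧ (p = 2 → Cfsg.splitClassCount (Cfsg.inndiagPOmegaPlus m F) (Cfsg.Inn (Cfsg.POmega F (Cfsg.quadFormPlus m F))) x = 1) ∧ ((p ≠ 2 ∧ Odd m ∧ p ^ (f / 2) % 4 =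 1) → Cfsg.splitClassCount (Cfsg.inndiagPOmegaPlus m F) (Cfsg.Inn (Cfsg.POmega F (Cfsg.quadFormPlus m F))) x = 4) ∧ ((p ≠ 2 ∧ ¬ (Odd m ∧ p ^ (f / 2) % 4 = 1)) → Cfsg.splitClassCount (Cfsg.inndiagPOmegaPlus m F) (Cfsg.Inn (Cfsg.POmega F (Cfsg.quadFormPlus m F))) x = 2) := by
  open Cfsg.Agent.H4 Module Gam in
  obtain ⟨m, rfl⟩ : ∃ n, m = n + 1 := ⟨m - 1, by omega⟩
  have hn := plusF_nondeg (F := F) (m + 1)
  have h7 : 7 ≤ Fintype.card (Fin (m + 1) ⊕ Fin (m + 1)) := by simp; omega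
  have h5 : 5 ≤ finrank F (Fin (m + 1) ⊕ Fin (m + 1) → F) := by simp; omega
  have hd : finrank F (Fin (m + 1) ⊕ Fin (m + 1) → F) = 2 * (m + 1) := by simp; omega
  have hN := hn.im_SimP_normal hd h5 (omM hn h7) (omM_surj hn h7 fun h => by simp at h; omega)
  obtain ⟨γ, rfl, h1, h2, h3⟩ := om_graph_class' hm h7 hd hx hx2
  have he : 2 ∣ f := h1 ▸ orderOf_dvd_of_card hF _
  obtain ⟨φ, hσ⟩ := exists_fixed_hom' hF γ.1.ρ (h1 ▸ hF₀)
  have hr : Fintype.card F₀ ^ 2 = Fintype.card F := by rw [hF₀, hF, ← pow_mul, Nat.div_mul_cancel he]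
  obtain ⟨a₀, b₀, hab₀⟩ := exists_aniso F₀
  obtain ⟨d, k, l, k1, h⟩ := plus_graph_ext (φ := φ) hσ (by rw [h1, h2]; exact one_mem _) hd h3 hab₀
  have e : (omM hn h7).Φ ⟨_, h.gk_mem hσ⟩ = (omM hn h7).Φ γ := (omM hn h7).Φ_eq_iff.2 ⟨d, k1.symm⟩
  have hs := fun h2' => plus_split_graph (by omega) hσ hr h2' (omM hn h7) hd h5 hN rfl h1
    (h2 ▸ one_mem _) h3
  have hp : p ≠ 2 → (2 : F) ≠ 0 := fun hp =>
    two_ne_zero_of_odd (hF ▸ ((Fact.out : p.Prime).odd_of_ne_two hp).pow)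
  rw [inndiagPOmegaPlus_eq h7 hd h5]
  refine ⟨even_iff_two_dvd.2 he, fun y hy hy2 => ?_, ⟨a₀, b₀, hab₀, ?_⟩, ?_,
    fun h => (hs (hp h.1)).trans (if_pos (hF₀ ▸ h.2)), fun h => (hs (hp h.1)).trans (if_neg (hF₀ ▸ h.2))⟩
  · obtain ⟨γ', rfl, g1, g2, g3⟩ := om_graph_class' hm h7 hd hy hy2
    obtain ⟨d, s, hs, e⟩ := hn.lang_even hd h5 γ.2 γ'.2 (eq_of_sq_eq_one (by rintro h; simp [h] at g1)
      (g1 ▸ pow_orderOf_eq_one _) (by rintro h; simp [h] at h1) (h1 ▸ pow_orderOf_eq_one _))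
      (by rw [h1, h2]; exact one_mem _) (by rw [h1, g2]; exact one_mem _) fun _ => g3.trans h3.symm
    exact (omM hn h7).isConj_of (hn.SimP_le hd h5) hs e
  · rw [← e]
    erw [inndiagPOmegaMinus_eq (m := m) hab₀ (by simp; omega) (by simp; omega) (by simp; omega)]
    exact h.even_cent hn _ h5 hσ hd _
  · rintro rfl
    have h2 : (2 : F) = 0 := by
      have := FiniteField.cast_card_eq_zero F
      rw [hF] at this
      exact pow_eq_zero_iff (n := f) (by omega) |>.1 (by exact_mod_cast this)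
    have h4 := hn.im_SimP_two hd h5 (omM hn h7) h2
    rw [h4] at hN ⊢
    exact @splitClassCount_self _ _ _ hN _

end Cfsg.Agent.S2717
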