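import Cfsg.Statements.S2718
import Cfsg.Agent.H5.GrO

set_option autoImplicit false
open Cfsg

namespace Cfsg.Agent.S2718

/-- Let T = PΩ⁺_{2m}(F) with m ≥ 4 and |F| = q odd, G = Inndiag(T), and γ an involutory graph automorphism of T induced by a similarity (one interchanging the two classes of maximal totally singular subspaces). Then the G-class of γ is either a single T-class or the union of exactly two T-classes, and it is the union of two unless m is odd and q ≡ 3 (mod 4). -/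
theorem result {F : Type*} [Field F] [Fintype F] (hodd : Odd (Fintype.card F)) {m : ℕ} (hm : 4 ≤ m) (γ : MulAut (Cfsg.POmega F (Cfsg.quadFormPlus m F))) (hγ : Cfsg.IsSimilarityGraphAutPOmegaPlus m γ) (hγ2 : orderOf γ = 2) :
    (Cfsg.splitClassCount (Cfsg.inndiagPOmegaPlus m F) (Cfsg.Inn (Cfsg.POmega F (Cfsg.quadFormPlus m F))) γ = 1 ∨ Cfsg.splitClassCount (Cfsg.inndiagPOmegaPlus m F) (Cfsg.Inn (Cfsg.POmega F (Cfsg.quadFormPlus m F))) γ = 2) ∧ (¬ (Odd m ∧ Fintype.card F % 4 = 3) → Cfsg.splitClassCount (Cfsg.inndiagPOmegaPlus m F) (Cfsg.Inn (Cfsg.POmega F (Cfsg.quadFormPlus m F))) γ = 2) := by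
  open Cfsg.Agent.H4 Module Gam in
  have hn := plusF_nondeg (F := F) m
  have h7 : 7 ≤ Fintype.card (Fin m ⊕ Fin m) := by simp; omega
  have h5 : 5 ≤ finrank F (Fin m ⊕ Fin m → F) := by simp; omega
  have hd : finrank F (Fin m ⊕ Fin m → F) = 2 * m := by simp; omega
  have h2 := two_ne_zero_of_odd hodd
  obtain ⟨g, hg, h1, h3⟩ := hγ
  have hg' := (mem_quadSim (f := plusF F m)).1 hg
  obtain rfl := (omM_lin hn h7 hg').1 h3
  rw [inndiagPOmegaPlus_eq h7 hd h5]
  have := H5.graph_split hn h2 h5 (omM hn h7) hd (g := ⟨glE g, hg'⟩)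
    (fun e => h1 ((hn.preserves_iff hd h5 (plusF_wi m) hg').2 e)) (hγ2 ▸ pow_orderOf_eq_one _)
  exact ⟨this.1, fun h => this.2 ((plusF_neg_mem_E hodd (by omega)).2 h)⟩

end Cfsg.Agent.S2718
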