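import Cfsg.Statements.S2719
import Cfsg.Agent.H5.GrP

set_option autoImplicit false
open Cfsg

namespace Cfsg.Agent.S2719

/-- Let T = PΩ⁻_{2m+2}(F) with m ≥ 3 and |F| = q odd (form with anisotropic binary part z₁² + a z₁ z₂ + b z₂²), G = Inndiag(T), and γ an involutory graph automorphism of T (an automorphism in the image of the semisimilarity group, not inner-diagonal, of order 2). Then the G-class of γ is either a single T-class or the union of exactly two T-classes, and it is the union of two unless m is even and q ≡ 1 (mod 4). -/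
theorem result {F : Type*} [Field F] [Fintype F] (hodd : Odd (Fintype.card F)) {m : ℕ} (hm : 3 ≤ m) (a b : F) (hab : (∀ z₁ z₂ : F, z₁ ^ 2 + a * z₁ * z₂ + b * z₂ ^ 2 = 0 → z₁ = 0 ∧ z₂ = 0)) (γ : MulAut (Cfsg.POmega F (Cfsg.quadFormMinus m F a b))) (hγ : Cfsg.IsGraphAutClassPOmegaMinus m a b γ) (hγ2 : orderOf γ = 2) :
    (Cfsg.splitClassCount (Cfsg.inndiagPOmegaMinus m F a b) (Cfsg.Inn (Cfsg.POmega F (Cfsg.quadFormMinus m F a b))) γ = 1 ∨ Cfsg.splitClassCount (Cfsg.inndiagPOmegaMinus m F a b) (Cfsg.Inn (Cfsg.POmega F (Cfsg.quadFormMinus m F a b))) γ = 2) ∧ (¬ (Even m ∧ Fintype.card F % 4 = 1) → Cfsg.splitClassCount (Cfsg.inndiagPOmegaMinus m F a b) (Cfsg.Inn (Cfsg.POmega F (Cfsg.quadFormMinus m F a b))) γ = 2) := by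
  open Cfsg.Agent.H4 Module Gam in
  have hn := minusF_nondeg m hab
  have h7 : 7 ≤ Fintype.card ((Fin m ⊕ Fin m) ⊕ Fin 2) := by simp; omega
  have h5 : 5 ≤ finrank F ((Fin m ⊕ Fin m) ⊕ Fin 2 → F) := by simp; omega
  have hd : finrank F ((Fin m ⊕ Fin m) ⊕ Fin 2 → F) = 2 * (m + 1) := by simp; omega
  have h2 := two_ne_zero_of_odd hodd
  obtain ⟨h3, h1, -⟩ := hγ
  obtain ⟨⟨s, hs⟩, rfl⟩ := (gammaPOmega_eq hn h7).le h3
  have ho : (omM hn h7).Φ ⟨s, hs⟩ ^ 2 = 1 := orderOf_dvd_iff_pow_eq_one.1 (dvd_of_eq hγ2)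
  obtain ⟨γ₀, e1, -, w, e2, e3⟩ := exists_minus_gam m hab
  obtain ⟨g, rfl⟩ := exists_lin (a := s) (by_contra fun h =>
    hn.not_sq_mem hd h5 γ₀ e1 e2 e3 hs h ((omM hn h7).pow_ρ_eq_one ho).1)
  rw [inndiagPOmegaMinus_eq hab h7 hd h5] at h1 ⊢
  have h4 : hn.sg hd h5 ⟨g, hs⟩ ≠ 1 := fun e => h1 ⟨_, ⟨g, (hn.mem_SimP hd h5).2 ⟨hs, e⟩, rfl⟩, rfl⟩
  have := H5.graph_split hn h2 h5 (omM hn h7) hd (g := ⟨g, hs⟩) h4 ho
  refine ⟨this.1, fun h => ?_⟩
  by_cases he : Even m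
  · exact this.2 ((minusF_neg_mem_E hodd (by omega) hab).2 ⟨he, by
      have := Nat.odd_iff.1 hodd
      have := mt (And.intro he) h
      omega⟩)
  · exact H5.graph_split_even hn h2 h5 (omM hn h7) hd (Nat.even_add_one.2 he) (by rw [minusF_wi m hab]; omega)
      (fun h => he ((minusF_neg_mem_E hodd (by omega) hab).1 h).1) (g := ⟨g, hs⟩) h4 ho

end Cfsg.Agent.S2719
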