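import Cfsg.Statements.S2722
import Cfsg.Agent.H4.Aut13

set_option autoImplicit false
open Cfsg

namespace Cfsg.Agent.S2722

/-- Let T = PΩ⁺_{2m}(F) with m ≥ 4 and |F| = q odd. Inside Aut(T), the image G̃ of the conformal orthogonal group of the form modulo the image of the special orthogonal group is elementary abelian of order 4. -/
theorem result {F : Type*} [Field F] [Fintype F] (hodd : Odd (Fintype.card F)) {m : ℕ} (hm : 4 ≤ m) :
    (∃ φ : ↥(Cfsg.pgoAut F (Cfsg.quadFormPlus m F)) →* Multiplicative (ZMod 2 × ZMod 2), Function.Surjective φ ∧ φ.ker = (Cfsg.psoAut F (Cfsg.quadFormPlus m F)).subgroupOf (Cfsg.pgoAut F (Cfsg.quadFormPlus m F))) := by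
  open Cfsg.Agent.H4 Module in
  have hn := plusF_nondeg (F := F) m
  have h7 : 7 ≤ Fintype.card (Fin m ⊕ Fin m) := by simp; omega
  have h := hn.exists_pgo_hom (by simp; omega) (omM hn h7) (two_ne_zero_of_odd hodd)
    (m := m) (by simp; omega)
  rw [← Lin_quadSim, ← Lin_special, ← pgoAut_eq, ← psoAut_eq] at h
  obtain ⟨φ, h1, h2⟩ := h
  obtain ⟨e⟩ := nonempty_units_prod_equiv
  exact ⟨e.toMonoidHom.comp φ, e.surjective.comp h1,
    (MonoidHom.ker_comp_of_injective _ _ e.injective).trans h2⟩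

end Cfsg.Agent.S2722
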