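import Cfsg.Statements.S2723
import Cfsg.Agent.H4.Aut13

set_option autoImplicit false
open Cfsg

namespace Cfsg.Agent.S2723

/-- Let T = PΩ⁺_{2m}(F) with m ≥ 4 and |F| = q odd. The image of the special orthogonal group in Aut(T) contains the inner automorphism group T with index 1 (they coincide) when m is odd and q ≡ 3 (mod 4), and with index 2 otherwise (the index is 2 exactly when the discriminant of the form is a square). -/
theorem result {F : Type*} [Field F] [Fintype F] (hodd : Odd (Fintype.card F)) {m : ℕ} (hm : 4 ≤ m) :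
    ((Odd m ∧ Fintype.card F % 4 = 3) → (Cfsg.Inn (Cfsg.POmega F (Cfsg.quadFormPlus m F))).relIndex (Cfsg.psoAut F (Cfsg.quadFormPlus m F)) = 1) ∧ (¬ (Odd m ∧ Fintype.card F % 4 = 3) → (Cfsg.Inn (Cfsg.POmega F (Cfsg.quadFormPlus m F))).relIndex (Cfsg.psoAut F (Cfsg.quadFormPlus m F)) = 2) := by
  open Cfsg.Agent.H4 Module in
  have hn := plusF_nondeg (F := F) m
  have h7 : 7 ≤ Fintype.card (Fin m ⊕ Fin m) := by simp; omega
  have h := hn.card_SO (by simp; omega) (omM hn h7) (two_ne_zero_of_odd hodd) (m := m) (by simp; omega)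
  rw [Mdl.range_κ, ← relIndex_eq_card_map, ← Lin_special, ← psoAut_eq,
    plusF_neg_mem_E hodd (by omega)] at h
  exact ⟨fun h' => h.trans (if_neg (not_not.2 h')), fun h' => h.trans (if_pos h')⟩

end Cfsg.Agent.S2723
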