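import Cfsg.Statements.S2725
import Cfsg.Agent.H4.Lang6

set_option autoImplicit false
open Cfsg

namespace Cfsg.Agent.S2725

/-- Let T = PΩ⁺_{2m}(F) with m ≥ 4 and |F| = q odd. The inner-diagonal group G = Inndiag(T) (image of the class-preserving similarities) taken modulo the inner automorphism group T is cyclic of order 2 when m is odd and q ≡ 3 (mod 4), cyclic of order 4 when m is odd and q ≡ 1 (mod 4), and elementary abelian of order 4 when m is even. -/
theorem result {F : Type*} [Field F] [Fintype F] (hodd : Odd (Fintype.card F)) {m : ℕ} (hm : 4 ≤ m) :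
    ((Odd m ∧ Fintype.card F % 4 = 3) → (∃ φ : ↥(Cfsg.inndiagPOmegaPlus m F) →* Multiplicative (ZMod 2), Function.Surjective φ ∧ φ.ker = (Cfsg.Inn (Cfsg.POmega F (Cfsg.quadFormPlus m F))).subgroupOf (Cfsg.inndiagPOmegaPlus m F))) ∧ ((Odd m ∧ Fintype.card F % 4 = 1) → (∃ φ : ↥(Cfsg.inndiagPOmegaPlus m F) →* Multiplicative (ZMod 4), Function.Surjective φ ∧ φ.ker = (Cfsg.Inn (Cfsg.POmega F (Cfsg.quadFormPlus m F))).subgroupOf (Cfsg.inndiagPOmegaPlus m F))) ∧ (Even m → (∃ φ : ↥(Cfsg.inndiagPOmegaPlus m F) →* Multiplicative (ZMod 2 × ZMod 2), Function.Surjective φ ∧ φ.ker = (Cfsg.Inn (Cfsg.POmega F (Cfsg.quadFormPlus m F))).subgroupOf (Cfsg.inndiagPOmegaPlus m F))) := by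
  open Cfsg.Agent.H4 Module in
  have hn := plusF_nondeg (F := F) m
  have h7 : 7 ≤ Fintype.card (Fin m ⊕ Fin m) := by simp; omega
  have h5 : 5 ≤ finrank F (Fin m ⊕ Fin m → F) := by simp; omega
  have hd : finrank F (Fin m ⊕ Fin m → F) = 2 * m := by simp; omega
  have h2 := two_ne_zero_of_odd hodd
  have h1 := hn.eps_ker_two h5 (omM hn h7) h2 hd
  have h3 := hn.eps_ker_four h5 (omM hn h7) h2 hd
  have h4 := hn.eps_ker_klein h5 (omM hn h7) h2 hd
  rw [← hn.sg_eq_eps hd h5 h2, ← hn.range_SimP hd h5, Mdl.range_κ, ← inndiagPOmegaPlus_eq,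
    plusF_neg_mem_E hodd (by omega)] at h1 h3 h4
  exact ⟨fun h => exists_hom_of_map_equiv (h1 (not_not.2 h)),
    fun h => exists_hom_of_map_equiv (h3 (by omega) h.1),
    fun h => exists_hom_of_map_equiv (h4 (fun h' => Nat.not_odd_iff_even.2 h h'.1) h)⟩

end Cfsg.Agent.S2725
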