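import Cfsg.Statements.S2726
import Cfsg.Agent.H4.Aut13

set_option autoImplicit false
open Cfsg

namespace Cfsg.Agent.S2726

/-- Let T = PΩ⁻_{2m+2}(F) with m ≥ 3 and |F| = q odd (form with anisotropic binary part). Inside Aut(T), the image G̃ of the conformal orthogonal group of the form modulo the image of the special orthogonal group is elementary abelian of order 4. -/
theorem result {F : Type*} [Field F] [Fintype F] (hodd : Odd (Fintype.card F)) {m : ℕ} (hm : 3 ≤ m) (a b : F) (hab : (∀ z₁ z₂ : F, z₁ ^ 2 + a * z₁ * z₂ + b * z₂ ^ 2 = 0 → z₁ = 0 ∧ z₂ = 0)) :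
    (∃ φ : ↥(Cfsg.pgoAut F (Cfsg.quadFormMinus m F a b)) →* Multiplicative (ZMod 2 × ZMod 2), Function.Surjective φ ∧ φ.ker = (Cfsg.psoAut F (Cfsg.quadFormMinus m F a b)).subgroupOf (Cfsg.pgoAut F (Cfsg.quadFormMinus m F a b))) := by
  open Cfsg.Agent.H4 Module in
  have hn := minusF_nondeg m hab
  have h7 : 7 ≤ Fintype.card ((Fin m ⊕ Fin m) ⊕ Fin 2) := by simp; omega
  have h := hn.exists_pgo_hom (by simp; omega) (omM hn h7) (two_ne_zero_of_odd hodd)
    (m := m + 1) (by simp; omega)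
  rw [← Lin_quadSim, ← Lin_special, ← pgoAut_eq, ← psoAut_eq] at h
  obtain ⟨φ, h1, h2⟩ := h
  obtain ⟨e⟩ := nonempty_units_prod_equiv
  exact ⟨e.toMonoidHom.comp φ, e.surjective.comp h1,
    (MonoidHom.ker_comp_of_injective _ _ e.injective).trans h2⟩

end Cfsg.Agent.S2726
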