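import Cfsg.Statements.S2734
import Cfsg.Agent.H5.Fold

set_option autoImplicit false
open Cfsg

namespace Cfsg.Agent.S2734

/-- In the Chevalley group of type D₄ over a finite field F (the matrix group generated by the root elements), a graph automorphism attached to a symmetry π of the Dynkin diagram (sending each fundamental root element x_p(t) to x_{π(p)}(t) and each x_{−p}(t) to x_{−π(p)}(t)) that has order 3 — a standard triality graph automorphism, π being a 3-cycle of the three outer nodes — has fixed-point subgroup isomorphic to the Chevalley group of type G₂ over F. -/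
theorem result {F : Type*} [Field F] [Fintype F] (τ : MulAut ↥(Cfsg.Lie.chevD4.group F)) (hτ : Cfsg.Lie.chevD4.IsGraphAut τ) (hτ3 : orderOf τ = 3) :
    Nonempty (↥(MonoidHom.eqLocus τ.toMonoidHom (MonoidHom.id ↥(Cfsg.Lie.chevD4.group F))) ≃* ↥(Cfsg.Lie.chevG2.group F)) := by
  obtain ⟨π, hπ, h⟩ := H5.rsD4.isGraphAut_iff.1 hτ
  simp only [H5.graphExp_D4, pow_one] at h
  obtain ⟨e, -⟩ := H5.equivG2 F
  have h3 : τ ^ 3 = 1 := hτ3 ▸ pow_orderOf_eq_one τ
  have h2 : π * π ≠ 1 := fun e => by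
    have : τ ^ 2 = 1 := MulEquiv.toMonoidHom_injective (H5.StN.hom_ext_sim (H5.rsD4.adj_gen F)
      (fun i t => by simp [sq, (h _ _).1, ← Equiv.Perm.mul_apply, e]) fun i t => by simp [sq, (h _ _).2, ← Equiv.Perm.mul_apply, e])
    exact absurd (hτ3 ▸ orderOf_dvd_of_pow_eq_one this) (by decide)
  have key : ∀ τ' : MulAut (Cfsg.Lie.chevD4.group F), (∀ g, τ' g = g ↔ τ g = g) → (∀ i t,
      τ' ((H5.rsD4.adj F).x (H5.rsD4.sim i) t) = (H5.rsD4.adj F).x (H5.rsD4.sim (H5.symD4_2130.ρ₀ i)) t ∧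
      τ' ((H5.rsD4.adj F).x (H5.rsD4.neg (H5.rsD4.sim i)) t) =
        (H5.rsD4.adj F).x (H5.rsD4.neg (H5.rsD4.sim (H5.symD4_2130.ρ₀ i))) t) →
      Nonempty (↥(MonoidHom.eqLocus τ.toMonoidHom (MonoidHom.id _)) ≃* ↥(Cfsg.Lie.chevG2.group F)) := fun τ' h4 h => by
    have : τ'.toMonoidHom = (H5.tw3D4 (RingHom.id F)).σ := H5.StN.hom_ext_sim (H5.rsD4.adj_gen F)
      (fun i t => (h i t).1.trans (H5.tw3D4_x (RingHom.id F) i t).1.symm)
      fun i t => (h i t).2.trans (H5.tw3D4_x (RingHom.id F) i t).2.symm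
    refine ⟨(MulEquiv.subgroupCongr (Eq.trans (Subgroup.ext fun g => ?_) (H5.fix3D4 fun _ => rfl))).trans e.symm⟩
    rw [H5.StN.Tw.mem_Fix, ← this]; exact (h4 g).symm
  have h5 : π = H5.symD4_2130.ρ₀ ∨ π * π = H5.symD4_2130.ρ₀ := by
    have := H5.rsD4.sym_mem H5.symsD4 hπ
    revert this h2 π
    exact fun π _ _ => (by decide +kernel : ∀ π : Equiv.Perm (H5.I Cfsg.Lie.chevD4), π * π ≠ 1 →
      (List.finRange _).map (fun i => (π i : ℕ)) ∈
      [[0, 1, 2, 3], [0, 1, 3, 2], [2, 1, 0, 3], [2, 1, 3, 0], [3, 1, 0, 2], [3, 1, 2, 0]] →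
        π = H5.symD4_2130.ρ₀ ∨ π * π = H5.symD4_2130.ρ₀) π
  rcases h5 with rfl | h5
  · exact key τ (fun _ => Iff.rfl) h
  · refine key (τ * τ) (fun g => ⟨fun hg => ?_, fun hg => by simp [hg]⟩) fun i t => by simp [← h5, (h _ _).1, (h _ _).2]
    rw [← hg, ← MulAut.mul_apply, ← pow_three, h3, hg]; rfl

end Cfsg.Agent.S2734
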