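import Cfsg.Statements.S2736
import Cfsg.Agent.H4.Lang7

set_option autoImplicit false
open Cfsg

namespace Cfsg.Agent.S2736

/-- Let T = PΩ⁺_{2m}(F) with m ≥ 5 (dimension ≠ 8) and x a field automorphism or a graph-field automorphism of T of prime order r. Then an element y of the coset Inndiag(T)·x (y = δ x with δ induced by a class-preserving similarity) has order r if and only if y is conjugate to x by an element of Inndiag(T). -/
theorem result {F : Type*} [Field F] [Fintype F] {m : ℕ} (hm : 5 ≤ m) (x δ : MulAut (Cfsg.POmega F (Cfsg.quadFormPlus m F))) (hx : Cfsg.IsFieldAutClassPOmega (Cfsg.quadFormPlus m F) x ∨ Cfsg.IsGraphFieldAutClassPOmegaPlus m x) {r : ℕ} (hr : r.Prime) (hxr : orderOf x = r) (hδ : δ ∈ Cfsg.inndiagPOmegaPlus m F) :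
    orderOf (δ * x) = r ↔ Cfsg.IsConjUnder (Cfsg.inndiagPOmegaPlus m F) x (δ * x) := by
  open Cfsg.Agent.H4 Module Gam in
  have hn := plusF_nondeg (F := F) m
  have h7 : 7 ≤ Fintype.card (Fin m ⊕ Fin m) := by simp; omega
  have h5 : 5 ≤ finrank F (Fin m ⊕ Fin m → F) := by simp; omega
  have hd : finrank F (Fin m ⊕ Fin m → F) = 2 * m := by simp; omega
  rw [inndiagPOmegaPlus_eq h7 hd h5] at hδ ⊢
  have := hn.im_SimP_normal hd h5 (omM hn h7) (omM_surj hn h7 fun h => by simp at h; omega)
  rcases hx with hx | hx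
  · obtain ⟨α, σ, h1, h3, -⟩ := om_fld_class hn h7 (fld_mem_plusF m) hx
    exact hn.even_lang' (omM hn h7) hd h5 this h3 h1 hr hxr hδ
  · obtain ⟨α, σ, v, h1, -, -, h3⟩ := om_graph_class h7 hx
    exact hn.even_lang' (omM hn h7) hd h5 this h3 (by simpa using h1) hr hxr hδ

end Cfsg.Agent.S2736
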