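import Cfsg.Statements.S2738
import Cfsg.Agent.H9.L34

set_option autoImplicit false
open Cfsg

namespace Cfsg.Agent.S2738

open Cfsg.Agent Cfsg.Agent.H9

/-- The special linear group SL(3, 4) has centre of order 3 and does not split over it: no subgroup is a complement to the centre (so SL(3, 4) is a non-split central extension of PSL(3, 4) by a group of order 3). -/
theorem result (F : Type*) [Field F] [Fintype F] (hF : Fintype.card F = 4) : Nat.card ↥(Subgroup.center (Matrix.SpecialLinearGroup (Fin 3) F)) = 3 ∧ ¬ ∃ K : Subgroup (Matrix.SpecialLinearGroup (Fin 3) F), Subgroup.IsComplement' (Subgroup.center (Matrix.SpecialLinearGroup (Fin 3) F)) K := by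
  have hc : Nat.card (Subgroup.center (Matrix.SpecialLinearGroup (Fin 3) F)) = 3 := by
    rw [H4.card_center_SL, hF]; simp
  refine ⟨hc, ?_⟩
  rintro ⟨K, hK⟩
  have hn : K.Normal := by
    constructor
    intro k hk g
    obtain ⟨⟨z, c⟩, rfl⟩ := hK.2 g
    have hz := Subgroup.mem_center_iff.mp z.2
    show (z : Matrix.SpecialLinearGroup (Fin 3) F) * c * k * ((z : Matrix.SpecialLinearGroup (Fin 3) F) * c)⁻¹ ∈ K
    have : (z : Matrix.SpecialLinearGroup (Fin 3) F) * c * k * ((z : Matrix.SpecialLinearGroup (Fin 3) F) * c)⁻¹ = c * k * (c : Matrix.SpecialLinearGroup (Fin 3) F)⁻¹ := by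
      rw [mul_assoc, mul_assoc, ← hz]; group
    rw [this]
    exact K.mul_mem (K.mul_mem c.2 hk) (K.inv_mem c.2)
  have hi : K.index = 3 := hK.index_eq_card.trans hc
  haveI : Fact (Nat.Prime 3) := ⟨by norm_num⟩
  haveI : IsCyclic (Matrix.SpecialLinearGroup (Fin 3) F ⧸ K) := isCyclic_of_prime_card (p := 3) hi
  have hle : commutator (Matrix.SpecialLinearGroup (Fin 3) F) ≤ K := by
    rw [← Subgroup.Normal.quotient_commutative_iff_commutator_le]
    infer_instance
  rw [H4.SL_commutator_eq_top (by simp), top_le_iff] at hle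
  rw [hle, Subgroup.index_top] at hi
  omega

end Cfsg.Agent.S2738
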