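import Cfsg.Statements.S2739
import Cfsg.Agent.H9.L34

set_option autoImplicit false
open scoped Pointwise
open Cfsg

namespace Cfsg.Agent.S2739

open Cfsg.Agent Cfsg.Agent.H9

/-- In the projective special linear group PSL(3, 4) all subgroups of order 3 are conjugate. -/
theorem result (F : Type*) [Field F] [Fintype F] (hF : Fintype.card F = 4) (X Y : Subgroup (Matrix.ProjectiveSpecialLinearGroup (Fin 3) F)) (hX : Nat.card ↥X = 3) (hY : Nat.card ↥Y = 3) : ∃ g : Matrix.ProjectiveSpecialLinearGroup (Fin 3) F, MulAut.conj g • X = Y := by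
  haveI : Fact (Nat.Prime 3) := ⟨by norm_num⟩
  have key : ∀ Z : Subgroup (Matrix.ProjectiveSpecialLinearGroup (Fin 3) F), Nat.card Z = 3 → ∃ z, orderOf z = 3 ∧ Z = Subgroup.zpowers z := by
    intro Z hZ
    haveI : Finite Z := Nat.finite_of_card_ne_zero (by omega)
    obtain ⟨z, hz⟩ := exists_prime_orderOf_dvd_card' (G := Z) 3 (by rw [hZ])
    have hz' : orderOf (z : Matrix.ProjectiveSpecialLinearGroup (Fin 3) F) = 3 := by rw [Subgroup.orderOf_coe]; exact hz
    refine ⟨z, hz', ?_⟩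
    symm
    apply Subgroup.eq_of_le_of_card_ge
    · exact (Subgroup.zpowers_le).mpr z.2
    · rw [Nat.card_zpowers, hz', hZ]
  obtain ⟨x, hx, rfl⟩ := key X hX
  obtain ⟨y, hy, rfl⟩ := key Y hY
  obtain ⟨g, hg⟩ := isConj_iff.mp (psl34_three_conj hF x y hx hy)
  refine ⟨g, ?_⟩
  rw [← hg]
  show (Subgroup.zpowers x).map (MulAut.conj g).toMonoidHom = _
  rw [MonoidHom.map_zpowers]
  rfl

end Cfsg.Agent.S2739
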