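import Cfsg.Statements.S2760
import Mathlib
import Cfsg.Agent.H8.Res
import Cfsg.Agent.H8.Red

set_option autoImplicit false
open Cfsg

namespace Cfsg.Agent.S2760

open Cfsg.Agent Cfsg.Agent.H8 Subgroup

/-- Let G be a finite group with C_G(O₂(G)) ≤ O₂(G) and H a subgroup of G such that H is normal in G, or the subgroup O²(H) generated by the elements of H of odd order is normal in G. Then C_H(O₂(H)) ≤ O₂(H). -/
theorem result {G : Type*} [Group G] [Finite G] (hchar : Subgroup.centralizer (Cfsg.pCore 2 G : Set G) ≤ Cfsg.pCore 2 G) (H : Subgroup G) (hH : H.Normal ∨ ((Cfsg.pResidual 2 ↥H).map H.subtype).Normal) : Subgroup.centralizer (Cfsg.pCore 2 ↥H : Set ↥H) ≤ Cfsg.pCore 2 ↥H := by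
  have h0 : Fs (⊤ : Subgroup G) = Op 2 ⊤ := Fs_eq_Op_iff.2 (by rw [Op_top]; exact inf_le_right.trans hchar)
  have h1 : ∀ K : Subgroup G, K.Normal → K ⊓ centralizer (Op 2 K : Set G) ≤ Op 2 K := fun K _ =>
    Fs_eq_Op_iff.1 (Fs_eq_Op_of_sn h0 (SN.of_norm le_top le_normalizer_of_normal))
  rw [char_iff_map]
  obtain h | h := hH
  · exact h1 H h
  · rw [H2.pResidual_map_subtype] at h
    refine le_Op inf_le_left (le_normalizer_inf le_normalizer (le_normalizer_centralizer (le_normalizer.trans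
      (normalizer_le_Op 2 H)))) (isPGroup_of_resOf_le ((le_inf (H2.resOf_mono inf_le_left) ((H2.resOf_le _ _).trans
        (inf_le_right.trans (centralizer_le (Op_le_Op_of_sn 2 (SN.of_norm (H2.resOf_le 2 H)
          (H2.le_normalizer_resOf 2 H))))))).trans (h1 _ h)) (Op_isPGroup _ _))

end Cfsg.Agent.S2760
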