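import Cfsg.Statements.S2762
import Cfsg.Agent.H9.QdF

set_option autoImplicit false
open Cfsg

namespace Cfsg.Agent.S2762

open Cfsg.Agent Cfsg.Agent.H9

/-- Structure of Qd over a finite field F of characteristic p (the affine subgroup of SL₃(F)): its largest normal p-subgroup is the group of translations (matrices with upper-left block the identity), the block-diagonal matrices form a complement isomorphic to SL₂(F), and the translation subgroup is a natural SL₂(F)-module for that complement. -/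
theorem result {F : Type*} [Field F] [Fintype F] {p : ℕ} [Fact p.Prime] [CharP F p] : (∀ M : ↥(Cfsg.qdOver F), M ∈ Cfsg.pCore p ↥(Cfsg.qdOver F) ↔ ((M : Matrix.SpecialLinearGroup (Fin 3) F) : Matrix (Fin 3) (Fin 3) F) 0 0 = 1 ∧ ((M : Matrix.SpecialLinearGroup (Fin 3) F) : Matrix (Fin 3) (Fin 3) F) 0 1 = 0 ∧ ((M : Matrix.SpecialLinearGroup (Fin 3) F) : Matrix (Fin 3) (Fin 3) F) 1 0 = 0 ∧ ((M : Matrix.SpecialLinearGroup (Fin 3) F) : Matrix (Fin 3) (Fin 3) F) 1 1 = 1) ∧ ∃ K : Subgroup ↥(Cfsg.qdOver F), (∀ M : ↥(Cfsg.qdOver F), M ∈ K ↔ ((M : Matrix.SpecialLinearGroup (Fin 3) F) : Matrix (Fin 3) (Fin 3) F) 0 2 = 0 ∧ ((M : Matrix.SpecialLinearGroup (Fin 3) F) : Matrix (Fin 3) (Fin 3) F) 1 2 = 0) ∧ K ⊓ Cfsg.pCore p ↥(Cfsg.qdOver F) = ⊥ ∧ K ⊔ Cfsg.pCore p ↥(Cfsg.qdOver F) = ⊤ ∧ Nonempty (↥K ≃* Matrix.SpecialLinearGroup (Fin 2) F) ∧ Cfsg.IsNaturalSL2Module F (Cfsg.pCore p ↥(Cfsg.qdOver F)) K := by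
  have hO := pCore_qf (F := F) (p := p)
  refine ⟨fun M => ?_, (qfIn F).range, fun M => ?_, ?_, ?_, ?_, ?_⟩
  · rw [hO, MonoidHom.mem_ker]
    constructor
    · intro h
      have := congrArg Subtype.val h
      rw [qfBlk_val] at this
      exact ⟨congrFun (congrFun this 0) 0, congrFun (congrFun this 0) 1,
        congrFun (congrFun this 1) 0, congrFun (congrFun this 1) 1⟩
    · intro h
      ext i j
      fin_cases i <;> fin_cases j <;> simp [qfBlk_val, h]
  · constructor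
    · rintro ⟨A, rfl⟩
      exact ⟨rfl, rfl⟩
    · intro h
      obtain ⟨a, b, e⟩ := exists_qfMk M
      have h1 : a = 0 := by rw [e] at h; exact h.1
      have h2 : b = 0 := by rw [e] at h; exact h.2
      exact ⟨qfBlk F M, by rw [qfIn_apply, ← h1, e, qfBlk_mk, h1, h2]⟩
  · rw [hO, eq_bot_iff]
    rintro _ ⟨⟨A, rfl⟩, h⟩
    have : A = 1 := (qfBlk_mk A 0 0).symm.trans h
    rw [this, map_one]; exact Subgroup.one_mem _
  · rw [hO, eq_top_iff]
    intro M _
    have : M = qfIn F (qfBlk F M) * ((qfIn F (qfBlk F M))⁻¹ * M) := by group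
    rw [this]
    refine Subgroup.mul_mem_sup ⟨_, rfl⟩ ?_
    rw [MonoidHom.mem_ker, map_mul, map_inv, qfIn_apply, qfBlk_mk, inv_mul_cancel]
  · exact ⟨(MonoidHom.ofInjective (f := qfIn F) fun A B h => qfMk_inj' h).symm⟩
  · refine ⟨Subgroup.le_normalizer_of_normal, (qfBlk F).comp (Subgroup.subtype _), qfCo _ hO,
      fun A => ⟨⟨_, A, rfl⟩, qfBlk_mk A 0 0⟩, ?_, ?_⟩
    · ext l
      rw [Subgroup.mem_subgroupOf, hO]
      constructor
      · intro h v hv
        obtain ⟨a, b, rfl⟩ := mem_qf_ker.1 hv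
        have h' : qfBlk F l = 1 := h
        have := qf_conj l a b
        rw [h'] at this
        simp only [mul_inv_eq_iff_eq_mul] at this
        rw [this]; simp
      · intro h
        refine qf_cen fun a b => ?_
        rw [Subgroup.coe_subtype, ← h _ (mem_qf_ker.2 ⟨a, b, rfl⟩), mul_inv_cancel_right]
    · rintro l ⟨v, hv⟩
      obtain ⟨a, b, rfl⟩ := mem_qf_ker.1 (hO ▸ hv)
      refine ⟨⟨_, (inferInstance : (pCore p (qdOver F)).Normal).conj_mem _ hv l⟩, rfl, ?_⟩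
      change ![((l : qdOver F) * qfMk 1 a b * (l : qdOver F)⁻¹).1.1 0 2,
        ((l : qdOver F) * qfMk 1 a b * (l : qdOver F)⁻¹).1.1 1 2] = (qfBlk F l).1.mulVec ![a, b]
      rw [qf_conj]
      ext i
      fin_cases i <;> simp [qfMk_val, Matrix.mulVec, dotProduct, Fin.sum_univ_two]

end Cfsg.Agent.S2762
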