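import Cfsg.Statements.S2772
import Mathlib
import Cfsg.Agent.H2.Am5

set_option autoImplicit false
open Cfsg

namespace Cfsg.Agent.S2772

open Subgroup Cfsg.Agent.H2 Cfsg.Agent.H2.A3

/-- Sims' Theorem in local form: let H be a finite non-abelian simple group and G a maximal subgroup of H with C_G(O₂(G)) ≤ O₂(G), such that N_H(S) is not contained in G for a Sylow 2-subgroup S of G and G/O₂(G) is dihedral of order 2q for a prime q. Then G is isomorphic to the symmetric group of degree 4 or to its direct product with a group of order 2. -/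
theorem result {H : Type*} [Group H] [Finite H] [IsSimpleGroup H] (hna : ¬ IsMulCommutative H) (G : Subgroup H) (hG : IsCoatom G) (hchar : Subgroup.centralizer (Cfsg.pCore 2 ↥G : Set ↥G) ≤ Cfsg.pCore 2 ↥G) (S : Sylow 2 ↥G) (hN : ¬ Subgroup.normalizer (((S : Subgroup ↥G).map G.subtype : Subgroup H) : Set H) ≤ G) (q : ℕ) (hq : q.Prime) (hD : Nonempty (↥G ⧸ Cfsg.pCore 2 ↥G ≃* DihedralGroup q)) : Nonempty (↥G ≃* Equiv.Perm (Fin 4)) ∨ Nonempty (↥G ≃* Equiv.Perm (Fin 4) × Multiplicative (ZMod 2)) := by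
  have s := sylIn_map_subtype S
  generalize (S : Subgroup G).map G.subtype = T at s hN
  obtain ⟨x, hx, h1⟩ := SetLike.not_le_iff_exists.1 hN
  obtain ⟨i1, -, i2⟩ := idx_of s hq (by
    rw [relIndex_Op, Nat.card_congr hD.some.toEquiv, DihedralGroup.nat_card])
  have k : ∀ N ≤ G, G < normalizer (N : Set H) → N = ⊥ := fun N h2 h3 =>
    (normalizer_eq_top_iff.1 (hG.2 _ h3)).eq_bot_or_eq_top.resolve_right fun e =>
      hG.1 (top_le_iff.1 (e.ge.trans h2))
  refine sims s (cj_eq_of_mem_normalizer hx) (i1 ▸ hq) i2 (Am.vp_of inferInstance hchar).2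
    fun N h2 h3 h4 => ?_
  by_cases e : G = normalizer (N : Set H)
  · exact eq_bot_iff.2 ((h2.trans s.le).trans (k G le_rfl (lt_of_le_of_ne le_normalizer fun e' =>
      h1 (e'.ge (mem_normalizer_of_cj_le (h4.trans e.ge))))).le)
  · exact k N (h2.trans s.le) (lt_of_le_of_ne h3 e)

end Cfsg.Agent.S2772
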