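import Cfsg.Statements.S2779
import Cfsg.Agent.B.NatSL

set_option autoImplicit false
open Cfsg

namespace Cfsg.Agent.S2779

open Cfsg.Agent Cfsg.Agent.B Subgroup Matrix
open scoped Pointwise commutatorElement

/-- Let L act on the elementary abelian p-group V (inside a finite group, by conjugation, faithfully) as SL₂(F) on its natural module, F a field with p^n elements, and let S be a Sylow p-subgroup of L. Then [V, S, S] = 1; |V| = p^(2n) and |C_V(S)| = p^n; and for every nonidentity s ∈ S and every v ∈ V outside C_V(S): C_V(s) = C_V(S) = [V, S] = [V, s] = the subgroup generated by the commutators [v, t], t ∈ S. -/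
theorem result {G : Type*} [Group G] [Finite G] {p : ℕ} [Fact p.Prime] {F : Type*} [Field F] [Fintype F] (n : ℕ) (hF : Fintype.card F = p ^ n) (V L : Subgroup G) (hnat : Cfsg.IsNaturalSL2Module F V L) (hf : L ⊓ Subgroup.centralizer (V : Set G) = ⊥) (S : Sylow p ↥L) (T : Subgroup G) (hT : T = ((S : Subgroup ↥L).map L.subtype)) : ⁅⁅V, T⁆, T⁆ = ⊥ ∧ Nat.card V = p ^ (2 * n) ∧ Nat.card ↥(V ⊓ Subgroup.centralizer ((T : Subgroup G) : Set G)) = p ^ n ∧ ∀ s ∈ T, s ≠ 1 → (V ⊓ Subgroup.centralizer ({s} : Set G)) = (V ⊓ Subgroup.centralizer ((T : Subgroup G) : Set G)) ∧ ⁅V, T⁆ = (V ⊓ Subgroup.centralizer ((T : Subgroup G) : Set G)) ∧ ⁅V, Subgroup.zpowers s⁆ = (V ⊓ Subgroup.centralizer ((T : Subgroup G) : Set G)) ∧ ∀ v ∈ V, v ∉ Subgroup.centralizer (T : Set G) → Subgroup.closure {x : G | ∃ t ∈ T, x = v * t * v⁻¹ * t⁻¹} = (V ⊓ Subgroup.centralizer ((T : Subgroup G) : Set G)) := by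
  obtain ⟨ψ, ρ, h⟩ := exists_natC hF hnat hf S
  rw [← hT] at h
  have a : ⁅V, T⁆ ≤ V ⊓ centralizer (T : Set G) := commutator_le.2 fun x hx y hy => by
    obtain ⟨a, b, rfl⟩ := (h.mem x).1 hx
    obtain ⟨l, rfl, c⟩ := (h.syl y).1 hy
    exact h.cent.2 ⟨_, (h.comm c a b).symm⟩
  refine ⟨commutator_eq_bot_iff_le_centralizer.2 (a.trans inf_le_right), ?_, ?_, fun s hs s1 => ?_⟩
  · rw [pow_mul', ← hF, pow_two, ← Fintype.card_prod, ← Nat.card_eq_fintype_card]
    exact (Nat.card_congr (Equiv.ofBijective (fun x : F × F => (⟨ψ x.1 x.2, (h.mem _).2 ⟨_, _, rfl⟩⟩ : V))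
      ⟨fun x y e => Prod.ext (h.inj (congrArg Subtype.val e)).1 (h.inj (congrArg Subtype.val e)).2,
        fun x => ((h.mem x).1 x.2).elim fun a e => e.elim fun b e => ⟨(a, b), Subtype.ext e⟩⟩)).symm
  · rw [← hF, ← Nat.card_eq_fintype_card]
    exact (Nat.card_congr (Equiv.ofBijective (fun x : F => (⟨ψ x 0, h.cent.2 ⟨_, rfl⟩⟩ : ↥(V ⊓ centralizer (T : Set G))))
      ⟨fun x y e => (h.inj (congrArg Subtype.val e)).1, fun x => (h.cent.1 x.2).imp fun a e => Subtype.ext e⟩)).symm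
  obtain ⟨l, rfl, b⟩ := (h.syl s).1 hs
  have c := h.ne b s1
  have d : V ⊓ centralizer (T : Set G) ≤ ⁅V, zpowers l.1⁆ := fun x hx => by
    obtain ⟨a, rfl⟩ := h.cent.1 hx
    have := commutator_mem_commutator ((h.mem _).2 ⟨0, -(a / ρ l 0 1), rfl⟩) (mem_zpowers l.1)
    rwa [h.comm b, mul_neg, neg_neg, mul_div_cancel₀ _ c] at this
  have e := commutator_mono (le_refl V) (zpowers_le.2 hs)
  refine ⟨le_antisymm (fun x hx => ?_) (inf_le_inf_left _ (centralizer_le (Set.singleton_subset_iff.2 hs))), a.antisymm (d.trans e),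
    (e.trans a).antisymm d, fun v hv f => le_antisymm ((closure_le _).2 ?_) fun x hx => ?_⟩
  · obtain ⟨u, v, rfl⟩ := (h.mem x).1 hx.1
    exact h.cent.2 ⟨u, by rw [(mul_eq_zero.1 ((h.cent1 b).1 hx.2)).resolve_left c]⟩
  · rintro _ ⟨t, ht, rfl⟩
    exact a (commutator_mem_commutator hv ht)
  obtain ⟨u, v, rfl⟩ := (h.mem v).1 hv
  obtain ⟨a, rfl⟩ := h.cent.1 hx
  obtain ⟨t, i, j, k⟩ := h.ex (-(a / v))
  refine subset_closure ⟨t, i, .symm ((h.comm j u v).trans ?_)⟩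
  rw [k, neg_mul, neg_neg, div_mul_cancel₀ _ fun e => f (h.cent.2 ⟨u, by rw [e]⟩).2]

end Cfsg.Agent.S2779
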