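import Cfsg.Statements.S2780
import Cfsg.Agent.B.NatSL

set_option autoImplicit false
open Cfsg

namespace Cfsg.Agent.S2780

open Cfsg.Agent Cfsg.Agent.B Subgroup Matrix
open scoped Pointwise commutatorElement

/-- Let L act on the elementary abelian p-group V (inside a finite group, faithfully) as SL₂(F) on its natural module, F a field with p^n elements, S a Sylow p-subgroup of L. Then: for every g ∈ L not normalizing S, V is the internal direct product of C_V(S) and C_V(gSg⁻¹); every nonidentity element of L of order prime to p acts on V without nonidentity fixed points; and C_V(S) and V/C_V(S) are irreducible for N_L(S): the only N_L(S)-invariant subgroups of C_V(S) are 1 and C_V(S), and the only N_L(S)-invariant subgroups between C_V(S) and V are those two. -/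
theorem result {G : Type*} [Group G] [Finite G] {p : ℕ} [Fact p.Prime] {F : Type*} [Field F] [Fintype F] (n : ℕ) (hF : Fintype.card F = p ^ n) (V L : Subgroup G) (hnat : Cfsg.IsNaturalSL2Module F V L) (hf : L ⊓ Subgroup.centralizer (V : Set G) = ⊥) (S : Sylow p ↥L) (T : Subgroup G) (hT : T = ((S : Subgroup ↥L).map L.subtype)) : (∀ g ∈ L, g ∉ Subgroup.normalizer (T : Set G) → Cfsg.IsInternalDirectProduct (V ⊓ Subgroup.centralizer ((T : Subgroup G) : Set G)) (V ⊓ Subgroup.centralizer ((T.map (MulAut.conj g).toMonoidHom : Subgroup G) : Set G)) V) ∧ (∀ x ∈ L, x ≠ 1 → (orderOf x).Coprime p → (V ⊓ Subgroup.centralizer ({x} : Set G)) = ⊥) ∧ (∀ U : Subgroup G, U ≤ (V ⊓ Subgroup.centralizer ((T : Subgroup G) : Set G)) → L ⊓ Subgroup.normalizer (T : Set G) ≤ Subgroup.normalizer (U : Set G) → U = ⊥ ∨ U = (V ⊓ Subgroup.centralizer ((T : Subgroup G) : Set G))) ∧ (∀ U : Subgroup G, (V ⊓ Subgroup.centralizer ((T : Subgroup G) : Set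 G)) ≤ U → U ≤ V → L ⊓ Subgroup.normalizer (T : Set G) ≤ Subgroup.normalizer (U : Set G) → U = (V ⊓ Subgroup.centralizer ((T : Subgroup G) : Set G)) ∨ U = V) := by
  obtain ⟨ψ, ρ, h⟩ := exists_natC hF hnat hf S
  have hS : IsPGroup p T := hT ▸ S.2.map _
  rw [← hT] at h
  refine ⟨fun g hg a => ?_, fun x hx x1 a => eq_bot_iff.2 fun v hv => ?_, fun U a b => or_iff_not_imp_left.2 fun c => a.antisymm fun x hx => ?_,
    fun U a b c => or_iff_not_imp_left.2 fun d => b.antisymm fun x hx => ?_⟩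
  · lift g to L using hg
    have b : ρ g 1 0 ≠ 0 := fun b => a (h.norm b)
    have c : ∀ x, x ∈ V ⊓ centralizer (T.map (MulAut.conj g.1).toMonoidHom : Set G) ↔ ∃ a, ψ (ρ g 0 0 * a) (ρ g 1 0 * a) = x := fun x => by
      have : x ∈ V ⊓ centralizer (T.map (MulAut.conj g.1).toMonoidHom : Set G) ↔ g.1⁻¹ * x * g ∈ V ⊓ centralizer (T : Set G) := by
        refine and_congr (mem_normalizer_iff''.1 (hnat.1 g.2) x) ⟨fun e y hy => ?_, ?_⟩
        · have := e _ ⟨y, hy, rfl⟩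
          simp only [MulEquiv.toMonoidHom_eq_coe, MonoidHom.coe_coe, MulAut.conj_apply] at this
          rw [show y * (g.1⁻¹ * x * g) = g.1⁻¹ * (g * y * g.1⁻¹ * x) * g by group, this]; group
        rintro e _ ⟨y, hy, rfl⟩
        simp only [MulEquiv.toMonoidHom_eq_coe, MonoidHom.coe_coe, MulAut.conj_apply]
        rw [show g * y * g.1⁻¹ * x = g * (y * (g.1⁻¹ * x * g)) * g.1⁻¹ by group, e y hy]; group
      rw [this, h.cent]
      refine exists_congr fun a => ?_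
      have := h.act g a 0
      rw [mul_zero, mul_zero, add_zero, add_zero] at this
      rw [← this, mul_inv_eq_iff_eq_mul, mul_assoc, eq_inv_mul_iff_mul_eq]
    refine ⟨inf_le_left, inf_le_left, fun x hx y hy => ?_, eq_bot_iff.2 fun x hx => ?_, le_antisymm (sup_le inf_le_left inf_le_left) fun x hx => ?_⟩
    · obtain ⟨_, _, rfl⟩ := (h.mem x).1 hx.1
      obtain ⟨_, _, rfl⟩ := (h.mem y).1 hy.1
      simp only [h.mul, add_comm]
    · obtain ⟨u, rfl⟩ := h.cent.1 hx.1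
      obtain ⟨v, e⟩ := (c _).1 hx.2
      rw [← e, (mul_eq_zero.1 (h.inj e).2).resolve_left b, mul_zero, mul_zero, h.one]; exact one_mem _
    obtain ⟨u, v, rfl⟩ := (h.mem x).1 hx
    convert mul_mem_sup (h.cent.2 ⟨u - ρ g 0 0 * (v / ρ g 1 0), rfl⟩) ((c _).2 ⟨v / ρ g 1 0, rfl⟩) using 1
    rw [h.mul, sub_add_cancel, zero_add, mul_div_cancel₀ _ b]
  · lift x to L using hx
    obtain ⟨u, w, rfl⟩ := (h.mem v).1 hv.1
    by_contra e
    obtain ⟨g, g1, g2⟩ : ∃ g : L, ρ g 0 0 = u ∧ ρ g 1 0 = w := by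
      by_cases f : u = 0
      · obtain ⟨g, i⟩ := ρ.surjective ⟨!![u, -w⁻¹; w, 0], by
          simp [show w ≠ 0 from fun i => e (by rw [f, i, h.one]; exact one_mem _)]⟩
        exact ⟨g, by rw [i]; exact ⟨rfl, rfl⟩⟩
      obtain ⟨g, i⟩ := ρ.surjective ⟨!![u, 0; w, u⁻¹], by simp [f]⟩
      exact ⟨g, by rw [i]; exact ⟨rfl, rfl⟩⟩
    have f := h.act g 1 0
    rw [mul_zero, mul_zero, add_zero, add_zero, mul_one, mul_one, g1, g2] at f
    have i := h.act (g⁻¹ * x * g) 1 0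
    rw [show (g⁻¹ * x * g).1 * ψ 1 0 * (g⁻¹ * x * g).1⁻¹ = g.1⁻¹ * (x * (g * ψ 1 0 * g.1⁻¹)) * x.1⁻¹ * g by simp [mul_assoc], f,
      ← mem_centralizer_singleton_iff.1 hv.2, ← f, show g.1⁻¹ * (g * ψ 1 0 * g.1⁻¹ * x) * x.1⁻¹ * g = ψ 1 0 by group] at i
    have j := h.inj i
    have k := (ρ (g⁻¹ * x * g)).det_coe
    simp only [mul_zero, add_zero, mul_one] at j
    rw [det_fin_two, ← j.1, ← j.2, mul_zero, sub_zero, one_mul] at k
    obtain ⟨m, hm⟩ := hS ⟨_, (h.syl _).2 ⟨_, rfl, j.1.symm, j.2.symm, k⟩⟩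
    have : x.1 ^ p ^ m = 1 := by
      have : (g.1⁻¹ * x * g.1⁻¹⁻¹) ^ p ^ m = 1 := by rw [inv_inv]; exact congrArg Subtype.val hm
      rwa [conj_pow, conj_eq_one_iff] at this
    exact x1 (orderOf_eq_one_iff.1 ((a.pow_right m).eq_one_of_dvd (orderOf_dvd_of_pow_eq_one this)))
  · obtain ⟨y, hy, y1⟩ := U.bot_or_exists_ne_one.resolve_left c
    obtain ⟨u, rfl⟩ := h.cent.1 (a hy)
    obtain ⟨v, rfl⟩ := h.cent.1 hx
    have u0 : u ≠ 0 := fun e => y1 (e ▸ h.one)
    rcases eq_or_ne v 0 with rfl | v0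
    · exact h.one ▸ one_mem U
    obtain ⟨l, d, e⟩ := h.diag (div_ne_zero v0 u0)
    have := (mem_normalizer_iff.1 (b d) _).1 hy
    rwa [e, div_mul_cancel₀ _ u0, mul_zero] at this
  obtain ⟨y, hy, e⟩ := SetLike.exists_of_lt (lt_of_le_of_ne a (Ne.symm d))
  obtain ⟨u, v, rfl⟩ := (h.mem y).1 (b hy)
  obtain ⟨s, t, rfl⟩ := (h.mem x).1 hx
  have v0 : v ≠ 0 := fun i => e (h.cent.2 ⟨u, i ▸ rfl⟩)
  rcases eq_or_ne t 0 with rfl | t0
  · exact a (h.cent.2 ⟨_, rfl⟩)
  obtain ⟨l, f, g⟩ := h.diag (div_ne_zero v0 t0)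
  have := mul_mem (a (h.cent.2 ⟨s - v / t * u, rfl⟩)) ((mem_normalizer_iff.1 (c f) _).1 hy)
  rwa [g, h.mul, sub_add_cancel, zero_add, inv_div, div_mul_cancel₀ _ v0] at this

end Cfsg.Agent.S2780
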