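import Cfsg.Statements.S2792
import Mathlib
import Cfsg.Agent.H2.PTransfer
import Cfsg.Agent.H1.Frattini

set_option autoImplicit false
open Cfsg

namespace Cfsg.Agent.S2792

open Cfsg.Agent.H2 Subgroup

/-- Let S be a Sylow p-subgroup of the finite group G and W a subgroup of S weakly closed in S with respect to G. If S ∩ G' ≠ S ∩ (N_G(W))', then there are x ∈ S, z ∈ W and a maximal subgroup W₀ of W such that the iterated commutator [x, z; p−1] (with [x, z] = x⁻¹z⁻¹xz and [x, z; i+1] = [[x, z; i], z]) lies in W₀ but not in the Frattini subgroup of W₀; in particular [x, z; p−1] ≠ 1. -/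
theorem result {G : Type*} [Group G] [Finite G] {p : ℕ} [Fact p.Prime] (S : Sylow p G) (W : Subgroup G) (hW : Cfsg.IsWeaklyClosed W (S : Subgroup G)) (h : (S : Subgroup G) ⊓ commutator G ≠ (S : Subgroup G) ⊓ ⁅Subgroup.normalizer (W : Set G), Subgroup.normalizer (W : Set G)⁆) : ∃ x ∈ (S : Subgroup G), ∃ z ∈ W, ∃ W₀ : Subgroup ↥W, IsCoatom W₀ ∧ (fun y : G => y⁻¹ * z⁻¹ * y * z)^[p - 1] x ∈ W₀.map W.subtype ∧ (fun y : G => y⁻¹ * z⁻¹ * y * z)^[p - 1] x ∉ ((frattini ↥W₀).map W₀.subtype).map W.subtype := by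
  have hP := sylIn_top S
  have hPH : (S : Subgroup G) ≤ normalizer (W : Set G) := fun x hx =>
    mem_normalizer_iff_cj.2 (hW.2 x (cj_le_of_le hW.1 hx))
  obtain ⟨D, h1, h2, h3⟩ := exists_of_inf_commutator_ne hP hPH h
  obtain ⟨u, hu, z, hz, M, K, h4, h5, h6, h7, h8, -, h9, h10, -, h11⟩ := hw hP hW le_rfl h1 h3
  have hp : p.Prime := Fact.out
  have e : (M.subgroupOf W).map W.subtype = M ⊓ W := subgroupOf_map_subtype _ _
  refine ⟨u, hu, z, hz, M.subgroupOf W, Cfsg.Agent.L.isCoatom_of_index_prime ?_, ?_, fun hc => h10 ?_⟩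
  · have h12 : M.relIndex W ∣ p := by
      rw [← h6]
      haveI := (normal_subgroupOf_iff_le_normalizer h4).2 h5
      rw [← relIndex_subgroupOf (L := W ⊔ zpowers u) le_sup_left]
      exact relIndex_dvd_index_of_normal _ _
    rcases (Nat.dvd_prime hp).1 h12 with h13 | h13
    · exact absurd (relIndex_eq_one.1 h13 hz) h8
    · rw [show (M.subgroupOf W).index = p from h13]; exact hp
  · rw [e]
    refine ⟨itc_mem (h5 (mem_sup_left hz)) h7 _, ?_⟩
    obtain ⟨n, hn⟩ : ∃ n, p - 1 = n + 1 := ⟨p - 2, by have := hp.two_le; omega⟩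
    show itc z (p - 1) u ∈ W
    rw [hn, itc_succ]
    have h12 : itc z n u ∈ (S : Subgroup G) := itc_mem (le_normalizer (hW.1 hz)) hu n
    exact mul_mem (Cfsg.Agent.H8.conj_mem_of_mem_normalizer' (hPH h12) (inv_mem hz)) hz
  · rw [Cfsg.Agent.H1.map_map_frattini ((S.isPGroup'.to_le hW.1).to_subgroup _), e] at hc
    exact Cfsg.Agent.H1.map_frattini_le_of_elementary hp
      ((commutator_mono inf_le_left inf_le_left).trans h9) (fun x hx => h11 h2 x hx.1) hc

end Cfsg.Agent.S2792
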