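import Cfsg.Statements.S2807
import Mathlib
import Cfsg.Agent.H2.PTransfer

set_option autoImplicit false
open Cfsg

namespace Cfsg.Agent.S2807

open Cfsg.Agent.H2 Subgroup

/-- Let S be a Sylow p-subgroup of the finite group G. If S ∩ G' ≠ S ∩ (N_G(S))' (derived subgroups), then the wreath product Z_p ≀ Z_p — realised as a Sylow p-subgroup of the symmetric group of degree p² — is a homomorphic image of S. -/
theorem result {G : Type*} [Group G] [Finite G] {p : ℕ} [Fact p.Prime] (S : Sylow p G) (h : (S : Subgroup G) ⊓ commutator G ≠ (S : Subgroup G) ⊓ ⁅Subgroup.normalizer ((S : Subgroup G) : Set G), Subgroup.normalizer ((S : Subgroup G) : Set G)⁆) : ∃ (P : Sylow p (Equiv.Perm (Fin (p ^ 2)))) (f : ↥(S : Subgroup G) →* ↥(P : Subgroup (Equiv.Perm (Fin (p ^ 2))))), Function.Surjective f := by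
  have hP := sylIn_top S
  obtain ⟨D, h1, h2, h3⟩ := exists_of_inf_commutator_ne hP le_normalizer h
  obtain ⟨u, hu, z, hz, M, K, h4, h5, h6, h7, -, -, h9, h10, -, h11⟩ := hw hP
    (isWeaklyClosed_self _) le_rfl h1 h3
  rw [sup_eq_left.2 ((zpowers_le).2 hu)] at h4 h5 h6
  refine exists_surj_wreath' S.isPGroup' (M := M.subgroupOf S) (K := K.subgroupOf S) h6 ?_
    (fun x hx => h11 h2 x hx) (x := itc ⟨z, hz⟩ (p - 1) ⟨u, hu⟩) ?_ ?_
    (itc_mem_lowerCentralSeries (mem_top _) (mem_top _) _)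
  · refine map_le_iff_le_comap.1 ?_
    rw [map_commutator, map_subgroupOf_eq_of_le h4]
    exact h9
  · show (S : Subgroup G).subtype _ ∈ M
    rw [map_itc]
    exact itc_mem (h5 hz) h7 _
  · show (S : Subgroup G).subtype _ ∉ K
    rw [map_itc]
    exact h10

end Cfsg.Agent.S2807
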