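import Cfsg.Statements.S2856
import Mathlib
import Cfsg.Agent.H2.Amal2

set_option autoImplicit false
open Cfsg

namespace Cfsg.Agent.S2856

open Cfsg.Agent.H2 Subgroup
open scoped commutatorElement

/-- Let (M₁, M₂) be an amalgam pair in X satisfying the rank-two standing hypothesis (characteristic p, the normalizers in M₁ and in M₂ of a Sylow p-subgroup of M₁ ∩ M₂ equal and contained in M₁ ∩ M₂, and strongly p-embedded residues), λ a vertex of the coset graph, L_λ the subgroup of its stabilizer generated by the p-elements, Q_λ = O_p of the stabilizer, O^p(L_λ) the subgroup of L_λ generated by its elements of order prime to p, and V_λ^{(k)} the subgroup generated by the Z_μ over the vertices μ at distance at most k from λ (Z_μ being generated by the Ω₁(Z(S)), S a Sylow p-subgroup of the stabilizer of μ). If n ≥ 1 and V_λ^{(n)} ≤ Q_λ, then O^p(L_λ) does not centralize V_λ^{(n)}/[V_λ^{(n)}, Q_λ], that is, [V_λ^{(n)}, O^p(L_λ)] is not contained in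 [V_λ^{(n)}, Q_λ]. -/
theorem result {X : Type*} [Group X] {p : ℕ} [Fact p.Prime] (M₁ M₂ : Subgroup X) (h : Cfsg.IsSpeAmalgamPair p M₁ M₂) (lam : Cfsg.CosetVertex M₁ M₂) (n : ℕ) (hn : 1 ≤ n) (V : Subgroup X) (hV : V = Cfsg.vertexVIter p M₁ M₂ n lam) (hVQ : V ≤ Cfsg.vertexQ p lam) : ¬ ⁅V, ((Cfsg.pResidual p ↥(Cfsg.pElementClosure p (MulAction.stabilizer X lam))).map (Cfsg.pElementClosure p (MulAction.stabilizer X lam)).subtype)⁆ ≤ ⁅V, Cfsg.vertexQ p lam⁆ := by
  rw [pResidual_map_subtype]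
  intro hc
  subst hV
  obtain ⟨n, rfl⟩ := Nat.exists_eq_add_of_le' hn
  obtain ⟨μ, e⟩ := Am.exists_adj lam
  have hg := h.1.1.1
  set U := vertexVIter p M₁ M₂ n μ
  set V := vertexVIter p M₁ M₂ (n + 1) lam
  have hUV : U ≤ V := Am.V_le_V hg e n
  have hQ := Am.le_nK.1 (Am.Q_le_nK h.1 lam)
  have hW : ⁅V, vertexQ p lam⁆ ≤ V :=
    H8.commutator_le_left_of_norm (hQ.1.trans (Am.le_norm_V hg _ _))
  have h1 := H8.le_normalizer_of_commutator_le (H := U ⊔ ⁅V, vertexQ p lam⁆)
    (((Subgroup.commutator_comm _ _).le.trans hc).trans le_sup_right) (sup_le hUV hW)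
  have h2 : ∀ ν, (cosetGraph M₁ M₂).Adj lam ν →
      vertexVIter p M₁ M₂ n ν ≤ U ⊔ ⁅V, vertexQ p lam⁆ := fun ν e' => by
    obtain ⟨r, hr, rfl⟩ := Am.res_trans h e e'
    have := Am.cj_V_le (p := p) hg r⁻¹ n (r • μ)
    rw [inv_smul_smul, ← le_cj_iff] at this
    exact this.trans ((cj_mono r le_sup_left).trans (cj_eq_of_mem_normalizer (h1 hr)).le)
  have h3 : V ≤ U ⊔ ⁅V, vertexQ p lam⁆ := Am.V_le fun ν hν => by
    by_cases e' : lam = ν
    · subst e'
      refine Am.Z_le fun P hP => ?_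
      obtain ⟨T, hT⟩ := exists_sylIn p (MulAction.stabilizer X lam ⊓ MulAction.stabilizer X μ)
      haveI := (Am.vp h.1 lam).1
      obtain ⟨g, hg', rfl⟩ := Am.exists_cj_eq (Am.sylIn_edge h.1 e hT) hP
      have h4 := (Am.sylIn_edge h.1 e.symm (by rwa [inf_comm])).cj g
      rw [← Am.stab_smul] at h4
      have h5 := Am.adj_smul g e
      rw [MulAction.mem_stabilizer_iff.1 hg'] at h5
      exact (Am.OZ_le_Z h4).trans ((Am.Z_le_V (by simp)).trans (h2 _ h5))
    · obtain ⟨c, a, b⟩ := Am.exists_nbr hg e'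
      exact (Am.Z_le_V (by omega)).trans (h2 c a)
  haveI := (Am.vp h.1 lam).1
  haveI : Finite (H8.Op p (MulAction.stabilizer X lam)) :=
    .of_injective _ (inclusion_injective hQ.1)
  have h4 : V ≤ U := Am.le_of_le_sup_comm (H8.Op_isPGroup p _).isNilpotent hVQ (hUV.trans hVQ)
    ((hQ.2 μ e).trans (Am.le_norm_V hg _ _)) h3
  refine Am.false_of_norm h e (hUV.trans hVQ) ?_
  change _ ≤ normalizer (U : Set X)
  rw [le_antisymm hUV h4]
  exact ((resOf_le _ _).trans (Am.pEC_le _)).trans (Am.le_norm_V hg _ _)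

end Cfsg.Agent.S2856
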