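import Cfsg.Statements.S2941
import Mathlib
import Cfsg.Agent.H2.SL23

set_option autoImplicit false
open Cfsg

namespace Cfsg.Agent.S2941

open Cfsg.Agent.H2 Subgroup
open scoped commutatorElement

/-- Let G be a finite group of characteristic 2 type in which every 2-local subgroup is solvable and the centralizer of Ω₁(Z(S)) lies in N_G(S) for every Sylow 2-subgroup S, and let T be a nontrivial 2-subgroup and K a J(T)-component (J the Thompson subgroup generated by the elementary abelian 2-subgroups of largest order). If a subgroup Q is normalized by ⟨K, J(T)⟩ and normalizes J(T), then Q normalizes K. -/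
theorem result {G : Type*} [Group G] [Finite G] (hL : Cfsg.IsCharacteristicTwoType G) (hN : ∀ N : Subgroup G, Cfsg.IsTwoLocal N → Group.IsSolvable ↥N)
    (hZ : ∀ S : Sylow 2 G, Subgroup.centralizer (Cfsg.omegaCenterOf (S : Subgroup G) : Set G) ≤ Subgroup.normalizer ((S : Subgroup G) : Set G)) (T : Subgroup G) (hT : IsPGroup 2 ↥T) (hT1 : T ≠ ⊥) (K : Subgroup G) (hK : Cfsg.IsJComponent T K)
    (Q : Subgroup G) (hQ1 : K ⊔ Cfsg.thompsonSubgroupOf 2 T ≤ Subgroup.normalizer (Q : Set G)) (hQ2 : Q ≤ Subgroup.normalizer (Cfsg.thompsonSubgroupOf 2 T : Set G)) :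
    Q ≤ Subgroup.normalizer (K : Set G) := by
  set J := thompsonSubgroupOf 2 T
  have hJ : IsPGroup 2 J := hT.to_le (map_subtype_le _)
  have h1 : J ≤ normalizer (K : Set G) := by
    rw [← hK.2.1]; exact normalizer_commutator_ge_right _ _
  have h2 : K ⊔ J = ⨆ x : ↥(K ⊔ J), cj (x : G) J := by
    refine le_antisymm (sup_le ?_ (le_iSup_of_le 1 (cj_one J).ge))
      (iSup_le fun x => cj_le_of_le le_sup_right x.2)
    conv_lhs => rw [← hK.2.1]
    refine commutator_le.2 fun k hk j hj => mul_mem ?_ ?_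
    · exact mem_iSup_of_mem ⟨k, mem_sup_left hk⟩ (conj_mem_cj k hj)
    · exact mem_iSup_of_mem 1 ((cj_one J).ge (inv_mem hj))
  have h3 : Q ≤ normalizer ((K ⊔ J : Subgroup G) : Set G) := by
    rw [h2]
    refine H8.le_normalizer_iSup fun x => ?_
    rw [← cj_normalizer, ← cj_eq_of_mem_normalizer (hQ1 x.2)]
    exact cj_mono _ hQ2
  have h4 : resOf 2 (K ⊔ J) = K := le_antisymm
    (resOf_le_of_sup (sup_le le_normalizer h1) hJ le_sup_right le_rfl) (by
      conv_lhs => rw [← hK.1]
      exact (closure_le _).2 fun g hg => mem_resOf (mem_sup_left hg.1) (Nat.coprime_two_right.2 hg.2))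
  rw [← h4]
  exact h3.trans (normalizer_le_normalizer_resOf _ _)

end Cfsg.Agent.S2941
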