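import Cfsg.Statements.S2945
import Mathlib
import Cfsg.Agent.H2.JC2

set_option autoImplicit false
open Cfsg

namespace Cfsg.Agent.S2945

open Cfsg.Agent.H2 Cfsg.Agent.H2.JC Subgroup

/-- Let G be a finite group of characteristic 2 type in which every 2-local subgroup is solvable and the centralizer of Ω₁(Z(S)) lies in N_G(S) for every Sylow 2-subgroup S, and let T be a nontrivial 2-subgroup (below, J is the Thompson subgroup generated by the elementary abelian 2-subgroups of largest order), L a subgroup in which T is a Sylow 2-subgroup with J(T) not contained in O₂(L) and C_G(O₂(L)) ≤ O₂(L), and K ≤ L a subgroup that is subnormal in ⟨K, J(T)⟩. If for some conjugate Tᵍ of T, K is a J(Tᵍ)-component with J(Tᵍ) the Thompson subgroup of every Sylow 2-subgroup of N_G(W_K) containing J(Tᵍ) (W_K = [Ω₁(Z(O₂(K))), K]), then K is a J(T)-component. -/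
theorem result {G : Type*} [Group G] [Finite G] (hL : Cfsg.IsCharacteristicTwoType G) (hN : ∀ N : Subgroup G, Cfsg.IsTwoLocal N → Group.IsSolvable ↥N)
    (hZ : ∀ S : Sylow 2 G, Subgroup.centralizer (Cfsg.omegaCenterOf (S : Subgroup G) : Set G) ≤ Subgroup.normalizer ((S : Subgroup G) : Set G)) (T : Subgroup G) (hT : IsPGroup 2 ↥T) (hT1 : T ≠ ⊥) (L : Subgroup G) (hLT : L ∈ Cfsg.jOvergroups T)
    (K : Subgroup G) (hKL : K ≤ L) (hKsn : (K.subgroupOf (K ⊔ Cfsg.thompsonSubgroupOf 2 T)).IsSubnormal)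
    (g : G) (hKg : K ∈ Cfsg.jComponentsZero (T.map (MulAut.conj g).toMonoidHom)) : Cfsg.IsJComponent T K := by
  have hO : H8.Op 2 L ≠ ⊥ := fun e => hT1 (BG.eq_bot_mono e (le_top.trans
    ((H9.cent_bot.ge.trans (H8.centralizer_anti e.le)).trans hLT.2.2)))
  have k : K0 (H9.JJ 2 (cj g T)) K := k0_iff.1 hKg
  rw [← H9.cj_JJ] at k
  rw [← H9.JJ_eq] at hKsn
  exact jk_iff.2 (CH.jk_of_sn ⟨zn_mk hL hN hZ, hLT.2.2, hO⟩ (sylTwo_iff.1 hLT.1) hKL
    (H8.sn_iff.2 ⟨le_sup_left, hKsn⟩) k)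

end Cfsg.Agent.S2945
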