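import Cfsg.Statements.S2953
import Mathlib
import Cfsg.Agent.H2.JC4

set_option autoImplicit false
open Cfsg

namespace Cfsg.Agent.S2953

open Cfsg.Agent.H2 Cfsg.Agent.H2.JC Subgroup

/-- Let G be a finite group of characteristic 2 type in which every 2-local subgroup is solvable and the centralizer of Ω₁(Z(S)) lies in N_G(S) for every Sylow 2-subgroup S; suppose O₂(G) = 1, fix a Sylow 2-subgroup S and a 2-local subgroup M containing N_G(J(S)) (J the Thompson subgroup generated by the elementary abelian 2-subgroups of largest order). Let T be maximal (for the order of a largest elementary abelian subgroup, then the order of J(T), then the order of T) among the nontrivial 2-subgroups of M lying in a 2-local subgroup not inside M. Then there are two distinct J(T)-components K₁, K₂ such that, with Pᵢ = ⟨Kᵢ, T⟩: C_G(O₂(Pᵢ)) ≤ O₂(Pᵢ), T is a Sylow 2-subgroup of Pᵢ, O₂(Pᵢ) has index 6 in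 Pᵢ with Pᵢ/O₂(Pᵢ) non-abelian, [Ω₁(Z(T)), Pᵢ] ≠ 1, O₂(⟨P₁, P₂⟩) = 1, and each Pᵢ lies in exactly one maximal 2-local subgroup Lᵢ of G, in which T is a Sylow 2-subgroup. -/
theorem result {G : Type*} [Group G] [Finite G] (hL : Cfsg.IsCharacteristicTwoType G) (hN : ∀ N : Subgroup G, Cfsg.IsTwoLocal N → Group.IsSolvable ↥N)
    (hZ : ∀ S : Sylow 2 G, Subgroup.centralizer (Cfsg.omegaCenterOf (S : Subgroup G) : Set G) ≤ Subgroup.normalizer ((S : Subgroup G) : Set G)) (hO : Cfsg.pCore 2 G = ⊥) (S : Sylow 2 G) (M : Subgroup G) (hM : Cfsg.IsTwoLocal M)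
    (hMJ : Subgroup.normalizer (Cfsg.thompsonSubgroupOf 2 (S : Subgroup G) : Set G) ≤ M) (T : Subgroup G) (hT : T ∈ Cfsg.maxStraddlingTwoSubgroups M) :
    ∃ K₁ K₂ : Subgroup G, K₁ ≠ K₂ ∧ Cfsg.IsJComponent T K₁ ∧ Cfsg.IsJComponent T K₂ ∧
      Cfsg.pCoreOf 2 ((K₁ ⊔ T) ⊔ (K₂ ⊔ T)) = ⊥ ∧
      ∀ P ∈ [K₁ ⊔ T, K₂ ⊔ T],
        Subgroup.centralizer (Cfsg.pCoreOf 2 P : Set G) ≤ Cfsg.pCoreOf 2 P ∧ Cfsg.IsSylowTwoIn T P ∧
        (Cfsg.pCoreOf 2 P).relIndex P = 6 ∧ ¬ ⁅P, P⁆ ≤ Cfsg.pCoreOf 2 P ∧ ⁅Cfsg.omegaCenterOf T, P⁆ ≠ ⊥ ∧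
        ∃ L : Subgroup G, Cfsg.IsMaximalTwoLocal L ∧ P ≤ L ∧ Cfsg.IsSylowTwoIn T L ∧
          ∀ L' : Subgroup G, Cfsg.IsMaximalTwoLocal L' → P ≤ L' → L' = L := by
  have h : HM M := hm_mk (zn_mk hL hN hZ) (sylIn_top S) (by rwa [H9.JJ_eq])
  obtain ⟨K, k, h1, h2⟩ := (ms_of hT).exists_out h
  obtain ⟨L, u⟩ := (ms_of hT).exists_ul h k h1 h2
  obtain ⟨K', L', v, h3⟩ := u.other hO
  refine ⟨K, K', fun e => h3 (e ▸ u.le), jk_iff.2 k, jk_iff.2 v.jk, ?_, fun P hP => ?_⟩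
  · have n := H8.le_normalizer_Op 2 (K ⊔ T ⊔ (K' ⊔ T))
    by_contra e
    exact h3 ((le_sup_left.trans (le_sup_right.trans n)).trans (u.norm_le (H8.Op_isPGroup 2 _) e
      ((sup_le_sup_left (H9.JJ_le 2 T) K).trans (le_sup_left.trans n))))
  obtain ⟨K, L, u, rfl⟩ : ∃ K L, UL T K L ∧ P = K ⊔ T := by
    simp only [List.mem_cons, List.not_mem_nil, or_false] at hP
    rcases hP with rfl | rfl
    exacts [⟨_, _, u, rfl⟩, ⟨_, _, v, rfl⟩]
  have e := u.OZ_eq hO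
  refine ⟨u.cenP, sylTwo_iff.2 u.sylP, ?_, fun h4 => u.jk.not_pg ((H8.Op_isPGroup 2 _).to_le
    (u.jk.comm.ge.trans ((Subgroup.commutator_mono le_sup_left
      ((H9.JJ_le 2 T).trans le_sup_right)).trans h4))), fun h4 => (u.loc e).nc
        (BG.le_cent_comm.1 (BG.le_cent_iff_comm.2 h4)), L, u.max, u.P_le, sylTwo_iff.2 u.syl,
    fun L' h4 h5 => (h4.2 L u.max.1 (u.uniq L' h4.1
      ((sup_le_sup_left (H9.JJ_le 2 T) K).trans h5))).symm⟩
  exact (relIndex_mul_relIndex _ _ _ (u.loc e).Q_le le_sup_right).symm.trans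
    (by rw [u.ix e, u.idx e])

end Cfsg.Agent.S2953
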