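import Cfsg.Statements.S3110
import Cfsg.Agent.H8.SFApp

set_option autoImplicit false
open Cfsg

namespace Cfsg.Agent.S3110

open Cfsg.Agent.H8

open Subgroup Cfsg.Agent.SF Cfsg.Agent.BG Cfsg.Agent.H2

/-- Let G be a finite group in which every 2-local subgroup is 2-constrained and some Sylow 2-subgroup has a self-centralizing abelian normal subgroup of 2-rank at least 3, and let S be any Sylow 2-subgroup of G. Then there is a subgroup W of G of odd order such that, for every subgroup B of S of 2-rank at least 2, W is generated by the largest normal odd-order subgroups O(C_G(b)) of the centralizers of the non-identity elements b of B, and W is normalized by the normalizer of every such B. -/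
theorem result {G : Type*} [Group G] [Finite G]
    (h2c : ∀ T : Subgroup G, IsPGroup 2 T → T ≠ ⊥ → Cfsg.IsPConstrained 2 ↥(Subgroup.normalizer (T : Set G)))
    (S : Sylow 2 G) (A : Subgroup ↥(S : Subgroup G)) (hAn : A.Normal) (hAab : IsMulCommutative ↥A)
    (hAC : Subgroup.centralizer (A : Set ↥(S : Subgroup G)) = A) (hA3 : ¬ Cfsg.PRankLE 2 2 ↥A) (S' : Sylow 2 G) :
    ∃ W : Subgroup G, Odd (Nat.card ↥W) ∧
      ∀ B : Subgroup G, B ≤ (S' : Subgroup G) → ¬ Cfsg.PRankLE 2 1 ↥B →
        W = (⨆ b : {b : G // b ∈ B ∧ b ≠ 1}, Cfsg.centralizerPPrimeCore 2 (b : G)) ∧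
        Subgroup.normalizer (B : Set G) ≤ Subgroup.normalizer (W : Set G) := by
  have h0 : ∀ t : G, orderOf t = 2 → PLay 2 (centralizer ({t} : Set G)) = ⊥ := fun t ht =>
    PLay_cent_of_local h2c ht
  have hθ := gf_core h0
  obtain ⟨hc, E, hE⟩ := allConn_of_SCN' S A hAn hAab hA3 S'
  refine ⟨signalizerClosure E fun a : G => Opp 2 (centralizer ({a} : Set G)),
    Nat.coprime_two_right.1 (hθ.cop hE), fun B hB h1 => ⟨le_antisymm ?_ ?_,
      (le_Gam hB h1).trans (hθ.Gam_le hE.pred hc)⟩⟩
  · obtain ⟨F, hF⟩ := not_rank_iff.1 h1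
    rw [hθ.conn (hc _ _ hE.pred (hF.mono hB))]
    exact clos_mono hF.le
  · refine clos_le (θ := fun a : G => Opp 2 (centralizer ({a} : Set G))) fun b hb h2 => ?_
    obtain ⟨t, ht, h3, h4⟩ := Opp_cent_le_of_pelt h0
      (isPGroup_zpowers_of_mem S'.isPGroup' (hB hb)) h2
    exact h4.trans (hθ.le_of_mem S'.isPGroup' hE.pred hc (hB (zpowers_le.2 hb ht)) h3)

end Cfsg.Agent.S3110
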