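import Cfsg.Statements.S3356
import Cfsg.Agent.GS.Lem2
import Cfsg.Agent.H7.Count
import Cfsg.Agent.PF.FT

set_option autoImplicit false
open Cfsg

namespace Cfsg.Agent.S3356

open Cfsg.Agent.H1

section
open Subgroup Pointwise commutatorElement Cfsg.Agent.BG Cfsg.Agent.GS
open Cfsg.Agent.H2 hiding card_lt_of_lt card_lt_of_ne_top isMulCommutative_of_le isPGroup_zpowers_iff mem_of_pow_mem_of_coprime inf_eq_bot_of_cop exists_maxElem_ge Sec
open Cfsg.Agent.H8 (Op Opp Fit SN)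
open Cfsg.Agent.L (FPF)
universe u

open Subgroup Cfsg.Agent.BG Cfsg.Agent.H2
open Cfsg.Agent.H8 (Fit Fit_le Fit_nilpotent normalizer_le_Fit)

variable {G : Type*} [Group G] [Finite G] {H L M N : Subgroup G} {c : ℕ}

theorem dvd_ncard_of_conj {S : Set G} {m : ℕ} (h1 : ∀ l ∈ L, ∀ x ∈ S, l * x * l⁻¹ ∈ S) (h2 : ∀ x ∈ S, m ∣ (𝒞₁ x).relIndex L) :
    m ∣ S.ncard := by
  letI := MulAction.compHom G ((MulAut.conj (G := G)).comp L.subtype)
  refine H7.dvd_ncard_of_orbits (G := L) S S.toFinite (fun g x hx => h1 g g.2 x hx) fun x hx => ?_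
  rw [Nat.card_coe_set_eq, ← MulAction.index_stabilizer]
  have : MulAction.stabilizer L x = (𝒞₁ x).subgroupOf L :=
    Subgroup.ext fun g => mul_inv_eq_iff_eq_mul.trans mem_centralizer_singleton_iff.symm
  exact this ▸ h2 x hx

theorem cop (h : ∀ x ∈ N, x ≠ 1 → ♯↥(H ⊓ 𝒞₁ x) = c) (hM : M ≤ N) (hn : H ≤ 𝒩 M) : (♯H / c).Coprime ♯M := by
  have := dvd_ncard_of_conj (L := H) (S := (M : Set G) \ {1}) (m := ♯H / c)
    (fun l hl x hx => ⟨(mem_normalizer_iff.1 (hn hl) x).1 hx.1, fun e => hx.2 (conj_eq_one_iff.1 e)⟩) fun x hx => by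
      rw [← h x (hM hx.1) hx.2, ← H1.card_mul_relIndex (inf_le_left : H ⊓ 𝒞₁ x ≤ H), Nat.mul_div_cancel_left _ Nat.card_pos,
        inf_relIndex_left]
  rw [Set.ncard_sdiff_singleton_of_mem M.one_mem] at this
  exact ((Nat.coprime_self_sub_left Nat.card_pos).2 (Nat.coprime_one_left _)).coprime_dvd_left this

theorem irr [N.Normal] (hc : H ⊓ 𝒞 N = ⊥) (h1 : 1 < c) (h : ∀ x ∈ N, x ≠ 1 → ♯↥(H ⊓ 𝒞₁ x) = c) (M : Subgroup G)
    (hn : H ≤ 𝒩 M) (hM : M ≤ N) : M = ⊥ ∨ M = N := by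
  by_contra! hne
  have key : ∀ x ∈ N, x ∉ M → H ⊓ 𝒞₁ x ≤ 𝒞 M := fun x hx hxM => by
    let S : Set G := {y | x⁻¹ * y ∈ M}
    have a : ∀ y ∈ S, H ⊓ 𝒞₁ y ≤ H ⊓ normalizer S := fun y hy g hg => ⟨hg.1, fun n => by
      have e : x⁻¹ * (g * n * g⁻¹) = x⁻¹ * y * (g * (y⁻¹ * n) * g⁻¹) := by
        simp only [mul_assoc]
        rw [← mul_assoc y g, ← mem_centralizer_singleton_iff.1 hg.2]; simp [mul_assoc]
      change x⁻¹ * n ∈ M ↔ x⁻¹ * (g * n * g⁻¹) ∈ M
      rw [e, M.mul_mem_cancel_left hy, ← mem_normalizer_iff.1 (hn hg.1), ← M.mul_mem_cancel_left (y := y⁻¹ * n) hy]; simp [mul_assoc]⟩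
    have b : ∀ y ∈ S, ♯↥(H ⊓ 𝒞₁ y) = c := fun y hy => h y ((mul_mem_cancel_left (inv_mem hx)).1 (hM hy)) fun e => hxM (by
      simpa [S, e] using hy)
    have xS : x ∈ S := by simp [S]
    have d : ∀ y ∈ S, c * (𝒞₁ y).relIndex (H ⊓ normalizer S) = ♯↥(H ⊓ normalizer S) := fun y hy => by
      rw [← H1.card_mul_relIndex (a y hy), b y hy, ← inf_relIndex_left, ← inf_relIndex_left (H := H ⊓ normalizer S) (K := H ⊓ 𝒞₁ y),
        ← inf_assoc, inf_eq_left.2 inf_le_left]
    have f := dvd_ncard_of_conj (L := H ⊓ normalizer S) (S := S) (m := (𝒞₁ x).relIndex (H ⊓ normalizer S))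
      (fun l hl y hy => (hl.2 y).1 hy) fun y hy => (Nat.eq_of_mul_eq_mul_left (by omega) ((d x xS).trans (d y hy).symm)).dvd
    rw [show S.ncard = ♯M from Set.ncard_preimage_of_injective_subset_range (s := (M : Set G)) (mul_right_injective x⁻¹)
      (by simp [(Group.mulLeft_bijective _).2.range_eq])] at f
    have g := Nat.eq_one_of_dvd_coprimes (cop h hM hn) ((Nat.dvd_div_iff_mul_dvd (b x xS ▸ card_dvd_of_le inf_le_left)).2
      (d x xS ▸ card_dvd_of_le inf_le_left)) f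
    intro k hk m hm
    have i : (𝒞₁ (x * m)).relIndex (H ⊓ normalizer S) = 1 :=
      Nat.eq_of_mul_eq_mul_left (show 0 < c by omega) (by rw [d _ (by simpa [S] using hm), ← d x xS, g])
    have j := mem_centralizer_singleton_iff.1 (relIndex_eq_one.1 i (a x xS hk))
    rw [← mul_assoc, mem_centralizer_singleton_iff.1 hk.2, mul_assoc, mul_assoc, mul_right_inj] at j
    exact j.symm
  obtain ⟨⟨m, hm⟩, m1⟩ := ne_bot_iff_exists_ne_one.1 hne.1
  replace m1 : m ≠ 1 := fun e => m1 (Subtype.ext e)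
  have k2 : ∀ x ∈ N, x ∉ M → H ⊓ 𝒞₁ x = H ⊓ 𝒞₁ m := fun x hx hxM => eq_of_le_of_card_ge
    (fun g hg => ⟨hg.1, mem_centralizer_singleton_iff.2 (key x hx hxM hg m hm).symm⟩)
    (by rw [h x hx (by rintro rfl; exact hxM (one_mem _)), h m (hM hm) m1])
  obtain ⟨x, hx, hxM⟩ := SetLike.exists_of_lt (lt_of_le_of_ne hM hne.2)
  have : H ⊓ 𝒞₁ m = ⊥ := eq_bot_iff.2 (hc.le.trans' fun g hg => ⟨hg.1, fun y hy => by
    by_cases e : y ∈ M
    · exact key x hx hxM ((k2 x hx hxM).ge hg) y e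
    · exact (mem_centralizer_singleton_iff.1 ((k2 y hy e).ge hg).2).symm⟩)
  have := h m (hM hm) m1
  rw [‹H ⊓ 𝒞₁ m = ⊥›, card_bot] at this
  omega

theorem solv [hN : N.Normal] (hc : H ⊓ 𝒞 N = ⊥) (h1 : 1 < c) (h : ∀ x ∈ N, x ≠ 1 → ♯↥(H ⊓ 𝒞₁ x) = c) : Group.IsSolvable N := by
  by_contra hs
  have h2 : 2 ∣ ♯N := by_contra fun e => hs (odd_order (Nat.odd_iff.2 (by omega)))
  have hi := irr hc h1 h
  by_cases h3 : 2 ∣ ♯H
  · obtain ⟨t, ht, t2⟩ := H1.exists_mem_orderOf_eq_prime Nat.prime_two h3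
    have t1 : t * t = 1 := by rw [← pow_two, ← t2, pow_orderOf_eq_one]
    have t3 : t⁻¹ = t := inv_eq_of_mul_eq_one_left t1
    have a : ∀ g ∈ N, t * (g * t * g⁻¹) = g * t * g⁻¹ * t := fun g hg => by
      by_contra e
      have y1 : t * (t * (g * t * g⁻¹)) * t⁻¹ = (t * (g * t * g⁻¹))⁻¹ := by simp [← mul_assoc, t1, t3]
      have y2 : t * (g * t * g⁻¹) ∈ N := by simpa [mul_assoc, t3] using mul_mem (hN.conj_mem g hg t) (inv_mem hg)
      generalize g * t * g⁻¹ = s at *
      have y3 : t * s ≠ 1 := fun e' => e (by rw [eq_inv_of_mul_eq_one_right e', t3])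
      have y4 : t ∈ 𝒩 (H ⊓ 𝒞₁ (t * s)) := H2.mem_normalizer_iff_cj.2 (by
        rw [cj_inf, cj_eq_of_mem ht, cj_centralizer_singleton, y1]
        congr 1
        ext u
        simp only [mem_centralizer_singleton_iff]
        exact Commute.inv_right_iff)
      have y5 := H1.card_mul_relIndex (inf_le_left : H ⊓ 𝒞₁ (t * s) ≤ H)
      have y6 := cop h le_rfl le_normalizer_of_normal
      rw [← y5, h _ y2 y3, Nat.mul_div_cancel_left _ (by omega), ← relIndex_mul_relIndex _ (H ⊓ 𝒩 (H ⊓ 𝒞₁ (t * s))) H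
        (le_inf inf_le_left le_normalizer) inf_le_left] at y6
      have y7 := H1.le_of_coprime_relIndex (zpowers_le.2 (mem_inf.2 ⟨ht, y4⟩)) inf_le_right (by
        rw [Nat.card_zpowers, t2]; exact ((y6.coprime_dvd_left (dvd_mul_right _ _)).coprime_dvd_right h2).symm) (mem_zpowers t)
      have y8 := mem_centralizer_singleton_iff.1 y7.2
      rw [mul_assoc, mul_right_inj] at y8
      exact e y8
    let W := Subgroup.closure {s | ∃ g ∈ N, s = g * t * g⁻¹}
    haveI : IsMulCommutative W := isMulCommutative_closure (by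
      rintro _ ⟨g, hg, rfl⟩ _ ⟨k, hk, rfl⟩
      simpa [mul_assoc] using congrArg (fun u => g * u * g⁻¹) (a _ (mul_mem (inv_mem hg) hk)))
    have b : N ≤ 𝒩 W := fun n hn => H2.mem_normalizer_of_cj_le ((MonoidHom.map_closure _ _).le.trans (closure_mono (by
      rintro _ ⟨_, ⟨g, hg, rfl⟩, rfl⟩
      exact ⟨n * g, mul_mem hn hg, by simp [mul_assoc]⟩)))
    haveI : IsMulCommutative ↥(W ⊓ N) := H1.isMulCommutative_of_le inf_le_left
    have d := H8.le_Fit (inf_le_right : W ⊓ N ≤ N) (H1.le_normalizer_inf b le_normalizer) (H1.isNilpotent_of_isMulCommutative inferInstance)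
    rcases hi (Fit N) (le_normalizer_of_normal.trans (normalizer_le_Fit N)) (Fit_le N) with e | e
    · have : t ∈ H ⊓ 𝒞 N := ⟨ht, fun g hg => by
        have := mem_bot.1 (e.le (d (x := t * (g * t * g⁻¹)) ⟨mul_mem (Subgroup.subset_closure ⟨1, one_mem _, by simp⟩)
          (Subgroup.subset_closure ⟨g, hg, rfl⟩), by simpa [mul_assoc, t3] using mul_mem (hN.conj_mem g hg t) (inv_mem hg)⟩))
        rw [← mul_inv_eq_iff_eq_mul, eq_inv_of_mul_eq_one_right this, t3]⟩
      rw [hc, mem_bot] at this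
      simp [this] at t2
    · haveI := Fit_nilpotent N
      exact hs (e ▸ inferInstance)
  have h4 := odd_order (G := H) (Nat.odd_iff.2 (by omega))
  obtain ⟨x, hx, x2⟩ := H1.exists_mem_orderOf_eq_prime Nat.prime_two h2
  have h5 : H ≠ ⊥ := by
    rintro rfl
    have := h x hx (by rintro rfl; simp at x2)
    simp at this; omega
  obtain ⟨R, r1, r2, r3, r4⟩ := L.exists_minimal_invariant H H le_normalizer h5
  haveI := H1.isSolvable_of_le r1 h4
  obtain ⟨-, r, hr, r5⟩ := L.elementary_of_minimal_invariant r2 r3 r4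
  haveI := Fact.mk hr
  have r6 := L.isPGroup_of_forall_pow_eq_one r5
  have r7 : N ⊓ 𝒞 R = ⊥ := (hi _ (H1.le_normalizer_inf le_normalizer_of_normal (r2.trans (H1.normalizer_le_normalizer_centralizer _)))
    inf_le_left).resolve_right fun e => r3 (eq_bot_iff.2 (hc.le.trans' (le_inf r1 (le_centralizer_iff.1 (inf_eq_left.1 e)))))
  have r8 : (♯R).Coprime ♯N := by
    have := H1.card_modEq_card_centralizer r6 (le_normalizer_of_normal (H := N))
    rw [r7, card_bot] at this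
    obtain ⟨k, hk⟩ := IsPGroup.iff_card.1 r6
    rw [hk]
    exact (Nat.coprime_of_mul_modEq_one 1 (by simpa using this)).symm.pow_left k
  obtain ⟨P, p1, p2⟩ := BG.exists_inv_sylIn le_normalizer_of_normal r8 (Or.inl inferInstance) 2
  have p3 : H ≤ 𝒩 P := fun g hg => by
    obtain ⟨u, hu, e⟩ := BG.inv_sylIn_conj le_normalizer_of_normal r8 (Or.inl inferInstance) p1
      (p1.cj_of_mem_normalizer (le_normalizer_of_normal hg)) p2 (by
        rw [← cj_normalizer, ← cj_eq_of_mem_normalizer (r2 hg)]; exact cj_mono g p2)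
    rw [r7, mem_bot] at hu
    rw [H2.mem_normalizer_iff_cj, ← e, hu, cj_one]
  rcases hi P p3 p1.le with e | e
  · exact p1.ne_bot h2 e
  · haveI := p1.pgrp.isNilpotent
    exact hs (e ▸ inferInstance)

end

/-- Let G be a finite 3/2-transitive permutation group: G acts faithfully and transitively on a finite set, the point stabilizers are non-trivial, and for each point a all orbits of G_a on the remaining points have the same size. Suppose G has a regular normal subgroup N and G is not a Frobenius group (some two-point stabilizer is non-trivial). Then N is an elementary abelian p-group for some prime p, and every non-trivial normal subgroup of G contains N (so N is the unique minimal normal subgroup). -/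
theorem result {G Ω : Type*} [Group G] [Finite G]
    [MulAction G Ω] [FaithfulSMul G Ω] [Finite Ω] (htrans : MulAction.IsPretransitive G Ω)
    (hne : ∀ a : Ω, MulAction.stabilizer G a ≠ ⊥)
    (hhalf : ∀ a b c : Ω, b ≠ a → c ≠ a →
      Nat.card (MulAction.orbit (MulAction.stabilizer G a) b) = Nat.card (MulAction.orbit (MulAction.stabilizer G a) c))
    (N : Subgroup G) [hN : N.Normal] (hNt : MulAction.IsPretransitive N Ω) (hNr : ∀ a : Ω, MulAction.stabilizer N a = ⊥)
    (hnotF : ∃ a b : Ω, a ≠ b ∧ MulAction.stabilizer G a ⊓ MulAction.stabilizer G b ≠ ⊥) :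
    (∃ p : ℕ, p.Prime ∧ IsMulCommutative N ∧ ∀ x ∈ N, x ^ p = 1) ∧
    (∀ M : Subgroup G, M.Normal → M ≠ ⊥ → N ≤ M) := by
  open Subgroup Pointwise commutatorElement Cfsg.Agent.BG Cfsg.Agent.GS in
  open Cfsg.Agent.H2 hiding card_lt_of_lt card_lt_of_ne_top isMulCommutative_of_le isPGroup_zpowers_iff mem_of_pow_mem_of_coprime inf_eq_bot_of_cop exists_maxElem_ge Sec in
  open Cfsg.Agent.H8 (Op Opp Fit SN) in
  open Cfsg.Agent.L (FPF) in focus
    obtain ⟨a, b, hab, h0⟩ := hnotF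
    let H := MulAction.stabilizer G a
    have h1 : ∀ x ∈ N, H ⊓ 𝒞₁ x = H ⊓ MulAction.stabilizer G (x • a) := fun x hx => Subgroup.ext fun g => and_congr_right fun hg => by
      refine mem_centralizer_singleton_iff.trans ⟨fun e => ?_, fun e => ?_⟩
      · change g • x • a = x • a
        rw [smul_smul, e, mul_smul, show g • a = a from hg]
      · have := (hNr a).le (x := ⟨x⁻¹ * (g * x * g⁻¹), mul_mem (inv_mem hx) (hN.conj_mem x hx g)⟩) (by
          change (x⁻¹ * (g * x * g⁻¹)) • a = a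
          rw [mul_smul, mul_smul, show g⁻¹ • a = a from H.inv_mem hg, mul_smul, show g • x • a = x • a from e, inv_smul_smul])
        exact mul_inv_eq_iff_eq_mul.1 (inv_mul_eq_one.1 (congrArg Subtype.val this)).symm
    have h2 : ∀ c : Ω, Nat.card ↥(H ⊓ MulAction.stabilizer G c) * Nat.card (MulAction.orbit H c) = Nat.card H := fun c => by
      have := H1.card_mul_relIndex (inf_le_left : H ⊓ MulAction.stabilizer G c ≤ H)
      rw [inf_relIndex_left] at this
      exact (congrArg _ (MulAction.index_stabilizer H c).symm).trans this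
    have h3 : ∀ x ∈ N, x ≠ 1 → Nat.card ↥(H ⊓ 𝒞₁ x) = Nat.card ↥(H ⊓ MulAction.stabilizer G b) := fun x hx x1 => by
      rw [h1 x hx]
      haveI : Nonempty (MulAction.orbit H b) := ⟨⟨b, MulAction.mem_orbit_self b⟩⟩
      refine Nat.eq_of_mul_eq_mul_right (Nat.card_pos (α := MulAction.orbit H b)) ?_
      rw [h2 b, ← hhalf a (x • a) b (fun e => x1 (congrArg Subtype.val ((hNr a).le (x := ⟨x, hx⟩) e))) hab.symm, h2]
    have h4 : H ⊓ 𝒞 N = ⊥ := eq_bot_iff.2 fun g hg => FaithfulSMul.eq_of_smul_eq_smul (α := Ω) fun c => by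
      obtain ⟨x, rfl⟩ := hNt.exists_smul_eq a c
      exact ((h1 x x.2).le ⟨hg.1, mem_centralizer_singleton_iff.2 (hg.2 x x.2).symm⟩).2.trans (one_smul _ _).symm
    have h5 := (one_lt_card_iff_ne_bot _).2 h0
    have h6 := irr h4 h5 h3
    haveI := solv h4 h5 h3
    have h7 : N ≠ ⊥ := by
      rintro rfl
      obtain ⟨x, hx⟩ := hNt.exists_smul_eq a b
      exact hab (by rw [← hx, Subsingleton.elim x 1, one_smul])
    obtain ⟨h8, p, hp, h9⟩ := L.elementary_of_minimal_invariant le_normalizer_of_normal h7 h6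
    refine ⟨⟨p, hp, h8, h9⟩, fun M hM h10 => inf_eq_right.1 ((h6 (M ⊓ N) le_normalizer_of_normal inf_le_right).resolve_left fun e => h10 ?_)⟩
    refine eq_bot_iff.2 fun m hm => e.le ⟨hm, ?_⟩
    obtain ⟨x, hx⟩ := hNt.exists_smul_eq a (m • a)
    have := h4.le (x := (x : G)⁻¹ * m) ⟨by
        change ((x : G)⁻¹ * m) • a = a
        rw [mul_smul, ← hx]; exact inv_smul_smul _ _, (𝒞 N).mul_mem ((𝒞 N).inv_mem (le_centralizer N x.2))
      fun y hy => (commute_of_normal_of_disjoint M N hM hN (disjoint_iff.2 e) m y hm hy).symm⟩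
    exact inv_mul_eq_one.1 this ▸ x.2

end Cfsg.Agent.S3356
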