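import Cfsg.Statements.S3357
import Cfsg.Agent.GS.ZasE

set_option autoImplicit false
open Cfsg

namespace Cfsg.Agent.S3357

open Cfsg.Agent.H1

/-- Let G be a finite group that occurs as a Frobenius complement. Then G has a faithful irreducible representation over an algebraic closure of the rationals in which no non-identity element of G has 1 as an eigenvalue: there are n ≥ 1 and an injective homomorphism ρ from G to GL(n) over that field, with no invariant subspace other than 0 and the whole space, such that for g ≠ 1 the only vector fixed by ρ(g) is 0. -/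
theorem result {G : Type*} [Group G] [Finite G]
    (hFC : ∃ (L : Type) (_ : Group L) (_ : Finite L) (H : Subgroup L), Cfsg.IsFrobeniusComplement H ∧ Nonempty (G ≃* H)) :
    ∃ (n : ℕ) (ρ : G →* GL (Fin n) (AlgebraicClosure ℚ)), 0 < n ∧ Function.Injective ρ ∧
      (∀ W : Submodule (AlgebraicClosure ℚ) (Fin n → AlgebraicClosure ℚ),
        (∀ g : G, ∀ w ∈ W, ((ρ g : GL (Fin n) (AlgebraicClosure ℚ)) : Matrix (Fin n) (Fin n) (AlgebraicClosure ℚ)).mulVec w ∈ W) → W = ⊥ ∨ W = ⊤) ∧
      ∀ g : G, g ≠ 1 → ∀ v : Fin n → AlgebraicClosure ℚ,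
        ((ρ g : GL (Fin n) (AlgebraicClosure ℚ)) : Matrix (Fin n) (Fin n) (AlgebraicClosure ℚ)).mulVec v = v → v = 0 := by
  open Subgroup Pointwise commutatorElement Cfsg.Agent.BG Cfsg.Agent.GS in
  open Cfsg.Agent.H2 hiding card_lt_of_lt card_lt_of_ne_top isMulCommutative_of_le isPGroup_zpowers_iff mem_of_pow_mem_of_coprime inf_eq_bot_of_cop exists_maxElem_ge Sec in
  open Cfsg.Agent.H8 (Op Opp Fit SN) in
  open Cfsg.Agent.L (FPF) in focus
    obtain ⟨n, ρ, hn, hρ⟩ := IsFC.fc hFC
    haveI : Nonempty (Fin n) := ⟨⟨0, hn⟩⟩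
    let F := AlgebraicClosure ℚ
    let φ : Matrix (Fin n) (Fin n) ℚ →+* Module.End F (Fin n → F) :=
      (Matrix.toLinAlgEquiv' (R := F) (n := Fin n)).toRingEquiv.toRingHom.comp (algebraMap ℚ F).mapMatrix
    obtain ⟨m, σ, hm, h1, h2⟩ := exists_irr_fpf _ (Fin n → F) (φ.toMonoidHom.comp ρ) rfl (fun g hg v hv => by
      have h3 := (hρ g hg).map φ
      rw [map_sub, map_one, LinearMap.isUnit_iff_ker_eq_bot, LinearMap.ker_eq_bot'] at h3
      exact h3 v (by rw [LinearMap.sub_apply, sub_eq_zero]; exact hv))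
    refine ⟨m, σ, hm, (injective_iff_map_eq_one _).2 fun g hg => ?_, h1, h2⟩
    by_contra h3
    have := h2 g h3 (fun _ => 1) (by rw [hg]; simp)
    exact one_ne_zero (congrFun this ⟨0, hm⟩)

end Cfsg.Agent.S3357
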