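import Cfsg.Statements.S3379
import Cfsg.Agent.GS.Lem2

set_option autoImplicit false
open Cfsg

namespace Cfsg.Agent.S3379

open Cfsg.Agent.H1

/-- Let G be a finite group all of whose Sylow subgroups are cyclic. Then G is generated by two elements x and y of coprime orders n and m with x⁻¹yx = y^r, where gcd(r − 1, m) = 1 and r^n ≡ 1 (mod m). -/
theorem result {G : Type*} [Group G] [Finite G]
    (hZ : ∀ (p : ℕ) [Fact p.Prime] (P : Sylow p G), IsCyclic (P : Subgroup G)) :
    ∃ (x y : G) (n m r : ℕ), Subgroup.closure {x, y} = ⊤ ∧ orderOf x = n ∧ orderOf y = m ∧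
      x⁻¹ * y * x = y ^ r ∧ Nat.Coprime (r - 1) m ∧ Nat.Coprime n m ∧ 1 ≤ r ∧ r ^ n % m = 1 % m := by
  open Subgroup Pointwise commutatorElement Cfsg.Agent.BG Cfsg.Agent.GS in
  open Cfsg.Agent.H2 hiding card_lt_of_lt card_lt_of_ne_top isMulCommutative_of_le isPGroup_zpowers_iff mem_of_pow_mem_of_coprime inf_eq_bot_of_cop exists_maxElem_ge Sec in
  open Cfsg.Agent.H8 (Op Opp Fit SN) in
  open Cfsg.Agent.L (FPF) in focus
    haveI : IsZGroup G := ⟨fun p hp P => by haveI := Fact.mk hp; exact hZ p P⟩
    obtain ⟨X, hX⟩ := Subgroup.exists_right_complement'_of_coprime (N := _root_.commutator G) (IsZGroup.coprime_commutator_index G)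
    haveI : IsCyclic (G ⧸ _root_.commutator G) := IsZGroup.isCyclic_abelianization (G := G)
    haveI : IsCyclic X := isCyclic_of_surjective hX.symm.QuotientMulEquiv hX.symm.QuotientMulEquiv.surjective
    obtain ⟨x, hx⟩ := X.isCyclic_iff_exists_zpowers_eq_top.1 inferInstance
    obtain ⟨y, hy⟩ := (_root_.commutator G).isCyclic_iff_exists_zpowers_eq_top.1 (IsZGroup.isCyclic_commutator G)
    have hn : (zpowers y).Normal := hy ▸ inferInstance
    have h1 : x⁻¹ * y * x ∈ zpowers y := hn.conj_mem' _ (mem_zpowers y) x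
    obtain ⟨r', hr'⟩ := mem_powers_iff_mem_zpowers.2 h1
    have hr : x⁻¹ * y * x = y ^ (r' + orderOf y) := by rw [pow_add, pow_orderOf_eq_one, mul_one]; exact hr'.symm
    generalize hrr : r' + orderOf y = r at hr
    have r1 : 1 ≤ r := by have := orderOf_pos y; omega
    have hcl : closure {x, y} = ⊤ := by
      rw [← Set.singleton_union, Subgroup.closure_union, ← zpowers_eq_closure, ← zpowers_eq_closure, hx, hy, sup_comm]
      exact hX.sup_eq_top
    refine ⟨x, y, _, _, r, hcl, rfl, rfl, hr, ?_, ?_, r1, ?_⟩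
    · haveI : IsCyclic (zpowers y) := inferInstance
      let D := zpowers (y ^ (r - 1))
      have hD : D ≤ zpowers y := zpowers_le.2 (pow_mem (mem_zpowers y) _)
      haveI : D.Normal := ⟨fun a ha g => by
        obtain ⟨i, rfl⟩ := ha
        obtain ⟨j, hj⟩ := hn.conj_mem _ (mem_zpowers y) g
        refine ⟨i * j, ?_⟩
        simp only at hj ⊢
        rw [← conj_zpow, ← conj_pow, ← hj, ← zpow_natCast, ← zpow_natCast, ← zpow_mul, ← zpow_mul, ← zpow_mul]
        congr 1; ring⟩
      have h2 : _root_.commutator G ≤ D := by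
        refine L.commutator_le_of_generators (a := y⁻¹) (b := x⁻¹) ?_ ?_
        · rw [zpowers_inv, zpowers_inv, hx, hy, hX.sup_eq_top, top_sup_eq]
        · refine ⟨1, ?_⟩
          simp only [zpow_one, commutatorElement_def, inv_inv, mul_assoc]
          rw [← mul_assoc x⁻¹, hr, eq_inv_mul_iff_mul_eq, ← pow_succ', Nat.sub_add_cancel r1]
      have h3 := Nat.card_zpowers y ▸ Nat.card_zpowers (y ^ (r - 1)) ▸ card_le_of_le (hy.le.trans h2)
      rw [orderOf_pow] at h3
      have h4 := Nat.div_mul_cancel (Nat.gcd_dvd_left (orderOf y) (r - 1))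
      have h5 := Nat.gcd_pos_of_pos_left (r - 1) (orderOf_pos y)
      have h6 := orderOf_pos y
      rw [Nat.coprime_comm]
      by_contra h7
      have : 2 ≤ (orderOf y).gcd (r - 1) := by unfold Nat.Coprime at h7; omega
      nlinarith
    · rw [← Nat.card_zpowers, ← Nat.card_zpowers, hx, hy, ← hX.symm.index_eq_card]
      exact (IsZGroup.coprime_commutator_index G).symm
    · have h2 : ∀ k : ℕ, (x ^ k)⁻¹ * y * x ^ k = y ^ r ^ k := fun k => by
        induction k with
        | zero => simp
        | succ k ih =>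
          rw [pow_succ, mul_inv_rev, pow_succ' r, pow_mul, ← hr]
          calc _ = x⁻¹ * ((x ^ k)⁻¹ * y * x ^ k) * x := by group
            _ = _ := by rw [ih]; simpa using (conj_pow (a := x⁻¹) (b := y) (i := r ^ k)).symm
      have h3 := h2 (orderOf x)
      rw [pow_orderOf_eq_one, inv_one, one_mul, mul_one] at h3
      exact pow_eq_pow_iff_modEq.1 (h3.symm.trans (pow_one y).symm)

end Cfsg.Agent.S3379
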