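import Cfsg.Statements.S3358
import Cfsg.Agent.GS.Zas5
import Cfsg.Agent.S3379

set_option autoImplicit false
open Cfsg

namespace Cfsg.Agent.S3358

open Cfsg.Agent.H1

section
open Subgroup Pointwise commutatorElement Cfsg.Agent.BG Cfsg.Agent.GS
open Cfsg.Agent.H2 hiding card_lt_of_lt card_lt_of_ne_top isMulCommutative_of_le isPGroup_zpowers_iff mem_of_pow_mem_of_coprime inf_eq_bot_of_cop exists_maxElem_ge Sec
open Cfsg.Agent.H8 (Op Opp Fit SN)
open Cfsg.Agent.L (FPF)
universe u

theorem nrm {H : Type*} [Group H] {x y : H} {r : ℕ} (hf : IsOfFinOrder y) (hr : x⁻¹ * y * x = y ^ r)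
    (hcl : Subgroup.closure {x, y} = ⊤) : (zpowers y).Normal := by
  haveI : Finite (zpowers y) := finite_zpowers.2 hf
  rw [← normalizer_eq_top_iff, eq_top_iff, ← hcl, closure_le]
  rintro _ (rfl | rfl)
  · refine (Subgroup.inv_mem_iff _).1 (mem_normalizer_fintype ?_)
    rintro _ ⟨i, rfl⟩
    simp only
    rw [← conj_zpow, inv_inv, hr]
    exact zpow_mem (pow_mem (mem_zpowers y) r) i
  · exact le_normalizer (mem_zpowers _)

end

/-- Structure of solvable Frobenius complements. Let G be a finite solvable group that occurs as a Frobenius complement. Then G has a normal subgroup G₀ such that G/G₀ is isomorphic to a subgroup of Sym(4) (G₀ is the kernel of a homomorphism to Sym(4)), all Sylow subgroups of G₀ are cyclic, and G₀ has a presentation ⟨x, y | x^n = 1, y^m = 1, x⁻¹ y x = y^r⟩ with n, m ≥ 1, gcd(r − 1, m) = gcd(n, m) = 1 and r^(n/n′) ≡ 1 (mod m), where n′ is the product of the distinct primes dividing n. -/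
theorem result {G : Type*} [Group G] [Finite G] (hsol : Group.IsSolvable G)
    (hFC : ∃ (L : Type) (_ : Group L) (_ : Finite L) (H : Subgroup L), Cfsg.IsFrobeniusComplement H ∧ Nonempty (G ≃* H)) :
    ∃ G₀ : Subgroup G, G₀.Normal ∧
      (∃ f : G →* Equiv.Perm (Fin 4), f.ker = G₀) ∧
      (∀ (p : ℕ) [Fact p.Prime] (P : Sylow p G₀), IsCyclic P) ∧
      ∃ n m r : ℕ, 0 < n ∧ 0 < m ∧ Nat.Coprime (r - 1) m ∧ Nat.Coprime n m ∧ 1 ≤ r ∧
        r ^ (n / ∏ p ∈ n.primeFactors, p) % m = 1 % m ∧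
        Nonempty (G₀ ≃* PresentedGroup
          ({FreeGroup.of (0 : Fin 2) ^ n, FreeGroup.of (1 : Fin 2) ^ m,
            (FreeGroup.of (0 : Fin 2))⁻¹ * FreeGroup.of 1 * FreeGroup.of 0 * (FreeGroup.of (1 : Fin 2) ^ r)⁻¹} :
            Set (FreeGroup (Fin 2)))) := by
  open Subgroup Pointwise commutatorElement Cfsg.Agent.BG Cfsg.Agent.GS in
  open Cfsg.Agent.H2 hiding card_lt_of_lt card_lt_of_ne_top isMulCommutative_of_le isPGroup_zpowers_iff mem_of_pow_mem_of_coprime inf_eq_bot_of_cop exists_maxElem_ge Sec in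
  open Cfsg.Agent.H8 (Op Opp Fit SN) in
  open Cfsg.Agent.L (FPF) in focus
    have h := IsFC.fc hFC
    obtain ⟨N, hN, hZ, h4⟩ := h.exists_quo_solv hsol
    refine ⟨N, hN, ?_, fun p _ P => inferInstance, ?_⟩
    · rcases h4 with rfl | ⟨f, s, rfl⟩ | ⟨f, s, rfl⟩ | ⟨f, s, rfl⟩
      · exact ⟨1, MonoidHom.ker_one⟩
      · obtain ⟨g, hg⟩ := H4.exists_hom_perm (G := DihedralGroup 2) ⊥ (le_bot_iff.1 (normalCore_le _)) (index_bot.trans DihedralGroup.nat_card)
        exact ⟨g.comp f, by rw [← MonoidHom.comap_ker, (MonoidHom.ker_eq_bot_iff g).2 hg]; rfl⟩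
      · exact ⟨(alternatingGroup (Fin 4)).subtype.comp f, by rw [← MonoidHom.comap_ker, ker_subtype]; rfl⟩
      · exact ⟨f, rfl⟩
    obtain ⟨x, y, n, m, r, hcl, hx, hy, hr, h1, h2, h3, -⟩ := S3379.result (G := N) (fun p _ P => inferInstance)
    have hn : 0 < n := hx ▸ orderOf_pos x
    have hm : 0 < m := hy ▸ orderOf_pos y
    have h' := h.subgroup N
    haveI := nrm (isOfFinOrder_of_finite y) hr hcl
    have k2 : ∀ k : ℕ, (x ^ k)⁻¹ * y * x ^ k = y ^ r ^ k := fun k => by
      induction k with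
      | zero => simp
      | succ k ih =>
        rw [pow_succ, mul_inv_rev, pow_succ' r, pow_mul, ← hr]
        calc _ = x⁻¹ * ((x ^ k)⁻¹ * y * x ^ k) * x := by group
          _ = _ := by rw [ih]; simpa using (conj_pow (a := x⁻¹) (b := y) (i := r ^ k)).symm
    refine ⟨n, m, r, hn, hm, h1, h2, h3, ?_, ?_⟩
    · have hd : ∏ p ∈ n.primeFactors, p ∣ n := Nat.prod_primeFactors_dvd n
      have ho := orderOf_pow_orderOf_div (x := x) (orderOf_pos x).ne' (hx ▸ hd)
      have hsq : Squarefree (∏ p ∈ n.primeFactors, p) := Finset.squarefree_prod_of_pairwise_isCoprime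
        (fun a ha b hb hab => Nat.coprime_iff_isRelPrime.1 ((Nat.coprime_primes (Nat.prime_of_mem_primeFactors ha)
          (Nat.prime_of_mem_primeFactors hb)).2 hab)) fun a ha => (Nat.prime_of_mem_primeFactors ha).squarefree
      rw [hx] at ho
      have hc : x ^ (n / ∏ p ∈ n.primeFactors, p) ∈ centralizer {y} := by
        refine mem_of_forall_pelt fun p hp u hu ⟨k, hk⟩ => mem_centralizer_singleton_iff.2 (mem_centralizer_singleton_iff.1
          (mem_of_forall_pelt (H := centralizer {u}) fun q hq v hv ⟨l, hl⟩ => ?_)).symm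
        have hu' := ho ▸ orderOf_dvd_of_mem_zpowers hu
        rcases k with _ | _ | k
        · rw [orderOf_eq_one_iff.1 hk]; exact mem_centralizer_singleton_iff.2 (by simp)
        · haveI := Fact.mk hq
          refine mem_centralizer_singleton_iff.2 (h'.le_cent_of_cyc (Q := zpowers v) (R := zpowers u) (H8.isPGroup_zpowers hl) inferInstance
            (by rw [Nat.card_zpowers, hk]; simpa using hp) ?_ ?_ (mem_zpowers u) v (mem_zpowers v))
          · haveI := normal_of_le_of_isCyclic (zpowers_le.2 hv)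
            exact le_normalizer_of_normal
          · rw [Nat.card_zpowers, Nat.card_zpowers]
            exact (h2.symm.coprime_dvd_left (hy ▸ orderOf_dvd_of_mem_zpowers hv)).coprime_dvd_right (hu'.trans hd)
        · exact absurd (hsq p (Dvd.dvd.trans ⟨p ^ k, by rw [hk]; ring⟩ hu')) hp.not_isUnit
      have h4 := k2 (n / ∏ p ∈ n.primeFactors, p)
      rw [mul_assoc, ← mem_centralizer_singleton_iff.1 hc, inv_mul_cancel_left] at h4
      exact hy ▸ pow_eq_pow_iff_modEq.1 (h4.symm.trans (pow_one y).symm)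
    set rels : Set (FreeGroup (Fin 2)) := {FreeGroup.of (0 : Fin 2) ^ n, FreeGroup.of (1 : Fin 2) ^ m,
      (FreeGroup.of (0 : Fin 2))⁻¹ * FreeGroup.of 1 * FreeGroup.of 0 * (FreeGroup.of (1 : Fin 2) ^ r)⁻¹} with hrels
    have hR : ∀ r ∈ rels, PresentedGroup.mk rels r = 1 := fun r hr => PresentedGroup.one_of_mem hr
    have r1 : (PresentedGroup.of 0 : PresentedGroup rels) ^ n = 1 := by simpa [PresentedGroup.of] using hR _ (Or.inl rfl)
    have r2 : (PresentedGroup.of 1 : PresentedGroup rels) ^ m = 1 := by simpa [PresentedGroup.of] using hR _ (Or.inr (Or.inl rfl))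
    have r3 : (PresentedGroup.of 0 : PresentedGroup rels)⁻¹ * PresentedGroup.of 1 * PresentedGroup.of 0 = PresentedGroup.of 1 ^ r := by
      simpa [PresentedGroup.of, mul_inv_eq_one] using hR _ (Or.inr (Or.inr rfl))
    have hcl' : Subgroup.closure {(PresentedGroup.of 0 : PresentedGroup rels), PresentedGroup.of 1} = ⊤ := by
      rw [← PresentedGroup.closure_range_of]; congr 1; ext x; simp [eq_comm]
    let f : PresentedGroup rels →* N := PresentedGroup.toGroup (f := ![x, y]) (by
      rintro r (rfl | rfl | rfl) <;> simp [← hx, ← hy, hr])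
    have fa : f (PresentedGroup.of 0) = x := PresentedGroup.toGroup.of _
    have fb : f (PresentedGroup.of 1) = y := PresentedGroup.toGroup.of _
    generalize (PresentedGroup.of 0 : PresentedGroup rels) = X at *
    generalize (PresentedGroup.of 1 : PresentedGroup rels) = Y at *
    haveI := nrm (isOfFinOrder_iff_pow_eq_one.2 ⟨m, hm, r2⟩) r3 hcl'
    refine ⟨(MulEquiv.ofBijective f ⟨(injective_iff_map_eq_one f).2 fun g hg => ?_, MonoidHom.range_eq_top.1 ?_⟩).symm⟩
    · have hg' : g ∈ zpowers X ⊔ zpowers Y := by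
        rw [zpowers_eq_closure, zpowers_eq_closure, ← Subgroup.closure_union, Set.singleton_union, hcl']; exact mem_top g
      obtain ⟨_, ⟨i, rfl⟩, _, ⟨j, rfl⟩, rfl⟩ := mem_sup_of_normal_right.1 hg'
      simp only [map_mul, map_zpow, fa, fb] at hg ⊢
      have h5 : x ^ i = 1 := orderOf_eq_one_iff.1 (Nat.eq_one_of_dvd_coprimes h2 (hx ▸ orderOf_dvd_of_mem_zpowers ⟨i, rfl⟩)
        (hy ▸ orderOf_dvd_of_mem_zpowers ⟨-j, by simp only; rw [zpow_neg]; exact inv_eq_of_mul_eq_one_left hg⟩))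
      rw [h5, one_mul] at hg
      obtain ⟨a, rfl⟩ := orderOf_dvd_iff_zpow_eq_one.2 h5
      obtain ⟨b, rfl⟩ := orderOf_dvd_iff_zpow_eq_one.2 hg
      rw [zpow_mul, zpow_mul, zpow_natCast, zpow_natCast, hx, hy, r1, r2, one_zpow, one_zpow, one_mul]
    · rw [eq_top_iff, ← hcl, closure_le]
      rintro _ (rfl | rfl)
      exacts [⟨X, fa⟩, ⟨Y, fb⟩]

end Cfsg.Agent.S3358
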