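import Cfsg.Statements.S3359
import Cfsg.Agent.GS.Zas4

set_option autoImplicit false
open Cfsg

namespace Cfsg.Agent.S3359

open Cfsg.Agent.H1

/-- Structure of non-solvable Frobenius complements. Let G be a finite non-solvable group that occurs as a Frobenius complement. Then G has a normal subgroup G₀ of index 1 or 2 which is the direct product of a subgroup isomorphic to SL(2,5) and a subgroup M of order prime to 30 all of whose Sylow subgroups are cyclic. -/
theorem result {G : Type*} [Group G] [Finite G] (hns : ¬ Group.IsSolvable G)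
    (hFC : ∃ (L : Type) (_ : Group L) (_ : Finite L) (H : Subgroup L), Cfsg.IsFrobeniusComplement H ∧ Nonempty (G ≃* H)) :
    ∃ G₀ : Subgroup G, G₀.Normal ∧ (G₀.index = 1 ∨ G₀.index = 2) ∧
      ∃ S M : Subgroup G, S ⊔ M = G₀ ∧ S ⊓ M = ⊥ ∧ (∀ s ∈ S, ∀ x ∈ M, s * x = x * s) ∧
        Nonempty (S ≃* Matrix.SpecialLinearGroup (Fin 2) (ZMod 5)) ∧
        (∀ (p : ℕ) [Fact p.Prime] (P : Sylow p M), IsCyclic P) ∧ (Nat.card M).Coprime 30 := by
  open Subgroup Pointwise commutatorElement Cfsg.Agent.BG Cfsg.Agent.GS in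
  open Cfsg.Agent.H2 hiding card_lt_of_lt card_lt_of_ne_top isMulCommutative_of_le isPGroup_zpowers_iff mem_of_pow_mem_of_coprime inf_eq_bot_of_cop exists_maxElem_ge Sec in
  open Cfsg.Agent.H8 (Op Opp Fit SN) in
  open Cfsg.Agent.L (FPF) in focus
    have h := IsFC.fc hFC
    obtain ⟨K, M, z, s⟩ := h.exists_zasNS hns
    haveI := s.nK
    haveI := s.nM
    haveI := h.zgroup_of_odd (X := M) (s.cop.coprime_dvd_right (by decide))
    refine ⟨K ⊔ M, inferInstance, s.index, K, M, rfl, ?_, fun a ha x hx => ?_, s.equiv, fun p _ P => inferInstance, s.cop⟩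
    · refine disjoint_iff.1 (disjoint_of_coprime_natCard ?_)
      rw [s.card]
      exact (Nat.Coprime.coprime_dvd_right (show 120 ∣ 30 ^ 3 by decide) (s.cop.pow_right 3)).symm
    · exact (s.cent.ge (mem_sup_left hx)) a ha

end Cfsg.Agent.S3359
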