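import Cfsg.Statements.S3361
import Cfsg.Agent.GS.Nf2

set_option autoImplicit false
open Cfsg

namespace Cfsg.Agent.S3361

open Cfsg.Agent.H1

/-- Let q be a prime and V a non-trivial finite vector space over the field with q elements, and let G be a finite solvable group acting faithfully and linearly on V and regularly on the non-zero vectors (transitively, with only the identity fixing a non-zero vector). Then either V can be identified with the additive group of a finite field F so that every element of G acts as x ↦ a·σ(x) (a ∈ F, σ a field automorphism), or V has 5^2, 7^2, 11^2 or 23^2 elements. Moreover, if q ≠ 2 then G has a normal subgroup of index 2, except that when V has 25 elements G may be isomorphic to SL(2,3) and when V has 121 elements G may be isomorphic to SL(2,3) × C₅. -/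
theorem result
    (q : ℕ) [Fact q.Prime] {V : Type*} [AddCommGroup V] [Module (ZMod q) V] [Finite V] [Nontrivial V]
    {G : Type*} [Group G] [Finite G] (hsol : Group.IsSolvable G)
    (ρ : G →* (V ≃ₗ[ZMod q] V)) (hρ : Function.Injective ρ)
    (htrans : ∀ v w : V, v ≠ 0 → w ≠ 0 → ∃ g : G, ρ g v = w)
    (hreg : ∀ v : V, v ≠ 0 → ∀ g : G, ρ g v = v → g = 1) :
    ((∃ (F : Type) (_ : Field F) (_ : Fintype F) (e : V ≃+ F),
        ∀ g : G, ∃ (a : F) (σ : F ≃+* F), ∀ v : V, e (ρ g v) = a * σ (e v)) ∨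
      Nat.card V ∈ ({25, 49, 121, 529} : Set ℕ)) ∧
    (q ≠ 2 → (∃ N : Subgroup G, N.Normal ∧ N.index = 2) ∨
      (Nat.card V = 25 ∧ Nonempty (G ≃* Matrix.SpecialLinearGroup (Fin 2) (ZMod 3))) ∨
      (Nat.card V = 121 ∧ Nonempty (G ≃* Matrix.SpecialLinearGroup (Fin 2) (ZMod 3) × Multiplicative (ZMod 5)))) := by
  open Subgroup Pointwise commutatorElement Cfsg.Agent.BG Cfsg.Agent.GS in
  open Cfsg.Agent.H2 hiding card_lt_of_lt card_lt_of_ne_top isMulCommutative_of_le isPGroup_zpowers_iff mem_of_pow_mem_of_coprime inf_eq_bot_of_cop exists_maxElem_ge Sec in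
  open Cfsg.Agent.H8 (Op Opp Fit SN) in
  open Cfsg.Agent.L (FPF) in focus
    have h : Reg ρ := ⟨hρ, htrans, hreg⟩
    obtain ⟨A, hA⟩ := exists_maxAb G
    haveI := hA.nrm
    by_cases hi : Irr ρ A
    · obtain ⟨k, m, hk, hm, e0, -, -, e1, e2⟩ := exists_nums h.inj h.tr hA.comm
      obtain ⟨a, b, c⟩ := e2 (e1.2 hi)
      refine ⟨Or.inl a, fun h2 => Or.inl ?_⟩
      by_cases h3 : 2 ∣ (centralizer (A : Set G)).index
      · exact exists_index_two_of_quot _ h3 fun P _ => inferInstance
      obtain ⟨P, hP⟩ := exists_sylIn 2 (centralizer (A : Set G))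
      have hc := h.fc.cyc_of_comm b
      refine exists_index_two_of_quot ⊥ ?_ fun Q hQ => ?_
      · rw [index_bot, h.card, e0]
        exact (Nat.Odd.sub_odd (((Fact.out : q.Prime).odd_of_ne_two h2).pow.pow) odd_one).two_dvd
      · obtain ⟨R, hR, -, rfl⟩ := exists_lift_pgroup ⊥ hQ (U := ⊥) IsPGroup.of_bot bot_le
        obtain ⟨g, -, hg⟩ := (sylIn_top_of_index hP h3).exists_le_cj hR.pgrp le_top
        haveI : IsCyclic R := isCyclic_of_le hc (hg.trans ((cj_mono g hP.le).trans (cj_eq_of_normal g _).le))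
        exact isCyclic_of_surjective _ ((QuotientGroup.mk' ⊥).subgroupMap_surjective R)
    obtain ⟨N, -, hN⟩ := exists_minNA le_rfl (h.lt_cent hA hi).2
    haveI := hN.nrm
    obtain ⟨⟨e⟩⟩ | ⟨⟨e⟩⟩ := h.fc.minNA hA hN
    swap
    · exact absurd (by rw [H8.perfect_eq_bot_of_solvable (perfect_of_SL25 e) inferInstance]; infer_instance) hN.ncomm
    obtain ⟨a1, a2, a3, a4, a5, -, a6⟩ := h.q8 hA hi hN.le e
    refine ⟨Or.inr (by rcases a1 with rfl | rfl | rfl | rfl <;> simp [a2]), fun _ => ?_⟩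
    obtain ⟨a, b, q8⟩ := L.exists_qP two_pos e
    have h1 : N ⊓ A = zpowers (a ^ 2) := by
      refine le_antisymm (fun x hx => ?_) (zpowers_le.2 ⟨pow_mem q8.a_mem 2, a5.le fun x hx => q8.commute_t hx⟩)
      have := q8.sq_of_cent le_rfl hx.1 (a5.ge hx.2)
      by_cases h1 : x = 1
      · rw [h1]; exact one_mem _
      · rw [q8.eq_t hx.1 (orderOf_eq_prime ((pow_two x).trans this) h1)]; exact mem_zpowers _
    have h2 : A.relIndex (N ⊔ A) = 4 := by
      rw [relIndex_sup_right, ← inf_relIndex_left, h1]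
      have := card_mul_relIndex (h1 ▸ inf_le_left : zpowers (a ^ 2) ≤ N)
      rw [Nat.card_zpowers, q8.ord_t, q8.card] at this
      omega
    have h3 := relIndex_mul_index (le_sup_right : A ≤ N ⊔ A)
    have h4 := A.card_mul_index
    have h5 : 2 ∣ Nat.card A := by
      have := card_dvd_of_le (h1 ▸ inf_le_right : zpowers (a ^ 2) ≤ A)
      rwa [Nat.card_zpowers, q8.ord_t] at this
    have h6 : ¬ 4 ∣ Nat.card A := fun d => by
      haveI := h.fc.cyc_of_comm hA.comm
      obtain ⟨x, hx⟩ := IsCyclic.exists_ofOrder_eq_natCard (α := A)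
      have h7 := orderOf_pow_orderOf_div (x := (x : G)) (n := 4) (orderOf_pos _).ne' (by rwa [orderOf_coe, hx])
      have h8 := a5.ge (pow_mem x.2 (orderOf (x : G) / 4))
      have := q8.sq_of_cent le_rfl (q8.zpowers_le (h.fc.mem_zpowers_of_commute (h8 a q8.a_mem).symm (h7.trans q8.ord.symm).dvd)) h8
      have := Nat.le_of_dvd two_pos (h7 ▸ orderOf_dvd_of_pow_eq_one ((pow_two _).trans this))
      omega
    rw [h2] at h3
    rw [h.card, a2] at h4
    by_cases h7 : 2 ∣ (N ⊔ A).index
    · refine Or.inl (exists_index_two_of_quot _ h7 fun P hP => ?_)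
      obtain ⟨k, hk⟩ := IsPGroup.iff_card.1 hP
      have h8 : 2 ^ k ∣ 6 := (hk ▸ card_subgroup_dvd_card P).trans (Nat.dvd_of_mul_dvd_mul_left (show 0 < 4 by decide) (h3 ▸ a6))
      rcases k with _ | _ | k
      · haveI := (Nat.card_eq_one_iff_unique.1 hk).1
        infer_instance
      · exact isCyclic_of_prime_card (p := 2) hk
      · exact absurd (Dvd.dvd.trans ⟨2 ^ k, by ring⟩ h8 : 4 ∣ 6) (by decide)
    have h8 : A.index = 12 ∧ (q = 5 ∧ Nat.card A = 2 ∨ q = 11 ∧ Nat.card A = 10) := by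
      have := Nat.le_of_dvd (by decide) a6
      have h9 : A.index = 4 ∨ A.index = 12 := by
        generalize A.index = i at *
        interval_cases i <;> omega
      generalize Nat.card A = c at *
      generalize A.index = j at *
      obtain ⟨d, rfl⟩ := h5
      have h6' : ¬ 2 ∣ d := fun e => h6 (Nat.mul_dvd_mul_left 2 e)
      have := Nat.le_of_dvd (by rcases a1 with rfl | rfl | rfl | rfl <;> decide) a3
      rcases a1 with rfl | rfl | rfl | rfl <;> rcases h9 with rfl | rfl <;> omega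
    obtain ⟨e4⟩ := H4.equiv_A4_of (G := G ⧸ A) h8.1 fun R hR h9 => by
      haveI : IsCyclic R := isCyclic_of_prime_card (p := 3) h9
      have h10 := hA.max (R.comap (QuotientGroup.mk' A)) inferInstance ⟨⟨commutative_of_cyclic_center_quotient
        ((QuotientGroup.mk' A).subgroupComap R) fun x hx => mem_center_iff.2 fun y => Subtype.ext
          ((a4.ge (mem_top y.1)) x ((QuotientGroup.eq_one_iff x.1).1 (congrArg Subtype.val hx))).symm⟩⟩ (H1.le_comap_mk'' A R)
      have := H1.relIndex_comap_mk' A R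
      rw [h10, relIndex_self, h9] at this
      omega
    have key : ∀ S : Subgroup G, S ⊔ A = ⊤ → Nat.card ↥(S ⊓ A) = 2 → Nonempty (S ≃* Matrix.SpecialLinearGroup (Fin 2) (ZMod 3)) := by
      intro S s1 s2
      obtain ⟨z, hz, z2⟩ := exists_mem_orderOf_eq_prime (H := S ⊓ A) Nat.prime_two s2.symm.dvd
      have z1 : z ≠ 1 := by rintro rfl; simp at z2
      have k : ∀ g : S, (e4.toMonoidHom.comp ((QuotientGroup.mk' A).comp S.subtype)) g = 1 ↔ g.1 ∈ A := fun g =>
        (map_eq_one_iff e4 e4.injective).trans (QuotientGroup.eq_one_iff g.1)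
      refine equiv_SL23 (e4.toMonoidHom.comp ((QuotientGroup.mk' A).comp S.subtype)) (e4.surjective.comp fun y => ?_) (z := ⟨z, hz.1⟩)
        (fun e => z1 (congrArg Subtype.val e)) (fun g => (k g).trans ⟨fun hg => ?_, ?_⟩) fun g hg => (k g).2 ?_
      · obtain ⟨y, rfl⟩ := QuotientGroup.mk'_surjective A y
        obtain ⟨u, hu, v, hv, rfl⟩ := mem_sup_of_normal_right.1 (s1.ge (mem_top y))
        exact ⟨⟨u, hu⟩, by simp [(QuotientGroup.eq_one_iff v).2 hv]⟩
      · refine or_iff_not_imp_left.2 fun g1 => Subtype.ext (h.fc.inv_unique ?_ z2)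
        exact ((Nat.dvd_prime Nat.prime_two).1 (s2 ▸ (S ⊓ A).orderOf_dvd_natCard ⟨g.2, hg⟩)).resolve_left (by simpa using g1)
      · rintro (rfl | rfl)
        exacts [one_mem _, hz.2]
      · exact a5.le fun x _ => h.fc.inv_central (congrArg Subtype.val hg) x
    rcases h8.2 with ⟨rfl, h9⟩ | ⟨rfl, h9⟩
    · obtain ⟨e5⟩ := key ⊤ (top_sup_eq _) (by rw [top_inf_eq, h9])
      exact Or.inr (Or.inl ⟨a2, ⟨topEquiv.symm.trans e5⟩⟩)
    obtain ⟨x, hx, x5⟩ := exists_mem_orderOf_eq_prime (H := A) Nat.prime_five (by rw [h9]; decide)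
    have hxc : zpowers x ≤ centralizer ((⊤ : Subgroup G) : Set G) := (zpowers_le.2 hx).trans (le_centralizer_iff.1 a4.ge)
    haveI : (zpowers x).Normal := ⟨fun a ha g => by rw [hxc ha g (mem_top g), mul_inv_cancel_right]; exact ha⟩
    have cG : Nat.card G = 120 := by rw [h.card, a2]; rfl
    have c5 : Nat.card (zpowers x) = 5 := by rw [Nat.card_zpowers, x5]
    have i5 : (zpowers x).index = 24 := by have := (zpowers x).card_mul_index; rw [c5, cG] at this; omega
    obtain ⟨S, hS⟩ := Subgroup.exists_right_complement'_of_coprime (N := zpowers x) (by rw [c5, i5]; decide)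
    have s1 : S ⊔ zpowers x = ⊤ := hS.symm.sup_eq_top
    have cS : Nat.card S = 24 := by rw [← hS.symm.index_eq_card, i5]
    obtain ⟨e5⟩ := key S (top_le_iff.1 (s1.ge.trans (sup_le_sup_left (zpowers_le.2 hx) _))) (by
      have := card_mul_relIndex (inf_le_left : S ⊓ A ≤ S)
      rw [inf_relIndex_left, ← relIndex_sup_right, top_le_iff.1 (s1.ge.trans (sup_le_sup_left (zpowers_le.2 hx) _)),
        relIndex_top_right, h8.1, cS] at this
      omega)
    obtain ⟨e6⟩ := nonempty_prod_equiv s1 (disjoint_iff.1 hS.symm.disjoint) (hxc.trans (centralizer_le le_top))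
    exact Or.inr (Or.inr ⟨a2, ⟨e6.trans (e5.prodCongr (mulEquivOfPrimeCardEq c5 (by simp)))⟩⟩)

end Cfsg.Agent.S3361
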