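import Cfsg.Statements.S3362
import Cfsg.Agent.GS.Cp1

set_option autoImplicit false
open Cfsg

namespace Cfsg.Agent.S3362

section
open Finset Pointwise Cfsg.Agent.St Cfsg.Agent.H6

set_option maxRecDepth 100000
noncomputable def nb : List Net := [(Net.cons (nat_lit 1) (nat_lit 584)
  (Net.cons (nat_lit 1) (nat_lit 1168)
  Net.nil)),
 (Net.cons (nat_lit 3) (nat_lit 448)
  (Net.cons (nat_lit 6) (nat_lit 56)
  Net.nil)),
 (Net.cons (nat_lit 6) (nat_lit 54)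
  (Net.cons (nat_lit 3) (nat_lit 322)
  (Net.cons (nat_lit 1) (nat_lit 64)
  (Net.cons (nat_lit 1) (nat_lit 130)
  (Net.cons (nat_lit 1) (nat_lit 576)
  (Net.cons (nat_lit 3) (nat_lit 260)
  (Net.cons (nat_lit 6) (nat_lit 54)
  Net.nil))))))),
 (Net.cons (nat_lit 6) (nat_lit 2)
  (Net.cons (nat_lit 3) (nat_lit 454)
  (Net.cons (nat_lit 1) (nat_lit 512)
  (Net.cons (nat_lit 1) (nat_lit 1026)
  (Net.cons (nat_lit 1) (nat_lit 576)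
  (Net.cons (nat_lit 3) (nat_lit 388)
  (Net.cons (nat_lit 6) (nat_lit 34)
  Net.nil))))))),
 (Net.cons (nat_lit 6) (nat_lit 4)
  (Net.cons (nat_lit 3) (nat_lit 448)
  (Net.cons (nat_lit 1) (nat_lit 64)
  (Net.cons (nat_lit 1) (nat_lit 144)
  (Net.cons (nat_lit 1) (nat_lit 576)
  (Net.cons (nat_lit 3) (nat_lit 388)
  (Net.cons (nat_lit 6) (nat_lit 20)
  Net.nil))))))),
 (Net.cons (nat_lit 3) (nat_lit 65)
  (Net.cons (nat_lit 1) (nat_lit 64)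
  (Net.cons (nat_lit 1) (nat_lit 1152)
  (Net.cons (nat_lit 1) (nat_lit 512)
  (Net.cons (nat_lit 3) (nat_lit 384)
  Net.nil))))),
 (Net.cons (nat_lit 3) (nat_lit 448)
  (Net.cons (nat_lit 1) (nat_lit 1)
  Net.nil)),
 (Net.cons (nat_lit 3) (nat_lit 448)
  (Net.cons (nat_lit 1) (nat_lit 512)
  (Net.cons (nat_lit 1) (nat_lit 1154)
  (Net.cons (nat_lit 1) (nat_lit 64)
  Net.nil))))]
def SL : SLev := (SLev.cons [[7]] [[],[0],[1,0],[2,1,0],[3,2,1,0],[4,2,1,0],[3,3,2,1,0],[4,3,2,1,0],[7,3,2,1,0],[0,4,2,1,0],[1,4,2,1,0],[4,3,3,2,1,0]]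
  [[(1,[]),(0,[]),(2,[0]),(3,[0]),(4,[0]),(9,[]),(6,[0]),(10,[1,0]),(11,[0,4]),(5,[]),(7,[0,1]),(8,[0,4])],[(0,[0]),(2,[]),(1,[]),(3,[1]),(4,[1]),(10,[]),(6,[1]),(8,[5,6,1]),(7,[5,1]),(11,[1,0]),(5,[]),(9,[0,1])],[(0,[1]),(1,[1]),(3,[]),(2,[]),(4,[4,4,2]),(7,[6,3,5]),(6,[2,4,4]),(5,[5,3,6]),(11,[4,2]),(10,[6,1,2,5,0]),(9,[5,3,6,0,1]),(8,[0,4,3,0])],[(0,[2]),(1,[2]),(2,[2]),(4,[]),(6,[]),(7,[]),(3,[]),(11,[]),(9,[0,4]),(10,[1,0]),(8,[5,6,1]),(5,[])],[(0,[3]),(1,[3,3,2,2]),(2,[3,2]),(5,[]),(7,[]),(10,[1]),(11,[]),(8,[5,6]),(4,[4]),(6,[0]),(3,[1]),(9,[0])],[(0,[4]),(1,[6,4]),(2,[5]),(3,[4,5]),(5,[4,5]),(6,[4,5]),(10,[6,1]),(11,[4,5]),(7,[5]),(8,[5,0]),(4,[1,6]),(9,[6,4,0])],[(0,[5]),(1,[5,6]),(2,[4,5]),(3,[5]),(7,[5]),(8,[6]),(9,[6,0]),(6,[5]),(10,[1,6]),(4,[5,0]),(11,[5,1]),(5,[5])],[(0,[6]),(1,[4,5]),(2,[5,6]),(3,[4]),(8,[]),(9,[0,4]),(11,[4]),(5,[4]),(6,[4,4]),(10,[5,1,0]),(7,[4,1]),(4,[4])]]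
  (SLev.cons [[6]] [[],[0],[1,0],[2,1,0],[3,1,0],[2,2,1,0],[3,2,1,0],[6,2,1,0],[0,3,1,0],[6,3,1,0],[3,2,2,1,0]]
  [[(1,[]),(0,[]),(2,[0]),(3,[0]),(8,[]),(5,[0]),(7,[4,0]),(6,[4,5,0]),(4,[]),(10,[4,5,0]),(9,[4,0])],[(0,[0]),(2,[]),(1,[]),(3,[3,3,1]),(6,[2,5,3]),(5,[1,3,3]),(4,[1,4,1]),(10,[5,3,1]),(9,[2,1,1,0]),(8,[0,2,2,1]),(7,[4,2,1])],[(0,[1]),(1,[1]),(3,[]),(5,[]),(6,[]),(2,[]),(10,[]),(9,[]),(7,[4,0]),(8,[4,5,0]),(4,[])],[(0,[2]),(1,[2,2]),(4,[]),(6,[]),(8,[0]),(10,[]),(7,[4]),(3,[5,3]),(2,[0]),(5,[5,3]),(9,[4])],[(0,[3]),(1,[4,5]),(2,[5]),(4,[5]),(5,[5]),(8,[0,5]),(10,[5]),(6,[4,5]),(3,[5,0]),(7,[3,4]),(9,[4,5])],[(0,[4]),(1,[5]),(2,[4,5]),(6,[4,5]),(7,[3,4]),(9,[3,4]),(5,[4,5]),(8,[5,0]),(10,[4,5,0]),(3,[3,4]),(4,[4,5])],[(0,[5]),(1,[4]),(2,[5,3]),(7,[]),(9,[]),(10,[5,3]),(4,[5,3]),(5,[3,3]),(6,[5,3,0]),(8,[3,3,0]),(3,[5,3])]]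
  (SLev.cons [[5]] [[],[0],[1,0],[2,0],[1,1,0],[2,1,0],[5,1,0],[2,2,0],[5,2,0],[2,1,1,0]]
  [[(1,[]),(0,[]),(2,[2,2,0]),(5,[2,3,1,0]),(4,[0,2,2]),(3,[4,1]),(9,[2,3,0]),(8,[1,1,0,0]),(7,[1,0]),(6,[1,4,1])],[(0,[0]),(2,[]),(4,[]),(5,[]),(1,[]),(9,[]),(8,[]),(6,[4]),(7,[2,3]),(3,[])],[(0,[1]),(3,[]),(5,[]),(7,[]),(9,[]),(6,[4]),(2,[2,3]),(1,[]),(4,[2,3]),(8,[4])],[(0,[2]),(1,[3]),(3,[3]),(4,[3]),(7,[3]),(9,[3]),(5,[2]),(2,[3]),(6,[4,2]),(8,[2])],[(0,[3]),(1,[2]),(5,[2]),(6,[4,2]),(8,[4,2]),(4,[2]),(7,[4,2]),(9,[2]),(2,[4,2]),(3,[2])],[(0,[4]),(1,[2,3]),(6,[]),(8,[]),(9,[2,3]),(3,[2,3]),(4,[2,2]),(5,[2,3]),(7,[2,2]),(2,[2,3])]]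
  (SLev.cons [[0],[1]] [[],[0],[1],[0,0],[1,0],[4,0],[1,1],[4,1],[1,0,0]]
  [[(1,[]),(3,[]),(4,[]),(0,[]),(8,[]),(7,[]),(5,[0,1]),(6,[2]),(2,[])],[(2,[]),(4,[]),(6,[]),(8,[]),(5,[0,1]),(1,[2]),(0,[]),(3,[2]),(7,[0,1])],[(0,[0]),(2,[0]),(3,[0]),(6,[0]),(8,[0]),(4,[1]),(1,[0]),(5,[1,2]),(7,[1])],[(0,[1]),(4,[1]),(5,[1,2]),(7,[1,2]),(3,[1]),(6,[1,2]),(8,[1]),(1,[1,2]),(2,[1])],[(0,[2]),(5,[]),(7,[]),(8,[2]),(2,[2]),(3,[0,0]),(4,[2]),(6,[0,0]),(1,[2])]]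
  (SLev.cons [[2],[3],[4]] [[],[0],[1],[2],[0,0],[2,0],[0,1],[1,2]]
  [[(1,[]),(4,[]),(6,[]),(2,[]),(7,[]),(3,[]),(5,[]),(0,[])],[(2,[]),(3,[]),(4,[]),(7,[]),(5,[]),(0,[]),(1,[]),(6,[])],[(3,[]),(5,[]),(1,[]),(4,[]),(6,[]),(7,[]),(0,[]),(2,[])]]
  SLev.nil)))))
def L1 : Lev := Lev.cons 1 11 [[6]] (Lev.cons 0 10 [[5]] (Lev.cons 3 9 [[0],[1]] (Lev.cons 4 8 [[2],[3],[4]] Lev.nil)))
def L : Lev := Lev.cons 2 12 [[7]] L1
theorem sharp {K α : Type*} [Group K] [MulAction K α] [Finite K] [Finite α] {k : ℕ} (y0 : Fin k ↪ α)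
    (h : ∀ g : K, (∀ i, g • y0 i = y0 i) → g = 1) (hc : Nat.card (Fin k ↪ α) = Nat.card K) :
    MulAction.IsMultiplyPretransitive K α k ∧ ∀ y : Fin k ↪ α, MulAction.stabilizer K y = ⊥ := by
  have h0 : MulAction.stabilizer K y0 = ⊥ := eq_bot_iff.2 fun g hg => h g fun i => DFunLike.congr_fun hg i
  have ho : MulAction.orbit K y0 = Set.univ := Set.eq_of_subset_of_ncard_le (Set.subset_univ _) (by
    rw [← MulAction.index_stabilizer, h0, Subgroup.index_bot, Set.ncard_univ, hc])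
  haveI hT : MulAction.IsPretransitive K (Fin k ↪ α) := (MulAction.isPretransitive_iff_orbit_eq_univ y0).2 ho
  refine ⟨hT, fun y => ?_⟩
  have := (MulAction.stabilizer K y).index_mul_card
  rw [MulAction.index_stabilizer_of_transitive, hc] at this
  exact Subgroup.card_eq_one.1 (Nat.eq_of_mul_eq_mul_left Nat.card_pos (this.trans (mul_one _).symm))
theorem cl_eq {G : Type*} [Group G] (g : ℕ → G) (kl : List ℕ) : cl g (lw kl) = Subgroup.closure {x | x ∈ kl.map g} := by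
  rw [cl, lw_eq]; congr 1; ext z; simp [wp]

end

/-- An explicit construction of the Mathieu groups of degrees 11 and 12. On the points 0, …, 11 let s = (3 4 5)(6 7 8)(9 10 11), t = (3 6 9)(4 7 10)(5 8 11), u = (4 6 5 9)(7 8 11 10), v = (4 7 5 11)(6 10 9 8), w = (4 10 5 8)(6 11 9 7), x₁ = (0 3)(6 7)(8 10)(9 11), x₂ = (0 1)(6 9)(7 10)(8 11), x₃ = (1 2)(6 11)(7 9)(8 10) (each written as a product of transpositions). Then the group M₁₂ generated by all eight permutations is sharply 5-transitive on the 12 points and has order 95040, and the group M₁₁ generated by the first seven has order 7920 and is the stabilizer of the point 2 in M₁₂. -/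
theorem result
    (s t u v w x₁ x₂ x₃ : Equiv.Perm (Fin 12))
    (hs : s = Equiv.swap (3 : Fin 12) 5 * Equiv.swap (3 : Fin 12) 4 * Equiv.swap (6 : Fin 12) 8 * Equiv.swap (6 : Fin 12) 7 * Equiv.swap (9 : Fin 12) 11 * Equiv.swap (9 : Fin 12) 10) (ht : t = Equiv.swap (3 : Fin 12) 9 * Equiv.swap (3 : Fin 12) 6 * Equiv.swap (4 : Fin 12) 10 * Equiv.swap (4 : Fin 12) 7 * Equiv.swap (5 : Fin 12) 11 * Equiv.swap (5 : Fin 12) 8)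
    (hu : u = Equiv.swap (4 : Fin 12) 9 * Equiv.swap (4 : Fin 12) 5 * Equiv.swap (4 : Fin 12) 6 * Equiv.swap (7 : Fin 12) 10 * Equiv.swap (7 : Fin 12) 11 * Equiv.swap (7 : Fin 12) 8) (hv : v = Equiv.swap (4 : Fin 12) 11 * Equiv.swap (4 : Fin 12) 5 * Equiv.swap (4 : Fin 12) 7 * Equiv.swap (6 : Fin 12) 8 * Equiv.swap (6 : Fin 12) 9 * Equiv.swap (6 : Fin 12) 10) (hw : w = Equiv.swap (4 : Fin 12) 8 * Equiv.swap (4 : Fin 12) 5 * Equiv.swap (4 : Fin 12) 10 * Equiv.swap (6 : Fin 12) 7 * Equiv.swap (6 : Fin 12) 9 * Equiv.swap (6 : Fin 12) 11)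
    (hx₁ : x₁ = Equiv.swap (0 : Fin 12) 3 * Equiv.swap (6 : Fin 12) 7 * Equiv.swap (8 : Fin 12) 10 * Equiv.swap (9 : Fin 12) 11) (hx₂ : x₂ = Equiv.swap (0 : Fin 12) 1 * Equiv.swap (6 : Fin 12) 9 * Equiv.swap (7 : Fin 12) 10 * Equiv.swap (8 : Fin 12) 11)
    (hx₃ : x₃ = Equiv.swap (1 : Fin 12) 2 * Equiv.swap (6 : Fin 12) 11 * Equiv.swap (7 : Fin 12) 9 * Equiv.swap (8 : Fin 12) 10)
    (M₁₂ M₁₁ : Subgroup (Equiv.Perm (Fin 12))) (hM₁₂ : M₁₂ = Subgroup.closure {s, t, u, v, w, x₁, x₂, x₃})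
    (hM₁₁ : M₁₁ = Subgroup.closure {s, t, u, v, w, x₁, x₂}) :
    MulAction.IsMultiplyPretransitive M₁₂ (Fin 12) 5 ∧ (∀ y : Fin 5 ↪ Fin 12, MulAction.stabilizer M₁₂ y = ⊥) ∧
    Nat.card M₁₂ = 95040 ∧ Nat.card M₁₁ = 7920 ∧
    M₁₁ = M₁₂ ⊓ MulAction.stabilizer (Equiv.Perm (Fin 12)) (2 : Fin 12) := by
  open Finset Pointwise Cfsg.Agent.St Cfsg.Agent.H6 in focus
    have mA : IsModel 12 (finX 12) (lk 1 [s, t, u, v, w, x₁, x₂, x₃]) (lk Net.nil nb) vT := by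
      subst hs ht hu hv hw hx₁ hx₂ hx₃
      exact listModel (.cons ⟨(by decide +kernel), (by decide +kernel)⟩ (.cons ⟨(by decide +kernel), (by decide +kernel)⟩ (.cons ⟨(by decide +kernel), (by decide +kernel)⟩ (.cons ⟨(by decide +kernel), (by decide +kernel)⟩ (.cons ⟨(by decide +kernel), (by decide +kernel)⟩ (.cons ⟨(by decide +kernel), (by decide +kernel)⟩ (.cons ⟨(by decide +kernel), (by decide +kernel)⟩ (.cons ⟨(by decide +kernel), (by decide +kernel)⟩ .nil))))))))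
    clear hs ht hu hv hw hx₁ hx₂ hx₃
    have e1 : M₁₂ = cl (lk 1 [s, t, u, v, w, x₁, x₂, x₃]) L.ws := by
      rw [hM₁₂, show L.ws = lw [7,6,5,0,1,2,3,4] from rfl, cl_eq]
      refine congrArg _ (Set.ext fun z => show _ ↔ z ∈ [x₃, x₂, x₁, s, t, u, v, w] from ?_)
      simp only [List.mem_cons, List.not_mem_nil, or_false, Set.mem_insert_iff, Set.mem_singleton_iff]
      constructor <;> rintro (h | h | h | h | h | h | h | h) <;> simp only [h, true_or, or_true]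
    have e2 : M₁₁ = cl (lk 1 [s, t, u, v, w, x₁, x₂, x₃]) L1.ws := by
      rw [hM₁₁, show L1.ws = lw [6,5,0,1,2,3,4] from rfl, cl_eq]
      refine congrArg _ (Set.ext fun z => show _ ↔ z ∈ [x₂, x₁, s, t, u, v, w] from ?_)
      simp only [List.mem_cons, List.not_mem_nil, or_false, Set.mem_insert_iff, Set.mem_singleton_iff]
      constructor <;> rintro (h | h | h | h | h | h | h) <;> simp only [h, true_or, or_true]
    have hL : L.chk 12 1 (lk Net.nil nb) vT 40 = true := by decide +kernel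
    have c1 : Nat.card M₁₂ = 95040 := e1 ▸ le_antisymm ((SLev.card_le (eqv_of_faith mA (faith_fin 12) 4) (L := SL) (by decide +kernel)).2.trans (by decide +kernel))
      (le_of_eq_of_le (by decide +kernel) (mA.ord_le_card hL))
    have lb := mA.ord_le_card (L := L1) (k := 1) (r := 40) (by decide +kernel)
    have ub := card_inf_le mA e1.ge (k := 1) (r := 40) (p := 2) (n := 12) (m := 7920) (by decide +kernel) (by norm_num) c1.le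
    have hle : M₁₁ ≤ M₁₂ ⊓ MulAction.stabilizer _ (finX 12 2) := by
      refine le_inf ?_ (e2 ▸ mA.cl_le_stab (by decide +kernel))
      rw [hM₁₁, hM₁₂]; exact Subgroup.closure_mono (by simp [Set.insert_subset_iff])
    have e3 := eq_of_le_of_ord hle (e2 ▸ lb) ub
    have hb := mA.based hL e1.ge c1.le
    obtain ⟨h1, h2⟩ := sharp (K := M₁₂) (⟨![2, 1, 0, 3, 4], by decide⟩ : Fin 5 ↪ Fin 12) (fun g this => Subtype.ext (hb.2 g g.2 fun p hp => by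
      simp only [L, L1, Lev.base, List.mem_cons, List.not_mem_nil, or_false] at hp
      rcases hp with rfl | rfl | rfl | rfl | rfl
      exacts [this 0, this 1, this 2, this 3, this 4])) (by rw [c1, Nat.card_eq_fintype_card, Fintype.card_embedding_eq]; simp)
    exact ⟨h1, h2, c1, le_antisymm (e3 ▸ ub) (e2 ▸ lb), e3⟩

end Cfsg.Agent.S3362
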