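import Cfsg.Statements.S3381
import Cfsg.Agent.GS.Basic

set_option autoImplicit false
open Cfsg

namespace Cfsg.Agent.S3381

open Cfsg.Agent.H1

section
open Subgroup Pointwise commutatorElement Cfsg.Agent.BG Cfsg.Agent.GS
open Cfsg.Agent.H2 hiding card_lt_of_lt card_lt_of_ne_top isMulCommutative_of_le isPGroup_zpowers_iff mem_of_pow_mem_of_coprime inf_eq_bot_of_cop exists_maxElem_ge Sec
open Cfsg.Agent.H8 (Op Opp Fit SN)
open Cfsg.Agent.L (FPF)
universe u

theorem card_ne_zero {V : Type*} [Zero V] [Finite V] : Nat.card {v : V // v ≠ 0} = Nat.card V - 1 := by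
  classical
  haveI := Fintype.ofFinite V
  simp [Nat.card_eq_fintype_card, Fintype.card_subtype_compl]

end

/-- Let G be a finite group acting faithfully and linearly on a non-trivial finite vector space V over the field with q elements (q prime) so that every non-zero vector has a stabilizer of order 2, and suppose G has a central involution. Then V has q^(2r) elements for some r and G contains exactly q^r + 1 non-central involutions. -/
theorem result
    (q : ℕ) [Fact q.Prime] {V : Type*} [AddCommGroup V] [Module (ZMod q) V] [Finite V] [Nontrivial V]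
    {G : Type*} [Group G] [Finite G] (ρ : G →* (V ≃ₗ[ZMod q] V)) (hρ : Function.Injective ρ)
    (hstab : ∀ v : V, v ≠ 0 → Nat.card {g : G // ρ g v = v} = 2)
    (z : G) (hz : orderOf z = 2) (hzc : z ∈ Subgroup.center G) :
    ∃ r : ℕ, Nat.card V = q ^ (2 * r) ∧
      Nat.card {g : G // orderOf g = 2 ∧ g ∉ Subgroup.center G} = q ^ r + 1 := by
  open Subgroup Pointwise commutatorElement Cfsg.Agent.BG Cfsg.Agent.GS in
  open Cfsg.Agent.H2 hiding card_lt_of_lt card_lt_of_ne_top isMulCommutative_of_le isPGroup_zpowers_iff mem_of_pow_mem_of_coprime inf_eq_bot_of_cop exists_maxElem_ge Sec in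
  open Cfsg.Agent.H8 (Op Opp Fit SN) in
  open Cfsg.Agent.L (FPF) in focus
    have hU : ∀ v : V, v ≠ 0 → ∃ t, orderOf t = 2 ∧ ρ t v = v ∧ ∀ g, g ≠ 1 → ρ g v = v → g = t := fun v hv => by
      obtain ⟨⟨t, h1⟩, h2, h3⟩ := (Nat.card_eq_two_iff' (⟨1, by simp⟩ : {g : G // ρ g v = v})).1 (hstab v hv)
      have h4 : ∀ g, g ≠ 1 → ρ g v = v → g = t := fun g a b => congrArg Subtype.val (h3 ⟨g, b⟩ fun e => a (congrArg Subtype.val e))
      have h5 : t ≠ 1 := fun e => h2 (Subtype.ext e)
      refine ⟨t, orderOf_eq_prime (by_contra fun e => h5 ?_) h5, h1, h4⟩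
      simpa [pow_two] using h4 _ e (by simp [pow_two, h1])
    have o1 : ∀ t : G, orderOf t = 2 → t ≠ 1 ∧ t * t = 1 := fun t h => ⟨by rintro rfl; simp at h, by rw [← pow_two, ← h, pow_orderOf_eq_one]⟩
    have hF : ∀ g : G, g ≠ 1 → ∃ w, ρ g w ≠ w := fun g hg => by_contra fun h => hg (hρ (by
      rw [map_one]; exact LinearEquiv.ext fun w => not_not.1 (not_exists.1 h w)))
    have hC : ∀ c ∈ center G, orderOf c = 2 → ∀ w, w ≠ 0 → ρ c w ≠ w ∧ ρ c w = -w := fun c hc c2 => by
      have h1 : ∀ w, ρ c w ≠ w → ρ c w = -w := fun w hw => by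
        obtain ⟨s, s1, s2, s3⟩ := hU w (by rintro rfl; simp at hw)
        by_contra h
        obtain ⟨t, -, -, t3⟩ := hU (ρ c w + w) (fun e => h (eq_neg_of_add_eq_zero_left e))
        have := (t3 c (o1 c c2).1 (by rw [map_add, ← LinearEquiv.mul_apply, ← map_mul, (o1 c c2).2, add_comm]; simp)).trans
          (t3 s (o1 s s1).1 (by rw [map_add, ← LinearEquiv.mul_apply, ← map_mul, mem_center_iff.1 hc s]; simp [s2])).symm
        exact hw (this ▸ s2)
      refine fun u hu => (and_iff_left_of_imp (h1 u)).2 fun e => ?_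
      obtain ⟨w, hw⟩ := hF c (o1 c c2).1
      have h2 := h1 (w + u) (by simpa [e] using hw)
      rw [map_add, h1 w hw, e, neg_add, add_right_inj, eq_neg_iff_add_eq_zero, ← two_smul (ZMod q)] at h2
      apply hw
      rw [h1 w hw, neg_eq_iff_add_eq_zero, ← two_smul (ZMod q), (smul_eq_zero.1 h2).resolve_right hu, zero_smul]
    have hz1 : ∀ w, ρ z w = -w := fun w => by
      by_cases h : w = 0
      · simp [h]
      · exact (hC z hzc hz w h).2
    obtain ⟨v₀, hv₀⟩ := exists_ne (0 : V)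
    have h2 : (2 : ZMod q) ≠ 0 := fun e => (hC z hzc hz v₀ hv₀).1 (by rw [hz1, neg_eq_iff_add_eq_zero, ← two_smul (ZMod q), e, zero_smul])
    let T := {g : G // orderOf g = 2 ∧ g ∉ Subgroup.center G}
    let F : T → Submodule (ZMod q) V := fun t => LinearMap.eqLocus (ρ t : V →ₗ[ZMod q] V) LinearMap.id
    have hT : ∀ v : V, v ≠ 0 → ∃! t : T, v ∈ F t := fun v hv => by
      obtain ⟨t, t1, t2, t3⟩ := hU v hv
      exact ⟨⟨t, t1, fun e => (hC t e t1 v hv).1 t2⟩, t2, fun s hs => Subtype.ext (t3 s (o1 s s.2.1).1 hs)⟩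
    have hd : ∀ s t : T, s ≠ t → F s ⊓ F t = ⊥ := fun s t h => eq_bot_iff.2 fun v hv => by_contra fun e => h ((hT v e).unique hv.1 hv.2)
    let σ : T → T := fun t => ⟨t * z, orderOf_eq_prime (by
        rw [pow_two, mul_assoc, ← mul_assoc z, ← mem_center_iff.1 hzc, mul_assoc, (o1 z hz).2, mul_one, (o1 _ t.2.1).2])
        fun e => t.2.2 (eq_inv_of_mul_eq_one_left e ▸ inv_mem hzc), fun e => t.2.2 ((mul_mem_cancel_right hzc).1 e)⟩
    have s1 : ∀ t, σ (σ t) = t := fun t => Subtype.ext (by simp [σ, mul_assoc, (o1 z hz).2])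
    have s2 : ∀ t, t ≠ σ t := fun t e => (o1 z hz).1 (by simpa [σ] using congrArg Subtype.val e)
    have s3 : ∀ t, F t ⊔ F (σ t) = ⊤ := fun t => eq_top_iff.2 fun v _ => by
      have h : ρ t (ρ t v) = v := by rw [← LinearEquiv.mul_apply, ← map_mul, (o1 _ t.2.1).2]; simp
      refine Submodule.mem_sup.2 ⟨(2 : ZMod q)⁻¹ • (v + ρ t v), Submodule.smul_mem _ _ (by simp [F, h, add_comm]),
        (2 : ZMod q)⁻¹ • (v - ρ t v), Submodule.smul_mem _ _ (by simp [F, σ, h, hz1]), ?_⟩
      rw [← smul_add, add_add_sub_cancel, ← two_smul (ZMod q), smul_smul, inv_mul_cancel₀ h2, one_smul]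
    have s4 : ∀ t, F t ≠ ⊥ := fun t e => by
      obtain ⟨w, hw⟩ := hF _ (o1 _ (σ t).2.1).1
      exact hw ((by simpa [e] using s3 t : F (σ t) = ⊤).ge trivial)
    have d1 : ∀ s t : T, s ≠ t → Module.finrank (ZMod q) (F s) + Module.finrank (ZMod q) (F t) ≤ Module.finrank (ZMod q) V := fun s t h => by
      rw [← Submodule.finrank_sup_add_finrank_inf_eq, hd s t h, finrank_bot]
      exact Submodule.finrank_le _
    have d2 : ∀ t, Module.finrank (ZMod q) (F t) + Module.finrank (ZMod q) (F (σ t)) = Module.finrank (ZMod q) V := fun t => by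
      rw [← Submodule.finrank_sup_add_finrank_inf_eq, hd _ _ (s2 t), finrank_bot, s3, finrank_top, add_zero]
    have d3 : ∀ t, 2 * Module.finrank (ZMod q) (F t) = Module.finrank (ZMod q) V := fun t => by
      obtain ⟨u, u1, u2⟩ := (Submodule.ne_bot_iff _).1 (s4 t)
      obtain ⟨w, w1, w2⟩ := (Submodule.ne_bot_iff _).1 (s4 (σ t))
      have a : w ∉ F t := fun e => w2 ((hd _ _ (s2 t)).le ⟨e, w1⟩)
      obtain ⟨s, hs, -⟩ := hT (u + w) fun e => a (eq_neg_of_add_eq_zero_right e ▸ neg_mem u1)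
      have b : s ≠ t := by rintro rfl; exact a ((add_mem_cancel_left u1).1 hs)
      have c : s ≠ σ t := by rintro rfl; exact u2 ((hd _ _ (s2 t)).le ⟨u1, (add_mem_cancel_right w1).1 hs⟩)
      have := d1 s t b
      have := d1 s _ c
      have := d1 (σ s) t fun e => c (by rw [← e, s1])
      have := d1 (σ s) (σ t) fun e => b (by rw [← s1 s, e, s1])
      have := d2 s
      have := d2 t
      omega
    obtain ⟨t₀, -⟩ := hT v₀ hv₀
    generalize hr : Module.finrank (ZMod q) (F t₀) = r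
    have cV : Nat.card V = q ^ (2 * r) := by rw [Module.natCard_eq_pow_finrank (K := ZMod q), Nat.card_zmod, ← hr, d3]
    refine ⟨r, cV, ?_⟩
    have c1 := Nat.card_eq_of_bijective (fun x : Σ t : T, {v : F t // v ≠ 0} => (⟨x.2.1.1, fun e => x.2.2 (Subtype.ext e)⟩ : {v : V // v ≠ 0}))
      ⟨by
        rintro ⟨s, ⟨v, a⟩, b⟩ ⟨t, ⟨w, c⟩, d⟩ e
        obtain rfl : v = w := congrArg Subtype.val e
        obtain rfl := (hT v fun e => b (Subtype.ext e)).unique a c
        rfl, fun v => by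
        obtain ⟨t, ht, -⟩ := hT v.1 v.2
        exact ⟨⟨t, ⟨v, ht⟩, fun e => v.2 (congrArg Subtype.val e)⟩, rfl⟩⟩
    haveI := Fintype.ofFinite T
    have c2 : ∀ t, Nat.card {v : F t // v ≠ 0} = q ^ r - 1 := fun t => by
      rw [card_ne_zero, Module.natCard_eq_pow_finrank (K := ZMod q), Nat.card_zmod]
      have := d3 t
      have := d3 t₀
      congr 2
      omega
    rw [Nat.card_sigma, card_ne_zero, cV, Finset.sum_congr rfl fun t _ => c2 t, Finset.sum_const, Finset.card_univ, smul_eq_mul,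
      ← Nat.card_eq_fintype_card, pow_mul', ← one_pow 2, Nat.sq_sub_sq, one_pow] at c1
    refine Nat.eq_of_mul_eq_mul_right (Nat.sub_pos_of_lt (Nat.one_lt_pow ?_ (Fact.out : q.Prime).one_lt)) c1
    rintro rfl
    exact s4 t₀ (Submodule.finrank_eq_zero.1 hr)

end Cfsg.Agent.S3381
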