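import Cfsg.Statements.S3370
import Cfsg.Agent.GS.Nf2
import Cfsg.Agent.S3381
import Cfsg.Agent.H2.MC2
import Cfsg.Agent.H7.Count

set_option autoImplicit false
open Cfsg

namespace Cfsg.Agent.S3370

open Cfsg.Agent.H1

section
open Subgroup Pointwise commutatorElement Cfsg.Agent.BG Cfsg.Agent.GS
open Cfsg.Agent.H2 hiding card_lt_of_lt card_lt_of_ne_top isMulCommutative_of_le isPGroup_zpowers_iff mem_of_pow_mem_of_coprime inf_eq_bot_of_cop exists_maxElem_ge Sec
open Cfsg.Agent.H8 (Op Opp Fit SN)
open Cfsg.Agent.L (FPF)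
universe u

theorem odd_pow {x y : ℤ} {n a : ℕ} (hy : y = 1 ∨ y = -1) (hx : 1 < x) (hn : Odd n) (ha : a ≠ 0) (h : x ^ n - y = 2 ^ a) : n = 1 := by
  have y1 : y ^ n = y := by rcases hy with rfl | rfl <;> simp [hn.neg_one_pow]
  have h1 : Odd x := by
    have : Odd (x ^ n) := by
      rw [sub_eq_iff_eq_add.1 h]
      exact (Even.pow_of_ne_zero even_two ha).add_odd (by rcases hy with rfl | rfl <;> decide)
    exact (Int.odd_pow.1 this).resolve_right hn.pos.ne'
  have h2 := emultiplicity_pow_sub_pow_of_prime Int.prime_two (x := x) (y := y) (by have := Int.odd_iff.1 h1; omega)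
    (by have := Int.odd_iff.1 h1; omega) (n := n) (by have := Nat.odd_iff.1 hn; omega)
  have h3 := sub_dvd_pow_sub_pow x y n
  rw [y1, h] at h2 h3
  have h4 := Int.dvd_antisymm (by omega) (by positivity) h3 (pow_dvd_of_le_emultiplicity (by rw [← h2, emultiplicity_pow_self_of_prime Int.prime_two]))
  exact (pow_right_injective₀ (by omega) (by omega) (show x ^ n = x ^ 1 by rw [pow_one]; omega))

theorem cat1 {p n a : ℕ} (hp : 1 < p) (ha : a ≠ 0) (h : p ^ a + 1 = 2 ^ n) : a = 1 := by
  have h0 := Nat.one_lt_pow ha hp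
  have hn : 2 ≤ n := by
    by_contra hn
    interval_cases n <;> omega
  refine odd_pow (x := p) (y := -1) (a := n) (by simp) (by omega) (Nat.not_even_iff_odd.1 fun ⟨b, hb⟩ => ?_) (by omega) (by rw [sub_neg_eq_add]; exact_mod_cast h)
  have : 4 ∣ (p ^ b) ^ 2 + 1 := by rw [← pow_mul, mul_two, ← hb, h]; exact pow_dvd_pow 2 hn
  generalize p ^ b = y at this
  rw [Nat.dvd_iff_mod_eq_zero, Nat.add_mod, Nat.pow_mod] at this
  have := Nat.mod_lt y (show 0 < 4 by decide)
  interval_cases y % 4 <;> simp_all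

theorem cat2 {q n a : ℕ} (hq : 1 < q) (ha : a ≠ 0) (h : q ^ n = 2 ^ a + 1) : n = 1 ∨ (q = 3 ∧ n = 2) := by
  rcases Nat.even_or_odd n with ⟨b, rfl⟩ | hn
  · right
    rw [pow_add] at h
    have h0 : 0 < q ^ b := by positivity
    obtain ⟨y, hy⟩ : ∃ y, q ^ b = y + 1 := ⟨q ^ b - 1, by omega⟩
    rw [hy] at h
    obtain ⟨i, -, hi⟩ := (Nat.dvd_prime_pow Nat.prime_two).1 (⟨y + 2, by linarith⟩ : y ∣ 2 ^ a)
    obtain ⟨j, -, hj⟩ := (Nat.dvd_prime_pow Nat.prime_two).1 (⟨y, by linarith⟩ : y + 2 ∣ 2 ^ a)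
    obtain rfl : y = 2 := by
      have := Nat.one_lt_two_pow ha
      rcases j with _ | _ | j
      · omega
      · have := Nat.two_pow_pos i
        omega
      rcases i with _ | _ | i
      · rw [pow_succ, pow_succ] at hj; omega
      · omega
      · rw [pow_succ, pow_succ] at hi hj; omega
    obtain ⟨rfl, rfl⟩ := (Nat.Prime.pow_eq_iff Nat.prime_three).1 hy
    exact ⟨rfl, rfl⟩
  · exact Or.inl (odd_pow (x := q) (y := 1) (a := a) (by simp) (by omega) hn ha (by rw [sub_eq_iff_eq_add]; exact_mod_cast h))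

end

/-- Let q be a prime, V a non-trivial finite vector space over the field with q elements, and G a non-trivial finite p-group (p prime) acting faithfully and linearly on V and transitively on the non-zero vectors. Then either q = 2 and G has prime order p = |V| − 1; or p = 2, V has q elements with q = 2^m + 1 and G is cyclic of order 2^m; or p = 2, q = 3, V has 9 elements and G is cyclic of order 8, quaternion of order 8, or semidihedral of order 16. -/
theorem result (q : ℕ) [Fact q.Prime] {V : Type*} [AddCommGroup V] [Module (ZMod q) V] [Finite V] [Nontrivial V]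
    {G : Type*} [Group G] [Finite G] [Nontrivial G] (p : ℕ) [Fact p.Prime] (hG : IsPGroup p G)
    (ρ : G →* (V ≃ₗ[ZMod q] V)) (hρ : Function.Injective ρ)
    (htrans : ∀ v w : V, v ≠ 0 → w ≠ 0 → ∃ g : G, ρ g v = w) :
    (q = 2 ∧ p = Nat.card V - 1 ∧ Nat.card G = p) ∨
    (p = 2 ∧ Nat.card V = q ∧ (∃ m : ℕ, q = 2 ^ m + 1 ∧ Nat.card G = 2 ^ m) ∧ IsCyclic G) ∨
    (p = 2 ∧ q = 3 ∧ Nat.card V = 9 ∧
      ((IsCyclic G ∧ Nat.card G = 8) ∨ Nonempty (G ≃* QuaternionGroup 2) ∨ (Cfsg.IsQuasiDihedral G ∧ Nat.card G = 16))) := by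
  open Subgroup Pointwise commutatorElement Cfsg.Agent.BG Cfsg.Agent.GS in
  open Cfsg.Agent.H2 hiding card_lt_of_lt card_lt_of_ne_top isMulCommutative_of_le isPGroup_zpowers_iff mem_of_pow_mem_of_coprime inf_eq_bot_of_cop exists_maxElem_ge Sec in
  open Cfsg.Agent.H8 (Op Opp Fit SN) in
  open Cfsg.Agent.L (FPF) in focus
    have hp : p.Prime := Fact.out
    have hq : q.Prime := Fact.out
    letI := MulAction.compHom V ρ
    have f1 : ∀ g, (∀ v, ρ g v = v) → g = 1 := fun g h => hρ (by rw [map_one]; exact LinearEquiv.ext h)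
    have h1 : ∀ v : V, v ≠ 0 → (MulAction.stabilizer G v).index = Nat.card V - 1 := fun v hv => by
      rw [MulAction.index_stabilizer, ← S3381.card_ne_zero]
      refine congrArg Set.ncard (Set.ext fun w => ⟨?_, htrans v w hv⟩)
      rintro ⟨g, rfl⟩
      exact (map_ne_zero_iff _ (ρ g).injective).2 hv
    obtain ⟨v, hv⟩ := exists_ne (0 : V)
    obtain ⟨a, ha⟩ := hG.index (MulAction.stabilizer G v)
    have cV := Module.natCard_eq_pow_finrank (K := ZMod q) (V := V)
    rw [Nat.card_zmod] at cV
    have c0 : 0 < Nat.card V := Nat.card_pos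
    have f2 : (MulAction.stabilizer G v).Normal → MulAction.stabilizer G v = ⊥ := fun h => eq_bot_iff.2 fun g hg => f1 g fun w => by
      by_cases e : w = 0
      · simp [e]
      obtain ⟨k, rfl⟩ := htrans v w hv e
      have : (k⁻¹ * g * k) • v = v := h.conj_mem' g hg k
      rwa [mul_smul, mul_smul, inv_smul_eq_iff] at this
    have a0 : a ≠ 0 := by
      rintro rfl
      have := index_eq_one.1 ha
      exact top_ne_bot (this.symm.trans (f2 (this ▸ inferInstance)))
    rw [h1 v hv] at ha
    let F : G → Submodule (ZMod q) V := fun g => LinearMap.eqLocus (ρ g : V →ₗ[ZMod q] V) LinearMap.id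
    have f3 : ∀ g, g ≠ 1 → Module.finrank (ZMod q) (F g) < Module.finrank (ZMod q) V := fun g hg =>
      Submodule.finrank_lt fun e => hg (f1 g fun v => e.ge trivial)
    rcases hq.eq_two_or_odd' with rfl | ho
    · obtain rfl := cat1 hp.one_lt a0 ((Nat.sub_eq_iff_eq_add c0).1 ha ▸ cV)
      rw [pow_one] at ha
      obtain ⟨k, hk⟩ := IsPGroup.iff_card.1 hG
      have := f2 (normal_of_index_eq_minFac_card (by
        rw [h1 v hv, ha, hk, hp.pow_minFac]
        rintro rfl
        exact Finite.one_lt_card.ne' hk))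
      exact Or.inl ⟨rfl, ha.symm, by rw [← ha, ← h1 v hv, this, index_bot]⟩
    obtain rfl : p = 2 := ((Nat.prime_dvd_prime_iff_eq Nat.prime_two hp).1 (Nat.prime_two.dvd_of_dvd_pow (n := a) (by
      rw [← ha, cV]; exact (Nat.Odd.sub_odd ho.pow odd_one).two_dvd))).symm
    right
    rcases cat2 hq.one_lt a0 (cV ▸ (Nat.sub_eq_iff_eq_add c0).1 ha) with e | ⟨rfl, e⟩
    · have h : Reg ρ := ⟨hρ, htrans, fun w hw g hg => by_contra fun g1 => hw (by
        have := f3 g g1
        exact (Submodule.finrank_eq_zero.1 (by omega : Module.finrank (ZMod q) (F g) = 0)).le hg)⟩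
      rw [e, pow_one] at cV
      haveI := h.fc.cyc_of_comm (comm_of_line (N := ⊤) (W := ⊤) (fun v hv g _ => h.fix v hv g) (by simpa using e) fun _ _ _ _ => trivial)
      exact Or.inl ⟨rfl, cV, ⟨a, by omega, h.card.trans ha⟩, isCyclic_of_surjective topEquiv topEquiv.surjective⟩
    rw [e] at cV
    refine Or.inr ⟨rfl, rfl, cV, ?_⟩
    have f4 : ∀ w : V, w ≠ 0 → ∀ g, g ≠ 1 → ρ g w = w → F g = Submodule.span (ZMod 3) {w} := fun w hw g g1 hg =>
      (Submodule.eq_of_le_of_finrank_le ((Submodule.span_singleton_le_iff_mem _ _).2 hg) (by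
        have := f3 g g1
        rw [finrank_span_singleton hw]; omega)).symm
    have c1 : Nat.card (Submodule.span (ZMod 3) {v}) = 3 := by
      rw [Module.natCard_eq_pow_finrank (K := ZMod 3), finrank_span_singleton hv]; simp
    have h2 : Nat.card (MulAction.stabilizer G v) ∣ 6 := by
      have := H7.card_dvd_ncard_of_semiregular (G := MulAction.stabilizer G v) (Submodule.span (ZMod 3) {v} : Set V)ᶜ (Set.toFinite _)
        (fun g x hx h => hx (by
          obtain ⟨c, hc⟩ := Submodule.mem_span_singleton.1 h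
          exact Submodule.mem_span_singleton.2 ⟨c, (ρ g).injective (by rw [map_smul, show ρ g v = v from g.2]; exact hc)⟩))
        fun x hx g hg => Subtype.ext (by_contra fun g1 => hx ((f4 v hv g g1 g.2).le hg))
      rwa [Set.ncard_compl, cV, show (Submodule.span (ZMod 3) {v} : Set V).ncard = 3 from c1] at this
    have h3 : ∀ w : V, w ≠ 0 → Nat.card (MulAction.stabilizer G w) * 8 = Nat.card G := fun w hw => by
      rw [← (MulAction.stabilizer G w).card_mul_index, h1 w hw, cV]; rfl
    obtain ⟨k, hk⟩ := IsPGroup.iff_card.1 (hG.to_subgroup (MulAction.stabilizer G v))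
    have h4 := h3 v hv
    rcases k with _ | _ | k
    · have h : Reg ρ := ⟨hρ, htrans, fun w hw g hg => (card_eq_one.1 (by have := h3 w hw; omega) : MulAction.stabilizer G w = ⊥).le hg⟩
      rcases h.fc.cyc_or_quat (hG.to_subgroup ⊤) with h5 | ⟨-, n, hn, ⟨e⟩⟩
      · exact Or.inl ⟨isCyclic_of_surjective topEquiv topEquiv.surjective, by omega⟩
      have := Nat.card_congr e.toEquiv
      haveI i : NeZero (2 ^ n) := ⟨by positivity⟩
      rw [card_top, Nat.card_eq_fintype_card (α := QuaternionGroup _), QuaternionGroup.card] at this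
      obtain rfl : n = 1 := Nat.pow_right_injective le_rfl (by beta_reduce; omega)
      exact Or.inr (Or.inl ⟨topEquiv.symm.trans e⟩)
    swap
    · exact absurd (Dvd.dvd.trans ⟨2 ^ k, by rw [hk]; ring⟩ h2 : 4 ∣ 6) (by decide)
    have cG : Nat.card G = 16 := by omega
    refine Or.inr (Or.inr ⟨?_, cG⟩)
    obtain ⟨t, ht, t2⟩ := exists_mem_orderOf_eq_prime Nat.prime_two hk.symm.dvd
    have t1 : t ≠ 1 := by rintro rfl; simp at t2
    have h5 : Nat.card (centralizer ({t} : Set G)) ≤ 4 := by
      rw [← (MulAction.stabilizer (centralizer ({t} : Set G)) v).card_mul_index, MulAction.index_stabilizer]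
      refine Nat.mul_le_mul (m₁ := _) (m₂ := 2) (n₂ := 2) ((Nat.card_le_card_of_injective
        (fun g : MulAction.stabilizer (centralizer ({t} : Set G)) v => (⟨g.1.1, g.2⟩ : MulAction.stabilizer G v)) fun a b e => Subtype.ext (Subtype.ext (congrArg (fun x : MulAction.stabilizer G v => (x : G)) e))).trans hk.le) ?_
      refine (Set.ncard_le_ncard (t := (Submodule.span (ZMod 3) {v} : Set V) \ {0}) ?_).trans (by
        rw [Set.ncard_sdiff_singleton_of_mem (Submodule.zero_mem _), show (Submodule.span (ZMod 3) {v} : Set V).ncard = 3 from c1])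
      rintro _ ⟨g, rfl⟩
      refine ⟨(f4 v hv t t1 ht).le ?_, (map_ne_zero_iff _ (ρ g).injective).2 hv⟩
      change t • (g : G) • v = (g : G) • v
      rw [smul_smul, ← mem_centralizer_singleton_iff.1 g.2, mul_smul, show t • v = v from ht]
    rcases dsq_of_index hG (index_commutator_of_cent hG h5 (by omega)) (by omega) with ⟨k, ⟨e⟩⟩ | ⟨k, h1, h2⟩ | ⟨k, ⟨e⟩⟩
    · exfalso
      haveI := hG.center_nontrivial
      obtain ⟨z, hz, z2⟩ := exists_mem_orderOf_eq_prime (H := center G) Nat.prime_two
        (((hG.to_subgroup _).card_eq_or_dvd).resolve_left Finite.one_lt_card.ne')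
      obtain ⟨r, r1, r2⟩ := S3381.result 3 ρ hρ (fun w hw => by have := h3 w hw; exact (by omega : Nat.card (MulAction.stabilizer G w) = 2)) z z2 hz
      obtain rfl : r = 1 := by have := Nat.pow_right_injective (show 2 ≤ 3 by decide) (cV.symm.trans r1); omega
      have := Nat.card_congr e.toEquiv
      rw [DihedralGroup.nat_card, cG] at this
      generalize 2 ^ (k + 2) = m at *
      obtain rfl : m = 8 := by omega
      have := Nat.card_le_card_of_injective (fun i : ZMod 8 => (⟨e.symm (.sr i), by simp, fun h => absurd (congrArg e (mem_center_iff.1 h (e.symm (.r 1))))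
        (by simp only [map_mul, MulEquiv.apply_symm_apply]; clear h; revert i; decide)⟩ : {g : G // orderOf g = 2 ∧ g ∉ center G}))
        fun i j h => by simpa using h
      rw [r2, Nat.card_zmod] at this
      omega
    · exact ⟨k + 3, by omega, h1, h2⟩
    obtain ⟨a, b, hq⟩ := L.exists_qP (P := ⊤) (by positivity) (topEquiv.trans e)
    have : centralizer ({t} : Set G) = ⊤ := eq_top_iff.2 fun g hg => by
      rw [hq.eq_t (mem_top t) t2]
      exact mem_centralizer_singleton_iff.2 (hq.commute_t hg)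
    rw [this, card_top] at h5
    omega

end Cfsg.Agent.S3370
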