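import Cfsg.Statements.S3374
import Cfsg.Agent.GS.Zas4

set_option autoImplicit false
open Cfsg

namespace Cfsg.Agent.S3374

open Cfsg.Agent.H1

/-- SL(2,5) occurs as a Frobenius complement: there is a finite group L with a subgroup H isomorphic to SL(2,5) which is a non-trivial proper subgroup meeting each conjugate gHg⁻¹ with g outside H trivially. -/
theorem result :
    ∃ (L : Type) (_ : Group L) (_ : Finite L) (H : Subgroup L),
      Cfsg.IsFrobeniusComplement H ∧ Nonempty (H ≃* Matrix.SpecialLinearGroup (Fin 2) (ZMod 5)) := by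
  open Subgroup Pointwise commutatorElement Cfsg.Agent.BG Cfsg.Agent.GS in
  open Cfsg.Agent.H2 hiding card_lt_of_lt card_lt_of_ne_top isMulCommutative_of_le isPGroup_zpowers_iff mem_of_pow_mem_of_coprime inf_eq_bot_of_cop exists_maxElem_ge Sec in
  open Cfsg.Agent.H8 (Op Opp Fit SN) in
  open Cfsg.Agent.L (FPF) in focus
    haveI : Nontrivial (Matrix.SpecialLinearGroup (Fin 2) (ZMod 5)) := ⟨⟨-1, 1, H4.neg_one_ne_one_SL (by decide)⟩⟩
    obtain ⟨L, _, _, H, h1, ⟨e⟩⟩ := fc_SL25.isFC
    exact ⟨L, _, ‹_›, H, h1, ⟨e.symm⟩⟩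

end Cfsg.Agent.S3374
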