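import Cfsg.Statements.S3375
import Cfsg.Agent.GS.Lem2

set_option autoImplicit false
open Cfsg

namespace Cfsg.Agent.S3375

open Cfsg.Agent.H1

/-- Let γ be an automorphism of order 2 of a finite group H. (i) If γ fixes only the identity, then H is abelian and γ inverts every element. (ii) If γ has exactly two fixed points and H has a subgroup of index 2, then H has a γ-invariant abelian subgroup of index 2 on which γ acts by inversion. -/
theorem result {H : Type*} [Group H] [Finite H] (γ : MulAut H) (hγ : orderOf γ = 2) :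
    ((∀ h : H, γ h = h → h = 1) → (∀ a b : H, a * b = b * a) ∧ ∀ h : H, γ h = h⁻¹) ∧
    ((Nat.card {h : H // γ h = h} = 2 ∧ ∃ M : Subgroup H, M.index = 2) →
      ∃ A : Subgroup H, A.index = 2 ∧ IsMulCommutative A ∧ (∀ a ∈ A, γ a ∈ A) ∧ ∀ a ∈ A, γ a = a⁻¹) := by
  open Subgroup Pointwise commutatorElement Cfsg.Agent.BG Cfsg.Agent.GS in
  open Cfsg.Agent.H2 hiding card_lt_of_lt card_lt_of_ne_top isMulCommutative_of_le isPGroup_zpowers_iff mem_of_pow_mem_of_coprime inf_eq_bot_of_cop exists_maxElem_ge Sec in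
  open Cfsg.Agent.H8 (Op Opp Fit SN) in
  open Cfsg.Agent.L (FPF) in focus
    have h2 : ∀ h, γ (γ h) = h := fun h => by
      have := congrArg (fun δ : MulAut H => δ h) (pow_orderOf_eq_one γ)
      simpa [hγ, pow_two] using this
    refine ⟨fun h => ?_, fun ⟨hc, M, hM⟩ => ?_⟩
    · have hf : MonoidHom.FixedPointFree γ := h
      exact ⟨fun a b => hf.commute_all_of_involutive h2 a b, fun x => congrFun (hf.coe_eq_inv_of_involutive h2) x⟩
    obtain ⟨A, hA, hA'⟩ : ∃ A : Subgroup H, A.index = 2 ∧ ∀ a ∈ A, γ a ∈ A := by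
      by_cases h : ∀ a ∈ M, γ a ∈ M
      · exact ⟨M, hM, h⟩
      push Not at h
      obtain ⟨a, ha, ha'⟩ := h
      have hm := fun x y => mul_mem_iff_of_index_two hM (a := x) (b := y)
      let A : Subgroup H :=
        { carrier := {x | x ∈ M ↔ γ x ∈ M}
          mul_mem' := fun {x y} hx hy => by
            change _ ↔ _ at hx hy ⊢
            rw [map_mul, hm, hm]; tauto
          one_mem' := by simp
          inv_mem' := fun {x} hx => by
            change _ ↔ _ at hx ⊢
            rw [map_inv, inv_mem_iff, inv_mem_iff]; exact hx }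
      refine ⟨A, index_eq_two_iff.2 ⟨a, fun b => ?_⟩, fun x hx => ?_⟩
      · change Xor (_ ↔ _) (_ ↔ _)
        rw [map_mul, hm, hm]; unfold Xor; tauto
      · change _ ↔ _ at hx ⊢
        rw [h2]; exact hx.symm
    let C : Subgroup H := γ.toMonoidHom.eqLocus (MonoidHom.id H)
    have hC : Nat.card C = 2 := hc
    have hm := fun x y => mul_mem_iff_of_index_two hA (a := x) (b := y)
    have hiff : ∀ x, γ x ∈ A ↔ x ∈ A := fun x => ⟨fun h => h2 x ▸ hA' _ h, hA' x⟩
    let f : H ⧸ C → A := fun q => ⟨q.out * (γ q.out)⁻¹, by rw [hm, inv_mem_iff, hiff]⟩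
    have hf : Function.Injective f := fun a b e => by
      rw [← QuotientGroup.out_eq' a, ← QuotientGroup.out_eq' b, QuotientGroup.eq]
      have e' : a.out * (γ a.out)⁻¹ = b.out * (γ b.out)⁻¹ := congrArg Subtype.val e
      change γ _ = _
      rw [map_mul, map_inv]
      change _ = a.out⁻¹ * b.out
      calc (γ a.out)⁻¹ * γ b.out = a.out⁻¹ * (a.out * (γ a.out)⁻¹) * γ b.out := by group
        _ = _ := by rw [e']; group
    have hs : Function.Surjective f := (hf.bijective_of_nat_card_le (by
      have e1 := A.card_mul_index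
      have e2 := C.card_mul_index
      rw [hA] at e1; rw [hC] at e2
      change _ ≤ C.index
      omega)).2
    have hi : ∀ a ∈ A, γ a = a⁻¹ := fun a ha => by
      obtain ⟨q, hq⟩ := hs ⟨a, ha⟩
      rw [← show q.out * (γ q.out)⁻¹ = a from congrArg Subtype.val hq]
      simp [h2]
    refine ⟨A, hA, ⟨⟨fun a b => Subtype.ext ?_⟩⟩, hA', hi⟩
    have := hi _ (mul_mem a.2 b.2)
    rw [map_mul, hi _ a.2, hi _ b.2, ← mul_inv_rev, inv_inj] at this
    exact this.symm

end Cfsg.Agent.S3375
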