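import Cfsg.Statements.S3378
import Cfsg.Agent.GS.Pres5

set_option autoImplicit false
open Cfsg

namespace Cfsg.Agent.S3378

open Cfsg.Agent.H1

/-- Every non-solvable group of order 120 whose Sylow 2-subgroups are quaternion of order 8 is isomorphic to SL(2,5), and SL(2,5) has the presentation ⟨x, y, z | x³ = y⁵ = z² = 1, z⁻¹xz = x, z⁻¹yz = y, (xy)² = z⟩. -/
theorem result :
    (∀ (G : Type*) [Group G] [Finite G], Nat.card G = 120 → ¬ Group.IsSolvable G →
      (∀ P : Sylow 2 G, Nonempty ((P : Subgroup G) ≃* QuaternionGroup 2)) →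
      Nonempty (G ≃* Matrix.SpecialLinearGroup (Fin 2) (ZMod 5))) ∧
    Nonempty (PresentedGroup ({FreeGroup.of (0 : Fin 3) ^ 3, FreeGroup.of (1 : Fin 3) ^ 5, FreeGroup.of (2 : Fin 3) ^ 2,
        (FreeGroup.of (2 : Fin 3))⁻¹ * FreeGroup.of 0 * FreeGroup.of 2 * (FreeGroup.of (0 : Fin 3))⁻¹,
        (FreeGroup.of (2 : Fin 3))⁻¹ * FreeGroup.of 1 * FreeGroup.of 2 * (FreeGroup.of (1 : Fin 3))⁻¹,
        (FreeGroup.of (0 : Fin 3) * FreeGroup.of 1) ^ 2 * (FreeGroup.of (2 : Fin 3))⁻¹} : Set (FreeGroup (Fin 3)))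
      ≃* Matrix.SpecialLinearGroup (Fin 2) (ZMod 5)) := by
  open Subgroup Pointwise commutatorElement Cfsg.Agent.BG Cfsg.Agent.GS in
  open Cfsg.Agent.H2 hiding card_lt_of_lt card_lt_of_ne_top isMulCommutative_of_le isPGroup_zpowers_iff mem_of_pow_mem_of_coprime inf_eq_bot_of_cop exists_maxElem_ge Sec in
  open Cfsg.Agent.H8 (Op Opp Fit SN) in
  open Cfsg.Agent.L (FPF) in focus
    refine ⟨fun G _ _ hc hs hP => ?_, ?_⟩
    · obtain ⟨N, hN, h1, h2⟩ : ∃ N : Subgroup G, N.Normal ∧ N ≠ ⊥ ∧ N ≠ ⊤ := by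
        by_contra h
        push Not at h
        haveI : Nontrivial G := Finite.one_lt_card_iff_nontrivial.1 (by omega)
        haveI : IsSimpleGroup G := ⟨fun N hN => or_iff_not_imp_left.2 (h N hN)⟩
        have := S0496.result (G := G) (fun h => hs (isSolvable_of_isMulCommutative h)) (by omega)
        omega
      obtain ⟨P⟩ : Nonempty (Sylow 2 G) := inferInstance
      obtain ⟨e⟩ := hP P
      obtain ⟨a, b, q⟩ := L.exists_qP two_pos e
      have hP' : SylIn 2 (P : Subgroup G) ⊤ := sylIn_top P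
      have hN' : Group.IsSolvable N := by
        by_contra hn
        obtain ⟨e'⟩ := a5_of_not_solv (hc ▸ card_lt_of_ne_top h2) hn
        obtain ⟨x, y, h3, h4, h5, h6⟩ : ∃ x y : alternatingGroup (Fin 5), orderOf x = 2 ∧ orderOf y = 2 ∧ x * y = y * x ∧ x ≠ y :=
          ⟨⟨c[0, 1] * c[2, 3], Equiv.Perm.mem_alternatingGroup.2 (by decide)⟩, ⟨c[0, 2] * c[1, 3], Equiv.Perm.mem_alternatingGroup.2 (by decide)⟩, orderOf_eq_prime (by decide) (by decide),
            orderOf_eq_prime (by decide) (by decide), by decide, by decide⟩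
        refine h6 (e'.symm.injective (Subtype.ext (q.eq_of_commute hP' ?_ ?_ ?_)))
        · rw [orderOf_coe, MulEquiv.orderOf_eq, h3]
        · rw [orderOf_coe, MulEquiv.orderOf_eq, h4]
        · change _ = _
          rw [← coe_mul, ← coe_mul, ← map_mul, ← map_mul, h5]
      obtain ⟨e'⟩ := a5_of_not_solv (G := G ⧸ N) (hc ▸ H1.card_quotient_lt h1) fun h => hs (isSolvable_of_normal_of_quotient N hN' h)
      have h3 : Nat.card N = 2 := by
        have := N.card_mul_index
        rw [show N.index = 60 from (Nat.card_congr e'.toEquiv).trans card_A5] at this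
        omega
      obtain ⟨z, hz, hz2⟩ := exists_mem_orderOf_eq_prime (H := N) Nat.prime_two h3.symm.dvd
      have z1 : z ≠ 1 := by rintro rfl; simp at hz2
      have hN2 : ∀ g, g ∈ N ↔ g = 1 ∨ g = z := fun g => by
        refine ⟨fun hg => ?_, by rintro (rfl | rfl); exacts [one_mem _, hz]⟩
        obtain ⟨y, -, hy⟩ := (Nat.card_eq_two_iff' (1 : N)).1 h3
        refine or_iff_not_imp_left.2 fun h => congrArg Subtype.val ((hy ⟨g, hg⟩ (by simpa using h)).trans (hy ⟨z, hz⟩ (by simpa using z1)).symm)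
      have k : ∀ g, (e'.toMonoidHom.comp (QuotientGroup.mk' N)) g = 1 ↔ g = 1 ∨ g = z := fun g =>
        ((map_eq_one_iff e' e'.injective).trans (QuotientGroup.eq_one_iff g)).trans (hN2 g)
      refine equiv_SL25 _ (e'.surjective.comp (QuotientGroup.mk'_surjective _)) z1 k fun g hg => (k g).2 (or_iff_not_imp_left.2 fun h => ?_)
      exact q.eq_of_commute hP' (orderOf_eq_prime ((pow_two g).trans hg) h) hz2 (mul_inv_eq_iff_eq_mul.1 ((cen_of_ker_two _ z1 k).2 g))
    set rels : Set (FreeGroup (Fin 3)) := {FreeGroup.of (0 : Fin 3) ^ 3, FreeGroup.of (1 : Fin 3) ^ 5, FreeGroup.of (2 : Fin 3) ^ 2,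
            (FreeGroup.of (2 : Fin 3))⁻¹ * FreeGroup.of 0 * FreeGroup.of 2 * (FreeGroup.of (0 : Fin 3))⁻¹,
            (FreeGroup.of (2 : Fin 3))⁻¹ * FreeGroup.of 1 * FreeGroup.of 2 * (FreeGroup.of (1 : Fin 3))⁻¹,
            (FreeGroup.of (0 : Fin 3) * FreeGroup.of 1) ^ 2 * (FreeGroup.of (2 : Fin 3))⁻¹} with hrels
    have hr : ∀ r ∈ rels, PresentedGroup.mk rels r = 1 := fun r hr => PresentedGroup.one_of_mem hr
    have hcl := PresentedGroup.closure_range_of rels
    have r1 : (PresentedGroup.of 0 : PresentedGroup rels) ^ 3 = 1 := by simpa [PresentedGroup.of] using hr _ (Or.inl rfl)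
    have r2 : (PresentedGroup.of 1 : PresentedGroup rels) ^ 5 = 1 := by simpa [PresentedGroup.of] using hr _ (Or.inr (Or.inl rfl))
    have r3 : (PresentedGroup.of 2 : PresentedGroup rels) ^ 2 = 1 := by simpa [PresentedGroup.of] using hr _ (Or.inr (Or.inr (Or.inl rfl)))
    have r4 : (PresentedGroup.of 2 : PresentedGroup rels)⁻¹ * PresentedGroup.of 0 * PresentedGroup.of 2 * (PresentedGroup.of 0)⁻¹ = 1 := by
      simpa [PresentedGroup.of] using hr _ (Or.inr (Or.inr (Or.inr (Or.inl rfl))))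
    have r5 : (PresentedGroup.of 2 : PresentedGroup rels)⁻¹ * PresentedGroup.of 1 * PresentedGroup.of 2 * (PresentedGroup.of 1)⁻¹ = 1 := by
      simpa [PresentedGroup.of] using hr _ (Or.inr (Or.inr (Or.inr (Or.inr (Or.inl rfl)))))
    have r6 : (PresentedGroup.of 0 * PresentedGroup.of 1 : PresentedGroup rels) ^ 2 * (PresentedGroup.of 2)⁻¹ = 1 := by
      simpa [PresentedGroup.of] using hr _ (Or.inr (Or.inr (Or.inr (Or.inr (Or.inr rfl)))))
    have hcl' : closure {(PresentedGroup.of 0 : PresentedGroup rels), PresentedGroup.of 1} = ⊤ := by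
      rw [eq_top_iff, ← hcl, closure_le]
      rintro _ ⟨i, rfl⟩
      fin_cases i
      · exact Subgroup.subset_closure (Or.inl rfl)
      · exact Subgroup.subset_closure (Or.inr rfl)
      · change PresentedGroup.of 2 ∈ _
        rw [← mul_inv_eq_one.1 r6]
        exact pow_mem (mul_mem (Subgroup.subset_closure (by simp)) (Subgroup.subset_closure (by simp))) 2
    obtain ⟨X, Y, X3, X1, Y5, Y1, Z2, Z4⟩ : ∃ X Y : Matrix.SpecialLinearGroup (Fin 2) (ZMod 5),
        X ^ 3 = 1 ∧ X ≠ 1 ∧ Y ^ 5 = 1 ∧ Y ≠ 1 ∧ (X * Y) ^ 2 = -1 ∧ orderOf (X * Y) = 4 :=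
      ⟨⟨!![0, -1; 1, -1], by decide⟩, ⟨!![1, 1; 0, 1], by decide⟩, by decide, fun h => absurd (congrArg (fun g => g.1 0 0) h) (by decide), by decide,
        fun h => absurd (congrArg (fun g => g.1 0 1) h) (by decide), by decide,
        orderOf_eq_prime_pow (p := 2) (n := 1) (by decide) (by decide)⟩
    let f : PresentedGroup rels →* Matrix.SpecialLinearGroup (Fin 2) (ZMod 5) := PresentedGroup.toGroup (f := ![X, Y, -1]) (by
      rintro r (rfl | rfl | rfl | rfl | rfl | rfl) <;> simp [*])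
    have fa : f (PresentedGroup.of 0) = X := PresentedGroup.toGroup.of _
    have fb : f (PresentedGroup.of 1) = Y := PresentedGroup.toGroup.of _
    generalize (PresentedGroup.of 0 : PresentedGroup rels) = x at *
    generalize (PresentedGroup.of 1 : PresentedGroup rels) = y at *
    generalize (PresentedGroup.of 2 : PresentedGroup rels) = z at *
    have hz : z ∈ center (PresentedGroup rels) := by
      have : closure {x, y} ≤ centralizer {z} := (closure_le _).2 (by
        rintro _ (rfl | rfl) <;> refine mem_centralizer_singleton_iff.2 ?_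
        · rw [mul_inv_eq_one, mul_assoc, inv_mul_eq_iff_eq_mul] at r4; exact r4
        · rw [mul_inv_eq_one, mul_assoc, inv_mul_eq_iff_eq_mul] at r5; exact r5)
      exact mem_center_iff.2 fun g => mem_centralizer_singleton_iff.1 (this (hcl' ▸ mem_top g))
    haveI : (zpowers z).Normal := ⟨fun a ha g => by rw [mem_center_iff.1 (zpowers_le.2 hz ha) g, mul_inv_cancel_right]; exact ha⟩
    obtain ⟨hf, hc⟩ := card_le_60 (G := PresentedGroup rels ⧸ zpowers z) (x := QuotientGroup.mk' _ x) (y := QuotientGroup.mk' _ y)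
      (by rw [← map_pow, r1, map_one]) (by rw [← map_pow, r2, map_one])
      (by rw [← map_mul, ← map_pow, mul_inv_eq_one.1 r6]; exact (QuotientGroup.eq_one_iff _).2 (mem_zpowers z))
      (by rw [← Set.image_pair, ← MonoidHom.map_closure, hcl', map_top_of_surjective _ (QuotientGroup.mk'_surjective _)])
    haveI : Finite (zpowers z) := finite_zpowers.2 (isOfFinOrder_iff_pow_eq_one.2 ⟨2, two_pos, r3⟩)
    haveI : Finite (PresentedGroup rels) := Finite.of_subgroup_quotient (zpowers z)
    have hc' : Nat.card (PresentedGroup rels) ≤ 120 := by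
      rw [card_eq_card_quotient_mul_card_subgroup (zpowers z), Nat.card_zpowers]
      exact Nat.mul_le_mul hc (Nat.le_of_dvd two_pos (orderOf_dvd_of_pow_eq_one r3))
    have ha : X ∈ f.range := ⟨_, fa⟩
    have hb : Y ∈ f.range := ⟨_, fb⟩
    have h3 := orderOf_eq_prime X3 X1 ▸ f.range.orderOf_dvd_natCard ha
    have h5 := orderOf_eq_prime Y5 Y1 ▸ f.range.orderOf_dvd_natCard hb
    have h2 := Z4 ▸ f.range.orderOf_dvd_natCard (mul_mem ha hb)
    have e := f.range.card_mul_index
    rw [card_SL25] at e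
    have hs : f.range = ⊤ := by
      obtain ⟨k, hk⟩ : 60 ∣ Nat.card f.range := by omega
      by_contra hne
      have h1 := one_lt_index_of_ne_top hne
      have hk0 : k ≠ 0 := by rintro rfl; exact Nat.card_pos.ne' hk
      have h4 : f.range.index = 2 := by rw [hk] at e; rcases k with _ | k; exact absurd rfl hk0; nlinarith
      haveI := normal_of_index_eq_two h4
      haveI : Fact (Nat.card (_ ⧸ f.range)).Prime := ⟨by change f.range.index.Prime; rw [h4]; decide⟩
      refine hne (eq_top_iff.2 ?_)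
      rw [← Matrix.SL2.commutator_eq_top (a := (2 : ZMod 5)) (by decide) (by decide)]
      exact (Subgroup.Normal.quotient_commutative_iff_commutator_le).1 (isCyclic_of_prime_card rfl).isMulCommutative
    exact ⟨MulEquiv.ofBijective f ((MonoidHom.range_eq_top.1 hs).bijective_of_nat_card_le (by rw [card_SL25]; exact hc'))⟩

end Cfsg.Agent.S3378
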