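import Cfsg.Statements.S3380
import Cfsg.Agent.GS.Zas3
import Cfsg.Agent.H7.PermMod

set_option autoImplicit false
open Cfsg

namespace Cfsg.Agent.S3380

open Cfsg.Agent.H1

/-- Let a finite p-group G act faithfully and irreducibly on a non-trivial finite vector space V over the field with q elements (q prime), and suppose G is not cyclic, generalized quaternion, dihedral or semidihedral. Then G has a subgroup H of index p and V is the direct sum of p subspaces, each invariant under H, on none of which H acts faithfully, and which every element of G outside H permutes in a single p-cycle. -/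
theorem result
    (q : ℕ) [Fact q.Prime] {V : Type*} [AddCommGroup V] [Module (ZMod q) V] [Finite V] [Nontrivial V]
    {G : Type*} [Group G] [Finite G] (p : ℕ) [Fact p.Prime] (hG : IsPGroup p G)
    (ρ : G →* (V ≃ₗ[ZMod q] V)) (hρ : Function.Injective ρ)
    (hirr : ∀ W : Submodule (ZMod q) V, (∀ g : G, ∀ w ∈ W, ρ g w ∈ W) → W = ⊥ ∨ W = ⊤)
    (hnc : ¬ IsCyclic G) (hnq : ∀ n : ℕ, ¬ Nonempty (G ≃* QuaternionGroup n))
    (hnd : ∀ n : ℕ, ¬ Nonempty (G ≃* DihedralGroup n)) (hnsd : ¬ Cfsg.IsQuasiDihedral G) :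
    ∃ (H : Subgroup G) (W : Fin p → Submodule (ZMod q) V), H.index = p ∧
      iSup W = ⊤ ∧ iSupIndep W ∧
      (∀ h ∈ H, ∀ i, ∀ w ∈ W i, ρ h w ∈ W i) ∧
      (∀ i, ∃ h ∈ H, h ≠ 1 ∧ ∀ w ∈ W i, ρ h w = w) ∧
      ∀ g : G, g ∉ H → ∃ σ : Equiv.Perm (Fin p), orderOf σ = p ∧ ∀ i, (W i).map (ρ g : V →ₗ[ZMod q] V) = W (σ i) := by
  open Subgroup Pointwise commutatorElement Cfsg.Agent.BG Cfsg.Agent.GS in
  open Cfsg.Agent.H2 hiding card_lt_of_lt card_lt_of_ne_top isMulCommutative_of_le isPGroup_zpowers_iff mem_of_pow_mem_of_coprime inf_eq_bot_of_cop exists_maxElem_ge Sec in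
  open Cfsg.Agent.H8 (Op Opp Fit SN) in
  open Cfsg.Agent.L (FPF) in focus
    have hp : p.Prime := Fact.out
    let τ : G →* Module.End (ZMod q) V := (Units.coeHom _).comp ((LinearMap.GeneralLinearGroup.generalLinearEquiv _ V).symm.toMonoidHom.comp ρ)
    have hτ : ∀ g v, τ g v = ρ g v := fun _ _ => rfl
    let F : G → Submodule (ZMod q) V := fun g => LinearMap.eqLocus (τ g) LinearMap.id
    have hF : ∀ g v, v ∈ F g ↔ ρ g v = v := fun _ _ => Iff.rfl
    have f1 : ∀ g, (∀ v, ρ g v = v) → g = 1 := fun g h => hρ (by rw [map_one]; exact LinearEquiv.ext h)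
    have f2 : ∀ g x, (F x).map (ρ g : V →ₗ[ZMod q] V) = F (g * x * g⁻¹) := fun g x => Submodule.ext fun v => by
      rw [Submodule.mem_map_equiv, hF, hF, map_mul, map_mul, map_inv]
      exact (ρ g).eq_symm_apply
    have hZ : ∀ c ∈ center G, c ≠ 1 → F c = ⊥ := fun c hc c1 => (hirr _ fun g w hw => by
      have := (f2 g c).le ⟨w, hw, rfl⟩
      rwa [mem_center_iff.1 hc, mul_inv_cancel_right] at this).resolve_right fun e => c1 (f1 c fun v => e.ge trivial)
    have hq : (p : ZMod q) ≠ 0 := fun e => by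
      obtain rfl := (Nat.prime_dvd_prime_iff_eq Fact.out hp).1 ((ZMod.natCast_eq_zero_iff p q).1 e)
      obtain ⟨v, -, v0, hv⟩ := H7.exists_fixed_vector hG τ ⊤ (fun _ _ _ => trivial) top_ne_bot
      have := (hirr (⨅ g, F g) fun g w hw => by rwa [(hF g w).1 ((Submodule.mem_iInf _).1 hw g)]).resolve_left
        fun e => v0 (e.le ((Submodule.mem_iInf _).2 hv))
      haveI : Subsingleton G := ⟨fun a b => (f1 a fun v => (Submodule.mem_iInf _).1 (this.ge trivial) a).trans
        (f1 b fun v => (Submodule.mem_iInf _).1 (this.ge trivial) b).symm⟩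
      exact hnc inferInstance
    obtain ⟨A, a1, a2, a3⟩ : ∃ A : Subgroup G, A.Normal ∧ IsElementaryAbelian p A ∧ ¬ IsCyclic A := by
      by_contra! h
      rcases L.structure_of_normal_elementary_cyclic hG h with h | ⟨rfl, n, a, b, h3, hc, ha, hi, hb, hcases⟩
      · exact hnc h
      obtain ⟨m, rfl⟩ : ∃ m, n = m + 3 := ⟨n - 3, by omega⟩
      rcases hcases with h1 | h1 | h1
      · exact hnd (2 ^ (m + 2)) (L.nonempty_equiv_dihedral ha hb h1.2.1 h1.2.2 (by rw [hc]; ring))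
      · exact hnq (2 ^ (m + 1)) (L.nonempty_equiv_quaternion (by rw [ha, ← pow_succ']; rfl) hb h1.1 h1.2 (by rw [hc]; ring))
      · exact hnsd ⟨m + 2, by omega, hc, a, b, ha, orderOf_eq_prime h1.2.1 fun h => hb (h ▸ one_mem _), h1.2.2⟩
    haveI := a2.1
    obtain ⟨E, e1, -, e2, e3⟩ := L.exists_normal_elementary_sq_le hG a3
    haveI := e2.1
    obtain ⟨b, hb, b1, b2⟩ : ∃ b ∈ E, b ≠ 1 ∧ F b ≠ ⊥ := by
      by_contra! h
      have := (FC.of_modp (G := E) (p := q) (fun e => hq ((ZMod.natCast_eq_zero_iff p q).2 ((Fact.out : q.Prime).dvd_of_dvd_pow (e3 ▸ e))))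
        (τ.comp E.subtype) fun g hg w hw => (h g g.2 fun e => hg (Subtype.ext e)).le hw).cyc_of_comm (A := ⊤) inferInstance
      obtain ⟨x, hx⟩ := (isCyclic_of_surjective topEquiv topEquiv.surjective : IsCyclic E).exists_ofOrder_eq_natCard
      have := Nat.le_of_dvd hp.pos (hx ▸ orderOf_dvd_of_pow_eq_one (Subtype.ext (e2.2 x x.2) : x ^ p = 1))
      rw [e3] at this
      nlinarith [hp.two_le]
    haveI := hG.isNilpotent
    obtain ⟨z, hz, z1, z2⟩ := L.exists_central_mod (K := ⊥) (N := E) fun e => b1 (e hb)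
    have zc : z ∈ center G := mem_center_iff.2 fun g => (commutatorElement_eq_one_iff_mul_comm.1 (z2 g)).symm
    have zo : orderOf z = p := orderOf_eq_prime (e2.2 z hz) z1
    have zn : zpowers z ≤ center G := zpowers_le.2 zc
    haveI : (zpowers z).Normal := ⟨fun a ha g => by rw [mem_center_iff.1 (zn ha), mul_inv_cancel_right]; exact ha⟩
    have bz : b ∉ zpowers z := fun e => b2 (hZ b (zn e) b1)
    obtain ⟨b', hb', b3, b4⟩ := L.exists_central_mod (K := zpowers z) (N := E) fun e => bz (e hb)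
    have b5 : ∀ g, g * b * g⁻¹ * b⁻¹ ∈ zpowers z := fun g => by
      have h1 : zpowers z < E ⊓ (center (G ⧸ zpowers z)).comap (QuotientGroup.mk' _) :=
        lt_of_le_of_ne (le_inf (zpowers_le.2 hz) (H1.le_comap_mk'' _ _)) fun e => b3 (e.ge ⟨hb', mem_center_iff.2 fun y => by
          obtain ⟨y, rfl⟩ := QuotientGroup.mk'_surjective _ y
          exact (commutatorElement_eq_one_iff_mul_comm.1 (by rw [← map_commutatorElement]; exact (QuotientGroup.eq_one_iff _).2 (b4 y))).symm⟩)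
      obtain ⟨k, hk, h2⟩ := (Nat.dvd_prime_pow hp).1 (e3 ▸ card_dvd_of_le (inf_le_left : E ⊓ (center (G ⧸ zpowers z)).comap (QuotientGroup.mk' _) ≤ E))
      have h3 := H1.card_lt_of_lt h1
      rw [h2, Nat.card_zpowers, zo] at h3
      have h4 : k = 2 := by
        have := (Nat.pow_lt_pow_iff_right hp.one_lt).1 ((pow_one p).trans_lt h3)
        omega
      have h5 := (eq_of_le_of_card_ge inf_le_left (by rw [h2, e3, h4])).ge hb
      exact (QuotientGroup.eq_one_iff _).1 (commutatorElement_eq_one_iff_mul_comm.2 (mem_center_iff.1 h5.2 g))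
    haveI : NeZero p := ⟨hp.ne_zero⟩
    have b6 : ∀ g, ∃ c : Fin p, ∀ i : Fin p, g * (b * z ^ (i : ℕ)) * g⁻¹ = b * z ^ ((i + c : Fin p) : ℕ) := fun g => by
      obtain ⟨k, hk⟩ := (mem_powers_iff_mem_zpowers.2 (b5 g))
      refine ⟨⟨k % p, Nat.mod_lt _ hp.pos⟩, fun i => ?_⟩
      have zm : ∀ n, z ^ (n % p) = z ^ n := fun n => zo ▸ pow_mod_orderOf z n
      rw [Fin.val_add, zm, pow_add, zm, ← mul_assoc, mul_assoc _ _ g⁻¹, ← mem_center_iff.1 (pow_mem zc _),
        ← mul_assoc, eq_mul_of_mul_inv_eq hk.symm, ← mem_center_iff.1 (pow_mem zc _), mul_assoc, ← pow_add, ← pow_add, add_comm]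
    let φ : G →* G := MonoidHom.mk' (fun g => g * b * g⁻¹ * b⁻¹) fun g h => by
      have := mem_center_iff.1 (zn (b5 h))
      calc _ = g * (h * b * h⁻¹ * b⁻¹) * (b * g⁻¹ * b⁻¹) := by group
        _ = _ := by rw [mul_assoc, ← this]; group
    have c1 : ∀ h ∈ φ.ker, ∀ i : ℕ, h * (b * z ^ i) * h⁻¹ = b * z ^ i := fun h hh i => by
      rw [← mul_assoc, mul_assoc _ _ h⁻¹, ← mem_center_iff.1 (pow_mem zc _), ← mul_assoc, mul_inv_eq_one.1 hh]
    refine ⟨φ.ker, fun i => F (b * z ^ (i : ℕ)), ?_, (hirr _ fun g w hw => ?_).resolve_left fun e => b2 ?_, iSupIndep_def.2 fun i => ?_,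
      fun h hh i w hw => ((f2 h _).trans (congrArg F (c1 h hh i))).le ⟨w, hw, rfl⟩, fun i => ⟨b * z ^ (i : ℕ), ?_, fun e => bz ?_, fun w hw => hw⟩, fun g hg => ?_⟩
    · rw [index_ker]
      refine ((Nat.dvd_prime hp).1 ?_).resolve_left fun e => b2 (hZ b (mem_center_iff.2 fun g => ?_) b1)
      · rw [← zo, ← Nat.card_zpowers]
        exact card_dvd_of_le (by rintro _ ⟨g, rfl⟩; exact b5 g)
      · exact mul_inv_eq_iff_eq_mul.1 (mul_inv_eq_one.1 ((card_eq_one.1 e).le ⟨g, rfl⟩))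
    · obtain ⟨c, hc⟩ := b6 g
      have : (⨆ i : Fin p, F (b * z ^ (i : ℕ))).map (ρ g : V →ₗ[ZMod q] V) ≤ ⨆ i : Fin p, F (b * z ^ (i : ℕ)) := by
        rw [Submodule.map_iSup]
        exact iSup_le fun i => by rw [f2, hc]; exact le_iSup (fun i : Fin p => F (b * z ^ (i : ℕ))) _
      exact this ⟨w, hw, rfl⟩
    · simpa using iSup_eq_bot.1 e 0
    · have x1 : τ (b * z ^ (i : ℕ)) ^ p = 1 := by rw [← map_pow, e2.2 _ (mul_mem hb (pow_mem hz _)), map_one]
      refine Disjoint.mono_right (c := LinearMap.ker (nrm p (τ (b * z ^ (i : ℕ))))) (iSup₂_le fun j hj w hw => ?_) (Submodule.disjoint_def.2 fun w h1 h2 => ?_)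
      · have x2 : Commute (τ (b * z ^ (j : ℕ))) (nrm p (τ (b * z ^ (i : ℕ)))) := Commute.sum_right _ _ _ fun k _ => (Commute.map (by
          exact setLike_mul_comm (s := E) (mul_mem hb (pow_mem hz _)) (mul_mem hb (pow_mem hz _))) τ).pow_right k
        refine (hZ ((b * z ^ (i : ℕ))⁻¹ * (b * z ^ (j : ℕ))) (by simpa [mul_assoc] using mul_mem (inv_mem (pow_mem zc i)) (pow_mem zc j))
          fun e => hj ?_).le ?_
        · exact Fin.ext (pow_injOn_Iio_orderOf (zo ▸ j.2) (zo ▸ i.2) (mul_left_cancel (inv_mul_eq_one.1 e)).symm)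
        · rw [hF, map_mul, map_inv, LinearEquiv.mul_apply, LinearEquiv.coe_inv, LinearEquiv.symm_apply_eq, ← hτ, ← hτ, ← Module.End.mul_apply,
            ← Module.End.mul_apply, mul_nrm x1, x2.eq, Module.End.mul_apply, show τ _ w = w from hw]
      · refine (smul_eq_zero.1 ?_).resolve_left hq
        rw [← LinearMap.mem_ker.1 h2, nrm, LinearMap.sum_apply, Finset.sum_congr rfl fun k _ => (Module.End.pow_apply _ k w).trans (Function.iterate_fixed h1 k)]
        simp [Nat.cast_smul_eq_nsmul]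
    · exact mul_inv_eq_one.2 (mul_inv_eq_iff_eq_mul.2 (setLike_mul_comm (s := E) (mul_mem hb (pow_mem hz _)) hb))
    · exact eq_inv_of_mul_eq_one_left e ▸ inv_mem (pow_mem (mem_zpowers z) _)
    obtain ⟨c, hc⟩ := b6 g
    refine ⟨Equiv.addRight c, orderOf_eq_prime (Equiv.ext fun i => by
        have : p • c = 0 := by simpa using card_nsmul_eq_zero (x := c)
        simp [Equiv.Perm.coe_pow, this]) fun e => hg ?_, fun i => by rw [f2, hc]; rfl⟩
    have := hc 0
    rw [show (0 : Fin p) + c = 0 from congrArg (fun σ : Equiv.Perm (Fin p) => σ 0) e] at this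
    exact mul_inv_eq_one.2 (by simpa using this)

end Cfsg.Agent.S3380
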