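import Cfsg.Statements.S3382
import Cfsg.Agent.H4.Bridge

set_option autoImplicit false
open Cfsg

namespace Cfsg.Agent.S3382

section
variable {T : Type*} [Group T] {ψ : MulAut T} {n j : ℕ} (hn : Odd n) (h : ψ ^ n = 1) (h2 : ∀ g : T, g ^ 2 ^ j = 1)
include hn h h2

theorem lift {x : T} (hx : ψ (x⁻¹ * ψ x) = x⁻¹ * ψ x) : ψ x = x := by
  have h1 : ∀ i, (ψ ^ i) x = x * (x⁻¹ * ψ x) ^ i := fun i => by
    induction i with
    | zero => simp
    | succ i ih => rw [pow_succ', MulAut.mul_apply, ih, map_mul, map_pow, hx, pow_succ', ← mul_assoc x, mul_inv_cancel_left]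
  have h3 := h1 n
  rw [h, MulAut.one_apply, left_eq_mul] at h3
  exact (inv_mul_eq_one.1 ((pow_eq_one_iff_of_coprime (hn.coprime_two_right.pow_right j)).1 ⟨h3, h2 _⟩)).symm

theorem cyc {k : ℕ} (i : ℕ) : ∀ x : T, ψ x = x ^ k → x ^ 2 ^ i = 1 → ψ x = x := by
  induction i with
  | zero => rintro x - hx; simp [show x = 1 by simpa using hx]
  | succ i ih =>
    intro x h1 h3
    have h4 := ih (x ^ 2) (by rw [map_pow, h1, ← pow_mul, ← pow_mul, mul_comm]) (by rw [← pow_mul, ← pow_succ', h3])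
    obtain ⟨l, rfl | rfl⟩ := Nat.even_or_odd' k
    · exact ψ.injective (by rw [h1, pow_mul, map_pow, h4])
    · exact lift hn h h2 (by rw [h1, pow_succ', inv_mul_cancel_left, pow_mul, map_pow, h4])

theorem fix {F : Type*} [Field F] [Finite F] (M : T →* Matrix (Fin 2) (Fin 2) F) (hM : Function.Injective M)
    (h1 : ∀ x, ∃ a b, (a * b = 1 ∨ a * b = -1) ∧ (M x = !![a, 0; 0, b] ∨ M x = !![0, b; a, 0]))
    (h3 : ∀ a b, (a * b = 1 ∨ a * b = -1) → (∃ x, M x = !![a, 0; 0, b]) ∧ ∃ x, M x = !![0, b; a, 0])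
    (h4 : (∀ a : F, a ≠ 0 → a * a = 1) ∨ (IsSquare (-1 : F) ∧ ∃ a : F, a ≠ 0 ∧ a ^ 4 ≠ 1)) (x : T) : ψ x = x := by
  have key : ∀ (P : T → Prop), (∀ x, P x → ψ x = x) → (∀ x y, ¬ P x → ¬ P (x * y) → P y ∨ ψ y = y) → ∀ x, ψ x = x :=
    fun P h5 h6 x => by
    by_cases e : P x
    · exact h5 x e
    by_cases e' : P (ψ x)
    · exact ψ.injective (h5 _ e')
    exact lift hn h h2 ((h6 x _ e (by simpa using e')).elim (h5 _) id)
  have sc : ∀ z, M z = !![-1, 0; 0, -1] → ψ z = z → ∀ y c, c * c = 1 → M y = !![c, 0; 0, c] → ψ y = y := fun z h5 h6 y c h7 h8 => by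
    obtain rfl | rfl := mul_self_eq_one_iff.1 h7
    · simp [show y = 1 from hM (by rw [h8, map_one, Matrix.one_fin_two])]
    · rwa [hM (h8.trans h5.symm)]
  obtain ⟨z, hz⟩ := (h3 (-1) (-1) (by simp)).1
  obtain h4 | ⟨⟨i, hi⟩, c, h4, h5⟩ := h4
  · obtain ⟨u, hu⟩ := (h3 1 (-1) (by simp)).2
    have h5 : u * u = z := hM (by simp [hu, hz])
    have h6 : ψ z = z := by
      obtain ⟨a, b, h7, h8⟩ := h1 (ψ u)
      have h9 : M (ψ z) = !![1, 0; 0, 1] ∨ M (ψ z) = !![-1, 0; 0, -1] := by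
        have := h4 a (by grind)
        have := h4 b (by grind)
        rw [← h5, map_mul, map_mul]
        rcases h8 with e | e <;> simp [e] <;> grind
      exact h9.elim (fun e => ψ.injective (by rw [hM (e.trans (Matrix.one_fin_two.symm.trans (map_one M).symm)), map_one]))
        fun e => hM (e.trans hz.symm)
    have h7 : ∀ y a b, a * b = -1 → M y = !![0, b; a, 0] → ∃ w, ψ w = w ∧ y = u * w := fun y a b e e' => by
      obtain ⟨w, hw⟩ := (h3 a a (.inl (h4 a (by grind)))).1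
      exact ⟨w, sc z hz h6 w a (h4 a (by grind)) hw, hM (by have := h4 a (by grind); simp [e', hu, hw]; grind)⟩
    have h8 : ψ u = u := by
      obtain ⟨a, b, h8, e | e⟩ := h1 (ψ u) <;> have h9 := congrArg (fun y => M (ψ y)) h5 <;>
        simp [e, h6, hz] at h9
      · exact ψ.injective (sc z hz h6 _ a (h4 a (by grind)) (by have := h4 a (by grind); simp [e]; grind))
      · obtain ⟨w, h10, h11⟩ := h7 _ a b (by grind) e
        exact lift hn h h2 (by rw [h11, inv_mul_cancel_left, h10])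
    refine key (fun x => (M x).det = 1) (fun x hx => ?_) (fun x y hx hy => .inl ?_) x
    · obtain ⟨a, b, h9, e | e⟩ := h1 x <;> simp [e] at hx
      · exact sc z hz h6 _ a (h4 a (by grind)) (by have := h4 a (by grind); simp [e]; grind)
      · obtain ⟨w, h10, rfl⟩ := h7 _ a b (by grind) e
        rw [map_mul, h8, h10]
    · have h9 : ∀ x, (M x).det = 1 ∨ (M x).det = -1 := fun x => by
        obtain ⟨a, b, h9, e | e⟩ := h1 x <;> simp [e] <;> grind
      have := h9 x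
      have := h9 y
      simp only [map_mul, Matrix.det_mul] at hy
      grind
  obtain ⟨γ, hγ⟩ := IsCyclic.exists_monoid_generator (α := Fˣ)
  obtain ⟨d, hd⟩ := (h3 γ γ⁻¹ (by simp)).1
  have h6 : ∀ y a b, (a * b = 1 ∨ a * b = -1) → M y = !![a, 0; 0, b] → ∃ k, y ^ 2 = (d ^ 2) ^ k := fun y a b e e' => by
    obtain ⟨k, hk⟩ := hγ (Units.mk0 a (by grind))
    obtain rfl : (γ : F) ^ k = a := by simpa using congrArg Units.val hk
    have h7 : ∀ k, M (d ^ k) = !![(γ : F) ^ k, 0; 0, (γ : F)⁻¹ ^ k] := fun k => by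
      induction k with
      | zero => simp [Matrix.one_fin_two]
      | succ k ih => rw [pow_succ, map_mul, ih, hd]; simp [pow_succ]
    have : (γ : F)⁻¹ ^ k * γ ^ k = 1 := by simp
    refine ⟨k, hM ?_⟩
    rw [← pow_mul, mul_comm, pow_mul, sq, sq, map_mul, map_mul, e', h7]
    simp only [Matrix.mul_fin_two, mul_zero, zero_mul, add_zero, zero_add]
    congr 3
    grind
  have h7 : (γ : F) ^ 4 ≠ 1 := fun e => h5 (by
    obtain ⟨k, hk⟩ := hγ (Units.mk0 c h4)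
    obtain rfl : (γ : F) ^ k = c := by simpa using congrArg Units.val hk
    rw [← pow_mul, mul_comm, pow_mul, e, one_pow])
  have h8 : ψ (d ^ 2) = d ^ 2 := by
    obtain ⟨a, b, h8, e | e⟩ := h1 (ψ d)
    · obtain ⟨k, hk⟩ := h6 _ a b h8 e
      exact cyc hn h h2 j _ ((map_pow ..).trans hk) (h2 _)
    · have h9 : ψ (d * d * (d * d)) = ψ 1 := hM (by simp [e, Matrix.one_fin_two]; grind)
      have := congrArg (M · 0 0) (ψ.injective h9)
      simp [hd] at this
      grind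
  have h9 : ∀ y a b, (a * b = 1 ∨ a * b = -1) → M y = !![a, 0; 0, b] → ψ (y ^ 2) = y ^ 2 := fun y a b e e' => by
    obtain ⟨k, hk⟩ := h6 y a b e e'
    rw [hk, map_pow, h8]
  have h10 : ψ z = z := by
    obtain ⟨y, hy⟩ := (h3 i (-i) (by grind)).1
    rw [show z = y ^ 2 from hM (by simp [sq, hy, hz, ← hi]), h9 y _ _ (by grind) hy]
  have h11 : ∀ y a b, (a * b = 1 ∨ a * b = -1) → M y = !![a, 0; 0, b] → ∃ a' b', a' * a' = 1 ∧ b' * b' = 1 ∧
      M (y⁻¹ * ψ y) = !![a', 0; 0, b'] := fun y a b e e' => by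
    have h12 : ψ (y * d ^ 2) = ψ (d ^ 2 * y) := congrArg ψ (hM (by simp [sq, hd, e', mul_comm]))
    replace h12 := congrArg (M · 1 0) h12
    have h13 := congrArg M (h9 y a b e e')
    have h14 : M y⁻¹ = !![a⁻¹, 0; 0, b⁻¹] := by
      rw [← mul_one (M y⁻¹), show 1 = M y * !![a⁻¹, 0; 0, b⁻¹] by simp [e', Matrix.one_fin_two]; grind, ← mul_assoc, ← map_mul]
      simp
    simp only [map_mul, h8] at h12
    obtain ⟨a', b', h15, e'' | e''⟩ := h1 (ψ y) <;> simp [sq, e', e'', hd] at h12 h13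
    · exact ⟨a⁻¹ * a', b⁻¹ * b', by grind, by grind, by simp [h14, e'']⟩
    · have := γ.ne_zero
      grind
  have h12 : ∀ y a b, a * a = 1 → b * b = 1 → M y = !![a, 0; 0, b] → ψ y = y := fun y a b e e' e'' => by
    obtain ⟨a', b', h13, h14, h15⟩ := h11 y a b (by grind) e''
    by_cases h16 : a = b
    · exact sc z hz h10 y a e (h16 ▸ e'')
    by_cases h17 : a' = b'
    · exact lift hn h h2 (sc z hz h10 _ a' h13 (h17 ▸ h15))
    refine ψ.injective (sc z hz h10 _ (a * a') (by grind) ?_)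
    rw [← mul_inv_cancel_left y (ψ y), map_mul, e'', h15]
    simp
    grind
  refine key (fun x => M x 1 0 = 0) (fun x hx => ?_) (fun x y hx hy => .inl ?_) x
  · obtain ⟨a, b, h13, e | e⟩ := h1 x
    · obtain ⟨a', b', h14, h15, h16⟩ := h11 x a b h13 e
      exact lift hn h h2 (h12 _ _ _ h14 h15 h16)
    · simp [e] at hx; grind
  · obtain ⟨a, b, h13, e | e⟩ := h1 x <;> obtain ⟨a', b', h14, e' | e'⟩ := h1 y <;> simp_all

end

/-- Let q = 2^m + 1 be a prime other than 5. Then the automorphism group of the group of linear maps of F_q² of the forms (x, y) ↦ (a x, ± a⁻¹ y) and (x, y) ↦ (± a⁻¹ y, a x) with a ≠ 0 is itself a 2-group. -/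
theorem result (q m : ℕ) [Fact q.Prime] (hq : q = 2 ^ m + 1) (hq5 : q ≠ 5)
    (T : Subgroup ((Fin 2 → ZMod q) ≃ₗ[ZMod q] (Fin 2 → ZMod q)))
    (hT : ∀ f, f ∈ T ↔ ∃ a s : ZMod q, a ≠ 0 ∧ (s = 1 ∨ s = -1) ∧
      ((∀ v, f v = ![a * v 0, s * a⁻¹ * v 1]) ∨ (∀ v, f v = ![s * a⁻¹ * v 1, a * v 0]))) :
    IsPGroup 2 (MulAut T) := by
  have : Finite ((Fin 2 → ZMod q) ≃ₗ[ZMod q] (Fin 2 → ZMod q)) := DFunLike.finite _
  have : Finite (MulAut T) := DFunLike.finite _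
  let M : T →* Matrix (Fin 2) (Fin 2) (ZMod q) := ((Units.coeHom _).comp H4.glE.symm.toMonoidHom).comp T.subtype
  have h0 : ∀ (x : T) v, x.1 v = (M x).mulVec v := fun x v => by
    conv_lhs => rw [← H4.glE.apply_symm_apply x.1]
    rfl
  have hM : Function.Injective M := fun x y e => Subtype.ext (LinearEquiv.ext fun v => by rw [h0, h0, e])
  have h1 : ∀ x, ∃ a b, (a * b = 1 ∨ a * b = -1) ∧ (M x = !![a, 0; 0, b] ∨ M x = !![0, b; a, 0]) := fun x => by
    obtain ⟨a, s, h1, h2, h3⟩ := (hT x.1).1 x.2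
    refine ⟨a, s * a⁻¹, by grind, h3.imp (fun e => ?_) fun e => ?_⟩ <;>
      refine Matrix.toLin'.injective (LinearMap.ext fun v => ?_) <;>
      simp [← h0, e, Matrix.mulVec, Matrix.vecHead, Matrix.vecTail]
  have h3 : ∀ X : Matrix (Fin 2) (Fin 2) (ZMod q), X.det ≠ 0 → (∃ a s : ZMod q, a ≠ 0 ∧ (s = 1 ∨ s = -1) ∧
      ((∀ v, X.mulVec v = ![a * v 0, s * a⁻¹ * v 1]) ∨ (∀ v, X.mulVec v = ![s * a⁻¹ * v 1, a * v 0]))) → ∃ x, M x = X :=
    fun X h h' => ⟨⟨H4.glE (.mkOfDetNeZero X h), (hT _).2 h'⟩, by simp [M]⟩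
  have h4 : ∀ a : ZMod q, a ≠ 0 → a ^ 2 ^ m = 1 := fun a ha => by simpa [hq] using ZMod.pow_card_sub_one_eq_one ha
  intro φ
  obtain ⟨k, n, hn, h5⟩ := Nat.exists_eq_two_pow_mul_odd (orderOf_pos φ).ne'
  refine ⟨k, MulEquiv.ext (fix (j := m + 1) hn (by rw [← pow_mul, ← h5, pow_orderOf_eq_one]) (fun g => hM ?_) M hM h1
    (fun a b e => ⟨h3 _ (by simp; grind) ⟨a, a * b, by grind, e, .inl fun v => ?_⟩,
      h3 _ (by simp; grind) ⟨a, a * b, by grind, e, .inr fun v => ?_⟩⟩) ?_)⟩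
  · obtain ⟨a, b, h6, h7⟩ : ∃ a b, a ≠ 0 ∧ b ≠ 0 ∧ M g ^ 2 = Matrix.diagonal ![a, b] := by
      obtain ⟨a, b, h6, e | e⟩ := h1 g
      · exact ⟨a * a, b * b, by grind, by grind, by ext i j; fin_cases i <;> fin_cases j <;> simp [sq, e]⟩
      · exact ⟨a * b, a * b, by grind, by grind, by ext i j; fin_cases i <;> fin_cases j <;> simp [sq, e, mul_comm]⟩
    rw [map_pow, pow_succ', pow_mul, h7.2, Matrix.diagonal_pow, map_one, ← Matrix.diagonal_one]
    congr 1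
    ext i
    fin_cases i <;> simp [h4, h6, h7.1]
  · ext i; fin_cases i <;> simp [Matrix.mulVec, Matrix.vecHead, Matrix.vecTail]; grind
  · ext i; fin_cases i <;> simp [Matrix.mulVec, Matrix.vecHead, Matrix.vecTail]; grind
  obtain h6 | h6 := le_or_gt m 1
  · refine .inl fun a ha => ?_
    rw [← sq, ← pow_one 2, ← Nat.add_sub_of_le h6, pow_add, pow_mul, h4 a ha, one_pow]
  obtain ⟨l, rfl⟩ := Nat.exists_eq_add_of_le' (show 3 ≤ m by
    by_contra h; obtain rfl : m = 2 := by omega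
    exact hq5 hq)
  have h7 : q = 8 * 2 ^ l + 1 := by rw [hq]; ring
  have h8 : 0 < 2 ^ l := by positivity
  refine .inr ⟨ZMod.exists_sq_eq_neg_one_iff.2 (by omega), ?_⟩
  obtain ⟨γ, hγ⟩ := IsCyclic.exists_ofOrder_eq_natCard (α := (ZMod q)ˣ)
  refine ⟨γ, γ.ne_zero, fun e => ?_⟩
  have := Nat.le_of_dvd four_pos (orderOf_dvd_of_pow_eq_one (x := γ) (Units.ext (by simpa using e)))
  rw [hγ, Nat.card_eq_fintype_card, ZMod.card_units] at this
  omega

end Cfsg.Agent.S3382
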