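import Cfsg.Statements.S3383
import Cfsg.Agent.GS.Lem2

set_option autoImplicit false
open Cfsg

namespace Cfsg.Agent.S3383

open Cfsg.Agent.H1

/-- Let H be a Frobenius complement in a finite group L and K the Frobenius kernel (as a subgroup). Then K is characteristic in L, and every normal subgroup of L either contains K or is contained in K. -/
theorem result {L : Type*} [Group L] [Finite L]
    (H : Subgroup L) (hH : Cfsg.IsFrobeniusComplement H)
    (K : Subgroup L) (hK : (K : Set L) = Cfsg.frobeniusKernel H) :
    K.Characteristic ∧ ∀ N : Subgroup L, N.Normal → K ≤ N ∨ N ≤ K := by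
  open Subgroup Pointwise commutatorElement Cfsg.Agent.BG Cfsg.Agent.GS in
  open Cfsg.Agent.H2 hiding card_lt_of_lt card_lt_of_ne_top isMulCommutative_of_le isPGroup_zpowers_iff mem_of_pow_mem_of_coprime inf_eq_bot_of_cop exists_maxElem_ge Sec in
  open Cfsg.Agent.H8 (Op Opp Fit SN) in
  open Cfsg.Agent.L (FPF) in focus
    obtain ⟨K', hn, hs, h0, hf, he, -, hc⟩ := exists_frobKernel hH
    obtain rfl : K = K' := SetLike.coe_injective (hK.trans he)
    refine ⟨?_, fun N hN => (hf.le_or_ge (le_normalizer_of_normal) (hs ▸ le_top) le_normalizer_of_normal).symm⟩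
    have hco := hf.coprime (H := H) le_normalizer_of_normal
    have hi : K.index = Nat.card H := by
      have := K.card_mul_index
      rw [hc, ← H.card_mul_index, mul_comm] at this
      exact Nat.eq_of_mul_eq_mul_right (Nat.pos_of_ne_zero H.index_ne_zero_of_finite) this
    refine characteristic_iff_le_comap.2 fun φ x hx => ?_
    change φ x ∈ K
    rw [← QuotientGroup.eq_one_iff, ← orderOf_eq_one_iff]
    refine Nat.eq_one_of_dvd_coprimes hco (hi ▸ orderOf_dvd_natCard _) ?_
    exact ((orderOf_map_dvd (QuotientGroup.mk' K) _).trans (by simp)).trans (K.orderOf_dvd_natCard hx)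

end Cfsg.Agent.S3383
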