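import Cfsg.Statements.S3430
import Cfsg.Agent.GS.Zsig
import Cfsg.Agent.GS.Basic

set_option autoImplicit false
open Cfsg

namespace Cfsg.Agent.S3430

open Cfsg.Agent.H1

/-- Let q, n ≥ 2 be integers. Unless (n = 2 and q + 1 = 2^s·3^t for some s ≥ 0 and t ≤ 1), or (q = 2 and n ∈ {4, 6, 10, 12, 18}), or (q = 3 and n ∈ {4, 6}), or (q, n) = (5, 6), there is a prime p dividing q^n − 1 but no q^i − 1 with 1 ≤ i < n (a primitive prime divisor), such that p > n + 1 or p² divides q^n − 1. -/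
theorem result (q n : ℕ) (hq : 2 ≤ q) (hn : 2 ≤ n)
    (h1 : ¬ (n = 2 ∧ ∃ s t : ℕ, t ≤ 1 ∧ q + 1 = 2 ^ s * 3 ^ t))
    (h2 : ¬ (q = 2 ∧ (n = 4 ∨ n = 6 ∨ n = 10 ∨ n = 12 ∨ n = 18)))
    (h3 : ¬ (q = 3 ∧ (n = 4 ∨ n = 6))) (h4 : ¬ (q = 5 ∧ n = 6)) :
    ∃ p : ℕ, p.Prime ∧ p ∣ q ^ n - 1 ∧ (∀ i : ℕ, 1 ≤ i → i < n → ¬ p ∣ q ^ i - 1) ∧ (n + 1 < p ∨ p ^ 2 ∣ q ^ n - 1) := by
  open Subgroup Pointwise commutatorElement Cfsg.Agent.BG Cfsg.Agent.GS in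
  open Cfsg.Agent.H2 hiding card_lt_of_lt card_lt_of_ne_top isMulCommutative_of_le isPGroup_zpowers_iff mem_of_pow_mem_of_coprime inf_eq_bot_of_cop exists_maxElem_ge Sec in
  open Cfsg.Agent.H8 (Op Opp Fit SN) in
  open Cfsg.Agent.L (FPF) in focus
    have key : ∀ m, m ≠ 0 → m ∣ q ^ n - 1 → (∀ i : ℕ, 1 ≤ i → i < n → m.Coprime (q ^ i - 1)) → (∀ t ≤ 1, m ≠ (n + 1) ^ t) →
        ∃ p : ℕ, p.Prime ∧ p ∣ q ^ n - 1 ∧ (∀ i : ℕ, 1 ≤ i → i < n → ¬ p ∣ q ^ i - 1) ∧ (n + 1 < p ∨ p ^ 2 ∣ q ^ n - 1) := fun m m0 a b c => by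
      have d : ∀ p : ℕ, p.Prime → p ∣ m → ∀ i : ℕ, 1 ≤ i → i < n → ¬ p ∣ q ^ i - 1 := fun p hp e i f g h =>
        hp.ne_one (Nat.eq_one_of_dvd_coprimes (b i f g) e h)
      by_contra! h
      have e : ∀ {p : ℕ}, p.Prime → p ∣ m → p = n + 1 := fun {p} hp e => le_antisymm (h p hp (e.trans a) (d p hp e)).1 (by
        haveI := Fact.mk hp
        by_contra f
        refine d p hp e (p - 1) (Nat.sub_pos_of_lt hp.one_lt) (by omega) ((dvd_pow_sub_one_iff (by omega)).2 (ZMod.orderOf_dvd_card_sub_one fun g => ?_))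
        exact hp.ne_one (Nat.dvd_one.1 ((Nat.dvd_sub_iff_right (Nat.one_le_pow _ _ (by omega))
          (((ZMod.natCast_eq_zero_iff q p).1 g).trans (dvd_pow_self q (by omega : n ≠ 0)))).1 (e.trans a))))
      have f := Nat.eq_prime_pow_of_unique_prime_dvd m0 e
      obtain ⟨p, hp, g⟩ := Nat.exists_prime_and_dvd (c 0 (by decide))
      refine (h p hp (g.trans a) (d p hp g)).2 (Dvd.dvd.trans ?_ a)
      rw [f, e hp g]
      exact pow_dvd_pow _ (not_le.1 fun i => c _ i f)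
    rcases (show n = 2 ∨ 2 < n by omega) with rfl | hn
    · obtain ⟨k, m, a, b⟩ := Nat.exists_eq_pow_mul_and_not_dvd (show q + 1 ≠ 0 by omega) 2 (by decide)
      have d : m ∣ q + 1 := b ▸ dvd_mul_left _ _
      refine key m (by rintro rfl; simp at a) (by rw [← one_pow 2, Nat.sq_sub_sq]; exact d.mul_right _) (fun i e f => ?_)
        fun t ht e => h1 ⟨rfl, k, t, ht, by rw [b, e]⟩
      obtain rfl : i = 1 := by omega
      refine Nat.coprime_of_dvd fun r hr c g => a ?_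
      have := Nat.dvd_sub (c.trans d) g
      rw [pow_one, show q + 1 - (q - 1) = 2 by omega] at this
      exact (Nat.prime_dvd_prime_iff_eq hr Nat.prime_two).1 this ▸ c
    by_cases h : (q, n) ∈ herL
    · obtain ⟨r, -, a, b, c, d⟩ := (by decide +kernel : ∀ x ∈ herL, ¬ (x.1 = 2 ∧ (x.2 = 4 ∨ x.2 = 6 ∨ x.2 = 10 ∨ x.2 = 12 ∨ x.2 = 18)) →
        ¬ (x.1 = 3 ∧ (x.2 = 4 ∨ x.2 = 6)) → ¬ (x.1 = 5 ∧ x.2 = 6) →
        ∃ r < 42, r.Prime ∧ r ∣ x.1 ^ x.2 - 1 ∧ (∀ k < x.2, 0 < k → ¬ r ∣ x.1 ^ k - 1) ∧ x.2 + 1 < r) _ h h2 h3 h4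
      exact ⟨r, a, b, fun k d e => c k e d, Or.inl d⟩
    obtain ⟨m, a, b, c⟩ := hering hq hn h
    refine key m (by omega) a b fun t ht e => ?_
    interval_cases t <;> simp at e <;> omega

end Cfsg.Agent.S3430
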