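import Cfsg.Statements.S3704
import Mathlib
import Cfsg.Agent.H7.Der
import Cfsg.Agent.H7.PD

set_option autoImplicit false
open Cfsg

namespace Cfsg.Agent.S3704

open Cfsg.Agent.H7 Cfsg.Agent.H3 MulAction Finset

/-- Let G be a finite group acting faithfully and 2-transitively on a finite set Ω of size n, and let H be a subgroup of index n in G which is not transitive on Ω and fixes no point of Ω. Then H has exactly two orbits on Ω. -/
theorem result {G Ω : Type*} [Group G] [Finite G] [MulAction G Ω] [FaithfulSMul G Ω] [Finite Ω] (h2 : MulAction.IsMultiplyPretransitive G Ω 2) (H : Subgroup G) (hidx : H.index = Nat.card Ω) (hnt : ¬ MulAction.IsPretransitive H Ω) (hfix : ∀ a : Ω, ∃ h : H, h • a ≠ a) : Nat.card (MulAction.orbitRel.Quotient H Ω) = 2 := by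
  classical
  have := Fintype.ofFinite G
  have := Fintype.ofFinite H
  have hn : Nontrivial Ω := by
    by_contra h
    have := not_nontrivial_iff_subsingleton.1 h
    exact hnt ⟨fun a b => ⟨1, Subsingleton.elim _ _⟩⟩
  have hn' : 2 ≤ Nat.card Ω := Finite.one_lt_card
  have : IsPretransitive G Ω := is_one_pretransitive_iff.1 (mt_le h2 hn' one_le_two)
  set π : G → ℂ := fun g => (Nat.card (fixedBy Ω g) : ℂ) with hπ
  have h1 : classInner π (fun _ => 1) = 1 := inner_fixedBy_oneI
  have h3 : classInner π π = 2 := by
    rw [classInner_fixedBy_fixedBy]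
    obtain ⟨a, b, hab⟩ := hn
    refine Nat.cast_inj.2 ((Nat.card_eq_two_iff' (Quotient.mk'' (a, a))).2 ⟨Quotient.mk'' (a, b), fun e => ?_, ?_⟩)
    · obtain ⟨g, hg⟩ := orbitRel_apply.1 (Quotient.exact' e)
      exact hab ((congrArg Prod.fst hg).symm.trans (congrArg Prod.snd hg))
    · rintro ⟨c, d⟩ h
      have hcd : c ≠ d := by
        rintro rfl
        obtain ⟨g, hg⟩ := exists_smul_eq G a c
        exact h (Quotient.sound' (orbitRel_apply.2 ⟨g, Prod.ext hg hg⟩))
      obtain ⟨g, hg⟩ := mt_two h2 hab hcd
      exact Quotient.sound' (orbitRel_apply.2 ⟨g, Prod.ext hg.1 hg.2⟩)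
  have hπc : IsCharacter G π := isCharacter_fixedBy Ω
  have h4 : IsCharacter G (π - fun _ => 1) := hπc.sub_of_inner_ne_zero isIrrCharacter_one (by simp [h1])
  have h5 : IsIrrCharacter G (π - fun _ => 1) := h4.irr_of_inner_self (by
    rw [classInner_sub_left, classInner_sub_right, classInner_sub_right, h3, ← conj_classInner π, h1,
      isIrrCharacter_one.inner_self]; norm_num)
  have h6 : IsCharacter G (indFun H (fun _ => 1) - fun _ => 1) :=
    isIrrCharacter_one.isCharacter.ind.sub_of_inner_ne_zero isIrrCharacter_one (by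
      rw [classInner_indFun_left _ isIrrCharacter_one.isCharacter.isClassFunction, isIrrCharacter_one.inner_self]
      exact one_ne_zero)
  have h7 : classInner (indFun H (fun _ => 1) - fun _ => 1) (π - fun _ => 1) =
      (Nat.card (orbitRel.Quotient H Ω) : ℂ) - 1 := by
    rw [classInner_sub_left, classInner_indFun_left _ h4.isClassFunction, classInner_sub_right,
      ← conj_classInner π, h1, isIrrCharacter_one.inner_self, map_one, sub_self, sub_zero]
    refine (classInner_sub_right _ (fun h : H => π h) fun _ => 1).trans ?_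
    rw [isIrrCharacter_one.inner_self, ← conj_classInner]
    exact congrArg (· - 1) ((congrArg _ (classInner_fixedBy_one (G := H) Ω)).trans (map_natCast _ _))
  have h8 := h6.eq_of_inner_ne_zero_of_degree h5 (by
    rw [h7, sub_ne_zero, Ne, Nat.cast_eq_one, Nat.card_eq_one_iff_unique]
    exact fun h => hnt ((pretransitive_iff_subsingleton_quotient H Ω).2 h.1)) (by simp [indFun_one, hidx, hπ])
  rw [h8, h5.inner_self, eq_sub_iff_add_eq, one_add_one_eq_two] at h7
  exact_mod_cast h7.symm

end Cfsg.Agent.S3704
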