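import Cfsg.Statements.S3707
import Mathlib
import Cfsg.Agent.H7.PS

set_option autoImplicit false
open Cfsg

namespace Cfsg.Agent.S3707

open Cfsg.Agent.H7 Subgroup MulAction
open scoped Pointwise

variable (G : Type*) {Ω : Type*} [Group G] [MulAction G Ω]

def J (Γ : Set Ω) : Prop := ∀ x ∈ Γ, ∀ y ∈ Γ, ∃ g : G, (∀ z ∉ Γ, g • z = z) ∧ g • x = y

variable {G} {A B : Set Ω}

theorem J.smul (h : J G A) (g : G) : J G (g • A) := by
  rintro _ ⟨x, hx, rfl⟩ _ ⟨y, hy, rfl⟩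
  obtain ⟨k, h1, h2⟩ := h x hx y hy
  exact ⟨g * k * g⁻¹, fun z hz => by rw [mul_smul, mul_smul, h1 _ (mt Set.mem_smul_set_iff_inv_smul_mem.2 hz),
    smul_inv_smul], by simp [mul_smul, h2]⟩

theorem J.union (h : J G A) (h' : J G B) (hAB : (A ∩ B).Nonempty) : J G (A ∪ B) := by
  obtain ⟨c, hc⟩ := hAB
  have h1 : ∀ x ∈ A ∪ B, ∃ g : G, (∀ z ∉ A ∪ B, g • z = z) ∧ g • c = x := by
    rintro x (hx | hx)
    · exact (h c hc.1 x hx).imp fun g hg => ⟨fun z hz => hg.1 z fun e => hz (Or.inl e), hg.2⟩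
    · exact (h' c hc.2 x hx).imp fun g hg => ⟨fun z hz => hg.1 z fun e => hz (Or.inr e), hg.2⟩
  intro x hx y hy
  obtain ⟨g, g1, rfl⟩ := h1 x hx
  obtain ⟨k, k1, rfl⟩ := h1 y hy
  exact ⟨k * g⁻¹, fun z hz => by rw [mul_smul, inv_smul_eq_iff.2 (g1 z hz).symm, k1 z hz], by simp [mul_smul]⟩

/-- Let G be a finite primitive permutation group on Ω of degree n and Γ ⊂ Ω a subset with 1 < #Γ ≤ n/2 such that the pointwise stabilizer of Ω ∖ Γ is transitive on Γ. Then G is 3-transitive on Ω. -/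
theorem result {G Ω : Type*} [Group G] [Finite G] [MulAction G Ω] [FaithfulSMul G Ω] [Finite Ω] (hprim : MulAction.IsPreprimitive G Ω) (Γ : Set Ω) (h1 : 1 < Γ.ncard) (h2 : 2 * Γ.ncard ≤ Nat.card Ω) (htr : ∀ x ∈ Γ, ∀ y ∈ Γ, ∃ g : G, (∀ z ∉ Γ, g • z = z) ∧ g • x = y) : MulAction.IsMultiplyPretransitive G Ω 3 := by
  classical
  have h3 : IsMultiplyPretransitive G Ω 2 := hprim.is_two_pretransitive (s := Γᶜ) (n := Nat.card Ω - Γ.ncard - 1)
    (by rw [Set.ncard_compl]; omega) (by omega) ((fix_trans_iff _).2 fun a b ha hb =>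
      htr a (not_not.1 ha) b (not_not.1 hb))
  obtain ⟨M, ⟨hJ, hM1, hM2⟩, hmax⟩ := Set.exists_max_image {M | J G M ∧ 1 < M.ncard ∧ M.ncard + 2 ≤ Nat.card Ω}
    Set.ncard (Set.toFinite _) ⟨Γ, htr, h1, by omega⟩
  rcases hM2.eq_or_lt with e | hM3
  · exact mt_succ_of h3 (Set.toFinite Mᶜ).toFinset (by rw [← Set.ncard_eq_toFinset_card, Set.ncard_compl]; omega)
      fun a b ha hb => by simpa using hJ a (by simpa using ha) b (by simpa using hb)
  exfalso
  have h4 : ∀ g k : G, (g • M ∩ k • M).Nonempty → (g • M ∪ k • M).ncard + 2 ≤ Nat.card Ω → g • M = k • M :=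
    fun g k h h' => by
      have h5 := hmax _ ⟨(hJ.smul g).union (hJ.smul k) h, hM1.trans_le ((Set.ncard_smul_set g M).ge.trans
        (Set.ncard_le_ncard Set.subset_union_left)), h'⟩
      exact (Set.eq_of_subset_of_ncard_le Set.subset_union_left (by rwa [Set.ncard_smul_set])).trans
        (Set.eq_of_subset_of_ncard_le Set.subset_union_right (by rwa [Set.ncard_smul_set])).symm
  have h5 : Nat.card Ω ≤ 2 * M.ncard := by
    by_contra! h
    rcases hprim.isTrivialBlock_of_isBlock (B := M) (isBlock_iff_smul_eq_of_nonempty.2 fun g hg => by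
      have := Set.ncard_union_add_ncard_inter (g • M) ((1 : G) • M)
      have h6 := (Set.ncard_pos (Set.toFinite _)).2 hg
      rw [Set.ncard_smul_set, Set.ncard_smul_set] at this
      simpa using h4 g 1 (by simpa using hg) (by rw [one_smul] at *; omega)) with e | e
    · exact absurd ((Set.ncard_le_one (Set.toFinite _)).2 e) (by omega)
    · rw [e, Set.ncard_univ] at hM2; omega
  have h6 : ∀ (g k : G) (a b : Ω), a ≠ b → a ∉ g • M → b ∉ g • M → a ∉ k • M → b ∉ k • M → g • M = k • M := by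
    intro g k a b hab a1 b1 a2 b2
    have h7 : (g • M ∪ k • M).ncard + 2 ≤ Nat.card Ω := by
      rw [← Set.ncard_pair hab, ← Set.ncard_union_eq (by simp [a1, a2, b1, b2]), ← Set.ncard_univ]
      exact Set.ncard_le_ncard (Set.subset_univ _)
    refine h4 g k (Set.not_disjoint_iff_nonempty_inter.1 fun h => ?_) h7
    rw [Set.ncard_union_eq h, Set.ncard_smul_set, Set.ncard_smul_set] at h7
    omega
  have h7 : ∀ a b : Ω, a ≠ b → ∃ g : G, a ∉ g • M ∧ b ∉ g • M ∧ ∃ c, c ∉ g • M ∧ c ≠ a ∧ c ≠ b := fun a b hab => by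
    obtain ⟨u, hu, v, hv, huv⟩ := (Set.one_lt_ncard (Set.toFinite Mᶜ)).1 (by rw [Set.ncard_compl]; omega)
    obtain ⟨g, rfl, rfl⟩ := mt_two h3 huv hab
    obtain ⟨w, hw, hw'⟩ := Set.exists_mem_notMem_of_ncard_lt_ncard (s := {u, v}) (t := Mᶜ)
      (by rw [Set.ncard_pair huv, Set.ncard_compl]; omega)
    exact ⟨g, by simpa using hu, by simpa using hv, g • w, by simpa using hw, by simpa using hw'⟩
  obtain ⟨x, hx, x', hx', hxx⟩ := (Set.one_lt_ncard (Set.toFinite Γ)).1 h1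
  have h8 : ∀ (g : G) a b, a ≠ b → a ∉ Γ → b ∉ Γ → a ∉ g • M → b ∉ g • M → x ∉ g • M → ∀ y ∈ Γ, y ∉ g • M := by
    intro g a b hab ha hb a1 b1 x1 y hy
    obtain ⟨u, hu, rfl⟩ := htr x hx y hy
    rw [h6 g (u * g) a b hab a1 b1 (by rwa [← hu a ha, mul_smul, Set.smul_mem_smul_set_iff])
      (by rwa [← hu b hb, mul_smul, Set.smul_mem_smul_set_iff])]
    rwa [mul_smul, Set.smul_mem_smul_set_iff]
  have h9 : ∀ (g : G) a b, a ≠ b → a ∉ Γ → b ∉ Γ → a ∉ g • M → b ∉ g • M → x ∈ g • M := by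
    intro g a b hab ha hb a1 b1
    by_contra x1
    have h10 := h8 g a b hab ha hb a1 b1 x1
    obtain ⟨w, hw⟩ := (Set.ncard_pos (Set.toFinite (g • M))).1 (by rw [Set.ncard_smul_set]; omega)
    obtain ⟨k, x2, w2, c, c1, c2, c3⟩ := h7 x w fun e => x1 (e ▸ hw)
    by_cases hc : c ∈ Γ
    · exact w2 (h6 g k x c c2.symm x1 (h10 c hc) x2 c1 ▸ hw)
    · exact w2 (h6 g k x x' hxx x1 (h10 x' hx') x2 (h8 k c w c3 hc (fun h => h10 w h hw) c1 w2 x2 x' hx') ▸ hw)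
  choose! g g1 g2 c c1 c2 c3 using h7 x
  have h10 : ∀ a ∈ Γᶜ, x ≠ a := fun a ha e => ha (e ▸ hx)
  have := Set.ncard_le_ncard_of_injOn (s := Γᶜ) (t := Γ \ {x}) c (fun a ha => ⟨by_contra fun h =>
    g1 a (h10 a ha) (h9 _ _ _ (c3 a (h10 a ha)) h ha (c1 a (h10 a ha)) (g2 a (h10 a ha))), c2 a (h10 a ha)⟩)
    fun a ha b hb e => by_contra fun hab => g1 a (h10 a ha) (h9 _ _ _ hab ha hb (g2 a (h10 a ha))
      (h6 (g b) (g a) x (c a) (c2 a (h10 a ha)).symm (g1 b (h10 b hb)) (e ▸ c1 b (h10 b hb)) (g1 a (h10 a ha))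
        (c1 a (h10 a ha)) ▸ g2 b (h10 b hb)))
  rw [Set.ncard_compl, Set.ncard_diff_singleton_of_mem hx] at this
  omega

end Cfsg.Agent.S3707
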