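import Cfsg.Statements.S3733
import Cfsg.Agent.H1.Misc

set_option autoImplicit false
open Cfsg

namespace Cfsg.Agent.S3733

open Cfsg.Agent.H1

/-- Let A and V be subgroups of a finite group with V abelian and nontrivial and A normalizing V. Suppose a nonempty finite family of proper subgroups of A partitions A: every non-identity element of A lies in exactly one member. If the number of members minus one is coprime to the order of V, then some member B of the family has a non-identity fixed point on V, that is V ∩ C(B) ≠ 1. -/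
theorem result {G : Type*} [Group G] [Finite G] (A V : Subgroup G) (hVab : IsMulCommutative V) (hV : V ≠ ⊥) (hAV : A ≤ Subgroup.normalizer (V : Set G)) (𝒜 : Finset (Subgroup G)) (hne : 𝒜.Nonempty) (hprop : ∀ B ∈ 𝒜, B < A) (hpart : ∀ a ∈ A, a ≠ 1 → ∃! B, B ∈ 𝒜 ∧ a ∈ B) (hk : (𝒜.card - 1).Coprime (Nat.card V)) : ∃ B ∈ 𝒜, V ⊓ Subgroup.centralizer (B : Set G) ≠ ⊥ := by
  open Subgroup Pointwise commutatorElement in focus
    open scoped IsMulCommutative in classical
    by_contra! hc
    obtain ⟨⟨v, hv⟩, hv1⟩ := ne_bot_iff_exists_ne_one.1 hV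
    haveI := Fintype.ofFinite (normalizer (V : Set G))
    set φ := conjEnd V
    set w : Additive V := Additive.ofMul ⟨v, hv⟩
    have h0 : ∀ B : Subgroup G, B ≤ A → V ⊓ centralizer (B : Set G) = ⊥ →
        ∑ a : normalizer (V : Set G), (if (a : G) ∈ B then φ a w else 0) = 0 := fun B hB h => by
      set s := ∑ a : normalizer (V : Set G), (if (a : G) ∈ B then φ a w else 0) with hs
      have : ((s.toMul : V) : G) ∈ V ⊓ centralizer (B : Set G) := mem_inf.2 ⟨s.toMul.2, fun b hb => by
        have e : φ ⟨b, hAV (hB hb)⟩ s = s := by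
          rw [hs, map_sum]
          refine Fintype.sum_equiv (Equiv.mulLeft ⟨b, hAV (hB hb)⟩) _ _ fun a => ?_
          simp only [Equiv.coe_mulLeft, coe_mul, mul_mem_cancel_left hb, map_mul]
          split_ifs <;> simp
        have := conjEnd_apply V ⟨b, hAV (hB hb)⟩ s
        rw [e] at this
        exact mul_inv_eq_iff_eq_mul.1 this.symm⟩
      rw [h, mem_bot] at this
      exact Additive.toMul.injective (Subtype.ext this)
    obtain ⟨B₀, hB₀⟩ := hne
    have hA := h0 A le_rfl (le_bot_iff.1 (hc B₀ hB₀ ▸ inf_le_inf_left _ (centralizer_anti (hprop B₀ hB₀).le)))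
    have h1 : ∑ B ∈ 𝒜, ∑ a : normalizer (V : Set G), (if (a : G) ∈ B then φ a w else 0) = 0 :=
      Finset.sum_eq_zero fun B hB => h0 B (hprop B hB).le (hc B hB)
    rw [Finset.sum_comm] at h1
    have h2 : ∀ a : normalizer (V : Set G), ∑ B ∈ 𝒜, (if (a : G) ∈ B then φ a w else 0) =
        (if (a : G) ∈ A then φ a w else 0) + if a = 1 then (𝒜.card - 1) • w else 0 := fun a => by
      by_cases ha : a = 1
      · subst ha
        simp only [OneMemClass.coe_one, one_mem, if_true, map_one, AddMonoid.End.one_apply, Finset.sum_const]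
        rw [add_comm, ← succ_nsmul, Nat.sub_add_cancel (Finset.card_pos.2 ⟨B₀, hB₀⟩)]
      rw [if_neg ha, add_zero]
      split_ifs with h
      · obtain ⟨B, ⟨hB, haB⟩, hu⟩ := hpart a h fun e => ha (Subtype.ext e)
        rw [Finset.sum_eq_single_of_mem B hB fun C hC hne => if_neg fun h' => hne (hu C ⟨hC, h'⟩), if_pos haB]
      · exact Finset.sum_eq_zero fun B hB => if_neg fun h' => h ((hprop B hB).le h')
    simp only [h2, Finset.sum_add_distrib, hA, zero_add, Finset.sum_ite_eq', Finset.mem_univ, if_true] at h1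
    have h3 : (⟨v, hv⟩ : V) ^ (𝒜.card - 1) = 1 := h1
    exact hv1 (orderOf_eq_one_iff.1 (Nat.eq_one_of_dvd_coprimes hk (orderOf_dvd_of_pow_eq_one h3) (orderOf_dvd_natCard _)))

end Cfsg.Agent.S3733
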