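import Cfsg.Statements.S3734
import Cfsg.Agent.H1.Misc

set_option autoImplicit false
open Cfsg

namespace Cfsg.Agent.S3734

open Cfsg.Agent.H1

/-- Let A and G be subgroups of a finite group with A abelian, A normalizing G and the orders of A and G coprime. Then G is generated by the fixed-point subgroups C_G(B) of those subgroups B of A for which A/B is cyclic (that is, A = ⟨B, a⟩ for some a), and [G, A] is generated by the commutator subgroups [C_G(B), A] over the same subgroups B. -/
theorem result {X : Type*} [Group X] [Finite X] (A G : Subgroup X) (hAab : IsMulCommutative A) (hAG : A ≤ Subgroup.normalizer (G : Set X)) (hcop : (Nat.card A).Coprime (Nat.card G)) : (⨆ B ∈ {B : Subgroup X | B ≤ A ∧ ∃ a ∈ A, B ⊔ Subgroup.zpowers a = A}, G ⊓ Subgroup.centralizer (B : Set X)) = G ∧ (⨆ B ∈ {B : Subgroup X | B ≤ A ∧ ∃ a ∈ A, B ⊔ Subgroup.zpowers a = A}, ⁅G ⊓ Subgroup.centralizer (B : Set X), A⁆) = ⁅G, A⁆ := by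
  open Subgroup Pointwise commutatorElement in focus
    have h1 : ∀ L : Subgroup X, (∀ B : Subgroup X, B ≤ A → (∃ a ∈ A, B ⊔ zpowers a = A) → G ⊓ centralizer (B : Set X) ≤ L) → G ≤ L :=
      fun L h => le_of_forall_cocyclic_centralizer_le hAG hcop fun B hB ⟨a, ha, e⟩ => h B hB ⟨a, ha, (sup_comm _ _).trans e⟩
    refine ⟨le_antisymm (iSup₂_le fun B _ => inf_le_left) (h1 _ fun B hB h => le_iSup₂_of_le B ⟨hB, h⟩ le_rfl),
      le_antisymm (iSup₂_le fun B _ => commutator_mono inf_le_left le_rfl) ?_⟩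
    set W := ⨆ B ∈ {B : Subgroup X | B ≤ A ∧ ∃ a ∈ A, B ⊔ Subgroup.zpowers a = A}, ⁅G ⊓ Subgroup.centralizer (B : Set X), A⁆
    have hn : ∀ Y : Subgroup X, (∀ B : Subgroup X, B ≤ A → Y ≤ normalizer ((⁅G ⊓ centralizer (B : Set X), A⁆ : Subgroup X) : Set X)) →
        Y ≤ normalizer (W : Set X) := fun Y h y hy => mem_normalizer_of_conj_mem (conj_smul_le_iff.1 (by
      rw [conj_smul_eq_map, Subgroup.map_iSup]
      refine iSup_le fun B => ?_
      rw [Subgroup.map_iSup]
      exact iSup_le fun hB => le_iSup₂_of_le B hB (conj_smul_eq_self_iff.2 (h B hB.1 hy)).le))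
    have hA : ∀ B : Subgroup X, B ≤ A → A ≤ normalizer ((G ⊓ centralizer (B : Set X) : Subgroup X) : Set X) := fun B hB =>
      le_normalizer_inf hAG (le_normalizer_centralizer (le_normalizer_of_isMulCommutative hB))
    have hAW := hn A fun B hB => le_normalizer_commutator (hA B hB) le_normalizer
    have hCW := hn (G ⊓ centralizer (A : Set X)) fun B hB => le_normalizer_commutator
      ((inf_le_inf_left _ (centralizer_anti hB)).trans le_normalizer) (inf_le_right.trans (centralizer_le_normalizer _))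
    have h2 := h1 (W ⊔ (G ⊓ centralizer (A : Set X))) fun B hB h => by
      rw [← commutator_sup_centralizer (hA B hB) (hcop.coprime_dvd_right (card_dvd_of_le inf_le_left))
        (Or.inl (isSolvable_of_isMulCommutative hAab))]
      exact sup_le_sup (le_iSup₂_of_le B ⟨hB, h⟩ le_rfl) (inf_le_inf_right _ inf_le_left)
    refine (commutator_le_of_mul_centralizer (N := W) fun k hk => ?_).trans (commutator_le_left_of_le_normalizer hAW)
    obtain ⟨w, hw, c, hc, e⟩ := (mem_sup_right_norm hCW).1 (h2 hk)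
    exact ⟨w, hw, c, hc.2, e⟩

end Cfsg.Agent.S3734
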