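import Cfsg.Statements.S3735
import Cfsg.Agent.H1.Misc

set_option autoImplicit false
open Cfsg

namespace Cfsg.Agent.S3735

open Cfsg.Agent.H1

/-- Clifford's Theorem for actions on finite abelian groups, first part. Let H and V be subgroups of a finite group with V abelian and H normalizing V, and let A be a normal subgroup of H. If every H-invariant subgroup of V has an H-invariant complement in V, then every A-invariant subgroup of V has an A-invariant complement in V. -/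
theorem result {G : Type*} [Group G] [Finite G] (H A V : Subgroup G) (hVab : IsMulCommutative V) (hHV : H ≤ Subgroup.normalizer (V : Set G)) (hAH : A ≤ H) (hAn : H ≤ Subgroup.normalizer (A : Set G)) (hss : ∀ U : Subgroup G, U ≤ V → H ≤ Subgroup.normalizer (U : Set G) → ∃ W : Subgroup G, W ≤ V ∧ H ≤ Subgroup.normalizer (W : Set G) ∧ U ⊓ W = ⊥ ∧ U ⊔ W = V) (U : Subgroup G) (hUV : U ≤ V) (hAU : A ≤ Subgroup.normalizer (U : Set G)) : ∃ W : Subgroup G, W ≤ V ∧ A ≤ Subgroup.normalizer (W : Set G) ∧ U ⊓ W = ⊥ ∧ U ⊔ W = V := by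
  open Subgroup Pointwise commutatorElement in focus
    set T := {M : Subgroup G | (M ≤ V ∧ M ≠ ⊥ ∧ A ≤ normalizer (M : Set G)) ∧ ∀ K, (K ≤ V ∧ K ≠ ⊥ ∧ A ≤ normalizer (K : Set G)) → K ≤ M → K = M}
    have hSV : sSup T ≤ V := sSup_le fun M hM => hM.1.1
    have hc : ∀ h ∈ H, ∀ M : Subgroup G, (M ≤ V ∧ M ≠ ⊥ ∧ A ≤ normalizer (M : Set G)) →
        (MulAut.conj h • M ≤ V ∧ MulAut.conj h • M ≠ ⊥ ∧ A ≤ normalizer ((MulAut.conj h • M : Subgroup G) : Set G)) := fun h hh M hM =>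
      ⟨(conj_smul_mono h hM.1).trans (conj_smul_eq_self_iff.2 (hHV hh)).le, fun e => hM.2.1 (conj_smul_eq_bot_iff.1 e), by
        rw [normalizer_conj_smul]; exact (conj_smul_eq_self_iff.2 (hAn hh)).ge.trans (conj_smul_mono h hM.2.2)⟩
    have hHS : H ≤ normalizer ((sSup T : Subgroup G) : Set G) := fun h hh => mem_normalizer_of_conj_mem (conj_smul_le_iff.1 (by
      rw [conj_smul_le_iff_le]
      refine sSup_le fun M hM => conj_smul_le_iff_le.1 (le_sSup ⟨hc h hh M hM.1, fun K hK hle => ?_⟩)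
      exact (conj_smul_eq_iff.2 (hM.2 _ (hc _ (inv_mem hh) K hK) (by rw [conj_smul_le_iff_le, inv_inv]; exact hle))).symm))
    have hS : sSup T = V := by
      obtain ⟨W, hWV, hHW, hd, hs⟩ := hss _ hSV hHS
      by_cases hW : W = ⊥
      · simpa [hW] using hs
      obtain ⟨M, hMW, hM, hmin⟩ := exists_minimal_le (fun K => K ≤ V ∧ K ≠ ⊥ ∧ A ≤ normalizer (K : Set G)) ⟨hWV, hW, hAH.trans hHW⟩
      exact absurd (le_bot_iff.1 (hd ▸ le_inf (le_sSup ⟨hM, hmin⟩) hMW)) hM.2.1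
    obtain ⟨W, -, ⟨hWV, hAW, hd⟩, hmax⟩ := exists_maximal_ge (fun W => W ≤ V ∧ A ≤ normalizer (W : Set G) ∧ U ⊓ W = ⊥)
      (N := ⊥) ⟨bot_le, le_normalizer_of_normal, inf_bot_eq _⟩
    refine ⟨W, hWV, hAW, hd, le_antisymm (sup_le hUV hWV) (hS.ge.trans (sSup_le fun M hM => ?_))⟩
    by_contra hn
    have h1 : M ⊓ (U ⊔ W) = ⊥ := by
      by_contra h
      exact hn (inf_eq_left.1 (hM.2 _ ⟨inf_le_left.trans hM.1.1, h, le_normalizer_inf hM.1.2.2 (le_normalizer_sup hAU hAW)⟩ inf_le_left))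
    have := hmax (W ⊔ M) ⟨sup_le hWV hM.1.1, le_normalizer_sup hAW hM.1.2.2, eq_bot_iff.2 fun x hx => by
      obtain ⟨w, hw, m, hm, e⟩ := (mem_sup_left_norm (hWV.trans (le_normalizer_of_isMulCommutative hM.1.1))).1 hx.2
      have : m ∈ M ⊓ (U ⊔ W) := mem_inf.2 ⟨hm, by
        rw [show m = w⁻¹ * x by rw [e]; group]; exact mul_mem (mem_sup_right (inv_mem hw)) (mem_sup_left hx.1)⟩
      rw [h1, mem_bot] at this
      rw [this, mul_one] at e
      exact hd.le (mem_inf.2 ⟨hx.1, e ▸ hw⟩)⟩ le_sup_left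
    exact hn ((le_sup_right.trans this.le).trans le_sup_right)

end Cfsg.Agent.S3735
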