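import Cfsg.Statements.S3736
import Cfsg.Agent.GS.MinAct

set_option autoImplicit false
open Cfsg

namespace Cfsg.Agent.S3736

open Cfsg.Agent.H1

/-- The Hall–Higman reduction for a minimal non-trivial action. Let B, A and P be subgroups of a finite group with P a p-group, B normalizing P, and A a normal subgroup of B of order prime to p. Suppose A does not centralize P but centralizes every proper B-invariant subgroup of P. Then [P, A] = P; P is elementary abelian or special; B acts irreducibly on P/Φ(P), that is, the only B-invariant subgroups of P containing Φ(P) are Φ(P) and P; and if p is odd then every element of P has order dividing p. -/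
theorem result {X : Type*} [Group X] [Finite X] {p : ℕ} [Fact p.Prime] (B A P : Subgroup X) (hP : IsPGroup p P) (hBP : B ≤ Subgroup.normalizer (P : Set X)) (hAB : A ≤ B) (hAn : B ≤ Subgroup.normalizer (A : Set X)) (hAp : (Nat.card A).Coprime p) (hnt : ⁅P, A⁆ ≠ ⊥) (hmin : ∀ U : Subgroup X, U < P → B ≤ Subgroup.normalizer (U : Set X) → ⁅U, A⁆ = ⊥) : ⁅P, A⁆ = P ∧ (Cfsg.IsElementaryAbelian p P ∨ Cfsg.IsSpecial p ↥P) ∧ (∀ U : Subgroup X, (frattini ↥P).map P.subtype ≤ U → U ≤ P → B ≤ Subgroup.normalizer (U : Set X) → U = (frattini ↥P).map P.subtype ∨ U = P) ∧ (p ≠ 2 → ∀ x ∈ P, x ^ p = 1) := by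
  open Subgroup Pointwise commutatorElement Cfsg.Agent.BG Cfsg.Agent.GS in
  open Cfsg.Agent.H2 hiding card_lt_of_lt card_lt_of_ne_top isMulCommutative_of_le isPGroup_zpowers_iff mem_of_pow_mem_of_coprime inf_eq_bot_of_cop exists_maxElem_ge Sec in
  open Cfsg.Agent.H8 (Op Opp Fit SN) in
  open Cfsg.Agent.L (FPF) in focus
    have h : MinAct p B A P := ⟨hP, hBP, hAB, hAn, hAp, fun e => hnt (le_cent_iff_comm.1 (le_cent_comm.1 e)),
      fun U h1 h2 => le_cent_comm.1 (le_cent_iff_comm.2 (hmin U h1 h2))⟩
    refine ⟨h.comm, h.elem_or.imp id fun e => ⟨hP, ?_, ?_⟩, fun U h1 h2 h3 => (h.irr h2 h3).imp (fun e => e.antisymm h1) id,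
      fun e x hx => h.pow_eq_one e hx⟩
    · exact map_injective P.subtype_injective (e.symm.trans (center_map_eq_Zc P).symm)
    · refine map_injective P.subtype_injective ?_
      rw [commutator_map_subtype', center_map_eq_Zc, e, h.phi_eq]

end Cfsg.Agent.S3736
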