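import Cfsg.Statements.S3738
import Mathlib
import Cfsg.Agent.H8.Sig0
import Cfsg.Agent.GS.MinAct
import Cfsg.Agent.H2.CW2
import Cfsg.Agent.H2.HHB

set_option autoImplicit false
open Cfsg

namespace Cfsg.Agent.S3738

open Cfsg.Agent.H8 Cfsg.Agent.H2 Cfsg.Agent.BG Subgroup

/-- Let d be a non-identity 3-element of a finite group and P a 2-subgroup normalized by d on which ⟨d⟩ acts faithfully (no non-identity power of d centralizes P) and without non-identity fixed points (C_P(d) = 1). If every abelian subgroup of P has 2-rank at most 2, then d has order 3. -/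
theorem result {X : Type*} [Group X] [Finite X] (d : X) (n : ℕ) (hn : 1 ≤ n) (hd : orderOf d = 3 ^ n) (P : Subgroup X) (hP : IsPGroup 2 P) (hdP : d ∈ Subgroup.normalizer (P : Set X)) (hfaith : Subgroup.zpowers d ⊓ Subgroup.centralizer (P : Set X) = ⊥) (hfpf : P ⊓ Subgroup.centralizer {d} = ⊥) (hrank : ∀ V : Subgroup X, V ≤ P → IsMulCommutative V → Cfsg.PRankLE 2 2 V) : orderOf d = 3 := by
  haveI : Fact (Nat.Prime 3) := ⟨Nat.prime_three⟩
  obtain ⟨n, rfl⟩ := Nat.exists_eq_add_of_le' hn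
  rcases n with _ | n
  · simpa using hd
  exfalso
  have h1 : orderOf (d ^ 3 ^ (n + 1)) = 3 := by
    rw [orderOf_pow, hd, Nat.gcd_eq_right (pow_dvd_pow 3 (n + 1).le_succ), pow_succ', Nat.mul_div_cancel _ (by positivity)]
  have h2 : zpowers (d ^ 3 ^ (n + 1)) ≤ zpowers d := zpowers_le.2 (pow_mem (mem_zpowers d) _)
  have h3 := comm_le_normalizer inferInstance h2
  obtain ⟨Q, hQ, h⟩ := GS.exists_minAct hP (zpowers_le.2 hdP) h2 h3 (by rw [Nat.card_zpowers, h1]; decide) fun e =>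
    ne_one_of_orderOf h1 (hfaith.le ⟨h2 (mem_zpowers _), e (mem_zpowers _)⟩)
  have hr : ∀ E ≤ Q, IsElementaryAbelian 2 E → ♯E ≤ 4 := fun E a1 a2 => by
    simpa using hrank E (a1.trans hQ) a2.1 ⊤ (haveI := a2.1; inferInstance) fun a _ => Subtype.ext (a2.2 a a.2)
  have h4 : Phi Q ≤ Q := map_subtype_le _
  have h5 : IsElementaryAbelian 2 (Phi Q) := ⟨⟨⟨fun a b => Subtype.ext (h.phi_le_cent b.2 a (h4 a.2))⟩⟩,
    fun a => h.phi_pow⟩
  have h6 : zpowers d ≤ 𝒩 (Phi Q) := h.cent_eq ▸ H1.le_normalizer_inf h.norm (H1.le_normalizer_centralizer h3)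
  have h7 := H1.card_modEq_card_centralizer (IsPGroup.of_card (Nat.card_zpowers d ▸ hd)) h6
  rw [H1.centralizer_zpowers, eq_bot_iff.2 ((inf_le_inf_right _ (h4.trans hQ)).trans hfpf.le), card_bot] at h7
  have h8 : 9 ∣ ♯Q - ♯(Phi Q) := by
    letI : MulAction (zpowers d) ↥((Q : Set X) \ Phi Q) :=
      { smul := fun a k => ⟨a * k * (a : X)⁻¹, (mem_normalizer_iff.1 (h.norm a.2) k.1).1 k.2.1,
          fun e => k.2.2 ((mem_normalizer_iff.1 (h6 a.2) k.1).2 e)⟩
        one_smul := fun k => Subtype.ext (show ((1 : zpowers d) : X) * k * ((1 : zpowers d) : X)⁻¹ = k by simp)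
        mul_smul := fun a b k => Subtype.ext (show ((a * b : zpowers d) : X) * k * ((a * b : zpowers d) : X)⁻¹ =
          a * (b * k * (b : X)⁻¹) * (a : X)⁻¹ by simp [mul_assoc]) }
    have := Nat.card_congr (MulAction.selfEquivOrbitsQuotientProd (G := zpowers d) (X := ↥((Q : Set X) \ Phi Q))
      fun k => eq_bot_iff.2 fun a ha => by_contra fun e => k.2.2 (h.cent_eq.le ⟨k.2.1, centralizer_le
        (SetLike.coe_subset_coe.2 (zpowers_le.2 (pow_mem_zpowers_of_ne Nat.prime_three hd a.2 fun e' => e (Subtype.ext e'))))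
        ((H1.centralizer_zpowers _).ge (mem_centralizer_singleton_iff.2
          (mul_inv_eq_iff_eq_mul.1 (congrArg Subtype.val ha)).symm))⟩))
    rw [Nat.card_prod, Nat.card_zpowers, hd, Nat.card_coe_set_eq, Set.ncard_diff (SetLike.coe_subset_coe.2 h4)] at this
    exact (show _ = _ from this) ▸ Dvd.dvd.mul_left ⟨3 ^ n, by ring⟩ _
  obtain ⟨k, hk⟩ := h.pgrp.exists_card_eq
  obtain ⟨x, a1, a2⟩ := h.exists_not_mem
  have a3 : ♯(Phi Q) < 2 ^ k := hk ▸ lt_of_not_ge fun e => a2 ((eq_of_le_of_card_ge h4 e).ge a1)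
  have a4 := hr _ h4 h5
  rw [hk] at h8
  obtain e | e : ♯(Phi Q) = 1 ∨ ♯(Phi Q) = 4 := by unfold Nat.ModEq at h7; omega
  · have := hr Q le_rfl ⟨⟨⟨fun a b => Subtype.ext (commutator_eq_bot_iff_le_centralizer.1
      (h.phi_eq ▸ card_eq_one.1 e) b.2 a a.2)⟩⟩, fun a ha => (card_eq_one.1 e).le (h.pow_mem ha)⟩
    omega
  have a5 := index_le_sq h.pgrp (Z := (Phi Q).subgroupOf Q) (fun z hz => mem_center_iff.2 fun y => Subtype.ext
    (h.phi_le_cent hz y y.2)) (fun y => h.pow_mem y.2) fun y => ⟨fun hy => mem_subgroupOf.2 <| (eq_of_le_of_card_ge le_sup_right (e ▸ hr _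
      (sup_le (zpowers_le.2 y.2) h4) (elem_sup (isElementaryAbelian_zpowers (congrArg Subtype.val hy)) h5
      ((zpowers_le.2 y.2).trans (le_centralizer_iff.1 h.phi_le_cent))))).ge (mem_sup_left (mem_zpowers y.1)),
      fun hy => Subtype.ext (h.phi_pow hy)⟩
  have a6 := ((Phi Q).subgroupOf Q).index_mul_card
  rw [Nat.card_congr (subgroupOfEquivOfLe h4).toEquiv, e] at a5 a6
  rw [e] at a3 h8
  have a7 : k ≤ 6 := (Nat.pow_le_pow_iff_right one_lt_two).1 (by omega)
  interval_cases k <;> omega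

end Cfsg.Agent.S3738
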