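import Cfsg.Statements.S3739
import Mathlib
import Cfsg.Agent.H8.Sig0
import Cfsg.Agent.S3738
import Cfsg.Agent.BG.Basic

set_option autoImplicit false
open Cfsg

namespace Cfsg.Agent.S3739

open Cfsg.Agent.H8 Cfsg.Agent.BG Subgroup

/-- Let G be a finite group with C_G(O₂(G)) ≤ O₂(G) containing an element of order 6, and let d be a non-identity 3-element of G normalizing a nontrivial elementary abelian 2-subgroup W with C_W(d) = 1. Then G has an elementary abelian subgroup of order 8. -/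
theorem result {G : Type*} [Group G] [Finite G] (hchar : Subgroup.centralizer (Cfsg.pCore 2 G : Set G) ≤ Cfsg.pCore 2 G) (hsix : ∃ g : G, orderOf g = 6) (d : G) (hd1 : d ≠ 1) (hd : IsPGroup 3 ↥(Subgroup.zpowers d)) (W : Subgroup G) (hW : Cfsg.IsElementaryAbelian 2 W) (hW1 : W ≠ ⊥) (hdW : d ∈ Subgroup.normalizer (W : Set G)) (hfpf : W ⊓ Subgroup.centralizer {d} = ⊥) : ∃ E : Subgroup G, Cfsg.IsElementaryAbelian 2 E ∧ Nat.card E = 8 := by
  by_contra h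
  haveI : Fact (Nat.Prime 3) := ⟨Nat.prime_three⟩
  have hr : ∀ E : Subgroup G, IsElementaryAbelian 2 E → ♯E ≤ 4 := fun E hE => by
    by_contra h1
    obtain ⟨k, hk⟩ := (elem_isPGroup hE).exists_card_eq
    obtain ⟨B, a1, a2⟩ := exists_le_card_pow (elem_isPGroup hE) (k := 3) (hk ▸ Nat.pow_le_pow_right two_pos
      ((Nat.pow_lt_pow_iff_right one_lt_two).1 (show 2 ^ 2 < 2 ^ k by omega)))
    exact h ⟨B, elem_of_le hE a1, a2⟩
  have h0 : ∀ {a : G} {U : Subgroup G}, IsPGroup 3 (zpowers a) → W ⊓ 𝒞₁ a = ⊥ → U ≤ W → a ∈ 𝒩 U → U ≠ ⊥ → ♯U = 4 :=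
    fun {a U} a1 a2 a3 a4 a5 => by
      have := H1.card_modEq_card_centralizer a1 (zpowers_le.2 a4)
      rw [H1.centralizer_zpowers, eq_bot_iff.2 ((inf_le_inf_right _ a3).trans a2.le), card_bot] at this
      have := hr U (elem_of_le hW a3)
      have := card_eq_one.not.2 a5
      unfold Nat.ModEq at *; omega
  have h4 := h0 hd hfpf le_rfl hdW hW1
  have h1 : ∀ {a : G} {U : Subgroup G}, IsPGroup 3 (zpowers a) → W ⊓ 𝒞₁ a = ⊥ → U ≤ W → a ∈ 𝒩 U → U ≠ ⊥ → U = W :=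
    fun a1 a2 a3 a4 a5 => eq_of_le_of_card_ge a3 (h4.trans (h0 a1 a2 a3 a4 a5).symm).le
  have h2 : ∀ x, x ^ 2 = 1 → x ∈ 𝒞 W → x ∈ W := fun x a1 a2 => (eq_of_le_of_card_ge le_sup_right (h4 ▸ hr _
    (elem_sup (isElementaryAbelian_zpowers a1) hW (zpowers_le.2 a2)))).ge (mem_sup_left (mem_zpowers x))
  have h3 : ∀ {p : ℕ} [Fact p.Prime] {U : Subgroup G}, IsPGroup p U → U ≠ ⊥ → ∃ x ∈ U, orderOf x = p :=
    fun {p _ U} a1 a2 => H1.exists_mem_orderOf_eq_prime Fact.out (a1.card_eq_or_dvd.resolve_left (card_eq_one.not.2 a2))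
  have hQ := H1.isPGroup_pCore 2 G
  generalize hQ' : pCore 2 G = Q at hQ hchar
  haveI : Q.Normal := hQ' ▸ inferInstance
  have hQ3 : ∀ {a : G}, IsPGroup 3 (zpowers a) → a ∈ 𝒞 Q → a = 1 := fun a1 a2 =>
    (disjoint_iff.1 (IsPGroup.disjoint_of_ne 3 2 (by decide) _ _ a1 hQ)).le ⟨mem_zpowers _, hchar a2⟩
  have h5 : W ≤ 𝒞 Q := by
    have a1 := isPGroup_sup (elem_isPGroup hW) hQ le_normalizer_of_normal
    obtain ⟨z, ⟨a2, a3⟩, a4⟩ := h3 (hQ.to_le inf_le_left) (H1.inf_centralizer_ne_bot_of_isNilpotent a1.isNilpotent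
      le_sup_right le_rfl le_normalizer_of_normal (by rintro rfl; exact hd1 (hQ3 hd (by simp [mem_centralizer_iff]))))
    exact inf_eq_left.1 (h1 hd hfpf inf_le_left (zpowers_le.1 (H1.le_normalizer_inf (zpowers_le.2 hdW)
      le_normalizer_of_normal)) fun e => ne_one_of_orderOf a4
      (e.le ⟨h2 z (a4 ▸ pow_orderOf_eq_one z) (centralizer_le (SetLike.coe_subset_coe.2 le_sup_left) a3),
        centralizer_le (SetLike.coe_subset_coe.2 le_sup_right) a3⟩))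
  have h6 : ∀ x ∈ Q, x ^ 2 = 1 → x ∈ W := fun x a1 a2 => h2 x a2 (le_centralizer_iff.1 h5 a1)
  haveI : W.Normal := ⟨fun w hw g => h6 _ (Normal.conj_mem ‹_› w (hchar (h5 hw)) g) (by rw [conj_pow, hW.2 w hw]; simp)⟩
  have h7 : ∀ a, W ⊓ 𝒞₁ a = ⊥ → Q ⊓ 𝒞₁ a = ⊥ := fun a a1 => by
    by_contra a2
    obtain ⟨z, ⟨a3, a4⟩, a5⟩ := h3 (hQ.to_le inf_le_left) a2
    exact ne_one_of_orderOf a5 (a1.le ⟨h6 z a3 (a5 ▸ pow_orderOf_eq_one z), a4⟩)
  have h8 : ∀ a, IsPGroup 3 (zpowers a) → W ⊓ 𝒞₁ a ≠ ⊥ → a ∈ 𝒞 W := fun a a1 a2 => by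
    have a3 := H1.card_modEq_card_centralizer a1 (le_normalizer_of_normal (H := W))
    rw [H1.centralizer_zpowers, h4] at a3
    have a4 := card_le_of_le (inf_le_left : W ⊓ 𝒞₁ a ≤ W)
    have := card_eq_one.not.2 a2
    exact fun w hw => mem_centralizer_singleton_iff.1 ((eq_of_le_of_card_ge (inf_le_left : W ⊓ 𝒞₁ a ≤ W)
      (by unfold Nat.ModEq at a3; omega)).ge hw).2
  obtain ⟨n, hn⟩ := hd.exists_card_eq
  rw [Nat.card_zpowers] at hn
  have h9 := S3738.result d n (Nat.pos_of_ne_zero (by rintro rfl; exact hd1 (orderOf_eq_one_iff.1 hn))) hn Q hQ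
    (le_normalizer_of_normal (mem_top d)) (eq_bot_iff.2 fun a ha => hQ3 (hd.to_le (zpowers_le.2 ha.1)) ha.2) (h7 d hfpf)
    fun V _ _ => by_contra fun e => by
      obtain ⟨E, -, a1, a2⟩ := not_pRankLE_iff.1 e
      have := hr E a1; omega
  obtain ⟨g, hg⟩ := hsix
  have b1 : orderOf (g ^ 2) = 3 := by rw [orderOf_pow, hg]; rfl
  have b2 : orderOf (g ^ 3) = 2 := by rw [orderOf_pow, hg]; rfl
  have b3 : IsPGroup 3 (zpowers (g ^ 2)) := .of_card (n := 1) (by rw [Nat.card_zpowers, b1, pow_one])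
  have b4 : g ^ 2 ∈ 𝒞₁ (g ^ 3) := mem_centralizer_singleton_iff.2 (pow_mul_comm g 2 3)
  have b5 : g ^ 2 ∈ 𝒞 W := h8 _ b3 fun e => ne_one_of_orderOf b2 (e.le ⟨h2 _ (b2 ▸ pow_orderOf_eq_one _)
    (zpowers_le.1 (le_centralizer_iff.1 (inf_eq_left.1 (h1 b3 e inf_le_left (zpowers_le.1 (H1.le_normalizer_inf
      le_normalizer_of_normal (H1.le_normalizer_centralizer ((zpowers_le.2 ((H1.centralizer_zpowers _).ge b4)).trans
      (centralizer_le_normalizer _))))) (H1.inf_centralizer_ne_bot_of_isPGroup (elem_isPGroup hW)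
      (.of_card (n := 1) (by rw [Nat.card_zpowers, b2, pow_one])) le_normalizer_of_normal hW1))))),
    mem_centralizer_singleton_iff.2 (pow_mul_comm g 3 2)⟩)
  obtain ⟨S, hS⟩ := hd.exists_le_sylow
  obtain ⟨S', hS'⟩ := b3.exists_le_sylow
  obtain ⟨x, rfl⟩ := MulAction.exists_smul_eq G S' S
  obtain ⟨v, ⟨⟨c1, c2⟩, c3⟩, c4⟩ := h3 ((x • S').2.to_le (inf_le_left.trans inf_le_left))
    (H1.inf_centralizer_ne_bot_of_isNilpotent (X := (x • S').1 ⊓ 𝒞 W) (x • S').2.isNilpotent inf_le_left le_rfl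
      (H1.le_normalizer_inf le_normalizer le_normalizer_of_normal) fun e => ne_one_of_orderOf b1
      (conj_eq_one_iff.1 (e.le ⟨smul_mem_pointwise_smul _ (MulAut.conj x) _ (hS' (mem_zpowers _)),
        Normal.conj_mem inferInstance _ b5 x⟩)))
  have c5 : zpowers d ≤ 𝒞 (zpowers v) := le_centralizer_iff.1 (zpowers_le.2 (centralizer_le hS c3))
  have c6 := elem_sup (isElementaryAbelian_zpowers (h9 ▸ pow_orderOf_eq_one d))
    (isElementaryAbelian_zpowers (c4 ▸ pow_orderOf_eq_one v)) c5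
  have c7 : d ∉ 𝒞 W := fun e => hW1 (hfpf ▸ (inf_eq_left.2 fun w hw => mem_centralizer_singleton_iff.2 (e w hw)).symm)
  have c8 : ∀ y ∈ zpowers d, y ∈ 𝒞 W → y = 1 := fun y a1 a2 => by_contra fun e =>
    c7 (zpowers_le.1 (zpowers_eq_of_prime h9 a1 e ▸ zpowers_le.2 a2))
  refine ne_one_of_orderOf c4 (hQ3 ((elem_isPGroup c6).to_le le_sup_right) (zpowers_le.1 (le_centralizer_iff.1
    (le_of_centralizers c6 ?_ le_normalizer_of_normal ?_ fun a a1 a2 => ?_))))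
  · rw [H1.card_sup_of_disjoint (c5.trans (centralizer_le_normalizer _)) (eq_bot_iff.2 fun y hy =>
      c8 y hy.1 (zpowers_le.2 c2 hy.2)), Nat.card_zpowers, Nat.card_zpowers, h9, c4, pow_two]
  · obtain ⟨k, hk⟩ := hQ.exists_card_eq
    exact hk ▸ Nat.Coprime.pow_left _ (by decide)
  · by_cases e : W ⊓ 𝒞₁ a = ⊥
    · exact h7 a e ▸ bot_le
    have a3 := h8 a ((elem_isPGroup c6).to_le (zpowers_le.2 a1)) e
    obtain ⟨y, a4, z, a5, rfl⟩ := (H1.mem_sup_left_norm (c5.trans (centralizer_le_normalizer _))).1 a1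
    obtain rfl := c8 y a4 ((mul_mem_cancel_right (zpowers_le.2 c2 a5)).1 a3)
    rw [one_mul] at a2 ⊢
    rw [centralizer_eq_of_prime c4 a5 a2, H1.centralizer_zpowers]
    exact inf_le_right

end Cfsg.Agent.S3739
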