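import Cfsg.Statements.S3740
import Mathlib
import Cfsg.Agent.H4.Dick9
import Cfsg.Agent.H2.SL23
import Cfsg.Agent.S0274
import Cfsg.Agent.S1496
import Cfsg.Agent.L.Cores

set_option autoImplicit false
open Cfsg

namespace Cfsg.Agent.S3740

open Matrix H4
open scoped MatrixGroups commutatorElement

theorem up_pow {F : Type*} [Field F] (i : ℕ) : (up (1 : F)) ^ i = up (i : F) := by
  induction i with
  | zero => simp [up, sm_one]
  | succ i ih => rw [pow_succ, ih, up, up, sm_mul, up, sm_inj]; simp [add_comm]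

theorem main {F : Type} [Field F] [Fintype F] {p : ℕ} [hp' : Fact p.Prime] [CharP F p] (hp : p ≠ 2)
    (R : Subgroup SL(2, F)) (hR : (Nat.card R).Coprime p)
    (haR : up 1 ∈ Subgroup.normalizer (R : Set SL(2, F)))
    (hnt : ∃ r ∈ R, r * up 1 * r⁻¹ ≠ up 1) : p = 3 ∧ Nat.card R ≤ 8 := by
  classical
  have hcast : ∀ i : ℕ, (i : F) = 0 ↔ p ∣ i := CharP.cast_eq_zero_iff F p
  have h2 : (2 : F) ≠ 0 := fun h =>
    hp ((Nat.prime_dvd_prime_iff_eq hp'.out Nat.prime_two).1 ((hcast 2).1 h))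
  have h4 : (4 : F) ≠ 0 := by
    have : (4 : F) = 2 * 2 := by norm_num
    rw [this]; exact mul_ne_zero h2 h2
  have cen : ∀ c ∈ R, ∀ t : F, t ≠ 0 → c * up t = up t * c → c = 1 ∨ c = -1 := by
    intro c hc t ht h
    rw [← sq_eq_one_iff_SL h2]
    have h1 : tr (c ^ 2) = 2 := by
      obtain ⟨a, b, c, d, hd, rfl⟩ := sm_surj c
      rw [up, sm_mul, sm_mul, sm_inj] at h
      have hc0 : c = 0 := by
        have : t * c = 0 := by linear_combination -h.1
        exact (mul_eq_zero.1 this).resolve_left ht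
      have had : a = d := mul_left_cancel₀ ht (by linear_combination h.2.1)
      subst hc0 had
      rw [sq, sm_mul, tr_sm]; linear_combination 2 * hd
    have h3 : (c ^ 2) ^ p = 1 := by
      by_cases h5 : SpecialLinearGroup.toPGL (c ^ 2) = 1
      · rcases toPGL_eq_one_iff.1 h5 with h6 | h6
        · rw [h6, one_pow]
        · rw [h6, tr_neg, tr_one] at h1
          exact absurd (by linear_combination -h1) h4
      · exact pow_eq_one_of_tr p h5 h1
    exact (pow_eq_one_iff_of_coprime hR).1 ⟨orderOf_dvd_iff_pow_eq_one.1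
      (Subgroup.orderOf_dvd_natCard R (R.pow_mem hc 2)), h3⟩
  have hap : (up (1 : F)) ^ p = 1 := by rw [up_pow, (hcast p).2 dvd_rfl, up, sm_one]
  have cos : ∀ i : ℕ, ¬ p ∣ i → ∀ r ∈ R, tr (r * up 1 ^ i) = 2 ∨ tr (r * up 1 ^ i) = -2 := by
    intro i hi r hr
    obtain ⟨x, -, c, hc, h1, h3⟩ := Cfsg.Agent.S1496.result R (up 1 ^ i) (Subgroup.pow_mem _ haR i)
      (hR.symm.coprime_dvd_left (orderOf_dvd_of_pow_eq_one (by rw [← pow_mul, mul_comm, pow_mul, hap, one_pow])))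
      r hr
    rw [← tr_conj _ x, h3]
    rw [up_pow] at h1 ⊢
    rcases cen c hc i (fun e => hi ((hcast i).1 e)) h1 with rfl | rfl
    · left; rw [one_mul, tr_up]
    · right; rw [neg_one_mul, tr_neg, tr_up]
  have hcj : ∀ (i : ℕ), ∀ r ∈ R, up 1 ^ i * r * (up 1 ^ i)⁻¹ ∈ R := fun i r hr =>
    (Subgroup.mem_normalizer_iff.1 (Subgroup.pow_mem _ haR i) r).1 hr
  have hρ : ∀ r ∈ R, r * up 1 * r⁻¹ * (up 1)⁻¹ ∈ R := fun r hr => by
    have := R.mul_mem hr (hcj 1 _ (R.inv_mem hr))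
    simpa [mul_assoc] using this
  have hi : ∀ i : ℕ, ¬ p ∣ i + 1 → ∀ r ∈ R, (i : F) * (r * up 1 * r⁻¹ : SL(2, F)) 1 0 = 0 ∨
      (i : F) * (r * up 1 * r⁻¹ : SL(2, F)) 1 0 = -4 := by
    intro i hi r hr
    have h1 := cos (i + 1) hi _ (hcj i _ (hρ r hr))
    have e : up 1 ^ i * (r * up 1 * r⁻¹ * (up 1)⁻¹) * (up 1 ^ i)⁻¹ * up 1 ^ (i + 1) =
        up (1 : F) ^ i * (r * up 1 * r⁻¹) := by group
    have h3 : tr (r * up 1 * r⁻¹) = 2 := by rw [tr_conj, tr_up]
    rw [e, up_pow] at h1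
    obtain ⟨a, b, c, d, hd, e'⟩ := sm_surj (r * up 1 * r⁻¹)
    rw [e'] at h1 h3 ⊢
    rw [up, sm_mul, tr_sm] at h1
    rw [tr_sm] at h3
    change (i : F) * c = 0 ∨ (i : F) * c = -4
    rcases h1 with h1 | h1
    · left; linear_combination h1 - h3
    · right; linear_combination h1 - h3
  have h0 : ∀ r ∈ R, (r * up 1 * r⁻¹ : SL(2, F)) 1 0 = 0 → r * up 1 * r⁻¹ = up 1 := by
    intro r hr h
    have h1 := hρ r hr
    have h3 : tr (r * up 1 * r⁻¹) = 2 := by rw [tr_conj, tr_up]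
    obtain ⟨a, b, c, d, hd, e'⟩ := sm_surj (r * up 1 * r⁻¹)
    rw [e'] at h1 h3 h ⊢
    change c = 0 at h
    rw [tr_sm] at h3
    subst h
    have ha : a = 1 := by
      have : (a - 1) ^ 2 = 0 := by linear_combination a * h3 - hd
      exact sub_eq_zero.1 (pow_eq_zero_iff two_ne_zero |>.1 this)
    subst ha
    have hd' : d = 1 := by linear_combination hd
    subst hd'
    rcases cen _ h1 1 one_ne_zero (by
      rw [up, sm_inv]; simp only [sm_mul, sm_inj]; simp [add_comm]) with h5 | h5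
    · exact mul_inv_eq_one.1 h5
    · rw [up, sm_inv, sm_mul, neg_one_sm, sm_inj] at h5
      exact absurd (by linear_combination h5.1) h2
  have hp2 : ¬ p ∣ 1 + 1 := fun h => hp ((Nat.prime_dvd_prime_iff_eq hp'.out Nat.prime_two).1 h)
  have h1 : ∀ r ∈ R, r * up 1 * r⁻¹ = up 1 ∨ (r * up 1 * r⁻¹ : SL(2, F)) 1 0 = -4 := fun r hr => by
    have := hi 1 hp2 r hr
    simp only [Nat.cast_one, one_mul] at this
    exact this.imp_left (h0 r hr)
  obtain ⟨r₀, hr₀, hne⟩ := hnt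
  have hp3 : p = 3 := by
    by_contra h
    have h5 := hi 2 (fun e => h ((Nat.prime_dvd_prime_iff_eq hp'.out Nat.prime_three).1 e)) r₀ hr₀
    rw [(h1 r₀ hr₀).resolve_left hne] at h5
    push_cast at h5
    rcases h5 with h5 | h5
    · exact mul_ne_zero h2 h4 (by linear_combination -h5)
    · exact h4 (by linear_combination -h5)
  refine ⟨hp3, ?_⟩
  have h3 : (3 : F) = 0 := by have := (hcast 3).2 (hp3 ▸ dvd_rfl); exact_mod_cast this
  let β : F → SL(2, F) := fun x => sm (1 + x) (x ^ 2) (-1) (1 - x) (by ring)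
  have hβ : ∀ r ∈ R, r * up 1 * r⁻¹ = up 1 ∨ ∃ x, r * up 1 * r⁻¹ = β x := fun r hr => by
    refine (h1 r hr).imp_right fun h => ?_
    have h3' : tr (r * up 1 * r⁻¹) = 2 := by rw [tr_conj, tr_up]
    obtain ⟨a, b, c, d, hd, e'⟩ := sm_surj (r * up 1 * r⁻¹)
    rw [e'] at h3' h ⊢
    change c = -4 at h
    rw [tr_sm] at h3'
    refine ⟨a - 1, sm_inj.2 ⟨by ring, ?_, by linear_combination h - h3, by linear_combination h3'⟩⟩
    linear_combination hd - a * h3' + b * h - b * h3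
  obtain ⟨x₀, hx₀⟩ := (hβ r₀ hr₀).resolve_left hne
  have hT : ∀ r ∈ R, r * up 1 * r⁻¹ ∈ ({up 1, β x₀, β (x₀ + 2), β (x₀ - 2)} : Finset SL(2, F)) := by
    intro r hr
    rcases hβ r hr with h | ⟨x, hx⟩
    · simp [h]
    have h5 := cos 2 hp2 _ (R.mul_mem (hρ r hr) (hcj 1 _ (hρ r₀ hr₀)))
    have e : r * up 1 * r⁻¹ * (up 1)⁻¹ * (up 1 ^ 1 * (r₀ * up 1 * r₀⁻¹ * (up 1)⁻¹) * (up 1 ^ 1)⁻¹) *
        up 1 ^ 2 = (r * up 1 * r⁻¹) * (r₀ * up (1 : F) * r₀⁻¹) := by group
    rw [e, hx, hx₀, sm_mul, tr_sm] at h5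
    rw [hx]
    have h6 : x = x₀ ∨ x = x₀ + 2 ∨ x = x₀ - 2 := by
      rcases h5 with h5 | h5
      · left
        have : (x - x₀) ^ 2 = 0 := by linear_combination -h5
        exact sub_eq_zero.1 (pow_eq_zero_iff two_ne_zero |>.1 this)
      · right
        have : (x - (x₀ + 2)) * (x - (x₀ - 2)) = 0 := by linear_combination -h5
        simpa only [mul_eq_zero, sub_eq_zero] using this
    rcases h6 with rfl | rfl | rfl <;> simp
  haveI := Fintype.ofFinite SL(2, F)
  have h5 := Finset.card_le_mul_card_image_of_maps_to (s := Finset.univ.filter fun r => r ∈ R)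
    (f := fun r => r * up 1 * r⁻¹) (t := {up 1, β x₀, β (x₀ + 2), β (x₀ - 2)})
    (fun r hr => hT r (by simpa using hr)) 2 (fun b _ => by
      rcases (Finset.filter (fun r => r * up 1 * r⁻¹ = b)
        (Finset.univ.filter fun r => r ∈ R)).eq_empty_or_nonempty with h | ⟨s, hs⟩
      · simp [h]
      refine le_trans (Finset.card_le_card (t := {s, -s}) fun r hr => ?_) Finset.card_le_two
      simp only [Finset.mem_filter, Finset.mem_univ, true_and] at hr hs
      rcases cen _ (R.mul_mem (R.inv_mem hs.1) hr.1) 1 one_ne_zero (by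
        calc s⁻¹ * r * up 1 = s⁻¹ * (r * up 1 * r⁻¹) * r := by group
          _ = _ := by rw [hr.2, ← hs.2]; group) with h | h
      · simp [inv_mul_eq_one.1 h]
      · simp [inv_mul_eq_iff_eq_mul.1 h])
  have h6 : ({up 1, β x₀, β (x₀ + 2), β (x₀ - 2)} : Finset SL(2, F)).card ≤ 4 := Finset.card_le_four
  rw [Nat.card_eq_fintype_card, Fintype.card_subtype]
  omega

/-- Let F be a finite field of odd characteristic p and let a be a p-element of SL₂(F) normalizing a subgroup R of order prime to p with [R, a] ≠ 1. Then p = 3, R is a quaternion group of order 8, and R⟨a⟩ is isomorphic to SL₂(3). -/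
theorem result (F : Type) [Field F] [Fintype F] {p : ℕ} [Fact p.Prime] [CharP F p] (hp : p ≠ 2) (a : Matrix.SpecialLinearGroup (Fin 2) F) (ha : IsPGroup p ↥(Subgroup.zpowers a)) (R : Subgroup (Matrix.SpecialLinearGroup (Fin 2) F)) (hR : (Nat.card R).Coprime p) (haR : a ∈ Subgroup.normalizer (R : Set (Matrix.SpecialLinearGroup (Fin 2) F))) (hnt : ⁅R, Subgroup.zpowers a⁆ ≠ ⊥) : p = 3 ∧ Nonempty (↥R ≃* QuaternionGroup 2) ∧ Nonempty (↥(R ⊔ Subgroup.zpowers a) ≃* Matrix.SpecialLinearGroup (Fin 2) (ZMod 3)) := by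
  classical
  have hp' : p.Prime := Fact.out
  obtain ⟨r₀, hr₀, hne⟩ : ∃ r ∈ R, r * a * r⁻¹ ≠ a := by
    by_contra h
    push Not at h
    apply hnt
    rw [Subgroup.commutator_comm, Subgroup.commutator_eq_bot_iff_le_centralizer, Subgroup.zpowers_le]
    exact Subgroup.mem_centralizer_iff.2 fun r hr => mul_inv_eq_iff_eq_mul.1 (h r hr)
  obtain ⟨x, -, hx⟩ := (cov_SL (F := F) p).le_V ha
  have hap : a ^ p = 1 := (hx (Subgroup.mem_zpowers a)).2
  have ha1 : Matrix.SpecialLinearGroup.toPGL a ≠ 1 := fun h => by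
    rcases toPGL_eq_one_iff.1 h with rfl | rfl <;> simp at hne
  obtain ⟨k, hk⟩ := exists_slc_of_tr (y := up 1) ha1 (by rw [Ne, toPGL_up_eq_one]; simp)
    (by rw [tr_eq_two_of_pow p hap, tr_up])
  have hc : Nat.card (R.map (slc k).toMonoidHom) = Nat.card R :=
    Subgroup.card_map_of_injective (slc k).injective
  obtain ⟨hp3, h8⟩ := main hp (R.map (slc k).toMonoidHom) (hc ▸ hR) (by
    rw [← hk]; exact Subgroup.le_normalizer_map _ ⟨a, haR, rfl⟩) ⟨_, ⟨r₀, hr₀, rfl⟩, fun e => hne (by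
      apply (slc k).injective
      rw [map_mul, map_mul, map_inv, hk]; exact e)⟩
  subst hp3
  rw [hc] at h8
  have hn : Subgroup.zpowers a ≤ Subgroup.normalizer (R : Set SL(2, F)) :=
    (Subgroup.zpowers_le).2 haR
  have hoa : Nat.card (Subgroup.zpowers a) = 3 := by
    rw [Nat.card_zpowers]
    exact orderOf_eq_prime hap (by rintro rfl; simp at hne)
  have hH := L.card_sup_mul_card_inf hn
  rw [Subgroup.inf_eq_bot_of_coprime (by rw [hoa]; exact hR.symm), Subgroup.card_bot, mul_one,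
    sup_comm, hoa] at hH
  have hHn : R ⊔ Subgroup.zpowers a ≤ Subgroup.normalizer (R : Set SL(2, F)) :=
    sup_le Subgroup.le_normalizer hn
  have haH : a ∈ R ⊔ Subgroup.zpowers a := Subgroup.mem_sup_right (Subgroup.mem_zpowers a)
  generalize hHH : R ⊔ Subgroup.zpowers a = H at *
  have hRH : R ≤ H := hHH ▸ le_sup_left
  obtain ⟨K, hK, ⟨e⟩⟩ := Cfsg.Agent.S0274.result 3 hp H (by
    by_contra h
    haveI : Subsingleton (Sylow 3 H) := Finite.card_le_one_iff_subsingleton.1 (by omega)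
    obtain ⟨P, hP⟩ := (ha.comap_subtype (K := H)).exists_le_sylow
    have h1 : (⟨a, haH⟩ : H) ∈ P := hP (Subgroup.mem_zpowers a)
    have h2 := P.mul_mem ((Sylow.normal_of_subsingleton P).conj_mem _ h1 ⟨r₀, hRH hr₀⟩) (P.inv_mem h1)
    obtain ⟨j, hj⟩ := P.isPGroup' ⟨_, h2⟩
    have h3 : (r₀ * a * r₀⁻¹ * a⁻¹) ^ 3 ^ j = 1 := congrArg (fun z => z.1.1) hj
    have h4 : r₀ * a * r₀⁻¹ * a⁻¹ ∈ R := by
      have := R.mul_mem hr₀ ((Subgroup.mem_normalizer_iff.1 haR _).1 (R.inv_mem hr₀))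
      simpa [mul_assoc] using this
    exact hne (mul_inv_eq_one.1 ((pow_eq_one_iff_of_coprime (hR.pow_right j)).1
      ⟨orderOf_dvd_iff_pow_eq_one.1 (Subgroup.orderOf_dvd_natCard R h4), h3⟩)))
  have hK24 : Nat.card K = 24 := (Nat.card_congr e.toEquiv).trans H2.card_SL23
  have hKH : K = H := Subgroup.eq_of_le_of_card_ge hK (by omega)
  subst hKH
  refine ⟨rfl, ?_, ⟨e⟩⟩
  haveI : (R.subgroupOf K).Normal := Subgroup.normal_subgroupOf_of_le_normalizer hHn
  haveI : ((R.subgroupOf K).map e.toMonoidHom).Normal := Subgroup.Normal.map inferInstance _ e.surjective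
  let e2 : R ≃* (R.subgroupOf K).map e.toMonoidHom :=
    (Subgroup.subgroupOfEquivOfLe hRH).symm.trans (Subgroup.equivMapOfInjective _ _ e.injective)
  have h9 := Nat.card_congr e2.toEquiv
  rcases H2.normal_SL23 ((R.subgroupOf K).map e.toMonoidHom) with h | h | h | h
  · rw [h, Subgroup.card_bot] at h9; omega
  · rw [h, Subgroup.card_top, H2.card_SL23] at h9; omega
  · rw [h, H2.card_center_SL23] at h9; omega
  · obtain ⟨e3⟩ := H2.Q23_equiv
    exact ⟨e2.trans ((MulEquiv.subgroupCongr h).trans e3)⟩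

end Cfsg.Agent.S3740
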