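import Cfsg.Statements.S3741
import Cfsg.Agent.H1.PGrp

set_option autoImplicit false
open Cfsg

namespace Cfsg.Agent.S3741

open Cfsg.Agent.H1

/-- Let A and B be subgroups of a finite p-group with [A, B] ≤ A ∩ B and [A, B] of order at most p. Then |A : C_A(B)| = |B : C_B(A)|. -/
theorem result {G : Type*} [Group G] [Finite G] {p : ℕ} [Fact p.Prime] (hG : IsPGroup p G) (A B : Subgroup G) (hAB : ⁅A, B⁆ ≤ A ⊓ B) (hcard : Nat.card ↥⁅A, B⁆ ≤ p) : (A ⊓ Subgroup.centralizer (B : Set G)).relIndex A = (B ⊓ Subgroup.centralizer (A : Set G)).relIndex B := by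
  open Subgroup Pointwise commutatorElement in focus
    rw [inf_relIndex_left, inf_relIndex_left]
    exact relIndex_centralizer_symm (hG.to_subgroup A) (hG.to_subgroup B) hcard

end Cfsg.Agent.S3741
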