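import Cfsg.Statements.S3742
import Cfsg.Agent.GS.Nf2

set_option autoImplicit false
open Cfsg

namespace Cfsg.Agent.S3742

open Cfsg.Agent.H1

/-- The automorphism group of the quaternion group of order 8 is isomorphic to the symmetric group of degree 4. -/
theorem result : Nonempty (MulAut (QuaternionGroup 2) ≃* Equiv.Perm (Fin 4)) := by
  open Subgroup Pointwise commutatorElement Cfsg.Agent.BG Cfsg.Agent.GS in
  open Cfsg.Agent.H2 hiding card_lt_of_lt card_lt_of_ne_top isMulCommutative_of_le isPGroup_zpowers_iff mem_of_pow_mem_of_coprime inf_eq_bot_of_cop exists_maxElem_ge Sec in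
  open Cfsg.Agent.H8 (Op Opp Fit SN) in
  open Cfsg.Agent.L (FPF) in focus
    open QuaternionGroup in
    have key : ∀ N : Subgroup (MulAut (QuaternionGroup 2)), N.Normal → ∀ p, p = 2 ∨ p = 3 → Nat.card N ≠ p := by
      intro N hN p hp h
      haveI : Fact p.Prime := ⟨by rcases hp with rfl | rfl <;> decide⟩
      haveI := isCyclic_of_prime_card h
      have h1 : ∀ ψ : MulAut (QuaternionGroup 2), ψ ^ 2 ∈ centralizer (N : Set (MulAut (QuaternionGroup 2))) := fun ψ => by
        have := index_cent_dvd (N := N)
        rw [IsCyclic.card_mulAut, h] at this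
        obtain ⟨k, hk⟩ : (centralizer (N : Set (MulAut (QuaternionGroup 2)))).index ∣ 2 :=
          this.trans (by rcases hp with rfl | rfl <;> decide)
        have := pow_mem ((centralizer (N : Set (MulAut (QuaternionGroup 2)))).pow_index_mem ψ) k
        rwa [← pow_mul, ← hk] at this
      obtain ⟨ω, w1, w2⟩ := exists_autQ8 (x := a 1 * xa 0) (y := a 1) (by decide)
      obtain ⟨τ, t1, t2⟩ := exists_autQ8 (x := a 1) (y := a 1 * xa 0) (by decide)
      have t3 : τ ^ 2 = MulAut.conj (a 1) := autQ8_ext (by simp only [pow_two, MulAut.mul_apply, t1]; decide)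
        (by simp only [pow_two, MulAut.mul_apply, t1, t2, map_mul]; decide)
      have s1 : (ω ^ 2) (a 1) = xa 0 := by simp only [pow_two, MulAut.mul_apply, w1, w2, map_mul]; decide
      have s2 : (ω ^ 2) (xa 0) = a 1 * xa 0 := by simp only [pow_two, MulAut.mul_apply, w1, w2]
      have : N = ⊥ := eq_bot_iff.2 fun φ hφ => by
        have c1 := fun x => congrArg (fun f : MulAut (QuaternionGroup 2) => f x) (h1 τ φ hφ)
        have c2 := fun x => congrArg (fun f : MulAut (QuaternionGroup 2) => f x) (h1 ω φ hφ)
        have d1 := c1 (a 1)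
        have d2 := c2 (a 1)
        have d3 := c2 (xa 0)
        simp only [MulAut.mul_apply, t3, s1, s2, MulAut.conj_apply, mul_inv_cancel_right, map_mul] at d1 d2 d3
        have d4 : φ (a 1) ^ 2 ≠ 1 := by rw [← map_pow, Ne, map_eq_one_iff _ φ.injective]; decide
        rcases (by decide : ∀ x : QuaternionGroup 2, x = a 1 * x * (a 1)⁻¹ → x ^ 2 ≠ 1 → x = a 1 ∨ x = (a 1)⁻¹) _ d1 d4 with e | e
        · exact autQ8_ext e (by rw [d2, e, s1]; rfl)
        · rw [d2, e, map_inv, s1, map_inv, s2] at d3
          exact absurd d3 (by decide)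
      rw [this, card_bot] at h
      omega
    exact H4.equiv_S4_of card_autQ8 (fun N h => key N h 3 (by simp)) fun N h => key N h 2 (by simp)

end Cfsg.Agent.S3742
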