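import Cfsg.Statements.S3744
import Cfsg.Agent.H1.Coprime

set_option autoImplicit false
open Cfsg

namespace Cfsg.Agent.S3744

open Cfsg.Agent.H1

/-- A finite p-soluble group has a p-complement, all its p-complements are conjugate, and every subgroup of order prime to p lies in one of them. Here a p-complement is a subgroup of order prime to p whose index is a power of p. -/
theorem result {G : Type*} [Group G] [Finite G] {p : ℕ} [Fact p.Prime] (hG : Cfsg.IsPSolvable p G) : (∃ H : Subgroup G, (Nat.card H).Coprime p ∧ ∃ n : ℕ, H.index = p ^ n) ∧ (∀ H₁ H₂ : Subgroup G, (Nat.card H₁).Coprime p → (∃ n : ℕ, H₁.index = p ^ n) → (Nat.card H₂).Coprime p → (∃ n : ℕ, H₂.index = p ^ n) → ∃ g : G, H₂ = H₁.map (MulAut.conj g).toMonoidHom) ∧ (∀ U : Subgroup G, (Nat.card U).Coprime p → ∃ H : Subgroup G, (Nat.card H).Coprime p ∧ (∃ n : ℕ, H.index = p ^ n) ∧ ∃ g : G, U.map (MulAut.conj g).toMonoidHom ≤ H) := by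
  have hp : p.Prime := Fact.out
  have h := isPiSolv_of_isPSolvable hp hG
  refine ⟨h.exists_hall.imp fun H hH => (isPiHall_compl_iff hp).1 hH, fun H₁ H₂ a b c d => ?_,
    fun U hU => ?_⟩
  · obtain ⟨g, hg⟩ := h.exists_conj_eq ((isPiHall_compl_iff hp).2 ⟨c, d⟩)
      ((isPiHall_compl_iff hp).2 ⟨a, b⟩)
    exact ⟨g, hg.symm⟩
  · obtain ⟨H, hH, hle⟩ := h.exists_hall_ge (U := U) ((coprime_iff_forall_prime_ne hp).1 hU)
    have := (isPiHall_compl_iff hp).1 hH
    exact ⟨H, this.1, this.2, 1, (conj_one_smul U).le.trans hle⟩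

end Cfsg.Agent.S3744
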