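import Cfsg.Statements.S3746
import Cfsg.Agent.H1.Misc
import Cfsg.Agent.H8.FStar

set_option autoImplicit false
open Cfsg

namespace Cfsg.Agent.S3746

open Cfsg.Agent.H1

/-- Let Z ≤ Z(G) be a central subgroup of a finite group G and E a subgroup of G containing Z whose image E/Z is a component of G/Z (subnormal and quasisimple). Then the derived subgroup [E, E] is a component of G. -/
theorem result {G : Type*} [Group G] [Finite G] (Z : Subgroup G) (hZ : Z ≤ Subgroup.center G) [Z.Normal] (E : Subgroup G) (hZE : Z ≤ E) (hE : Cfsg.IsComponent (E.map (QuotientGroup.mk' Z))) : Cfsg.IsComponent ⁅E, E⁆ := by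
  open Subgroup Pointwise commutatorElement in focus
    have h1 : E ≤ ⁅E, E⁆ ⊔ Z := by
      rw [← map_mk'_le_map_mk'_iff, map_commutator, H8.qs_perfect hE.2]
    have hZ' : ∀ K : Subgroup G, ⁅Z, K⁆ = ⊥ := fun K => commutator_eq_bot_iff_le_centralizer.2 (hZ.trans (center_le_centralizer _))
    have h2 : ∀ K : Subgroup G, ⁅E, K⁆ ≤ ⁅⁅E, E⁆, K⁆ := fun K => by
      rw [commutator_le]
      intro x hx k hk
      obtain ⟨y, hy, z, hz, rfl⟩ := (mem_sup_left_norm le_normalizer_of_normal).1 (h1 hx)
      have : ⁅y * z, k⁆ = ⁅y, k⁆ := by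
        rw [commutatorElement_def, commutatorElement_def, mul_assoc y z k, ← mem_center_iff.1 (hZ hz) k]; group
      exact this ▸ commutator_mem_commutator hy hk
    have hp : ⁅⁅E, E⁆, ⁅E, E⁆⁆ = ⁅E, E⁆ := le_antisymm (commutator_le_left_of_le_normalizer le_normalizer)
      ((h2 E).trans (by rw [commutator_comm]; exact h2 _))
    have hs : E.IsSubnormal := by
      have := (H8.SN.of_isSubnormal hE.1).comap (QuotientGroup.mk' Z)
      rw [comap_top, comap_map_mk', sup_eq_left.2 hZE] at this
      exact this.isSubnormal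
    refine ⟨((H8.SN.of_isSubnormal hs).trans (H8.SN.of_norm (commutator_le_left_of_le_normalizer le_normalizer)
      (le_normalizer_commutator le_normalizer le_normalizer))).isSubnormal, H8.qs_of_map (QuotientGroup.mk' Z) hp ?_ ?_⟩
    · rw [QuotientGroup.ker_mk']; exact le_bot_iff.1 ((commutator_mono inf_le_left le_rfl).trans (hZ' _).le)
    · rw [map_commutator, H8.qs_perfect hE.2]; exact hE.2

end Cfsg.Agent.S3746
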