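import Cfsg.Statements.S3747
import Cfsg.Agent.H1.Misc
import Cfsg.Agent.H8.FStar

set_option autoImplicit false
open Cfsg

namespace Cfsg.Agent.S3747

open Cfsg.Agent.H1

/-- Let G be a finite group. (a) If K is a component of G with trivial centre, then the normal closure of K in G is a minimal normal subgroup of G. (b) If the Fitting subgroup of G is trivial, then the layer E(G) is generated by the minimal normal subgroups of G. -/
theorem result {G : Type*} [Group G] [Finite G] : (∀ K : Subgroup G, Cfsg.IsComponent K → Subgroup.center ↥K = ⊥ → (Subgroup.normalClosure (K : Set G) ≠ ⊥ ∧ ∀ N : Subgroup G, N.Normal → N ≤ Subgroup.normalClosure (K : Set G) → N = ⊥ ∨ N = Subgroup.normalClosure (K : Set G))) ∧ (Cfsg.fittingSubgroup G = ⊥ → sSup {N : Subgroup G | N ≠ ⊥ ∧ N.Normal ∧ ∀ N' : Subgroup G, N'.Normal → N' ≤ N → N' = ⊥ ∨ N' = N} = Cfsg.layer G) := by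
  open Subgroup Pointwise commutatorElement in focus
    have ha : ∀ K : Subgroup G, Cfsg.IsComponent K → K ⊓ centralizer (K : Set G) = ⊥ → (Subgroup.normalClosure (K : Set G) ≠ ⊥ ∧ ∀ N : Subgroup G, N.Normal → N ≤ Subgroup.normalClosure (K : Set G) → N = ⊥ ∨ N = Subgroup.normalClosure (K : Set G)) := fun K hK hZ => by
      have hK' := H8.comp_top_iff.2 hK
      refine ⟨fun e => hK'.ne_bot (le_bot_iff.1 (e ▸ le_normalClosure)), fun N hN hle => ?_⟩
      rcases hK'.le_or_comm (H8.SN.of_normal N) with h | h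
      · exact Or.inr (le_antisymm hle (normalClosure_le_normal h))
      left
      have e : normalClosure (K : Set G) = sSup {L | ∃ g, L = H8.cj K g} := by
        rw [← H8.ncl_top]
        exact le_antisymm (H8.ncl_le_iff.2 fun x _ => le_sSup ⟨x, rfl⟩) (sSup_le fun L ⟨g, e⟩ => e ▸ H8.cj_le_ncl K (mem_top g))
      have h2 := H8.center_sSup_comp_le (X := ⊤) {L | ∃ g, L = H8.cj K g} fun L ⟨g, e⟩ => e ▸ hK'.cj_of_mem (le_normalizer (mem_top g))
      rw [← e] at h2
      have h3 : N ≤ centralizer (normalClosure (K : Set G) : Set G) :=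
        le_centralizer_iff.1 (normalClosure_le_normal (le_centralizer_iff.1 (commutator_eq_bot_iff_le_centralizer.1 h)))
      refine le_bot_iff.1 ((le_inf hle h3).trans (h2.trans (iSup₂_le fun L ⟨g, e⟩ => ?_)))
      have : L = MulAut.conj g • K := e
      rw [this, centralizer_conj_smul, ← smul_inf, hZ, smul_bot]
    refine ⟨fun K hK hZ => ha K hK (by rw [← map_subtype_center, hZ, Subgroup.map_bot]), fun hF => le_antisymm (sSup_le fun N hN => ?_) ?_⟩
    · have := hN.2.1
      rcases H8.le_Fit_or_exists_comp' (H8.SN.of_normal N) (by rw [H8.Fit_top, hF, commutator_bot_left]) with h | ⟨K, hK, hle⟩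
      · exact absurd (le_bot_iff.1 (hF ▸ H8.Fit_top (G := G) ▸ h)) hN.1
      haveI := H8.layer_normal (G := G)
      rcases hN.2.2 (normalClosure (K : Set G)) inferInstance (normalClosure_le_normal hle) with h | h
      · exact absurd (le_bot_iff.1 (h ▸ le_normalClosure)) hK.ne_bot
      · exact h ▸ normalClosure_le_normal (H8.le_layer (H8.comp_top_iff.1 hK))
    · rw [← H8.Lay_top, H8.Lay_le_iff]
      intro K hK
      have := ha K (H8.comp_top_iff.1 hK) (le_bot_iff.1 ((H8.center_le_Fit_of_sn hK.1).trans (by rw [H8.Fit_top, hF])))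
      exact le_normalClosure.trans (le_sSup ⟨this.1, inferInstance, this.2⟩)

end Cfsg.Agent.S3747
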