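import Cfsg.Statements.S3748
import Cfsg.Agent.H1.Misc
import Cfsg.Agent.H8.FStar

set_option autoImplicit false
open Cfsg

namespace Cfsg.Agent.S3748

open Cfsg.Agent.H1

/-- Call a proper subgroup M of G primitive when M = N_G(N) for every non-trivial normal subgroup N of M. If M is a primitive subgroup of the finite group G, then no non-trivial subnormal subgroup of G is contained in M; in particular M ∩ F(G) = 1. -/
theorem result {G : Type*} [Group G] [Finite G] (M : Subgroup G) (hM : M ≠ ⊤) (hprim : ∀ N : Subgroup G, N ≤ M → M ≤ Subgroup.normalizer (N : Set G) → N ≠ ⊥ → Subgroup.normalizer (N : Set G) = M) : (∀ L : Subgroup G, L.IsSubnormal → L ≤ M → L = ⊥) ∧ M ⊓ Cfsg.fittingSubgroup G = ⊥ := by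
  open Subgroup Pointwise commutatorElement in focus
    have h : ∀ L : Subgroup G, L.IsSubnormal → L ≤ M → L = ⊥ := fun L hL hLM => by
      set S := sSup {L : Subgroup G | H8.SN ⊤ L ∧ L ≤ M}
      have hS : H8.SN ⊤ S := H8.SN.sSup fun A hA => hA.1
      have hSM : S ≤ M := sSup_le fun A hA => hA.2
      have hn : M ≤ normalizer (S : Set G) := fun m hm => mem_normalizer_of_conj_mem (conj_smul_le_iff.1
        (le_sSup ⟨hS.cj_of_mem (le_normalizer (mem_top m)), conj_smul_le_iff.2 fun x hx => mul_mem (mul_mem hm (hSM hx)) (inv_mem hm)⟩))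
      by_contra hb
      have e := hprim S hSM hn fun e => hb (le_bot_iff.1 (e ▸ le_sSup ⟨H8.SN.of_isSubnormal hL, hLM⟩))
      obtain ⟨x, -, h1, h2⟩ := hS.exists_cj_le_normalizer fun h => hM (top_le_iff.1 (e ▸ h))
      exact h1 (conj_smul_eq_self_iff.2 (mem_normalizer_of_conj_mem (conj_smul_le_iff.1
        (le_sSup ⟨hS.cj_of_mem (le_normalizer (mem_top x)), e ▸ h2⟩))))
    exact ⟨h, h _ ((H8.SN.of_normal _).trans (H8.sn_of_nilpotent inferInstance inf_le_right)).isSubnormal inf_le_left⟩

end Cfsg.Agent.S3748
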