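import Cfsg.Statements.S3749
import Cfsg.Agent.H1.Misc

set_option autoImplicit false
open Cfsg

namespace Cfsg.Agent.S3749

open Cfsg.Agent.H1

/-- Call a proper subgroup M of G primitive when M = N_G(N) for every non-trivial normal subgroup N of M. Let M be a primitive subgroup of the finite group G, p a prime with O_p(M) ≠ 1, and N a normal subgroup of G with M ∩ N = 1. Then p does not divide the order of N; for every prime q there is exactly one Sylow q-subgroup of N normalized by M; and if the order of N has at least two prime divisors then M is not a maximal subgroup of G. -/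
theorem result {G : Type*} [Group G] [Finite G] (M : Subgroup G) (hM : M ≠ ⊤) (hprim : ∀ N : Subgroup G, N ≤ M → M ≤ Subgroup.normalizer (N : Set G) → N ≠ ⊥ → Subgroup.normalizer (N : Set G) = M) {p : ℕ} [Fact p.Prime] (hOp : Cfsg.pCore p ↥M ≠ ⊥) (N : Subgroup G) [N.Normal] (hMN : M ⊓ N = ⊥) : ¬ p ∣ Nat.card N ∧ (∀ q : ℕ, [Fact q.Prime] → ∃! Q : Sylow q ↥N, M ≤ Subgroup.normalizer ((Q : Subgroup ↥N).map N.subtype : Set G)) ∧ ((∃ q r : ℕ, q.Prime ∧ r.Prime ∧ q ≠ r ∧ q ∣ Nat.card N ∧ r ∣ Nat.card N) → ¬ IsCoatom M) := by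
  open Subgroup Pointwise commutatorElement in focus
    set P := (pCore p M).map M.subtype
    have hP : IsPGroup p P := isPGroup_map_pCore p M
    have hPb : P ≠ ⊥ := fun e => hOp ((Subgroup.map_eq_bot_iff_of_injective _ M.subtype_injective).1 e)
    have hMP : M ≤ normalizer (P : Set G) := le_normalizer_map_subtype_of_normal M _
    have hC : N ⊓ centralizer (P : Set G) = ⊥ := le_bot_iff.1 (hMN ▸ le_inf (inf_le_right.trans
      ((centralizer_le_normalizer _).trans (hprim P (map_subtype_le _) hMP hPb).le)) inf_le_left)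
    have h1 : ¬ p ∣ Nat.card N := fun hd => by
      have := card_modEq_card_centralizer (K := N) hP le_normalizer_of_normal
      rw [hC, card_bot] at this
      exact (Fact.out : p.Prime).ne_one (Nat.dvd_one.1 ((this.dvd_iff dvd_rfl).1 hd))
    have hcop : (Nat.card P).Coprime (Nat.card N) := coprime_card_of_isPGroup hP ((Nat.Prime.coprime_iff_not_dvd Fact.out).2 h1).symm
    have hs := Or.inl (b := Group.IsSolvable N) (isSolvable_of_isPGroup hP)
    have hu : ∀ (q : ℕ) [Fact q.Prime] (Q R : Subgroup G), IsSylowIn q Q N → IsSylowIn q R N → P ≤ normalizer (Q : Set G) →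
        P ≤ normalizer (R : Set G) → Q = R := fun q _ Q R hQ hR h1 h2 => by
      obtain ⟨c, hc, e⟩ := invariant_isSylowIn_conj le_normalizer_of_normal hcop hs hQ hR h1 h2
      rw [hC, mem_bot] at hc
      rwa [hc, conj_one_smul] at e
    have h2 : ∀ (q : ℕ) [Fact q.Prime], ∃ Q, IsSylowIn q Q N ∧ M ≤ normalizer (Q : Set G) := fun q _ => by
      obtain ⟨Q, hQ, h⟩ := exists_invariant_isSylowIn le_normalizer_of_normal hcop hs q
      refine ⟨Q, hQ, fun m hm => conj_smul_eq_self_iff.1 (hu q _ _ (hQ.conj_smul_of_mem_normalizer (le_normalizer_of_normal (mem_top m))) hQ ?_ h)⟩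
      rw [normalizer_conj_smul]
      exact (conj_smul_eq_self_iff.2 (hMP hm)).ge.trans (conj_smul_mono m h)
    refine ⟨h1, fun q _ => ?_, fun ⟨q, r, hq, hr, hne, d1, d2⟩ hM' => ?_⟩
    · obtain ⟨Q, hQ, h⟩ := h2 q
      obtain ⟨Q, rfl⟩ := hQ.exists_sylow
      exact ⟨Q, h, fun R hR => Sylow.ext (map_injective N.subtype_injective (hu q _ _ (isSylowIn_map_subtype R) hQ
        ((map_subtype_le _).trans hR) ((map_subtype_le _).trans h)))⟩
    · haveI := Fact.mk hq
      obtain ⟨Q, hQ, h⟩ := h2 q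
      have hs : M ⊔ Q = ⊤ := hM'.2 _ (lt_of_le_of_ne le_sup_left fun e => hQ.ne_bot d1 (le_bot_iff.1 (hMN ▸ le_inf (e ▸ le_sup_right) hQ.1)))
      have := sup_inf_assoc_norm' h hQ.1
      rw [hs, top_inf_eq, hMN, bot_sup_eq] at this
      exact hne (isPGroup_iff_forall_prime.1 hQ.2.1 r hr (this ▸ d2)).symm

end Cfsg.Agent.S3749
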