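import Cfsg.Statements.S3750
import Cfsg.Agent.H1.Misc
import Cfsg.Agent.H8.FStar
import Cfsg.Agent.S3748

set_option autoImplicit false
open Cfsg

namespace Cfsg.Agent.S3750

open Cfsg.Agent.H1

/-- Call a proper subgroup M of G primitive when M = N_G(N) for every non-trivial normal subgroup N of M. Let M be a primitive subgroup of the finite group G and N a normal subgroup of G with M ∩ F*(N) ≠ 1. Then F(G) = 1 and F*(N) = F*(G) = E(G); in particular every minimal normal subgroup of G is contained in N. -/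
theorem result {G : Type*} [Group G] [Finite G] (M : Subgroup G) (hM : M ≠ ⊤) (hprim : ∀ N : Subgroup G, N ≤ M → M ≤ Subgroup.normalizer (N : Set G) → N ≠ ⊥ → Subgroup.normalizer (N : Set G) = M) (N : Subgroup G) [N.Normal] (hMF : M ⊓ (Cfsg.generalizedFittingSubgroup ↥N).map N.subtype ≠ ⊥) : Cfsg.fittingSubgroup G = ⊥ ∧ (Cfsg.generalizedFittingSubgroup ↥N).map N.subtype = Cfsg.generalizedFittingSubgroup G ∧ Cfsg.generalizedFittingSubgroup G = Cfsg.layer G ∧ ∀ K : Subgroup G, K.Normal → K ≠ ⊥ → (∀ K' : Subgroup G, K'.Normal → K' ≤ K → K' = ⊥ ∨ K' = K) → K ≤ N := by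
  open Subgroup Pointwise commutatorElement in focus
    have h0 := (S3748.result M hM hprim).1
    haveI : (H8.Fs N).Normal := normal_of_top_le_normalizer (H8.le_normalizer_Fs_of le_normalizer_of_normal)
    have hC : ∀ K : Subgroup G, ⁅K, H8.Fs N⁆ = ⊥ → K = ⊥ := fun K hK => le_bot_iff.1 ((commutator_eq_bot_iff_le_centralizer.1 hK).trans
      (h0 _ (inferInstance : (centralizer (H8.Fs N : Set G)).Normal).isSubnormal (((centralizer_anti inf_le_right).trans
        (centralizer_le_normalizer _)).trans (hprim (M ⊓ H8.Fs N) inf_le_left (le_normalizer_inf le_normalizer le_normalizer_of_normal) hMF).le)).le)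
    have hFN : H8.Fit N = ⊥ := by
      by_contra hb
      refine inf_centralizer_ne_bot_of_isNilpotent (isNilpotent_map_fittingSubgroup N) le_rfl le_rfl le_normalizer hb (hC _ ?_)
      rw [commutator_eq_bot_iff_le_centralizer, H8.Fs_eq, centralizer_sup]
      exact le_inf (inf_le_left.trans (commutator_eq_bot_iff_le_centralizer.1 (H8.commutator_Fit_Lay N))) inf_le_right
    have e1 : H8.Fs N = H8.Lay N := by rw [H8.Fs_eq, hFN, sup_bot_eq]
    have hL : H8.Lay N ≤ H8.Lay ⊤ := H8.Lay_le_Lay_of_sn (H8.SN.of_normal N)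
    have hF : fittingSubgroup G = ⊥ := hC _ (le_bot_iff.1 ((commutator_mono H8.Fit_top.ge (e1.le.trans hL)).trans (H8.commutator_Fit_Lay ⊤).le))
    have e2 : generalizedFittingSubgroup G = layer G := by rw [← H8.Fs_top, H8.Fs_eq, H8.Fit_top, hF, sup_bot_eq, H8.Lay_top]
    refine ⟨hF, ?_, e2, fun K hK hb hmin => ?_⟩
    · rw [e2, ← H8.Lay_top]
      refine e1.trans (le_antisymm hL (H8.Lay_le_iff.2 fun K hK => ?_))
      rcases hK.le_or_comm (H8.SN.of_normal N) with h | h
      · exact (hK.of_le h le_top).le_Lay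
      · exact absurd (hC K (le_bot_iff.1 ((commutator_mono le_rfl (H8.Fs_le N)).trans (commutator_comm K N ▸ h).le))) hK.ne_bot
    · rcases hmin (K ⊓ N) inferInstance inf_le_left with h | h
      · exact absurd (hC K (le_bot_iff.1 ((commutator_mono le_rfl (H8.Fs_le N)).trans ((commutator_le_inf K N).trans h.le)))) hb
      · exact inf_eq_left.1 h

end Cfsg.Agent.S3750
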