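import Cfsg.Statements.S3751
import Cfsg.Agent.H8.Bender

set_option autoImplicit false
open Cfsg

namespace Cfsg.Agent.S3751

open Subgroup Cfsg.Agent.H1 Cfsg.Agent.BG Cfsg.Agent.SF
open Cfsg.Agent.H2 hiding card_lt_of_lt card_lt_of_ne_top isMulCommutative_of_le isPGroup_zpowers_iff mem_of_pow_mem_of_coprime
open Cfsg.Agent.H8 (Op Opp Fit Fs Lay PLay SN Comp PComp Op_le Opp_le Opp_coprime Op_isPGroup le_normalizer_Op le_normalizer_Opp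
  le_normalizer_Opp_of le_normalizer_Op_of le_Op le_Opp inf_Opp_le le_of_centralizers)

section
variable {G : Type*} [Group G] [Finite G] {p : ℕ} [Fact p.Prime] {M N T A : Subgroup G}

def PL (p : ℕ) (M : Subgroup G) : Prop := ∃ T : Subgroup G, IsPGroup p T ∧ T ≠ ⊥ ∧ M = 𝒩 T
def MPL (p : ℕ) (M : Subgroup G) : Prop := PL p M ∧ ∀ L, PL p L → M ≤ L → L = M

theorem PL.op (h : PL p M) : Op p M ≠ ⊥ := by
  obtain ⟨T, h1, h2, rfl⟩ := h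
  exact ne_bot_mono h2 (le_Op le_normalizer le_rfl h1)

omit [Finite G] [Fact p.Prime] in
theorem MPL.norm (h : MPL p M) (hT : IsPGroup p T) (h1 : T ≠ ⊥) (h2 : M ≤ 𝒩 T) : 𝒩 T = M :=
  h.2 _ ⟨T, hT, h1, rfl⟩ h2

theorem MPL.self (h : MPL p M) : 𝒩 M ≤ M :=
  (H8.normalizer_le_Op p M).trans (h.norm (Op_isPGroup p M) h.1.op (le_normalizer_Op p M)).le

omit [Finite G] [Fact p.Prime] in
theorem PL.cj (h : PL p M) (g : G) : PL p (g ⋆ M) := by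
  obtain ⟨T, h1, h2, rfl⟩ := h
  exact ⟨g ⋆ T, isPGroup_cj g h1, cj_ne_bot h2 g, cj_normalizer g T⟩

omit [Finite G] [Fact p.Prime] in
theorem MPL.cj (h : MPL p M) (g : G) : MPL p (g ⋆ M) :=
  ⟨h.1.cj g, fun L hL h1 => by rw [← h.2 _ (hL.cj g⁻¹) (cj_le_iff.1 h1), cj_cj_inv]⟩

omit [Fact p.Prime] in
theorem ex_MPL (h : PL p M) : ∃ L, MPL p L ∧ M ≤ L := by
  obtain ⟨L, h1, h2⟩ := Finite.exists_le_maximal (p := PL p) h
  exact ⟨L, ⟨h2.1, fun K hK h3 => le_antisymm (h2.2 hK h3) h3⟩, h1⟩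

theorem PL.char (hloc : IsOfLocalCharacteristic p G) (h : PL p M) : Fs M = Op p M := by
  obtain ⟨T, h1, h2, rfl⟩ := h
  exact H8.Fs_eq_Op_iff.2 ((H8.char_iff_map _).1 (hloc.2 T h1 h2))

theorem MPL.le (hloc : IsOfLocalCharacteristic p G) (h : MPL p M) (h1 : A ≠ ⊥) (h2 : A ≤ M) (h3 : M ≤ 𝒩 A) :
    𝒩 A = M := by
  have h4 := H8.Fs_eq_Op_of_sn (h.1.char hloc) (SN.of_norm h2 h3)
  exact le_antisymm ((H8.normalizer_le_Op p A).trans (h.norm (Op_isPGroup p A)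
    (fun e => h1 (H8.Fs_eq_bot_iff.1 (h4.trans e))) (le_normalizer_Op_of p h3)).le) h3

theorem ex_pair (hM : MPL p M) (hN : MPL p N) (hne : M ≠ N) (hd : p ∣ ♯↥(M ⊓ N)) :
    ∃ M N T : Subgroup G, MPL p M ∧ MPL p N ∧ M ≠ N ∧ SylIn p T M ∧ SylIn p T N := by
  obtain ⟨T₀, h0⟩ := exists_sylIn p (M ⊓ N)
  obtain ⟨T, -, ⟨hT, h1, M, N, hM, hN, hne, hle⟩, hmax⟩ := Finite.exists_le_maximal
    (p := fun T : Subgroup G => IsPGroup p T ∧ T ≠ ⊥ ∧ ∃ M N, MPL p M ∧ MPL p N ∧ M ≠ N ∧ T ≤ M ⊓ N)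
    ⟨h0.pgrp, h0.ne_bot hd, M, N, hM, hN, hne, h0.le⟩
  obtain ⟨H, hH, h2⟩ := ex_MPL (p := p) (M := 𝒩 T) ⟨T, hT, h1, rfl⟩
  have key : ∀ M, MPL p M → T ≤ M → M ≠ H → SylIn p T M := fun M hM h3 h4 =>
    sylIn_of_sylIn_normalizer ⟨le_inf h3 le_normalizer, hT, fun Q h5 h6 h7 => le_antisymm
      (hmax ⟨h6, ne_bot_mono h1 h7, M, H, hM, hH, h4, h5.trans (inf_le_inf_left _ h2)⟩ h7) h7⟩
  have key2 : ∀ M N, MPL p M → MPL p N → M ≠ N → T ≤ M ⊓ N → SylIn p T N →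
      ∃ M N T : Subgroup G, MPL p M ∧ MPL p N ∧ M ≠ N ∧ SylIn p T M ∧ SylIn p T N := fun M N hM hN h3 h4 h5 => by
    by_cases h6 : SylIn p T M
    · exact ⟨M, N, T, hM, hN, h3, h6, h5⟩
    obtain ⟨P, hP, h7⟩ := exists_sylIn_ge hT (h4.trans inf_le_left)
    obtain ⟨x, hx, h8, h9⟩ := exists_mem_normalizer_not_mem hP.pgrp (lt_of_le_of_ne h7 fun e => h6 (e ▸ hP))
    refine ⟨x ⋆ N, N, T, hN.cj x, hN, fun e => h9 ?_, (cj_eq_of_mem_normalizer h8) ▸ h5.cj x, h5⟩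
    obtain ⟨k, hk⟩ := isPGroup_iff_forall.1 hP.pgrp x hx
    exact h5.mem_of_mem_normalizer (hN.self (mem_normalizer_iff_cj.2 e)) hk h8
  by_cases h3 : N = H
  · exact key2 N M hN hM hne.symm (inf_comm M N ▸ hle) (key M hM (hle.trans inf_le_left) (h3 ▸ hne))
  · exact key2 M N hM hN hne hle (key N hN (hle.trans inf_le_right) h3)
end

/-- Two distinct subgroups M₁, M₂ of G form a primitive pair when, for {i, j} = {1, 2}, every non-trivial normal subgroup A of M_i contained in M₁ ∩ M₂ satisfies N_{M_j}(A) = M₁ ∩ M₂; the pair has characteristic p when moreover C_{M_i}(O_p(M_i)) ≤ O_p(M_i) for both i and O_p(M₁)O_p(M₂) ≤ M₁ ∩ M₂. Let G be a finite group, p a prime dividing its order, with O_p(G) = 1 and every p-local subgroup of characteristic p. Then either G has a primitive pair of characteristic p, or every maximal p-local subgroup M of G is strongly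 p-embedded in G: M is a proper subgroup, p divides its order, and for every g ∉ M the order of M ∩ gMg⁻¹ is prime to p. -/
theorem result {G : Type*} [Group G] [Finite G] {p : ℕ} [Fact p.Prime] (hloc : Cfsg.IsOfLocalCharacteristic p G) (hOp : Cfsg.pCore p G = ⊥) : (∃ M₁ M₂ : Subgroup G, M₁ ≠ M₂ ∧ (∀ A : Subgroup G, A ≠ ⊥ → A ≤ M₁ ⊓ M₂ → (M₁ ≤ Subgroup.normalizer (A : Set G) → M₂ ⊓ Subgroup.normalizer (A : Set G) = M₁ ⊓ M₂) ∧ (M₂ ≤ Subgroup.normalizer (A : Set G) → M₁ ⊓ Subgroup.normalizer (A : Set G) = M₁ ⊓ M₂)) ∧ Subgroup.centralizer (Cfsg.pCore p ↥M₁ : Set ↥M₁) ≤ Cfsg.pCore p ↥M₁ ∧ Subgroup.centralizer (Cfsg.pCore p ↥M₂ : Set ↥M₂) ≤ Cfsg.pCore p ↥M₂ ∧ (Cfsg.pCore p ↥M₁).map M₁.subtype ⊔ (Cfsg.pCore p ↥M₂).map M₂.subtype ≤ M₁ ⊓ M₂) ∨ (∀ M : Subgroup G, (∃ T : Subgroup G, IsPGroup p T ∧ T ≠ ⊥ ∧ M = Subgroup.normalizer (T : Set G)) → (∀ L : Subgroup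 G, (∃ T : Subgroup G, IsPGroup p T ∧ T ≠ ⊥ ∧ L = Subgroup.normalizer (T : Set G)) → M ≤ L → L = M) → M ≠ ⊤ ∧ p ∣ Nat.card M ∧ ∀ g : G, g ∉ M → ¬ p ∣ Nat.card ↥(M ⊓ M.map (MulAut.conj g).toMonoidHom)) := by
  refine or_iff_not_imp_left.2 fun h M h1 h2 => ?_
  have hM : MPL p M := ⟨h1, h2⟩
  refine ⟨fun e => hM.1.op (by rw [e, H8.Op_top, hOp]),
    BL.dvd_card_of_pgroup (Op_isPGroup p M) hM.1.op (Op_le p M), fun g hg hd => h ?_⟩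
  obtain ⟨M, N, T, hM, hN, hne, h3, h4⟩ := ex_pair hM (hM.cj g)
    (fun e => hg (hM.self (mem_normalizer_iff_cj.2 e.symm))) hd
  exact ⟨M, N, hne, fun A h5 h6 => ⟨fun h7 => by rw [hM.le hloc h5 (h6.trans inf_le_left) h7, inf_comm],
    fun h7 => by rw [hN.le hloc h5 (h6.trans inf_le_right) h7]⟩,
    (H8.char_iff_map _).2 (H8.Fs_eq_Op_iff.1 (hM.1.char hloc)),
    (H8.char_iff_map _).2 (H8.Fs_eq_Op_iff.1 (hN.1.char hloc)),
    (sup_le (Op_le_sylIn h3) (Op_le_sylIn h4)).trans (le_inf h3.le h4.le)⟩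

end Cfsg.Agent.S3751
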