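import Cfsg.Statements.S3760
import Cfsg.Agent.H1.Misc

set_option autoImplicit false
open Cfsg

namespace Cfsg.Agent.S3760

open Cfsg.Agent.H1

/-- Let the group G act transitively on a set X, let x ∈ X with stabilizer H = G_x, and let K ≤ H. Then N_G(K) acts transitively on the set of fixed points of K if and only if every G-conjugate of K contained in H is already an H-conjugate of K. -/
theorem result {G : Type*} [Group G] {X : Type*} [MulAction G X] (htrans : ∀ a b : X, ∃ g : G, g • a = b) (x : X) (K : Subgroup G) (hK : K ≤ MulAction.stabilizer G x) : (∀ a b : X, (∀ k ∈ K, k • a = a) → (∀ k ∈ K, k • b = b) → ∃ g ∈ Subgroup.normalizer (K : Set G), g • a = b) ↔ ∀ g : G, K.map (MulAut.conj g).toMonoidHom ≤ MulAction.stabilizer G x → ∃ h ∈ MulAction.stabilizer G x, K.map (MulAut.conj g).toMonoidHom = K.map (MulAut.conj h).toMonoidHom := by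
  open Subgroup Pointwise commutatorElement in focus
    constructor
    · intro h g hg
      obtain ⟨n, hn, e⟩ := h (g⁻¹ • x) x (fun k hk => by
        have : (g * k * g⁻¹) • x = x := hg ⟨k, hk, rfl⟩
        conv_rhs => rw [← this]
        rw [← mul_smul, ← mul_smul]; congr 1; group) fun k hk => hK hk
      refine ⟨g * n⁻¹, ?_, ?_⟩
      · rw [← inv_mem_iff, mul_inv_rev, inv_inv, MulAction.mem_stabilizer_iff, mul_smul, e]
      · rw [← conj_smul_eq_map, ← conj_smul_eq_map, ← conj_smul_conj_smul, conj_smul_eq_self_iff.2 (inv_mem hn)]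
    · intro h
      have k : ∀ a : X, (∀ k ∈ K, k • a = a) → ∃ g ∈ normalizer (K : Set G), g • a = x := fun a ha => by
        obtain ⟨g, hg⟩ := htrans a x
        obtain ⟨y, hy, e⟩ := h g (by
          rintro _ ⟨k, hk, rfl⟩
          show (g * k * g⁻¹) • x = x
          rw [← hg, mul_smul, mul_smul, inv_smul_smul, ha k hk])
        refine ⟨y⁻¹ * g, ?_, ?_⟩
        · rw [← conj_smul_eq_self_iff, ← conj_smul_conj_smul, conj_smul_eq_map g, e, ← conj_smul_eq_map, conj_inv_smul_conj_smul]
        · rw [mul_smul, hg]; exact inv_mem hy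
      intro a b ha hb
      obtain ⟨g, hg, e⟩ := k a ha
      obtain ⟨g', hg', e'⟩ := k b hb
      exact ⟨g'⁻¹ * g, mul_mem (inv_mem hg') hg, by rw [mul_smul, e, ← e', inv_smul_smul]⟩

end Cfsg.Agent.S3760
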