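import Cfsg.Statements.S3764
import Mathlib
import Cfsg.Agent.H2.Rep34n
import Cfsg.Agent.H1.Cores
import Cfsg.Agent.H8.Frat

set_option autoImplicit false
open Cfsg

namespace Cfsg.Agent.S3764

open Cfsg.Agent.H2 Cfsg.Agent.BG Subgroup

/-- Let p, q, r be distinct primes and let X, Q, V be subgroups of a finite group with X of order r, Q an extraspecial q-group normalized by X with C_Q(X) = Z(Q), and V an elementary abelian p-group normalized by X and Q on which XQ acts faithfully ((X ⊔ Q) ∩ C(V) = 1). If C_V(X) = 1, then q = 2, r = 2^n + 1 for some n, and Q has order 2^(2n+1). -/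
theorem result {G : Type*} [Group G] [Finite G] {p q r : ℕ} (hp : p.Prime) (hq : q.Prime) (hr : r.Prime) (hpq : p ≠ q) (hpr : p ≠ r) (hqr : q ≠ r) (X Q V : Subgroup G) (hX : Nat.card X = r) (hQ : Cfsg.IsExtraspecial q ↥Q) (hXQ : X ≤ Subgroup.normalizer (Q : Set G)) (hCQ : Q ⊓ Subgroup.centralizer (X : Set G) = (Subgroup.center ↥Q).map Q.subtype) (hV : Cfsg.IsElementaryAbelian p V) (hXV : X ≤ Subgroup.normalizer (V : Set G)) (hQV : Q ≤ Subgroup.normalizer (V : Set G)) (hfaith : (X ⊔ Q) ⊓ Subgroup.centralizer (V : Set G) = ⊥) (hCV : V ⊓ Subgroup.centralizer (X : Set G) = ⊥) : q = 2 ∧ ∃ n : ℕ, r = 2 ^ n + 1 ∧ Nat.card Q = 2 ^ (2 * n + 1) := by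
  have := Fact.mk hp
  have := Fact.mk hq
  have := Fact.mk hr
  obtain ⟨h1, h2, h3, h4⟩ := isExtraspecial_iff.1 hQ
  rw [center_map_eq_Zc] at hCQ
  have hp' := L.IsElementaryAbelian.isPGroup hV
  have hr' : IsPGroup r X := IsPGroup.of_card (n := 1) (by rw [hX, pow_one])
  have h5 := H1.commutator_sup_centralizer hXQ (coprime_pgroups hr' h1 hqr.symm) (Or.inr (H1.isSolvable_of_isPGroup h1))
  have h6 : ⁅Q, X⁆ = Q := H8.eq_of_sup_Phi (H8.commutator_le_left_of_norm hXQ) (hCQ.trans h2.symm).le h5.ge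
  have hQ1 : Q ≠ ⊥ := fun e => hq.one_lt.ne' (by rw [← h4, e, Zc, bot_inf_eq, card_bot])
  obtain ⟨rfl, n, h7, h8, -, h9⟩ := (num34 hXQ (hX ▸ hr) h6 (le_centralizer_iff.1 (sup_le
    (le_centralizer_iff.1 (h3.le.trans inf_le_right)) (le_centralizer_iff.1 ((h3.trans hCQ.symm).le.trans inf_le_right))))
    (H1.isSolvable_of_isPGroup hp') hQV hXV
    (sup_comm X Q ▸ H1.coprime_sup hXQ (coprime_pgroups hr' hp' hpr.symm) (coprime_pgroups h1 hp' hpq.symm)) hCV
    fun e => hQ1 (eq_bot_iff.2 ((le_inf le_sup_right e).trans hfaith.le))).two h1 (hX ▸ hr)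
  rw [h3, h4] at h8 h9
  exact ⟨rfl, n, hX ▸ h7, by rw [pow_succ]; exact le_antisymm (h4 ▸ h9 hq) (Nat.le_of_dvd Nat.card_pos h8)⟩

end Cfsg.Agent.S3764
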