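import Cfsg.Statements.S3765
import Mathlib
import Cfsg.Agent.H2.Rep34n
import Cfsg.Agent.H1.Cores
import Cfsg.Agent.H8.Frat

set_option autoImplicit false
open Cfsg

namespace Cfsg.Agent.S3765

open Cfsg.Agent.H2 Cfsg.Agent.BG Subgroup

/-- Let p, q, r be distinct primes and let X, Q, V be subgroups of a finite group with X of order r normalizing the q-group Q and acting faithfully on it (X ∩ C(Q) = 1), and V a nontrivial elementary abelian p-group normalized by X and Q on which XQ acts faithfully. If q = 2 and r has the form 2^n + 1, assume in addition that Q is abelian. Then C_V(X) ≠ 1. -/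
theorem result {G : Type*} [Group G] [Finite G] {p q r : ℕ} (hp : p.Prime) (hq : q.Prime) (hr : r.Prime) (hpq : p ≠ q) (hpr : p ≠ r) (hqr : q ≠ r) (X Q V : Subgroup G) (hX : Nat.card X = r) (hQ : IsPGroup q Q) (hXQ : X ≤ Subgroup.normalizer (Q : Set G)) (hXfaith : X ⊓ Subgroup.centralizer (Q : Set G) = ⊥) (hV : Cfsg.IsElementaryAbelian p V) (hV1 : V ≠ ⊥) (hXV : X ≤ Subgroup.normalizer (V : Set G)) (hQV : Q ≤ Subgroup.normalizer (V : Set G)) (hfaith : (X ⊔ Q) ⊓ Subgroup.centralizer (V : Set G) = ⊥) (hexc : q = 2 → (∃ n : ℕ, r = 2 ^ n + 1) → IsMulCommutative Q) : V ⊓ Subgroup.centralizer (X : Set G) ≠ ⊥ := by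
  intro hCV
  have := Fact.mk hp
  have := Fact.mk hq
  have := Fact.mk hr
  have hp' := L.IsElementaryAbelian.isPGroup hV
  have hr' : IsPGroup r X := IsPGroup.of_card (n := 1) (by rw [hX, pow_one])
  have key : ∀ K ≤ Q, X ≤ 𝒩 K → ⁅K, X⁆ = ⊥ := by
    intro K
    induction K using WellFoundedLT.induction with
    | _ K ih =>
    intro hK hn
    have hq' := hQ.to_le hK
    have hs := H1.isSolvable_of_isPGroup hq'
    by_cases hb : K = ⊥
    · rw [hb, commutator_bot_left]
    by_cases hKR : ⁅K, X⁆ = K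
    · have h0 := H1.commutator_lt_self hs hb
      have h1 := ih _ h0 (h0.le.trans hK) (H1.le_normalizer_commutator hn hn)
      have h2 : X ≤ 𝒞 ⁅K, K⁆ := le_centralizer_iff.1 (commutator_eq_bot_iff_le_centralizer.1 h1)
      have h3 : K ≤ 𝒞 ⁅K, K⁆ := by
        conv_lhs => rw [← hKR]
        exact comm_le_right_of_le h2 ((le_norm_der K).trans (H1.normalizer_le_normalizer_centralizer _))
      obtain ⟨h4, n, h5, -, h6, -⟩ := (num34 hn (hX ▸ hr) hKR (le_centralizer_iff.1 (sup_le h3 h2))
        (H1.isSolvable_of_isPGroup hp') (hK.trans hQV) hXV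
        (sup_comm X K ▸ H1.coprime_sup hn (coprime_pgroups hr' hp' hpr.symm) (coprime_pgroups hq' hp' hpq.symm)) hCV
        fun e => hb (eq_bot_iff.2 ((le_inf (hK.trans le_sup_right) e).trans hfaith.le))).two hq' (hX ▸ hr)
      have := hexc h4 ⟨n, hX ▸ h5⟩
      exact absurd (eq_bot_iff.2 ((Subgroup.commutator_mono hK hK).trans
        (commutator_eq_bot_iff_le_centralizer.2 (le_centralizer Q)).le)) h6
    · have h0 := H8.commutator_le_left_of_norm hn
      rw [← H1.commutator_commutator_eq hn (coprime_pgroups hr' hq' hqr.symm) (Or.inr hs)]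
      exact ih _ (lt_of_le_of_ne h0 hKR) (h0.trans hK) (H1.le_normalizer_commutator hn Subgroup.le_normalizer)
  rw [inf_eq_left.2 (le_centralizer_iff.1 (commutator_eq_bot_iff_le_centralizer.1 (key Q le_rfl hXQ)))] at hXfaith
  exact hr.one_lt.ne' (by rw [← hX, hXfaith, card_bot])

end Cfsg.Agent.S3765
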