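import Cfsg.Statements.S3766
import Cfsg.Agent.H1.Misc

set_option autoImplicit false
open Cfsg

namespace Cfsg.Agent.S3766

open Cfsg.Agent.H1

/-- Let G be a finite solvable group and N a normal subgroup of G. Call a pair V < U of normal subgroups of G a chief factor of G when no normal subgroup of G lies strictly between them; an element g centralizes the chief factor U/V when u g u⁻¹ g⁻¹ ∈ V for all u ∈ U. Then an element of G lies in the Fitting subgroup F(N) if and only if it lies in N and centralizes every chief factor of G; and also if and only if it lies in N and centralizes every chief factor U/V of G with U ≤ F(N). -/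
theorem result {G : Type*} [Group G] [Finite G] (hG : Group.IsSolvable G) (N : Subgroup G) [N.Normal] (g : G) : (g ∈ (Cfsg.fittingSubgroup ↥N).map N.subtype ↔ g ∈ N ∧ ∀ U V : Subgroup G, (U.Normal ∧ V.Normal ∧ V < U ∧ ∀ W : Subgroup G, W.Normal → V ≤ W → W ≤ U → W = V ∨ W = U) → ∀ u ∈ U, u * g * u⁻¹ * g⁻¹ ∈ V) ∧ (g ∈ (Cfsg.fittingSubgroup ↥N).map N.subtype ↔ g ∈ N ∧ ∀ U V : Subgroup G, (U.Normal ∧ V.Normal ∧ V < U ∧ ∀ W : Subgroup G, W.Normal → V ≤ W → W ≤ U → W = V ∨ W = U) → U ≤ (Cfsg.fittingSubgroup ↥N).map N.subtype → ∀ u ∈ U, u * g * u⁻¹ * g⁻¹ ∈ V) := by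
  open Subgroup Pointwise commutatorElement in focus
    haveI : ((fittingSubgroup N).map N.subtype).Normal := normal_map_subtype_of_char N _
    set F := (fittingSubgroup N).map N.subtype
    have hF : Group.IsNilpotent F := isNilpotent_map_fittingSubgroup N
    have h1 : g ∈ F → g ∈ N ∧ ∀ U V : Subgroup G, (U.Normal ∧ V.Normal ∧ V < U ∧ ∀ W : Subgroup G, W.Normal → V ≤ W → W ≤ U → W = V ∨ W = U) → ∀ u ∈ U, u * g * u⁻¹ * g⁻¹ ∈ V :=
      fun hg => ⟨map_subtype_le _ hg, fun U V ⟨_, _, h, hc⟩ u hu => commutator_le_of_chief hF h.le hc (commutator_mem_commutator hu hg)⟩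
    suffices h2 : (g ∈ N ∧ ∀ U V : Subgroup G, (U.Normal ∧ V.Normal ∧ V < U ∧ ∀ W : Subgroup G, W.Normal → V ≤ W → W ≤ U → W = V ∨ W = U) → U ≤ F → ∀ u ∈ U, u * g * u⁻¹ * g⁻¹ ∈ V) → g ∈ F from
      ⟨⟨h1, fun h => h2 ⟨h.1, fun U V hc _ => h.2 U V hc⟩⟩, ⟨fun h => ⟨(h1 h).1, fun U V hc _ => (h1 h).2 U V hc⟩, h2⟩⟩
    rintro ⟨hgN, hg⟩
    set D := normalClosure ({g} : Set G) ⊔ F
    have hDN : D ≤ N := sup_le (normalClosure_le_normal (by simpa using hgN)) (map_subtype_le _)
    have hD : ∀ U V : Subgroup G, U.Normal → V.Normal → V < U → (∀ W : Subgroup G, W.Normal → V ≤ W → W ≤ U → W = V ∨ W = U) → U ≤ F →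
        ⁅U, D⁆ ≤ V := fun U V hU hV h hc hle => by
      refine commutator_sup_right_le ?_ (commutator_le_of_chief hF h.le hc) le_normalizer_of_normal le_normalizer_of_normal
      haveI := hU.map _ (QuotientGroup.mk'_surjective V)
      rw [commutator_comm, commutator_le_iff_map_mk', map_le_iff_le_comap]
      refine normalClosure_le_normal ?_
      rintro _ rfl _ ⟨u, hu, rfl⟩
      exact commutatorElement_eq_one_iff_mul_comm.1 ((QuotientGroup.eq_one_iff _).2 (hg U V ⟨hU, hV, h, hc⟩ hle u hu))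
    by_contra hgF
    obtain ⟨K, hK, hFK, hKD, hc⟩ := exists_minimal_normal_gt (A := F) (B := D) (right_lt_sup.2 fun h => hgF (h (subset_normalClosure rfl)))
    obtain ⟨q, hq, hel⟩ := elementary_of_chief hFK inferInstance hc
    haveI := Fact.mk hq
    obtain ⟨Q, hQ⟩ := exists_isSylowIn q K
    obtain ⟨H, hH⟩ := exists_hallOf {q}ᶜ (K := F) inferInstance
    haveI : H.Normal := normal_of_top_le_normalizer (le_normalizer_of_normal.trans (le_normalizer_of_hallOf_of_isNilpotent hH hF))
    have hcop : (Nat.card Q).Coprime (Nat.card H) := coprime_card_of_isPGroup hQ.2.1 ((coprime_iff_forall_prime_ne hq).2 hH.2.1)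
    have hQH : ∀ W : Subgroup G, W.Normal → W ≤ H → Q ≤ centralizer (W : Set G) := fun W => by
      induction W using WellFoundedLT.induction with
      | ind W ih =>
      intro hW hle
      by_cases hb : W = ⊥
      · exact le_centralizer_iff.1 (hb.le.trans bot_le)
      obtain ⟨V, hV, hlt, hc⟩ := exists_maximal_normal_lt hb
      exact le_centralizer_of_chain (hcop.coprime_dvd_right (card_dvd_of_le (hlt.le.trans hle)))
        ((commutator_mono le_rfl (hQ.1.trans hKD)).trans (hD W V hW hV hlt hc (hle.trans hH.1))) (ih V hlt hV (hlt.le.trans hle))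
    have hs : Q ⊔ H = K := sup_eq_of_coprime_relIndex hQ.1 (hH.1.trans hFK.le) (coprime_of_pi (π := {q}ᶜ)
      (fun r hr hd e => hQ.2.2 (e ▸ hd)) fun r hr hne hd => by
        rw [← relIndex_mul_relIndex H F K hH.1 hFK.le] at hd
        refine ((Nat.Prime.dvd_mul hr).1 hd).elim (hH.2.2 r hr hne) fun h => hne ?_
        exact isPGroup_iff_forall_prime.1 (IsElementaryAbelian.isPGroup' hel) r hr (card_map_mk' K F ▸ h))
    have := hQH H inferInstance le_rfl
    exact hFK.not_ge (le_map_fittingSubgroup (hKD.trans hDN) le_normalizer_of_normal (hs ▸ isNilpotent_sup le_normalizer_of_normal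
      (le_normalizer_of_centralizer_ge this) hQ.2.1.isNilpotent (isNilpotent_of_le hH.1 hF)))

end Cfsg.Agent.S3766
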