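import Cfsg.Statements.S3767
import Mathlib
import Cfsg.Agent.C3.Glaub0
import Cfsg.Agent.H3.Misc
import Cfsg.Agent.H3.FS

set_option autoImplicit false
open Cfsg

namespace Cfsg.Agent.S3767

open Cfsg.Agent.H3 Cfsg.Agent.C3 Cfsg.Agent.BG Subgroup

theorem arith {ι : Type*} [Fintype ι] (c : ι → ℤ) {h D : ℕ} (h0 : 0 < h) (hD : 0 < D) (hco : h.Coprime D)
    (h1 : Fintype.card ι = h) (h2 : ∑ i, c i = D) (h3 : (h : ℤ) * ∑ i, c i ^ 2 + 1 = D ^ 2 + h) :
    h ∣ D + 1 ∨ h ∣ D - 1 := by
  have e := Nat.div_add_mod D h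
  have l := Nat.mod_lt D h0
  generalize D / h = q at e
  generalize D % h = r at e l
  have e' : (D : ℤ) = h * q + r := by exact_mod_cast e.symm
  have a1 : ∑ i, (c i - q) ≤ ∑ i, (c i - q) ^ 2 := Finset.sum_le_sum fun i _ => Int.le_self_sq _
  have a2 : ∑ i, (c i - q) ^ 2 = ∑ i, c i ^ 2 - 2 * q * ∑ i, c i + h * q ^ 2 := by
    simp only [sub_sq, Finset.sum_add_distrib, Finset.sum_sub_distrib, Finset.sum_const, Finset.card_univ, h1,
      nsmul_eq_mul, Finset.mul_sum]
    congr 2
    exact Finset.sum_congr rfl fun i _ => by ring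
  rw [a2, Finset.sum_sub_distrib, Finset.sum_const, Finset.card_univ, h1, nsmul_eq_mul, h2] at a1
  have a3 : ((r : ℤ) - 1) * (h - 1 - r) ≤ 0 := by
    have := mul_le_mul_of_nonneg_left a1 (Int.natCast_nonneg h)
    rw [e'] at this h3
    nlinarith
  by_cases r0 : r = 0
  · subst r0
    have : h = 1 := Nat.Coprime.eq_one_of_dvd hco ⟨q, by omega⟩
    exact .inl (by rw [this]; exact one_dvd _)
  by_cases r1 : r = 1
  · exact .inr ⟨q, by omega⟩
  have a4 : (0 : ℤ) < r - 1 := by omega
  have a5 : (h : ℤ) - 1 - r ≤ 0 := by nlinarith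
  exact .inl ⟨q + 1, by rw [mul_add, mul_one]; omega⟩

/-- Let P be an extraspecial p-group of order p^(2n+1) and H a cyclic group of order h prime to p acting on P (inside a common finite group: H normalizes P) so that C_P(x) = Z(P) for every non-identity x ∈ H. Then h divides p^n + 1 or h divides p^n − 1. -/
theorem result {G : Type*} [Group G] [Finite G] {p : ℕ} [Fact p.Prime] (P H : Subgroup G) (hP : Cfsg.IsExtraspecial p ↥P) (n : ℕ) (hn : Nat.card P = p ^ (2 * n + 1)) (hH : IsCyclic H) (hcop : (Nat.card H).Coprime p) (hHP : H ≤ Subgroup.normalizer (P : Set G)) (hfix : ∀ x ∈ H, x ≠ 1 → P ⊓ Subgroup.centralizer {x} = (Subgroup.center ↥P).map P.subtype) : Nat.card H ∣ p ^ n + 1 ∨ Nat.card H ∣ p ^ n - 1 := by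
  classical
  have hp : p.Prime := Fact.out
  obtain ⟨s, rfl⟩ := (Subgroup.isCyclic_iff_exists_zpowers_eq_top H).1 hH
  have hs : s ∈ 𝒩 P := hHP (mem_zpowers s)
  haveI := hP.1.1.isNilpotent
  haveI := Fintype.ofFinite P
  haveI := Fintype.ofFinite (zpowers s)
  set Z := (center P).map P.subtype with hZ
  haveI := Fintype.ofFinite Z
  have hZP : Z ≤ P := map_subtype_le _
  have hZc : ∀ c ∈ Z, ∀ z ∈ P, z * c = c * z := by
    rintro _ ⟨c, hc, rfl⟩ z hz
    exact congrArg Subtype.val (mem_center_iff.1 hc ⟨z, hz⟩)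
  have hZt : ∀ t ∈ zpowers s, ∀ c ∈ Z, t * c = c * t := fun t ht c hc => by
    by_cases h : t = 1
    · simp [h]
    · exact (mem_centralizer_iff.1 ((hfix t ht h).ge hc).2 t rfl)
  have hmem : ∀ g : P, g ∈ center P ↔ (g : G) ∈ Z := fun g =>
    ⟨fun h => ⟨g, h, rfl⟩, fun ⟨a, h, e⟩ => (Subtype.ext e : a = g) ▸ h⟩
  obtain ⟨β, hβ, hker⟩ := exists_faithful_irr (G := P) (isCyclic_of_prime_card hP.2)
  obtain ⟨d1, d2⟩ := hβ.degree_of_extraspecial hP hn (by
    rw [hker, le_bot_iff]
    intro h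
    have := hP.2
    rw [h, card_bot] at this
    exact hp.one_lt.ne this)
  have hi : CInv s β := fun g g' e => by
    by_cases h : g ∈ center P
    · have := hZt s (mem_zpowers s) g ((hmem g).1 h)
      rw [this, mul_inv_cancel_right] at e
      rw [Subtype.ext e]
    · rw [d2 g h, d2 g' fun h' => h ?_]
      have := hZt s (mem_zpowers s) g' ((hmem g').1 h')
      have e2 : (g : G) = g' := by
        calc (g : G) = s⁻¹ * (g' * s) := by rw [e]; group
          _ = g' := by rw [← this]; group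
      exact Subtype.ext e2 ▸ h'
  obtain ⟨E, hE, hEβ⟩ := exists_ext hs hβ hi
  have hirr : IsIrrCharacter _ (rs (P ⊔ zpowers s) E) := hE.irr_of_comp (inclusion le_sup_left) (hEβ ▸ hβ :)
  have E1 : E 1 = (p : ℂ) ^ n := (congrFun hEβ 1).trans d1
  have hnorm : ∀ t ∈ zpowers s, t ≠ 1 → ‖E t‖ ^ 2 = 1 := fun t ht h1 => by
    have i1 := inner_trl_self le_sup_left (sup_le_norm hs) hE (hEβ ▸ hβ) (mem_sup_right ht)
    rw [inner_trl_eq_of hZP le_sup_left (mem_sup_right ht) (hHP ht) ?_ hE.isClassFunction hE.isClassFunction,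
      classInner_self_eq] at i1
    · have i2 : ∀ c : Z, ‖trl Z t E c‖ = ‖E t‖ := fun c => by
        have m : (⟨c, mem_sup_left (hZP c.2)⟩ : ↥(P ⊔ zpowers s)) ∈ charCenter (rs (P ⊔ zpowers s) E) := by
          refine hirr.center_le_charCenter (mem_center_iff.2 fun g => Subtype.ext ?_)
          have : P ⊔ zpowers s ≤ centralizer {(c : G)} := sup_le
            (fun z hz => mem_centralizer_singleton_iff.2 (hZc c c.2 z hz))
            fun z hz => mem_centralizer_singleton_iff.2 (hZt z hz c c.2)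
          exact mem_centralizer_singleton_iff.1 (this g.2)
        have m1 := apply_mul_of_mem_charCenter hirr.apply_one_ne_zero m ⟨t, mem_sup_right ht⟩
        have m2 := hE.mem_charCenter_iff.1 m
        have m3 := hE.cast_charDegree
        have m4 : ‖rs (P ⊔ zpowers s) E 1‖ ≠ 0 := norm_ne_zero_iff.2 hirr.apply_one_ne_zero
        have m5 := congrArg (‖·‖) m1
        simp only [norm_mul, norm_div, m2] at m5
        rw [← m3, Complex.norm_natCast] at m4 m5
        rw [div_self m4, one_mul] at m5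
        show ‖E (c * t)‖ = _
        rw [← hZt t ht c c.2]
        exact m5
      simp only [i2, Finset.sum_const, Finset.card_univ, nsmul_eq_mul, Nat.card_eq_fintype_card] at i1
      rw [inv_mul_cancel_left₀ (by exact_mod_cast Fintype.card_ne_zero)] at i1
      exact_mod_cast i1
    · intro z hz c hc c' hc' e
      have e1 : z * t * z⁻¹ = c⁻¹ * c' * t := by
        rw [mul_assoc c⁻¹, ← e, ← mul_assoc z c, hZc c hc z hz]; group
      have hd : c⁻¹ * c' ∈ Z := Z.mul_mem (Z.inv_mem hc) hc'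
      generalize c⁻¹ * c' = d at e1 hd
      have e2 : d ^ orderOf t = 1 := by
        have := congrArg (· ^ orderOf t) e1
        simp only [conj_pow, pow_orderOf_eq_one, mul_one, mul_inv_cancel] at this
        rw [Commute.mul_pow (hZt t ht d hd).symm, pow_orderOf_eq_one, mul_one] at this
        exact this.symm
      have e3 : d = 1 := by
        have b1 := orderOf_dvd_of_pow_eq_one e2
        have b2 : orderOf d ∣ p ^ (2 * n + 1) := hn ▸ Subgroup.orderOf_dvd_natCard P (hZP hd)
        have b3 : orderOf t ∣ Nat.card (zpowers s) := Subgroup.orderOf_dvd_natCard _ ht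
        exact orderOf_eq_one_iff.1 (Nat.eq_one_of_dvd_coprimes (hcop.pow_right _) (b1.trans b3) b2)
      rw [e3, one_mul] at e1
      exact (hfix t ht h1).le ⟨hz, mem_centralizer_singleton_iff.2 (mul_inv_eq_iff_eq_mul.1 e1)⟩
  have hχ : IsCharacter _ (rs (zpowers s) E) := hE.comp (inclusion le_sup_right)
  obtain ⟨c, c1, c2⟩ := hχ.isGen.exists_int_coeffs
  have c3 := hχ.isGen.inner_self_eq_sum_sq c c1
  have dg : ∀ χ : IrrCharacter (zpowers s), (χ : zpowers s → ℂ) 1 = 1 := fun χ => χ.2.degree_eq_one_of_comm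
  refine arith c Nat.card_pos (pow_pos hp.pos n) (hcop.pow_right n) ?_ ?_ ?_
  · rw [← sum_irr_charDegree_sq, Fintype.card_eq_sum_ones]
    refine Finset.sum_congr rfl fun χ _ => ?_
    have := χ.2.cast_charDegree
    rw [dg, Nat.cast_eq_one] at this
    rw [this, one_pow]
  · have := congrFun c2 1
    simp only [Finset.sum_apply, Pi.smul_apply, dg, smul_eq_mul, mul_one] at this
    rw [show rs (zpowers s) E 1 = (p : ℂ) ^ n from E1] at this
    exact_mod_cast this.symm
  · rw [classInner_self_eq, ← Finset.add_sum_erase _ _ (Finset.mem_univ 1),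
      Finset.sum_congr (g := fun _ => (1 : ℝ)) rfl fun (t : zpowers s) ht => hnorm t t.2 fun h => (Finset.mem_erase.1 ht).1 (Subtype.ext h)] at c3
    rw [show rs (zpowers s) E 1 = (p : ℂ) ^ n from E1, Finset.sum_const, Finset.card_erase_of_mem (Finset.mem_univ _),
      Finset.card_univ, ← Nat.card_eq_fintype_card, nsmul_eq_mul, Nat.cast_sub Nat.card_pos] at c3
    rw [← Complex.ofReal_intCast] at c3
    have c4 := (Complex.ofReal_injective c3).symm
    have c5 : (Nat.card (zpowers s) : ℝ) ≠ 0 := by exact_mod_cast Nat.card_pos.ne'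
    have : ((Nat.card (zpowers s) : ℤ) * (∑ χ, c χ ^ 2 : ℤ) + 1 : ℝ) = ((p ^ n : ℕ) : ℤ) ^ 2 + (Nat.card (zpowers s) : ℤ) := by
      rw [c4]
      simp only [Int.cast_natCast, norm_pow, Complex.norm_natCast]
      push_cast
      field_simp
      ring
    exact_mod_cast this

end Cfsg.Agent.S3767
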