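import Cfsg.Statements.S3768
import Cfsg.Agent.H1.Burnside
import Cfsg.Agent.L.Frob2

set_option autoImplicit false
open Cfsg

namespace Cfsg.Agent.S3768

open Cfsg.Agent.H1

/-- Let G be a finite Frobenius group with Frobenius complement R and Frobenius kernel K (the identity together with the elements in no conjugate of R), and let N be a normal subgroup of G not containing K. Then G/N is a Frobenius group with Frobenius complement RN/N whose Frobenius kernel is the image of K. -/
theorem result {G : Type*} [Group G] [Finite G] (R : Subgroup G) (hR : Cfsg.IsFrobeniusComplement R) (N : Subgroup G) [N.Normal] (hKN : ¬ Cfsg.frobeniusKernel R ⊆ N) : Cfsg.IsFrobeniusComplement (R.map (QuotientGroup.mk' N)) ∧ Cfsg.frobeniusKernel (R.map (QuotientGroup.mk' N)) = QuotientGroup.mk' N '' Cfsg.frobeniusKernel R := by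
  open Subgroup Pointwise commutatorElement in focus
    obtain ⟨K, hKe, hK, hc⟩ := S0035.result R hR
    have hf := L.fpf_of_frobenius hR hc.disjoint.eq_bot
    have hKN' : ¬ K ≤ N := fun h => hKN (hKe ▸ h)
    have hNK := (hf.le_or_ge le_normalizer_of_normal (hc.sup_eq_top ▸ le_top) le_normalizer_of_normal).resolve_right hKN'
    have hf' := hf.map (QuotientGroup.mk' N) le_normalizer_of_normal
    haveI := hK.map _ (QuotientGroup.mk'_surjective N)
    have hs : K.map (QuotientGroup.mk' N) ⊔ R.map (QuotientGroup.mk' N) = ⊤ := by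
      rw [← Subgroup.map_sup, hc.sup_eq_top, map_top_of_surjective _ (QuotientGroup.mk'_surjective N)]
    refine ⟨L.frobenius_of_fpf hs (fun e => hKN' (map_mk'_eq_bot_iff.1 e)) (fun e => hR.1 (le_bot_iff.1
      (hc.disjoint.eq_bot ▸ le_inf ((map_mk'_eq_bot_iff.1 e).trans hNK) le_rfl))) hf', ?_⟩
    rw [← hKe, ← coe_map]
    ext x
    constructor
    · rintro (rfl | h)
      · exact one_mem _
      by_contra hx
      obtain ⟨k, -, hk⟩ := hf'.exists_conj_mem le_normalizer_of_normal (hs ▸ mem_top x) hx
      exact h k (mem_conj_smul.2 hk)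
    · intro hx
      by_cases h1 : x = 1
      · exact Or.inl h1
      refine Or.inr fun g hg => h1 ?_
      have := hf'.inf_eq_bot.le (mem_inf.2 ⟨Normal.conj_mem' inferInstance x hx g, mem_conj_smul.1 hg⟩)
      rw [mem_bot] at this
      simpa [mul_assoc, inv_mul_eq_iff_eq_mul] using this

end Cfsg.Agent.S3768
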