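import Cfsg.Statements.S3770
import Mathlib
import Cfsg.Agent.H2.BG3a
import Cfsg.Agent.GS.Lem2
import Cfsg.Agent.BG.Basic

set_option autoImplicit false
open Cfsg

namespace Cfsg.Agent.S3770

open Cfsg.Agent.H2 Cfsg.Agent.BG Subgroup

/-- Let G and V be subgroups of a finite group with G a Frobenius group with complement R of prime order and kernel K, G normalizing V, and V an elementary abelian ℓ-group for a prime ℓ not dividing the order of G. If C_V(R) has order ℓ, then the derived subgroup of K centralizes V. -/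
theorem result {X : Type*} [Group X] [Finite X] (G : Subgroup X) (V : Subgroup X) {ℓ : ℕ} (hℓ : ℓ.Prime) (hV : Cfsg.IsElementaryAbelian ℓ V) (hℓG : ¬ ℓ ∣ Nat.card G) (hGV : G ≤ Subgroup.normalizer (V : Set X)) (R : Subgroup ↥G) (hR : Cfsg.IsFrobeniusComplement R) (hRp : (Nat.card R).Prime) (hCV : Nat.card ↥(V ⊓ Subgroup.centralizer ((R.map G.subtype : Subgroup X) : Set X)) = ℓ) : ⁅Subgroup.closure (Subtype.val '' Cfsg.frobeniusKernel R), Subgroup.closure (Subtype.val '' Cfsg.frobeniusKernel R)⁆ ≤ Subgroup.centralizer (V : Set X) := by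
  have := Fact.mk hℓ
  obtain ⟨K, hK, hKR, -, hf, e, hn, -⟩ := GS.exists_frobKernel hR
  have e1 : Subgroup.closure (Subtype.val '' Cfsg.frobeniusKernel R) = K.map G.subtype := by
    rw [e, ← closure_eq (K.map G.subtype), coe_map]; rfl
  have hp := L.IsElementaryAbelian.isPGroup hV
  have hn := GS.le_norm_of_normal R K
  rw [e1]
  refine Frobenius_cent_cyclic (H1.map_le_normalizer_map _ hn) (H1.isSolvable_map _ inferInstance) (hf.map _ hn)
    (H1.isSolvable_of_isPGroup hp) ((map_subtype_le _).trans hGV) ((map_subtype_le _).trans hGV) ?_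
    (isCyclic_of_prime_card hCV)
  refine (coprime_of_pgroup hp ?_).symm
  rw [← Subgroup.map_sup, hKR, ← MonoidHom.range_eq_map, range_subtype]
  exact ((Nat.Prime.coprime_iff_not_dvd hℓ).2 hℓG).symm

end Cfsg.Agent.S3770
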