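import Cfsg.Statements.S3772
import Mathlib
import Cfsg.Agent.H2.ES2

set_option autoImplicit false
open Cfsg

namespace Cfsg.Agent.S3772

open Cfsg.Agent.H2 Cfsg.Agent.H4 Subgroup Module

/-- Let G be a finite 2-group whose Frattini subgroup Φ(G) has order 2, with |G : Φ(G)| = 2^d, and let j be the number of elements x of G with x² = 1. Then j = 2^d, or j = 2^d + 2^(d−r) or j = 2^d − 2^(d−r) for some positive integer r with 2r ≤ d. Moreover if d = 2r and j is 2^d + 2^r or 2^d − 2^r, then G is extraspecial. -/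
theorem result {G : Type*} [Group G] [Finite G] (hG : IsPGroup 2 G) (hΦ : Nat.card (frattini G) = 2) (d : ℕ) (hd : (frattini G).index = 2 ^ d) : (Nat.card {x : G // x ^ 2 = 1} = 2 ^ d ∨ ∃ r : ℕ, 1 ≤ r ∧ 2 * r ≤ d ∧ (Nat.card {x : G // x ^ 2 = 1} = 2 ^ d + 2 ^ (d - r) ∨ Nat.card {x : G // x ^ 2 = 1} + 2 ^ (d - r) = 2 ^ d)) ∧ (∀ r : ℕ, d = 2 * r → (Nat.card {x : G // x ^ 2 = 1} = 2 ^ d + 2 ^ r ∨ Nat.card {x : G // x ^ 2 = 1} + 2 ^ r = 2 ^ d) → Cfsg.IsExtraspecial 2 G) := by
  classical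
  haveI : IsCyclic (frattini G) := isCyclic_of_prime_card hΦ
  obtain ⟨z, hz⟩ := (isCyclic_iff_exists_zpowers_eq_top.1 this)
  have hz' : zpowers (z : G) = frattini G := by
    have := congrArg (Subgroup.map (frattini G).subtype) hz
    rwa [MonoidHom.map_zpowers, ← MonoidHom.range_eq_map, range_subtype] at this
  have hc : ⊤ ≤ centralizer (frattini G : Set G) :=
    H1.le_centralizer_of_card_prime (hG.to_subgroup ⊤) hΦ (by rw [normalizer_eq_top])
  obtain ⟨V, _, _, c, hcz⟩ := exists_cExt (z := (z : G)) (p := 2)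
    (by rw [← Nat.card_zpowers, hz', hΦ]) (fun x => hc (mem_top x) z z.2)
    (fun x y => by
      rw [hz']; exact H1.commutator_le_frattini hG (commutator_mem_commutator (mem_top _) (mem_top _)))
    (fun x => by rw [hz']; exact H1.pow_mem_frattini hG x)
  haveI := c.finite
  have hV : finrank (ZMod 2) V = d := c.finrank_eq (by
    rw [← (frattini G).index_mul_card, hd, hΦ, pow_succ])
  have hV' : Nat.card V = 2 ^ d := by
    rw [Module.natCard_eq_pow_finrank (K := ZMod 2), hV, Nat.card_zmod]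
  set f := c.qf with hf
  have key : (Nat.card {x : G // x ^ 2 = 1} = 2 ^ d) ∨ ∃ r : ℕ, 1 ≤ r ∧ 2 * r ≤ d ∧
      (Nat.card {x : G // x ^ 2 = 1} = 2 ^ d + 2 ^ (d - r) ∨
        Nat.card {x : G // x ^ 2 = 1} + 2 ^ (d - r) = 2 ^ d) ∧ (d = 2 * r → f.Nondeg) := by
    rw [c.card_sq]
    by_cases hR : ∀ v ∈ f.perp ⊤, f.Q v = 0
    · right
      have hU : f.TS (f.perp ⊤) := CForm.orth_TS_iff.2 hR
      have hp : f.perp (f.perp ⊤) = ⊤ := top_le_iff.1 (f.le_perp_perp ⊤)
      obtain ⟨W, hW⟩ := (f.perp ⊤).exists_isCompl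
      have hWn : (f.res W).Nondeg := by
        rw [CForm.res_nondeg_iff, eq_bot_iff, ← hW.inf_eq_bot]
        refine fun x hx => ⟨?_, hx.1⟩
        rw [← hW.sup_eq_top, CForm.perp_sup, hp]
        exact ⟨trivial, hx.2⟩
      obtain ⟨r, hr⟩ := hWn.even_of_two rfl
      rw [← two_mul] at hr
      have h1 := CForm.card_perp_Q hU (Z := W) (by rw [hp]; exact le_top)
        (by rw [hp]; exact hW.symm.sup_eq_top) hW.symm.inf_eq_bot 0
      have h2 : Nat.card {x // x ∈ f.perp (f.perp ⊤) ∧ f.Q x = 0} = f.cnt 0 :=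
        Nat.card_congr (Equiv.subtypeEquivRight fun x => by simp [hp])
      have h3 := Submodule.finrank_add_eq_of_isCompl hW
      rw [h2, ZMod.card] at h1
      rw [hr, hV] at h3
      have hr1 : 1 ≤ r := by
        by_contra h0
        have h4 : W = ⊥ := Submodule.finrank_eq_zero.1 (by omega)
        have h5 : f.perp ⊤ = ⊤ := by simpa [h4] using hW.sup_eq_top
        have h7 : ∀ v, v ∈ f.perp ⊤ := fun v => by rw [h5]; trivial
        have h6 : frattini G = ⊥ := (H1.frattini_eq_bot_iff_of_isPGroup hG).2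
          ⟨⟨⟨fun x y => (c.B_eq_zero.1 (f.mem_perp.1 (h7 _) _ trivial)).eq⟩⟩,
            fun x => c.P_eq_zero.1 (hR _ (h7 _))⟩
        rw [h6] at hΦ
        simp at hΦ
      refine ⟨r, hr1, by omega, ?_, fun hdr => ?_⟩
      · obtain ⟨k, hk⟩ : ∃ k, finrank (ZMod 2) (f.perp ⊤) = k := ⟨_, rfl⟩
        rw [hk] at h1 h3
        have h5 := hWn.two_mul_wi_le
        have h6 := hWn.orth_finrank_le
        rw [h1, ← h3, show k + 2 * r - r = k + r by omega, pow_add, pow_add, mul_left_comm]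
        rcases (by omega : (f.res W).wi = r ∨ (f.res W).wi + 1 = r) with h | h
        · left; rw [orth_cnt_plus hWn hr h]; ring
        · right; rw [← orth_cnt_minus hWn hr h]; ring
      · have h4 : f.perp ⊤ = ⊥ := Submodule.finrank_eq_zero.1 (by omega)
        intro x hx
        rw [← Submodule.mem_bot (ZMod 2), ← h4]
        exact fun y _ => hx y
    · left
      push Not at hR
      obtain ⟨v, hv, hQ⟩ := hR
      have hQ1 : f.Q v = 1 := (zmod2_cases _).resolve_left hQ
      have h1 : f.cnt 0 = f.cnt 1 := Nat.card_congr ((Equiv.addRight v).subtypeEquiv fun x => by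
        rw [Equiv.coe_addRight, f.Q_add_of_perp (f.B_zero_symm (hv x trivial)), hQ1]
        simp)
      have h2 := CForm.sum_cnt (f := f)
      rw [ZMod.card, hV, show (Finset.univ : Finset (ZMod 2)) = {0, 1} from rfl,
        Finset.sum_pair (by decide), ← h1] at h2
      rw [← h2, two_mul]
  refine ⟨key.imp_right fun ⟨r, h1, h2, h3, _⟩ => ⟨r, h1, h2, h3⟩, fun r hr hj => ?_⟩
  have h0 : 0 < 2 ^ r := by positivity
  rcases key with h | ⟨r', h1, h2, h3, h4⟩
  · omega
  · have h5 : 0 < 2 ^ (d - r') := by positivity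
    have h6 : 2 ^ (d - r') = 2 ^ r := by omega
    have h7 := Nat.pow_right_injective le_rfl h6
    haveI : Nontrivial V := Module.nontrivial_of_finrank_pos (R := ZMod 2) (by omega)
    exact c.isExtraspecial (h4 (by omega))

end Cfsg.Agent.S3772
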