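import Cfsg.Statements.S3773
import Cfsg.Agent.H9.CW2
import Cfsg.Agent.L.Fitting

set_option autoImplicit false
open Cfsg

namespace Cfsg.Agent.S3773

open Cfsg.Agent Cfsg.Agent.H9
open Cfsg.Agent Cfsg.Agent.H9 Subgroup

/-- Let G be a finite 2-group of nilpotency class at most 2 and exponent dividing 4 in which the elements x with x² = 1 form a subgroup N. Then |G| ≤ |N|³, and |G| < |N|³ unless G is special. -/
theorem result {G : Type*} [Group G] [Finite G] (hG : IsPGroup 2 G) (hcl : (⊤ : Subgroup G).lowerCentralSeries 2 = ⊥) (hexp : ∀ x : G, x ^ 4 = 1) (hN : ∀ x y : G, x ^ 2 = 1 → y ^ 2 = 1 → (x * y) ^ 2 = 1) : Nat.card G ≤ Nat.card {x : G // x ^ 2 = 1} ^ 3 ∧ (¬ Cfsg.IsSpecial 2 G → Nat.card G < Nat.card {x : G // x ^ 2 = 1} ^ 3) := by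
  have hZ : commutator G ≤ Subgroup.center G := by
    rw [← Subgroup.centralizer_univ, ← Subgroup.coe_top, ← Subgroup.commutator_eq_bot_iff_le_centralizer]
    exact hcl
  obtain ⟨h1, h2⟩ := CW.frattini_facts hZ hexp
  have h3 := CW.cw_le (frattini G) (center G) h1 le_rfl (L.pow_mem_frattini hG) h2
  have h4 : Nat.card (frattini G) ≤ Nat.card {x : G // x ^ 2 = 1} :=
    Nat.card_le_card_of_injective (fun y => ⟨y.1, h2 y.1 y.2⟩) fun a b e => Subtype.ext (Subtype.mk.inj e)
  have h5 := card_le_of_le h1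
  have h6 : 0 < Nat.card (frattini G) := Nat.card_pos
  generalize hn : Nat.card {x : G // x ^ 2 = 1} = n at h3 h4 ⊢
  have h7 : Nat.card G ≤ n ^ 2 * Nat.card (frattini G) := by
    refine Nat.le_of_mul_le_mul_right ?_ h6
    calc _ ≤ Nat.card G * Nat.card (center G) := Nat.mul_le_mul_left _ h5
      _ ≤ _ := h3
      _ = _ := by ring
  have h8 : Nat.card G ≤ n ^ 3 := h7.trans (by rw [pow_succ n 2]; exact Nat.mul_le_mul_left _ h4)
  refine ⟨h8, fun hs => lt_of_le_of_ne h8 fun e => hs ?_⟩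
  have hn0 : 0 < n := h6.trans_le h4
  have h9 : Nat.card (frattini G) = n := le_antisymm h4 (by
    rw [e, pow_succ n 2] at h7
    exact Nat.le_of_mul_le_mul_left h7 (pow_pos hn0 2))
  have h10 : frattini G = center G := eq_of_le_of_card_ge h1 (by
    rw [e, h9] at h3
    rw [h9]
    exact Nat.le_of_mul_le_mul_left (h3.trans (le_of_eq (by ring))) (pow_pos hn0 3))
  refine ⟨hG, h10, ?_⟩
  rw [← h10]
  by_contra hne
  have hlt : commutator G < frattini G := lt_of_le_of_ne (L.commutator_le_frattini hG) hne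
  obtain ⟨a, ha⟩ := IsPGroup.iff_card.mp (hG.to_subgroup (frattini G))
  obtain ⟨b, hb⟩ := IsPGroup.iff_card.mp (hG.to_subgroup (commutator G))
  have hba : b < a := (Nat.pow_lt_pow_iff_right one_lt_two).mp (by rw [← ha, ← hb]; exact L.card_lt_of_lt hlt)
  obtain ⟨a, rfl⟩ : ∃ a', a = a' + 1 := ⟨a - 1, by omega⟩
  obtain ⟨K, hK, hK'⟩ := Sylow.exists_subgroup_card_pow_prime_le 2 (n := b) (m := a) (G := frattini G)
    (by rw [ha]; exact pow_dvd_pow 2 (Nat.le_succ a)) ((commutator G).subgroupOf (frattini G))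
    (by rw [Nat.card_congr (subgroupOfEquivOfLe hlt.le).toEquiv, hb]) (by omega)
  let F := K.map (frattini G).subtype
  have hF : F ≤ frattini G := map_subtype_le _
  have hFc : Nat.card F = 2 ^ a := by rw [card_map_of_injective (subtype_injective _), hK]
  have hcF : commutator G ≤ F := fun x hx => ⟨⟨x, hlt.le hx⟩, hK' hx, rfl⟩
  haveI : F.Normal := L.normal_of_commutator_le hcF
  have hcm : ∀ x y : G ⧸ F, x * y = y * x := fun x y => by
    obtain ⟨x, rfl⟩ := QuotientGroup.mk'_surjective F x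
    obtain ⟨y, rfl⟩ := QuotientGroup.mk'_surjective F y
    rw [← commutatorElement_eq_one_iff_mul_comm, ← map_commutatorElement]
    exact (QuotientGroup.eq_one_iff _).mpr (hcF (commutator_mem_commutator (mem_top x) (mem_top y)))
  let s : G →* G ⧸ F := MonoidHom.mk' (fun x => QuotientGroup.mk' F x ^ 2) fun x y => by
    rw [map_mul, Commute.mul_pow (hcm _ _)]
  have hs1 : s.range ≤ (frattini G).map (QuotientGroup.mk' F) := by
    rintro _ ⟨x, rfl⟩
    exact ⟨x ^ 2, L.pow_mem_frattini hG x, map_pow _ _ _⟩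
  have hs2 : s.ker.index ≤ 2 := by
    rw [index_ker]
    refine (card_le_of_le hs1).trans ?_
    rw [← L.relIndex_eq_card_map]
    have := (F.subgroupOf (frattini G)).card_mul_index
    rw [Nat.card_congr (subgroupOfEquivOfLe hF).toEquiv, hFc, ha, pow_succ] at this
    exact (Nat.eq_of_mul_eq_mul_left (pow_pos two_pos a) this).le
  have hΦ : frattini G ≤ s.ker := fun x hx => by
    show QuotientGroup.mk' F x ^ 2 = 1
    rw [← map_pow, h2 x hx, map_one]
  have hcen : (frattini G).subgroupOf s.ker ≤ center s.ker := fun x hx =>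
    mem_center_iff.mpr fun y => Subtype.ext (mem_center_iff.mp (h1 hx) y.1)
  have c1 := CW.cw_le (F.subgroupOf s.ker) ((frattini G).subgroupOf s.ker) ((comap_mono hF).trans hcen) hcen
    (fun x => (QuotientGroup.eq_one_iff (x.1 ^ 2)).mp ((map_pow (QuotientGroup.mk' F) x.1 2).trans x.2))
    fun y hy => Subtype.ext (h2 y.1 (hF hy))
  rw [Nat.card_congr (subgroupOfEquivOfLe hΦ).toEquiv, Nat.card_congr (subgroupOfEquivOfLe (hF.trans hΦ)).toEquiv, hFc, h9] at c1
  have c2 : Nat.card {x : s.ker // x ^ 2 = 1} ≤ n := hn ▸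
    Nat.card_le_card_of_injective (fun y => ⟨y.1.1, congrArg Subtype.val y.2⟩) fun a b e =>
      Subtype.ext (Subtype.ext (Subtype.mk.inj e))
  have c3 := s.ker.card_mul_index
  have c4 := Nat.mul_le_mul_left (Nat.card s.ker) hs2
  rw [c3, e] at c4
  have c5 := c1.trans (Nat.pow_le_pow_left (Nat.mul_le_mul_right _ c2) 2)
  rw [← h9, ha, pow_succ 2 a] at c4 c5
  have c6 : 0 < 2 ^ a := pow_pos two_pos a
  generalize 2 ^ a = t at c4 c5 c6
  have c7 : t * 2 * ((t * 2) ^ 3) ≤ t * 2 * (Nat.card s.ker * 2) := Nat.mul_le_mul_left _ c4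
  have c8 : 0 < t ^ 4 := pow_pos c6 4
  nlinarith

end Cfsg.Agent.S3773
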