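import Cfsg.Statements.S3774
import Cfsg.Agent.H8.Misc

set_option autoImplicit false
open Cfsg

namespace Cfsg.Agent.S3774

open Subgroup hiding commutator_def
open Function Cfsg.Agent.Hopf Cfsg.Agent.Reg
open scoped commutatorElement Pointwise


/-- Let G be a nontrivial finite 2-group whose automorphism group permutes the involutions of G transitively. Then every involution of G is central, so that the involutions together with 1 form the subgroup Ω₁(Z(G)), and if this subgroup has order q then |G| is a power of q. -/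
theorem result {G : Type*} [Group G] [Finite G] [Nontrivial G] (hG : IsPGroup 2 G) (htrans : ∀ x y : G, x ≠ 1 → x ^ 2 = 1 → y ≠ 1 → y ^ 2 = 1 → ∃ a : MulAut G, a x = y) : (∀ x : G, x ^ 2 = 1 → x ∈ Subgroup.center G) ∧ ∃ m : ℕ, Nat.card G = Nat.card {z : G // z ^ 2 = 1} ^ m := by
  classical
  haveI := Fintype.ofFinite G
  have hZ1 : center G ≠ ⊥ := (nontrivial_iff_ne_bot _).1 hG.center_nontrivial
  obtain ⟨z, hz, hz1⟩ := H1.exists_mem_orderOf_eq_prime Nat.prime_two
    (H1.dvd_card_of_isPGroup_of_ne_bot (hG.to_subgroup _) hZ1)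
  have hz2 : z ^ 2 = 1 := hz1 ▸ pow_orderOf_eq_one z
  have hz3 : z ≠ 1 := by rintro rfl; simp at hz1
  have h1 : ∀ x : G, x ^ 2 = 1 → x ∈ center G := by
    intro x hx
    by_cases h : x = 1
    · rw [h]; exact one_mem _
    obtain ⟨a, rfl⟩ := htrans z x hz3 hz2 h hx
    rw [mem_center_iff]
    intro g
    obtain ⟨g, rfl⟩ := a.surjective g
    rw [← map_mul, ← map_mul, mem_center_iff.1 hz]
  refine ⟨h1, ?_⟩
  let O : Subgroup G :=
    { carrier := {z | z ^ 2 = 1}
      one_mem' := by simp
      mul_mem' := fun {a b} ha hb => by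
        simp only [Set.mem_setOf_eq] at ha hb ⊢
        rw [Commute.mul_pow (mem_center_iff.1 (h1 b hb) a), ha, hb, one_mul]
      inv_mem' := fun {a} ha => by
        simp only [Set.mem_setOf_eq] at ha ⊢
        rw [inv_pow, ha, inv_one] }
  obtain ⟨t, ht⟩ := IsPGroup.iff_card.1 (hG.to_subgroup O)
  obtain ⟨n, hn⟩ := IsPGroup.iff_card.1 hG
  change ∃ m, Nat.card G = Nat.card O ^ m
  let f : G → G := fun x => x ^ (orderOf x / 2)
  let I : Finset G := (Finset.univ.filter fun g => g ∈ O).erase 1
  have hI : ∀ g, g ∈ I ↔ g ≠ 1 ∧ g ^ 2 = 1 := fun g => by simp [I, O]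
  have hf : ∀ x : G, x ≠ 1 → f x ∈ I := by
    intro x hx
    obtain ⟨k, hk⟩ := ord_iff.2 (hG x)
    have hd : 2 ∣ orderOf x := by
      rw [hk]
      refine dvd_pow_self 2 ?_
      rintro rfl
      exact hx (orderOf_eq_one_iff.1 hk)
    have := orderOf_pow_orderOf_div (orderOf_pos x).ne' hd
    rw [hI]
    refine ⟨fun e => ?_, ?_⟩
    · simp only [f] at e
      rw [e] at this; simp at this
    · conv_lhs => rw [← this]
      exact pow_orderOf_eq_one _
  have hsum : (Finset.univ.erase (1 : G)).card =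
      ∑ b ∈ I, ((Finset.univ.erase (1 : G)).filter fun a => f a = b).card :=
    Finset.card_eq_sum_card_fiberwise fun a ha => hf a (by simpa using ha)
  have hfib : ∀ b ∈ I, ((Finset.univ.erase (1 : G)).filter fun a => f a = b).card =
      ((Finset.univ.erase (1 : G)).filter fun a => f a = z).card := by
    intro b hb
    obtain ⟨a, rfl⟩ := htrans z b hz3 hz2 ((hI b).1 hb).1 ((hI b).1 hb).2
    symm
    refine Finset.card_equiv a.toEquiv fun x => ?_
    have : f (a x) = a (f x) := by simp only [f, map_pow, a.orderOf_eq]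
    simp [this]
  rw [Finset.sum_congr rfl hfib, Finset.sum_const, smul_eq_mul, Finset.card_erase_of_mem (by simp),
    Finset.card_erase_of_mem (by simp), card_filter_mem, Finset.card_univ,
    ← Nat.card_eq_fintype_card, hn, ht] at hsum
  have h2 : 2 ^ t - 1 ∣ 2 ^ n - 1 := Dvd.intro _ hsum.symm
  have h3 := Nat.pow_sub_one_gcd_pow_sub_one 2 t n
  rw [Nat.gcd_eq_left h2] at h3
  have h4 : 2 ^ t = 2 ^ t.gcd n := by
    have := Nat.one_le_two_pow (n := t)
    have := Nat.one_le_two_pow (n := t.gcd n)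
    omega
  obtain ⟨m, hm⟩ : t ∣ n := (Nat.pow_right_injective le_rfl h4) ▸ Nat.gcd_dvd_right t n
  exact ⟨m, by rw [hn, ht, hm, pow_mul]⟩

end Cfsg.Agent.S3774
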