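import Cfsg.Statements.S3775
import Mathlib
import Cfsg.Agent.H1.Products

set_option autoImplicit false
open Cfsg

namespace Cfsg.Agent.S3775

open Subgroup

def Iv {A : Type*} [Group A] (X : Subgroup (MulAut A)) (B : Subgroup A) : Prop := ∀ x ∈ X, ∀ a ∈ B, x a ∈ B

theorem iv_iff {A : Type*} [Group A] {X : Subgroup (MulAut A)} {B : Subgroup A} :
    (∀ x ∈ X, B.map x.toMonoidHom = B) ↔ Iv X B :=
  ⟨fun h x hx a ha => (h x hx).le ⟨a, ha, rfl⟩, fun h x hx => le_antisymm (by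
    rintro _ ⟨a, ha, rfl⟩; exact h x hx a ha) fun a ha => ⟨x⁻¹ a, h _ (X.inv_mem hx) a ha, by simp⟩⟩

section
variable {A : Type*} [CommGroup A] {X : Subgroup (MulAut A)} {B C K N : Subgroup A}

theorem Iv.inf (h : Iv X B) (h' : Iv X C) : Iv X (B ⊓ C) := fun x hx a ha => ⟨h x hx a ha.1, h' x hx a ha.2⟩

theorem Iv.sup (h : Iv X B) (h' : Iv X C) : Iv X (B ⊔ C) := fun x hx a ha => by
  obtain ⟨b, hb, c, hc, rfl⟩ := mem_sup.1 ha
  rw [map_mul]
  exact mul_mem_sup (h x hx b hb) (h' x hx c hc)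

theorem Iv.map (h : Iv X B) (n : ℕ) : Iv X (B.map (powMonoidHom n)) := by
  rintro x hx _ ⟨a, ha, rfl⟩
  exact ⟨x a, h x hx a ha, (map_pow x a n).symm⟩

theorem Iv.comap (h : Iv X B) (n : ℕ) : Iv X (B.comap (powMonoidHom n)) := fun x hx a ha => by
  have := h x hx _ ha
  rwa [powMonoidHom_apply, map_pow] at this

theorem iv_bot : Iv X (⊥ : Subgroup A) := fun x _ a ha => by rw [mem_bot.1 ha, map_one]; exact one_mem _

theorem sec_maschke [Finite A] {p : ℕ} (hp : p.Prime) (hX : (Nat.card X).Coprime p) (hN : Iv X N) (hK : Iv X K)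
    (hB : Iv X B) (h1 : N ≤ K) (h2 : K ≤ B) (h3 : ∀ b ∈ B, b ^ p ∈ N) :
    ∃ C, Iv X C ∧ N ≤ C ∧ C ≤ B ∧ C ⊓ K ≤ N ∧ B ≤ C ⊔ K := by
  let G := A ⋊[X.subtype] X
  haveI : Finite G := Finite.of_equiv _ SemidirectProduct.equivProd.symm
  let i : A →* G := SemidirectProduct.inl
  have hi : ∀ (g : G) a, g * i a * g⁻¹ = i (g.right.1 a) := fun g a => by
    refine SemidirectProduct.ext ?_ (by simp [i, G])
    simp [i, G, mul_comm, mul_left_comm]
  haveI : (N.map i).Normal := ⟨by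
    rintro _ ⟨a, ha, rfl⟩ g
    exact ⟨_, hN _ g.right.2 a ha, (hi g a).symm⟩⟩
  let f : A →* G ⧸ N.map i := (QuotientGroup.mk' _).comp i
  let y : X →* G ⧸ N.map i := (QuotientGroup.mk' _).comp SemidirectProduct.inr
  have hf : ∀ (x : X) a, y x * f a * (y x)⁻¹ = f (x.1 a) := fun x a =>
    congrArg (QuotientGroup.mk' (N.map i)) (hi (SemidirectProduct.inr x) a)
  have hker : f.ker = N := by
    rw [← MonoidHom.comap_ker, QuotientGroup.ker_mk', comap_map_eq_self_of_injective SemidirectProduct.inl_injective]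
  have hn : ∀ D, Iv X D → y.range ≤ normalizer (D.map f : Set _) := by
    rintro D hD _ ⟨x, rfl⟩
    refine mem_normalizer_fintype ?_
    rintro _ ⟨a, ha, rfl⟩
    exact ⟨_, hD _ x.2 a ha, (hf x a).symm⟩
  obtain ⟨W, w1, w2, w3⟩ := H1.maschke_elementary hp (V := B.map f) (U := K.map f) (A := y.range)
    ⟨⟨⟨by
      rintro ⟨_, a, ha, rfl⟩ ⟨_, b, hb, rfl⟩
      exact Subtype.ext (show f a * f b = f b * f a by rw [← map_mul, mul_comm, map_mul])⟩⟩, by
      rintro _ ⟨a, ha, rfl⟩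
      rw [← map_pow]
      exact hker.ge (h3 a ha)⟩ (hn B hB) (hX.coprime_dvd_left (card_range_dvd y)) (map_mono h2) (hn K hK)
  have w4 : W ≤ B.map f := w3 ▸ le_sup_right
  refine ⟨W.comap f, fun x hx a ha => ?_, hker.ge.trans (ker_le_comap f W), ?_, fun a ha => hker.le ?_, ?_⟩
  · exact mem_comap.2 (hf ⟨x, hx⟩ a ▸ (mem_normalizer_iff.1 (w1 ⟨⟨x, hx⟩, rfl⟩) _).1 ha)
  · refine (comap_mono w4).trans ?_
    rw [comap_map_eq, hker]
    exact sup_le le_rfl (h1.trans h2)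
  · exact mem_bot.1 (w2.le ⟨⟨a, ha.2, rfl⟩, ha.1⟩)
  · refine (le_comap_map f B).trans ?_
    rw [← w3, ← comap_sup_eq_of_le_range f (map_le_range f K) (w4.trans (map_le_range f B)), comap_map_eq, hker,
      sup_eq_left.2 h1, sup_comm]

theorem pow_aux {p n j : ℕ} (h : j ≤ n) (a : A) : (a ^ p ^ (n - j)) ^ p ^ j = a ^ p ^ n := by
  rw [← pow_mul, ← pow_add, Nat.sub_add_cancel h]

theorem exists_exp [Finite A] {p : ℕ} [Fact p.Prime] (hA : IsPGroup p A) (hB : B ≠ ⊥) :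
    ∃ n, (∀ b ∈ B, b ^ p ^ (n + 1) = 1) ∧ ∃ b ∈ B, b ^ p ^ n ≠ 1 := by
  classical
  have h : ∃ n, ∀ b ∈ B, b ^ p ^ n = 1 := by
    obtain ⟨n, hn⟩ := IsPGroup.iff_card.1 hA
    exact ⟨n, fun b _ => hn ▸ pow_card_eq_one'⟩
  have h1 := Nat.find_spec h
  have h2 := fun m => Nat.find_min h (m := m)
  generalize Nat.find h = k at h1 h2
  cases k with
  | zero => exact absurd (eq_bot_iff.2 fun b hb => by simpa using h1 b hb) hB
  | succ n => exact ⟨n, h1, by simpa using h2 n n.lt_succ_self⟩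

end

/-- Let A be a finite abelian p-group and X a group of automorphisms of A of order prime to p. Call a subgroup of A invariant when every element of X maps it onto itself. Then the following are equivalent: (i) A is not the direct product of two nontrivial invariant subgroups; (ii) every invariant subgroup of A is one of the subgroups Ω_i(A) = {a : a^(p^i) = 1}; (iii) the subgroup Ω₁(A) of elements of order dividing p has no invariant subgroups other than 1 and itself. -/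
theorem result {A : Type*} [CommGroup A] [Finite A] {p : ℕ} [Fact p.Prime] (hA : IsPGroup p A) (X : Subgroup (MulAut A)) (hX : (Nat.card X).Coprime p) : ((¬ ∃ B C : Subgroup A, B ≠ ⊥ ∧ C ≠ ⊥ ∧ (∀ x ∈ X, B.map x.toMonoidHom = B) ∧ (∀ x ∈ X, C.map x.toMonoidHom = C) ∧ B ⊓ C = ⊥ ∧ B ⊔ C = ⊤) ↔ (∀ B : Subgroup A, (∀ x ∈ X, B.map x.toMonoidHom = B) → ∃ i : ℕ, ∀ a : A, a ∈ B ↔ a ^ p ^ i = 1)) ∧ ((∀ B : Subgroup A, (∀ x ∈ X, B.map x.toMonoidHom = B) → ∃ i : ℕ, ∀ a : A, a ∈ B ↔ a ^ p ^ i = 1) ↔ (∀ B : Subgroup A, (∀ x ∈ X, B.map x.toMonoidHom = B) → (∀ b ∈ B, b ^ p = 1) → B = ⊥ ∨ ∀ a : A, a ∈ B ↔ a ^ p = 1)) := by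
  classical
  have hp : p.Prime := Fact.out
  simp only [iv_iff]
  have h32 : (∀ B : Subgroup A, Iv X B → (∀ b ∈ B, b ^ p = 1) → B = ⊥ ∨ ∀ a : A, a ∈ B ↔ a ^ p = 1) →
      ∀ B : Subgroup A, Iv X B → ∃ i : ℕ, ∀ a : A, a ∈ B ↔ a ^ p ^ i = 1 := fun h B hB => by
    by_cases h0 : B = ⊥
    · exact ⟨0, fun a => by simp [h0]⟩
    obtain ⟨n, n1, b, hb, n2⟩ := exists_exp hA h0
    refine ⟨n + 1, fun a => ⟨n1 a, ?_⟩⟩
    have h1 := (h _ (hB.map (p ^ n)) (by
      rintro _ ⟨c, hc, rfl⟩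
      rw [powMonoidHom_apply, ← pow_mul, ← pow_succ, n1 c hc])).resolve_left
      fun e => n2 (mem_bot.1 (e.le ⟨b, hb, rfl⟩))
    suffices ∀ j ≤ n + 1, ∀ a : A, a ^ p ^ j = 1 → a ∈ B from this _ le_rfl a
    intro j
    induction j with
    | zero => intro _ a ha; rw [pow_zero, pow_one] at ha; exact ha ▸ B.one_mem
    | succ j ih =>
      intro hj a ha
      obtain ⟨c, hc, e⟩ := (h1 (a ^ p ^ j)).2 (by rw [← pow_mul, ← pow_succ, ha])
      rw [powMonoidHom_apply, ← pow_aux (Nat.le_of_succ_le_succ hj)] at e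
      have := ih (by omega) (a / c ^ p ^ (n - j)) (by rw [div_pow, e, div_self'])
      exact (div_mul_cancel a (c ^ p ^ (n - j))) ▸ B.mul_mem this (B.pow_mem hc _)
  refine ⟨⟨fun h => h32 fun W hW hWp => ?_, ?_⟩, fun h B hB hBp => ?_, h32⟩
  · refine or_iff_not_imp_left.2 fun h0 a => ⟨hWp a, ?_⟩
    obtain ⟨n, n1, n2⟩ := exists_exp hA (B := ⊤) fun e => h0 (eq_bot_iff.2 (le_top.trans e.le))
    obtain ⟨B, -, ⟨hB, b0, hb0, b1⟩, hmin⟩ := Finite.exists_le_minimal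
      (p := fun B : Subgroup A => Iv X B ∧ ∃ b ∈ B, b ^ p ^ n ≠ 1) (a := ⊤) ⟨fun _ _ _ _ => trivial, n2⟩
    have s1 : ∀ b ∈ B, b ^ p ^ n = 1 → ∃ c ∈ B, c ^ p = b := by
      obtain ⟨C, c1, c2, c3, c4, c5⟩ := sec_maschke hp hX (hB.map p) (hB.inf (iv_bot.comap (p ^ n))) hB (by
        rintro _ ⟨c, hc, rfl⟩
        exact ⟨B.pow_mem hc _, mem_bot.2 (by
          rw [powMonoidHom_apply, powMonoidHom_apply, ← pow_mul, ← pow_succ', n1 c trivial])⟩) inf_le_left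
        fun b hb => ⟨b, hb, rfl⟩
      obtain ⟨c, hc, k, hk, rfl⟩ := mem_sup.1 (c5 hb0)
      have hk' : k ^ p ^ n = 1 := mem_bot.1 hk.2
      rw [mul_pow, hk', mul_one] at b1
      exact fun b hb e => c4 ⟨hmin ⟨c1, c, hc, b1⟩ c3 hb, hb, mem_bot.2 e⟩
    have s2 : ∀ j ≤ n, ∀ b ∈ B, b ^ p = 1 → ∃ c ∈ B, c ^ p ^ j = b := by
      intro j hj b hb e
      induction j with
      | zero => exact ⟨b, hb, by simp⟩
      | succ j ih =>
        obtain ⟨c, hc, rfl⟩ := ih (by omega)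
        obtain ⟨d, hd, rfl⟩ := s1 c hc (by
          rw [← Nat.add_sub_cancel' hj, pow_add, pow_mul, pow_succ, pow_mul, e, one_pow])
        exact ⟨d, hd, by rw [pow_succ', pow_mul]⟩
    obtain ⟨C, -, ⟨hC, c0⟩, hmax⟩ := Finite.exists_le_maximal
      (p := fun C : Subgroup A => Iv X C ∧ C ⊓ B = ⊥) (a := ⊥) ⟨iv_bot, bot_inf_eq _⟩
    have s3 : ∀ a : A, a ^ p ∈ C → a ∈ B ⊔ C := by
      have hCS : C ≤ C.comap (powMonoidHom p) := fun c hc => C.pow_mem hc p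
      obtain ⟨D, d1, d2, d3, d4, d5⟩ := sec_maschke hp hX hC ((hB.sup hC).inf (hC.comap p)) (hC.comap p)
        (le_inf le_sup_right hCS) inf_le_right fun b hb => hb
      have := hmax ⟨d1, eq_bot_iff.2 fun d hd => c0.le ⟨d4 ⟨hd.1, mem_sup_left hd.2, d3 hd.1⟩, hd.2⟩⟩ d2
      exact fun a ha => sup_le (this.trans le_sup_right) inf_le_left (d5 ha)
    have s4 : ∀ j ≤ n + 1, ∀ a : A, a ^ p ^ j ∈ C → a ∈ B ⊔ C := by
      intro j
      induction j with
      | zero => intro _ a ha; rw [pow_zero, pow_one] at ha; exact mem_sup_right ha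
      | succ j ih =>
        intro hj a ha
        rw [pow_succ, pow_mul] at ha
        obtain ⟨b, hb, c, hc, e⟩ := mem_sup.1 (s3 _ ha)
        rw [← e, mul_pow, C.mul_mem_cancel_right (C.pow_mem hc _)] at ha
        obtain ⟨d, hd, rfl⟩ := s2 j (by omega) b hb (mem_bot.1 (c0.le ⟨ha, B.pow_mem hb _⟩))
        have := ih (by omega) (a / d) (by rw [div_pow, ← e, mul_div_cancel_left]; exact hc)
        exact (div_mul_cancel a d) ▸ mul_mem this (mem_sup_left hd)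
    have s5 : B ⊔ C = ⊤ := eq_top_iff.2 fun a _ => s4 _ le_rfl a (n1 a trivial ▸ C.one_mem)
    have s6 : C = ⊥ := by
      by_contra e
      exact h ⟨B, C, fun e => b1 (by rw [mem_bot.1 (e.le hb0), one_pow]), e, hB, hC, inf_comm C B ▸ c0, s5⟩
    rw [s6, sup_bot_eq] at s5
    subst s5
    obtain ⟨⟨w, hw⟩, w1⟩ := ne_bot_iff_exists_ne_one.1 h0
    obtain ⟨c, -, rfl⟩ := s2 n le_rfl w trivial (hWp w hw)
    have := hmin ⟨hW.comap (p ^ n), c, hw, fun e => w1 (Subtype.ext e)⟩ le_top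
    intro ha
    obtain ⟨d, hd, rfl⟩ := s2 n le_rfl a trivial ha
    exact this hd
  · rintro h ⟨B, C, b0, c0, hB, hC, h1, -⟩
    obtain ⟨i, hi⟩ := h B hB
    obtain ⟨j, hj⟩ := h C hC
    rcases le_total i j with e | e
    · exact b0 (eq_bot_iff.2 fun a ha => h1.le ⟨ha, (hj a).2 (by
        rw [← Nat.add_sub_cancel' e, pow_add, pow_mul, (hi a).1 ha, one_pow])⟩)
    · exact c0 (eq_bot_iff.2 fun a ha => h1.le ⟨(hi a).2 (by
        rw [← Nat.add_sub_cancel' e, pow_add, pow_mul, (hj a).1 ha, one_pow]), ha⟩)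
  · obtain ⟨i, hi⟩ := h B hB
    cases i with
    | zero => exact .inl (eq_bot_iff.2 fun a ha => by simpa using (hi a).1 ha)
    | succ i => exact .inr fun a => ⟨hBp a, fun e => (hi a).2 (by rw [pow_succ', pow_mul, e, one_pow])⟩

end Cfsg.Agent.S3775
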