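import Cfsg.Statements.S3778
import Mathlib
import Cfsg.Agent.H1.Basic

set_option autoImplicit false
open Cfsg

namespace Cfsg.Agent.S3778

open Subgroup
open scoped commutatorElement

/-- If G is a finite p-group in which every conjugacy class has at most p^b elements (every element has centralizer of index at most p^b), then G is abelian when b = 0, and when b ≥ 1 its nilpotency class c satisfies (c − 1)(p − 1) < bp, that is c < bp/(p − 1) + 1, and hence c ≤ 2b. -/
theorem result {G : Type*} [Group G] [Finite G] {p : ℕ} [Fact p.Prime] (hG : IsPGroup p G) (b : ℕ) (hb : ∀ x : G, (Subgroup.centralizer ({x} : Set G)).index ≤ p ^ b) : ∃ c : ℕ, (⊤ : Subgroup G).lowerCentralSeries c = ⊥ ∧ (b ≠ 0 → (c - 1) * (p - 1) < b * p ∧ c ≤ 2 * b) ∧ (b = 0 → c ≤ 1) := by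
  classical
  haveI := Fintype.ofFinite G
  have hp : p.Prime := Fact.out
  have h2 := hp.two_le
  set γ := (⊤ : Subgroup G).lowerCentralSeries with hγ
  have hex : ∃ c, γ c = ⊥ := Subgroup.nilpotent_iff_lowerCentralSeries.1 hG.isNilpotent
  obtain ⟨N, hN⟩ := IsPGroup.iff_card.1 hG
  have hdiv : ∀ n : ℕ, n ∣ Nat.card G → n ≠ 1 → p ∣ n := fun n h1 h2 => by
    obtain ⟨k, -, rfl⟩ := (Nat.dvd_prime_pow hp).1 (hN ▸ h1)
    exact dvd_pow_self p (by rintro rfl; exact h2 rfl)
  let A : ℕ → Subgroup G := fun i =>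
    (centralizer ((γ i).map (QuotientGroup.mk' (γ (i + 2))) : Set (G ⧸ γ (i + 2)))).comap (QuotientGroup.mk' _)
  have hA : ∀ i g, g ∈ A i ↔ ∀ y ∈ γ i, ⁅y, g⁆ ∈ γ (i + 2) := fun i g =>
    ⟨fun h y hy => (QuotientGroup.eq_one_iff _).1 (commutatorElement_eq_one_iff_mul_comm.2 (h _ ⟨y, hy, rfl⟩)), by
      rintro h _ ⟨y, hy, rfl⟩
      exact commutatorElement_eq_one_iff_mul_comm.1 ((QuotientGroup.eq_one_iff ⁅y, g⁆).2 (h y hy))⟩
  have hA1 : ∀ i ∈ Finset.range (Nat.find hex - 1), p * Nat.card (A i) ≤ Nat.card G := fun i hi => by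
    rw [← (A i).index_mul_card]
    refine Nat.mul_le_mul_right _ (Nat.le_of_dvd (Nat.pos_of_ne_zero FiniteIndex.index_ne_zero)
      (hdiv _ (A i).index_dvd_card fun e => ?_))
    have h1 : γ (i + 1) ≤ γ (i + 2) := commutator_le.2 fun y hy g _ => (hA i g).1 (index_eq_one.1 e ▸ mem_top g) y hy
    have h3 : ∀ k, γ (i + 1) ≤ γ (i + 1 + k) := fun k => by
      induction k with
      | zero => exact le_rfl
      | succ k ih => exact h1.trans (commutator_mono ih le_rfl)
    rw [Finset.mem_range] at hi
    have h4 := h3 (Nat.find hex - (i + 1))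
    rw [show i + 1 + (Nat.find hex - (i + 1)) = Nat.find hex by omega, Nat.find_spec hex] at h4
    exact Nat.find_min hex (show i + 1 < Nat.find hex by omega) (le_bot_iff.1 h4)
  have hf : ∀ x n, p ^ ((Finset.range n).filter fun i => x ∉ A i).card ∣ (γ n ⊔ centralizer {x}).index := fun x n => by
    induction n with
    | zero => simp
    | succ n ih =>
      have hle : γ (n + 1) ⊔ centralizer {x} ≤ γ n ⊔ centralizer {x} :=
        sup_le_sup_right (Subgroup.lowerCentralSeries_antitone _ n.le_succ) _
      rw [Finset.range_add_one, Finset.filter_insert, ← relIndex_mul_index hle]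
      by_cases h : x ∉ A n
      · rw [if_pos h, Finset.card_insert_of_notMem (by simp), pow_succ']
        refine mul_dvd_mul (hdiv _ ((relIndex_dvd_index_of_le hle).trans (index_dvd_card _)) fun e => h ?_) ih
        refine (hA n x).2 fun y hy => ?_
        obtain ⟨z, hz, c, hc, rfl⟩ := mem_sup_of_normal_left.1 (relIndex_eq_one.1 e (mem_sup_left hy))
        have : ⁅z * c, x⁆ = ⁅z, x⁆ := by
          rw [commutatorElement_def, commutatorElement_def, mul_assoc z, mem_centralizer_singleton_iff.1 hc]; group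
        exact this ▸ commutator_mem_commutator hz (mem_top x)
      · rw [if_neg h]; exact ih.mul_left _
  have hf' : ∀ x n, ((Finset.range n).filter fun i => x ∉ A i).card ≤ b := fun x n =>
    (Nat.pow_le_pow_iff_right hp.one_lt).1 ((Nat.le_of_dvd (Nat.pos_of_ne_zero FiniteIndex.index_ne_zero)
      ((hf x n).trans (index_dvd_of_le le_sup_right))).trans (hb x))
  have hc := Nat.find_spec hex
  generalize Nat.find hex = c at hA1 hc
  have h3 : ∑ x : G, ((Finset.range (c - 1)).filter fun i => x ∉ A i).card =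
      ∑ i ∈ Finset.range (c - 1), (Finset.univ.filter fun x => x ∉ A i).card := by
    simp only [Finset.card_filter]
    exact Finset.sum_comm
  have h4 : ∑ x : G, ((Finset.range (c - 1)).filter fun i => x ∉ A i).card ≤ (Nat.card G - 1) * b := by
    rw [← Finset.sum_erase (a := (1 : G)) _ (by simp), Nat.card_eq_fintype_card]
    simpa using Finset.sum_le_card_nsmul (Finset.univ.erase (1 : G)) _ b fun x _ => hf' x (c - 1)
  have h5 : (c - 1) * ((p - 1) * Nat.card G) ≤
      ∑ i ∈ Finset.range (c - 1), p * (Finset.univ.filter fun x => x ∉ A i).card := by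
    have := Finset.card_nsmul_le_sum (Finset.range (c - 1)) (fun i => p * (Finset.univ.filter fun x => x ∉ A i).card)
      ((p - 1) * Nat.card G) fun i hi => by
        have e1 := hA1 i hi
        have e2 := Finset.card_filter_add_card_filter_not (s := Finset.univ) fun x => x ∈ A i
        rw [Finset.card_univ, ← Nat.card_eq_fintype_card, ← Fintype.card_subtype, ← Nat.card_eq_fintype_card] at e2
        obtain ⟨q, rfl⟩ := Nat.exists_eq_add_of_le' hp.one_le
        simp only [Nat.add_sub_cancel]
        nlinarith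
    simpa using this
  rw [← Finset.mul_sum, ← h3] at h5
  have h6 := h5.trans (Nat.mul_le_mul_left p h4)
  have h7 : 0 < Nat.card G := Nat.card_pos
  obtain ⟨g, hg⟩ := Nat.exists_eq_add_of_le' h7
  obtain ⟨q, rfl⟩ := Nat.exists_eq_add_of_le' h2
  rw [hg] at h6
  simp only [Nat.add_sub_cancel, show q + 2 - 1 = q + 1 from rfl] at h6 ⊢
  refine ⟨c, hc, fun hb0 => ?_, fun hb0 => ?_⟩
  · have h8 : (c - 1) * (q + 1) < b * (q + 2) := by
      by_contra h
      have := Nat.mul_le_mul_right (g + 1) (not_lt.1 h)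
      have := Nat.pos_of_ne_zero hb0
      nlinarith
    refine ⟨h8, by_contra fun h => ?_⟩
    have := Nat.mul_le_mul_right (q + 1) (show 2 * b ≤ c - 1 by omega)
    nlinarith
  · subst hb0
    simp only [mul_zero, Nat.le_zero, mul_eq_zero] at h6
    omega

end Cfsg.Agent.S3778
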