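import Cfsg.Statements.S3780
import Mathlib
import Cfsg.Agent.L.PGroup
import Cfsg.Agent.L.Frattini

set_option autoImplicit false
open Cfsg

namespace Cfsg.Agent.S3780

open Subgroup

/-- Let V be a finite abelian p-group and α an automorphism of V of order p whose fixed-point subgroup has order p^n. Then V can be generated by pn elements: some subset of V with at most pn elements generates V. -/
theorem result {V : Type*} [CommGroup V] [Finite V] {p : ℕ} [Fact p.Prime] (hV : IsPGroup p V) (α : MulAut V) (hα : orderOf α = p) (n : ℕ) (hfix : Nat.card {v : V // α v = v} = p ^ n) : ∃ S : Finset V, S.card ≤ p * n ∧ Subgroup.closure (S : Set V) = ⊤ := by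
  have hp : p.Prime := Fact.out
  let φ : MulAut V →* AddMonoid.End (Additive V) :=
    ⟨⟨fun β => MonoidHom.toAdditive β.toMonoidHom, rfl⟩, fun _ _ => rfl⟩
  let τ : ℕ → V →* V := fun i => MonoidHom.toAdditive.symm ((φ α - 1) ^ i : AddMonoid.End (Additive V))
  have h1 : ∀ i, Nat.card (τ i).ker ≤ (p ^ n) ^ i := fun i => by
    induction i with
    | zero => exact ((card_eq_one (H := (τ 0).ker)).2 (MonoidHom.ker_id)).le
    | succ i ih =>
      have h2 : (τ (i + 1)).ker = (τ i).ker.comap (α.toMonoidHom / MonoidHom.id V) := by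
        simp only [τ, pow_succ]; rfl
      rw [h2, pow_succ']
      exact (L.card_comap_le _ _).trans (Nat.mul_le_mul (hfix ▸ (Nat.card_congr (Equiv.subtypeEquivRight fun v =>
        div_eq_one)).le) ih)
  have h2 : (powMonoidHom p : V →* V).ker ≤ (τ p).ker := fun v hv => by
    obtain ⟨r, hr⟩ := (Commute.one_right (φ α - 1)).exists_add_pow_prime_eq hp
    rw [sub_add_cancel, ← map_pow, ← hα, pow_orderOf_eq_one, map_one, hα, one_pow, add_right_comm, right_eq_add,
      add_eq_zero_iff_eq_neg, mul_assoc, mul_assoc, (Nat.cast_commute p _).eq] at hr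
    simp only [τ, hr]
    show -((φ α - 1) * (1 * r)) (p • Additive.ofMul v) = 0
    rw [show p • Additive.ofMul v = 0 from hv, map_zero, neg_zero]
  obtain ⟨d, hd⟩ := (hV.to_subgroup (powMonoidHom p : V →* V).ker).exists_card_eq
  obtain ⟨T, -, h3, h4⟩ := L.exists_basis_subset (N := (powMonoidHom p : V →* V).range) (p := p) (n := d)
    (by simp [commutator_eq_bot]) (fun x => ⟨x, rfl⟩) (by rw [index_range, hd]) Set.univ (by simp)
  refine ⟨T, h3 ▸ (Nat.pow_le_pow_iff_right hp.one_lt).1 ?_, frattini_nongenerating (top_le_iff.1 (h4.ge.trans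
    (sup_le_sup_left ?_ _)))⟩
  · rw [← hd, mul_comm, pow_mul]
    exact (card_le_of_le h2).trans (h1 p)
  · rintro _ ⟨x, rfl⟩
    exact L.pow_mem_frattini hV x

end Cfsg.Agent.S3780
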