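import Cfsg.Statements.S3781
import Cfsg.Agent.H9.TJ
import Cfsg.Agent.H2.Chief
import Cfsg.Agent.H1.Frattini
import Cfsg.Agent.L.Fitting

set_option autoImplicit false
open Cfsg

namespace Cfsg.Agent.S3781

open Cfsg.Agent Cfsg.Agent.H9
theorem ic_normal {G : Type*} [Group G] (M : Subgroup G) [M.Normal] (k : ℕ) : (iterCommutator M ⊤ k).Normal := by
  induction k with
  | zero => exact ‹M.Normal›
  | succ k ih => rw [H2.ic_succ]; infer_instance

theorem comm_lcs {G : Type*} [Group G] (k : ℕ) : ∀ (M : Subgroup G) [M.Normal],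
    ⁅M, (⊤ : Subgroup G).lowerCentralSeries k⁆ ≤ iterCommutator M ⊤ (k + 1) := by
  induction k with
  | zero => intro M _; exact le_rfl
  | succ k ih =>
    intro M _
    haveI := ic_normal M (k + 1 + 1)
    rw [Subgroup.commutator_comm, Subgroup.lowerCentralSeries_succ]
    refine H1.three_subgroups_normal ?_ ?_
    · rw [Subgroup.commutator_comm ⊤ M, add_comm (k + 1) 1, H2.ic_add]
      exact ih ⁅M, ⊤⁆
    · exact Subgroup.commutator_mono (ih M) le_rfl

/-- Let G be a finite p-group and n ≥ 1, and write γ_1(G) = G, γ_{k+1}(G) = [γ_k(G), G], and likewise γ_k(N) for a subgroup N. Let N be a normal subgroup of G contained in γ_n(G). If i > 1 and γ_{i+1}(N) ≠ 1, then |γ_i(N) : γ_{i+1}(N)| ≥ p^n. -/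
theorem result {G : Type*} [Group G] [Finite G] {p : ℕ} [Fact p.Prime] (hG : IsPGroup p G) (n : ℕ) (hn : 1 ≤ n) (N : Subgroup G) [N.Normal] (hN : N ≤ (⊤ : Subgroup G).lowerCentralSeries (n - 1)) (i : ℕ) (hi : 1 < i) (hne : N.lowerCentralSeries i ≠ ⊥) : p ^ n ≤ (N.lowerCentralSeries i).relIndex (N.lowerCentralSeries (i - 1)) := by
  obtain ⟨n, rfl⟩ : ∃ k, n = k + 1 := ⟨n - 1, by omega⟩
  obtain ⟨i, rfl⟩ : ∃ k, i = k + 1 := ⟨i - 1, by omega⟩
  simp only [Nat.add_sub_cancel] at hN ⊢
  haveI := hG.isNilpotent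
  have hMn : ∀ j, (N.lowerCentralSeries j).Normal := fun j => by
    induction j with
    | zero => exact ‹N.Normal›
    | succ j ih => rw [Subgroup.lowerCentralSeries_succ]; infer_instance
  set M := N.lowerCentralSeries i with hM
  haveI := hMn i
  have h1 : N.lowerCentralSeries (i + 1) ≤ iterCommutator M ⊤ (n + 1) :=
    (Subgroup.commutator_mono le_rfl hN).trans (comm_lcs n M)
  have h2 : ∀ k, iterCommutator M ⊤ k ≠ ⊥ → p ^ k * Nat.card (iterCommutator M ⊤ k) ≤ Nat.card M := by
    intro k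
    induction k with
    | zero => intro _; simp [H2.ic_zero]
    | succ k ih =>
      intro hk
      haveI := ic_normal M k
      have hk' : iterCommutator M ⊤ k ≠ ⊥ := fun e => hk (by rw [H2.ic_succ, e, Subgroup.commutator_bot_left])
      haveI : Group.IsNilpotent (⊤ : Subgroup G) := inferInstance
      have hlt : iterCommutator M ⊤ (k + 1) < iterCommutator M ⊤ k :=
        L.commutator_lt_of_isNilpotent le_top Subgroup.le_normalizer_of_normal hk'
      obtain ⟨a, ha⟩ := IsPGroup.iff_card.mp (hG.to_subgroup (iterCommutator M ⊤ (k + 1)))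
      obtain ⟨b, hb⟩ := IsPGroup.iff_card.mp (hG.to_subgroup (iterCommutator M ⊤ k))
      have h3 := L.card_lt_of_lt hlt
      rw [ha, hb, Nat.pow_lt_pow_iff_right (Fact.out : p.Prime).one_lt] at h3
      refine le_trans ?_ (ih hk')
      rw [ha, hb, ← pow_add, ← pow_add]
      exact Nat.pow_le_pow_right (Fact.out : p.Prime).pos (by omega)
  have h3 := h2 (n + 1) fun e => hne (le_bot_iff.mp (e ▸ h1))
  have h4 := Subgroup.relIndex_mul_relIndex ⊥ (N.lowerCentralSeries (i + 1)) M bot_le
    (Subgroup.lowerCentralSeries_antitone N (Nat.le_succ i))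
  rw [Subgroup.relIndex_bot_left, Subgroup.relIndex_bot_left] at h4
  rw [← h4, mul_comm] at h3
  exact Nat.le_of_mul_le_mul_left ((Nat.mul_le_mul_right _ (Subgroup.card_le_of_le h1)).trans h3) Nat.card_pos

end Cfsg.Agent.S3781
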