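import Cfsg.Statements.S3783
import Mathlib
import Cfsg.Agent.H2.HHG

set_option autoImplicit false
open Cfsg

namespace Cfsg.Agent.S3783

open Cfsg.Agent.H2 Cfsg.Agent.BG Subgroup

/-- Let G be a finite p-soluble group in which, for every prime q ≠ p, the Sylow q-subgroups are abelian. If the Sylow p-subgroups of G have exponent dividing p^n, then G has p-length at most n. -/
theorem result {G : Type*} [Group G] [Finite G] {p : ℕ} [Fact p.Prime] (hG : Cfsg.IsPSolvable p G) (hab : ∀ (q : ℕ) [Fact q.Prime], q ≠ p → ∀ Q : Sylow q G, IsMulCommutative (Q : Subgroup G)) (n : ℕ) (hexp : ∀ (P : Sylow p G), ∀ x ∈ (P : Subgroup G), x ^ p ^ n = 1) : Cfsg.PLengthLE p n G := by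
  refine plen_of_sylExp n G hG (fun n₀ q m h1 _ h3 h4 h5 Q hQ => ?_) hexp
  have := Fact.mk h3
  refine comm_eq_bot_of_sylow (hab q fun e => ?_) hQ
  subst e
  have h6 := (Nat.dvd_add_right (dvd_pow_self q (Nat.one_le_iff_ne_zero.1 h4))).1
    (by rw [← h5, Nat.sub_add_cancel (pow_pos h3.pos _)]; exact dvd_pow_self q (Nat.one_le_iff_ne_zero.1 h1) : q ∣ q ^ m + 1)
  exact h3.one_lt.ne' (Nat.dvd_one.1 h6)

end Cfsg.Agent.S3783
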