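import Cfsg.Statements.S3784
import Cfsg.Agent.H1.Misc

set_option autoImplicit false
open Cfsg

namespace Cfsg.Agent.S3784

open Cfsg.Agent.H1

/-- Let p, q be primes and a, b positive integers with p^a = q^b + 1. Then either p = 2, b = 1, a is prime and q = 2^a − 1; or q = 2, a = 1, b is a power of 2 and p = 2^b + 1; or p^a = 9 and q^b = 8. -/
theorem result (p q a b : ℕ) (hp : p.Prime) (hq : q.Prime) (ha : 1 ≤ a) (hb : 1 ≤ b) (h : p ^ a = q ^ b + 1) : (p = 2 ∧ b = 1 ∧ a.Prime ∧ q + 1 = 2 ^ a) ∨ (q = 2 ∧ a = 1 ∧ (∃ m : ℕ, b = 2 ^ m) ∧ p = 2 ^ b + 1) ∨ (p ^ a = 9 ∧ q ^ b = 8) := by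
  open Subgroup Pointwise commutatorElement in focus
    have odd_case : ∀ x n : ℕ, ∀ k : ℕ, Odd x → Odd n → ∑ i ∈ Finset.range n, x ^ i ∣ 2 ^ k → n = 1 := fun x n k hx hn hd => by
      have h1 : Odd (∑ i ∈ Finset.range n, x ^ i) := by
        rw [Finset.odd_sum_iff_odd_card_odd, Finset.filter_true_of_mem fun i _ => hx.pow, Finset.card_range]; exact hn
      have h2 := Nat.eq_one_of_dvd_coprimes ((Nat.coprime_two_right.2 h1).pow_right k) dvd_rfl hd
      obtain ⟨m, rfl⟩ := hn
      rcases m with _ | m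
      · rfl
      · rw [show 2 * (m + 1) + 1 = (2 * m + 1) + 1 + 1 by ring, Finset.sum_range_succ', Finset.sum_range_succ] at h2
        have := pow_pos hx.pos (2 * m + 1 + 1)
        rw [pow_zero] at h2
        omega
    rcases hp.eq_two_or_odd' with rfl | hpo
    · left
      have hqo : Odd q := hq.odd_of_ne_two fun e => by
        subst e
        have := (Nat.dvd_add_right (dvd_pow_self 2 (by omega : b ≠ 0))).1 (h ▸ dvd_pow_self 2 (by omega : a ≠ 0))
        omega
      have hq1 : 1 < q ^ b := Nat.one_lt_pow (by omega) hq.one_lt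
      have ha2 : 2 ≤ a := by
        by_contra hc
        obtain rfl : a = 1 := by omega
        omega
      have hb1 : b = 1 := by
        rcases Nat.even_or_odd b with ⟨c, rfl⟩ | hbo
        · exfalso
          obtain ⟨t, ht⟩ := (hqo.pow (n := c))
          have h4 : 4 ∣ 2 ^ a := (pow_dvd_pow 2 ha2)
          rw [h, pow_add, ht] at h4
          have : (2 * t + 1) * (2 * t + 1) + 1 = 4 * (t * t + t) + 2 := by ring
          omega
        · obtain ⟨c, rfl⟩ := hbo
          have h1 : q + 1 ∣ 2 ^ a := h ▸ by simpa using Odd.nat_add_dvd_pow_add_pow q 1 (odd_two_mul_add_one c)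
          obtain ⟨s, hs, e⟩ := (Nat.dvd_prime_pow Nat.prime_two).1 h1
          by_contra hc
          have hc0 : 0 < c := by omega
          have h2 : q ^ 2 ≡ 1 [MOD 2 * (q + 1)] := by
            obtain ⟨t, rfl⟩ := hqo
            exact ((Nat.modEq_iff_dvd' (by nlinarith)).2 ⟨t, by
              rw [show (2 * t + 1) ^ 2 = 2 * (2 * t + 1 + 1) * t + 1 by ring]; rfl⟩).symm
          have h3 : q ^ (2 * c + 1) + 1 ≡ q + 1 [MOD 2 * (q + 1)] := by
            have := ((h2.pow c).mul_right q).add_right 1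
            rwa [one_pow, one_mul, ← pow_mul, ← pow_succ] at this
          have hlt : s < a := by
            refine lt_of_le_of_ne hs fun e' => ?_
            rw [← e', ← e] at h
            have : q ^ 1 < q ^ (2 * c + 1) := Nat.pow_lt_pow_right hq.one_lt (by omega)
            rw [pow_one] at this
            omega
          have h5 : 2 * (q + 1) ∣ q ^ (2 * c + 1) + 1 := by
            rw [← h, e, ← pow_succ']; exact pow_dvd_pow 2 hlt
          have := Nat.le_of_dvd (by omega) ((h3.dvd_iff dvd_rfl).1 h5)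
          omega
      subst hb1
      rw [pow_one] at h
      exact ⟨rfl, rfl, (Nat.prime_of_pow_sub_one_prime (by omega) (by rw [h]; exact hq)).2, h.symm⟩
    right
    have hq2 : q = 2 := by
      by_contra hc
      have := (hq.odd_of_ne_two hc).pow (n := b)
      have h2 := hpo.pow (n := a)
      rw [h] at h2
      exact (Nat.not_even_iff_odd.2 h2) this.add_one
    subst hq2
    rcases Nat.even_or_odd a with ⟨c, rfl⟩ | hao
    · right
      have hc : 1 < p ^ c := Nat.one_lt_pow (by omega) hp.one_lt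
      obtain ⟨y, hy⟩ : ∃ y, p ^ c = y + 1 := ⟨p ^ c - 1, by omega⟩
      have e : y * (y + 2) = 2 ^ b := by rw [pow_add, hy] at h; nlinarith
      obtain ⟨s, -, e1⟩ := (Nat.dvd_prime_pow Nat.prime_two).1 (Dvd.intro _ e)
      obtain ⟨t, -, e2⟩ := (Nat.dvd_prime_pow Nat.prime_two).1 (Dvd.intro_left _ e)
      have hst : s < t := (Nat.pow_lt_pow_iff_right one_lt_two).1 (by omega)
      have h2 : 2 ^ s ∣ 2 ^ 1 := (Nat.dvd_add_right (e1 ▸ dvd_rfl)).1 (e2 ▸ pow_dvd_pow 2 hst.le)
      have hs := (Nat.pow_dvd_pow_iff_le_right one_lt_two).1 h2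
      have ho := hpo.pow (n := c)
      have : y = 2 := by
        interval_cases s
        · rw [hy, e1] at ho; exact absurd ho (by decide)
        · exact e1
      subst this
      exact ⟨by rw [pow_add, hy]; rfl, e.symm⟩
    · left
      have h1 : a = 1 := odd_case p a b hpo hao (Dvd.intro _ (by
        have := Nat.geomSum_eq hp.two_le a
        have h2 := Nat.sub_one_dvd_pow_sub_one p a
        rw [this, Nat.div_mul_cancel h2, h]; rfl))
      subst h1
      rw [pow_one] at h
      exact ⟨rfl, rfl, Nat.pow_of_pow_add_prime one_lt_two (by omega) (h ▸ hp), h⟩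

end Cfsg.Agent.S3784
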