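import Cfsg.Statements.S3785
import Cfsg.Agent.H8.Misc
import Cfsg.Agent.H2.Crit
import Cfsg.Agent.H8.Subnormal

set_option autoImplicit false
open Cfsg

namespace Cfsg.Agent.S3785

open Subgroup hiding commutator_def
open Function Cfsg.Agent.Hopf Cfsg.Agent.Reg
open scoped commutatorElement Pointwise


/-- Let G be a finite solvable group whose Fitting subgroup F(G) has odd order. If an element g of G commutes with every element of prime order of F(G), then g ∈ F(G). -/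
theorem result {G : Type*} [Group G] [Finite G] (hG : Group.IsSolvable G) (hodd : Odd (Nat.card (Cfsg.fittingSubgroup G))) (g : G) (hg : ∀ x ∈ Cfsg.fittingSubgroup G, (orderOf x).Prime → g * x = x * g) : g ∈ Cfsg.fittingSubgroup G := by
  obtain ⟨F, hF⟩ : ∃ F, F = Cfsg.fittingSubgroup G := ⟨_, rfl⟩
  haveI : F.Normal := hF ▸ inferInstance
  rw [← hF] at hodd hg ⊢
  obtain ⟨C, hC⟩ : ∃ C, C = centralizer {x | x ∈ F ∧ (orderOf x).Prime} := ⟨_, rfl⟩
  haveI : C.Normal := hC ▸ ⟨fun n hn y x hx => by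
    have h1 := hn (y⁻¹ * x * y⁻¹⁻¹) ⟨‹F.Normal›.conj_mem _ hx.1 y⁻¹, by
      rw [show orderOf (y⁻¹ * x * y⁻¹⁻¹) = orderOf x from (MulAut.conj y⁻¹).orderOf_eq x]
      exact hx.2⟩
    calc x * (y * n * y⁻¹) = y * (y⁻¹ * x * y⁻¹⁻¹ * n) * y⁻¹ := by group
      _ = y * n * y⁻¹ * x := by rw [h1]; group⟩
  have hgC : g ∈ C := hC ▸ fun x hx => (hg x hx.1 hx.2).symm
  by_contra hn
  have h1 : C.map (QuotientGroup.mk' F) ≠ ⊥ := fun e => hn (H1.map_mk'_eq_bot_iff.1 e hgC)
  haveI := hG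
  haveI : (C.map (QuotientGroup.mk' F)).Normal := Normal.map ‹_› _ (QuotientGroup.mk'_surjective F)
  obtain ⟨N, q, _, hN1, hNC, hq, hE, -⟩ := H1.exists_minimal_normal_elementary _ h1 inferInstance
  haveI := Fact.mk hq
  have hNq : IsPGroup q N := H1.isPGroup_iff_forall_mem.2 fun a ha => ⟨1, by simpa using hE.2 a ha⟩
  obtain ⟨Q, hQ⟩ := H2.exists_sylIn q (N.comap (QuotientGroup.mk' F) ⊓ C)
  have h2 : (N.comap (QuotientGroup.mk' F) ⊓ C).map (QuotientGroup.mk' F) = N := by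
    refine le_antisymm (map_le_iff_le_comap.2 inf_le_left) fun x hx => ?_
    obtain ⟨y, hy, rfl⟩ := hNC hx
    exact ⟨y, ⟨hx, hy⟩, rfl⟩
  have h3 := hQ.map (QuotientGroup.mk' F)
  rw [h2] at h3
  have h4 : N.comap (QuotientGroup.mk' F) = Q ⊔ F := by
    rw [h3.max N le_rfl hNq h3.le, H1.comap_map_mk']
  obtain ⟨T, hT⟩ : ∃ T, T = Q ⊔ Cfsg.pCore q G := ⟨_, rfl⟩
  have hTq : IsPGroup q T := hT ▸ hQ.pgrp.to_sup_of_normal_right (H1.isPGroup_pCore q G)
  have h5 : F ≤ normalizer (T : Set G) := by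
    rw [hF]
    refine H1.fittingSubgroup_le_of_forall_pCore fun p hp => ?_
    haveI := Fact.mk hp
    by_cases e : p = q
    · subst e
      exact (hT ▸ le_sup_right : Cfsg.pCore p G ≤ T).trans le_normalizer
    refine H1.le_normalizer_of_le_centralizer ?_
    rw [hT, H1.centralizer_sup]
    have hle : Cfsg.pCore p G ≤ F := hF ▸ H1.pCore_le_fittingSubgroup p
    refine le_inf (le_centralizer_iff.1 ?_)
      ((H1.pCore_le_pPrimeCore e).trans (H1.pPrimeCore_le_centralizer_pCore q))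
    refine H2.coprime_faithful_small (H1.isPGroup_pCore p G) le_normalizer_of_normal
      (H1.coprime_card_of_isPGroup hQ.pgrp ((Nat.coprime_primes hp hq).2 e)) fun x hx h6 _ => ?_
    by_cases hx1 : x = 1
    · rw [hx1]; exact one_mem _
    have hp2 : p ≠ 2 := by
      rintro rfl
      exact hodd.not_two_dvd_nat ((H1.dvd_card_of_isPGroup_of_ne_bot (H1.isPGroup_pCore 2 G)
        (fun e => hx1 (by rwa [e, mem_bot] at hx))).trans (card_dvd_of_le hle))
    intro y hy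
    have h7 : y ∈ C := (hQ.le hy).2
    rw [hC] at h7
    exact (h7 x ⟨hle hx, orderOf_eq_prime (h6 hp2) hx1 ▸ hp⟩).symm
  have h6 : H8.SN ⊤ T := (H8.SN.of_normal (N.comap (QuotientGroup.mk' F))).trans (by
    rw [h4]
    exact H8.SN.of_norm (hT ▸ sup_le_sup_left (hF ▸ H1.pCore_le_fittingSubgroup q) _)
      (sup_le ((hT ▸ le_sup_left : Q ≤ T).trans le_normalizer) h5))
  have h7 : T ≤ F := hF ▸ H1.le_fittingSubgroup_of_isSubnormal h6.isSubnormal hTq.isNilpotent
  refine hN1 ?_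
  rw [h3.max N le_rfl hNq h3.le, H1.map_mk'_eq_bot_iff]
  exact (hT ▸ le_sup_left : Q ≤ T).trans h7

end Cfsg.Agent.S3785
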