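import Cfsg.Statements.S3790
import Cfsg.Agent.H8.PLen

set_option autoImplicit false
open Cfsg

namespace Cfsg.Agent.S3790

open Subgroup hiding commutator_def
open Function Cfsg.Agent.Hopf Cfsg.Agent.Reg
open scoped commutatorElement Pointwise

universe u
theorem aux {p : ℕ} [hp : Fact p.Prime] {ι : Type} [DecidableEq ι] (q l : ι → ℕ) (hq : ∀ i, (q i).Prime ∧ q i ≠ p)
    (s : Finset ι) : ∀ (G : Type u) [Group G] [Finite G], (∀ t : ℕ, t.Prime → t ∣ Nat.card G → t ≠ p → ∃ i ∈ s, q i = t) →
    (∀ i ∈ s, PLengthLE (q i) (l i) G) → PLengthLE p (∏ i ∈ s, (1 + l i)) G := by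
  induction s using Finset.induction_on with
  | empty =>
    intro G _ _ h _
    exact plen_of_isPGroup (IsPGroup.iff_card.2 ⟨_, Nat.eq_prime_pow_of_unique_prime_dvd Nat.card_pos.ne'
      fun {t} ht hd => by_contra fun h' => by simpa using h t ht hd h'⟩)
  | insert i s hi ih =>
    have := Fact.mk (hq i).1
    have h0 : ∀ (G : Type u) [Group G] [Finite G], (∀ t : ℕ, t.Prime → t ∣ Nat.card G → t ≠ p → ∃ j ∈ insert i s, q j = t) →
        (∀ j ∈ s, haveI := Fact.mk (hq j).1; PLengthLE (q j) (l j) G) → (Nat.card G).Coprime (q i) →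
        PLengthLE p (∏ i ∈ s, (1 + l i)) G := fun G _ _ h1 h2 h3 => ih G (fun t ht hd hp => by
      obtain ⟨j, hj, rfl⟩ := h1 t ht hd hp
      rcases Finset.mem_insert.1 hj with rfl | hj
      · exact absurd (Nat.eq_one_of_dvd_coprimes h3 hd dvd_rfl) ht.one_lt.ne'
      · exact ⟨j, hj, rfl⟩) h2
    have key : ∀ (k : ℕ) (G : Type u) [Group G] [Finite G],
        (∀ t : ℕ, t.Prime → t ∣ Nat.card G → t ≠ p → ∃ j ∈ insert i s, q j = t) →
        (∀ j ∈ s, PLengthLE (q j) (l j) G) → PLengthLE (q i) k G → PLengthLE p ((1 + k) * ∏ i ∈ s, (1 + l i)) G := by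
      intro k
      induction k with
      | zero => exact fun G _ _ h1 h2 h3 => by rw [add_zero, one_mul]; exact h0 G h1 h2 (plen_zero.1 h3)
      | succ k ih2 =>
        intro G _ _ h1 h2 h3
        have h4 := ih2 _ (fun t ht hd => h1 t ht (hd.trans (card_quotient_dvd_card _)))
          (fun j hj => by have := Fact.mk (hq j).1; exact plen_surj _ (QuotientGroup.mk'_surjective _) (h2 j hj)) (plen_quot h3)
        have h5 : (Nat.card ((U (q i) G 1).subgroupOf (U (q i) G 2))).Coprime (q i) := by
          rw [H1.card_subgroupOf (U_le_succ 1), U, H2.ups_one]; exact H1.coprime_pPrimeCore _ _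
        have h6 := h0 _ (fun t ht hd => h1 t ht (hd.trans ((card_subgroup_dvd_card _).trans (card_subgroup_dvd_card _))))
          (fun j hj => by
            have := Fact.mk (hq j).1
            exact plen_inj _ (subtype_injective _) (plen_inj _ (subtype_injective _) (h2 j hj))) h5
        obtain ⟨m, hm⟩ := U_even_pow (G := G) (p := q i) 0
        have h7 := plen_ext' _ h6 (l := 0) (plen_zero.2 (by
          rw [show Nat.card (_ ⧸ _) = _ from hm]
          exact ((Nat.coprime_primes (hq i).1 hp.out).2 (hq i).2).pow_left m))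
        rw [show (1 + (k + 1)) * ∏ i ∈ s, (1 + l i) = ∏ i ∈ s, (1 + l i) + 0 + (1 + k) * ∏ i ∈ s, (1 + l i) by ring]
        exact plen_ext' _ h7 h4
    intro G _ _ h1 h2
    rw [Finset.prod_insert hi]
    exact key _ G h1 (fun j hj => h2 j (Finset.mem_insert_of_mem hj)) (h2 i (Finset.mem_insert_self _ _))

/-- Let G be a finite solvable group and p a prime. Suppose p₁, …, p_r are distinct primes, all different from p, that include every prime dividing the order of G other than p, and that G has p_i-length at most l_i for each i. Then G has p-length at most the product of the numbers 1 + l_i. -/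
theorem result {G : Type*} [Group G] [Finite G] (hG : Group.IsSolvable G) (p : ℕ) [Fact p.Prime] (r : ℕ) (q : Fin r → ℕ) (hq : ∀ i, (q i).Prime ∧ q i ≠ p) (hinj : Function.Injective q) (hcover : ∀ s : ℕ, s.Prime → s ∣ Nat.card G → s ≠ p → ∃ i, q i = s) (l : Fin r → ℕ) (hl : ∀ i, Cfsg.PLengthLE (q i) (l i) G) : Cfsg.PLengthLE p (Finset.univ.prod fun i => 1 + l i) G := by
  exact aux q l hq _ G (fun t ht hd hp => by simpa using hcover t ht hd hp) fun i _ => hl i

end Cfsg.Agent.S3790
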