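import Cfsg.Statements.S3791
import Cfsg.Agent.H8.PLen

set_option autoImplicit false
open Cfsg

namespace Cfsg.Agent.S3791

open Subgroup hiding commutator_def
open Function Cfsg.Agent.Hopf Cfsg.Agent.Reg
open scoped commutatorElement Pointwise


/-- The Hall–Higman bound on derived length: let G be a finite solvable group, let p₁, …, p_r be distinct primes that include every prime dividing the order of G, and suppose that for each i the Sylow p_i-subgroups of G have derived length at most d_i and G has p_i-length at most l_i. Then G has derived length at most Σ d_i l_i. -/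
theorem result {G : Type*} [Group G] [Finite G] (hG : Group.IsSolvable G) (r : ℕ) (q : Fin r → ℕ) (hq : ∀ i, (q i).Prime) (hinj : Function.Injective q) (hcover : ∀ s : ℕ, s.Prime → s ∣ Nat.card G → ∃ i, q i = s) (d l : Fin r → ℕ) (hd : ∀ i, ∀ P : Subgroup G, (haveI := Fact.mk (hq i); ∃ S : Sylow (q i) G, (S : Subgroup G) = P) → derivedSeries ↥P (d i) = ⊥) (hl : ∀ i, Cfsg.PLengthLE (q i) (l i) G) : derivedSeries G (Finset.univ.sum fun i => d i * l i) = ⊥ := by
  replace hd : ∀ i (S : Sylow (q i) G), derivedSeries (S : Subgroup G) (d i) = ⊥ := fun i S => hd i S ⟨S, rfl⟩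
  induction hc : Nat.card G using Nat.strong_induction_on generalizing G l with | _ k ih => ?_
  rcases subsingleton_or_nontrivial G with h | h
  · exact Subsingleton.elim _ _
  replace ih : ∀ (N : Subgroup G) [N.Normal], N ≠ ⊥ → ∀ l : Fin r → ℕ, (∀ i, PLengthLE (q i) (l i) (G ⧸ N)) →
      derivedSeries G (∑ i, d i * l i) ≤ N := fun N _ hN l hl =>
    der_le_of_quot (ih _ (hc ▸ H1.card_quotient_lt hN) inferInstance
      (fun s hs hd => hcover s hs (hd.trans (card_quotient_dvd_card _))) l hl (fun i S => by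
        have := Fact.mk (hq i)
        obtain ⟨S, rfl⟩ := Sylow.mapSurjective_surjective (QuotientGroup.mk'_surjective N) (q i) S
        change derivedSeries ((S : Subgroup G).map (QuotientGroup.mk' N)) (d i) = ⊥
        rw [← map_derivedSeries_eq ((QuotientGroup.mk' N).subgroupMap_surjective S), hd, Subgroup.map_bot]) rfl)
  have hl' : ∀ (N : Subgroup G) [N.Normal] i, PLengthLE (q i) (l i) (G ⧸ N) := fun N _ i => by
    have := Fact.mk (hq i); exact plen_surj _ (QuotientGroup.mk'_surjective _) (hl i)
  obtain ⟨N, p, _, hN, -, hp, hNp⟩ := H1.exists_normal_isPGroup_of_isSolvable (⊤ : Subgroup G) top_ne_bot inferInstance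
  have := Fact.mk hp
  have h1 : pCore p G ≠ ⊥ := fun e => hN (eq_bot_iff.2 (e ▸ H1.le_pCore ‹_› hNp))
  by_cases h2 : pPrimeCore p G = ⊥
  swap
  · exact eq_bot_iff.2 (H1.pCore_inf_pPrimeCore (G := G) p ▸ le_inf (ih _ h1 l (hl' _)) (ih _ h2 l (hl' _)))
  have h3 := dvd_card_of_ne_bot hNp hN
  obtain ⟨i, rfl⟩ := hcover p hp h3
  obtain ⟨m, hm⟩ : ∃ m, l i = m + 1 := Nat.exists_eq_succ_of_ne_zero fun e =>
    hp.one_lt.ne' (Nat.eq_one_of_dvd_coprimes (plen_zero.1 (e ▸ hl i)) h3 dvd_rfl)
  have h4 := ih (U (q i) G 2) (by rw [U, H2.ups_two]; exact fun e => h1 (eq_bot_iff.2 (e ▸ fun x hx =>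
      H1.map_pCore_le (QuotientGroup.mk'_surjective _) (mem_map_of_mem _ hx)))) (update l i m) fun j => by
    by_cases hj : j = i
    · subst hj; rw [update_self]; exact plen_quot (hm ▸ hl j)
    · rw [update_of_ne hj]; exact hl' _ j
  have h5 : ∑ j, d j * l j = ∑ j, d j * update l i m j + d i := by
    rw [← Finset.add_sum_erase _ _ (Finset.mem_univ i), ← Finset.add_sum_erase _ _ (Finset.mem_univ i), update_self, hm,
      Finset.sum_congr (f := fun j => d j * update l i m j) (g := fun j => d j * l j) rfl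
        fun j hj => by rw [update_of_ne (Finset.ne_of_mem_erase hj)]]
    ring
  obtain ⟨a, ha⟩ := U_even_pow (G := G) (p := q i) 0
  rw [show U (q i) G (2 * 0 + 1) = ⊥ from H2.ups_one.trans h2, relIndex_bot_left] at ha
  obtain ⟨S, hS⟩ := (IsPGroup.of_card ha).exists_le_sylow
  have h6 := map_derivedSeries_le_derivedSeries (inclusion hS) (d i)
  rw [hd, le_bot_iff, map_eq_bot_iff_of_injective _ (inclusion_injective hS)] at h6
  rw [h5, eq_bot_iff]
  exact (der_add h4).trans (by rw [show derivedSeries (U (q i) G 2) (d i) = ⊥ from h6, Subgroup.map_bot])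

end Cfsg.Agent.S3791
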