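import Cfsg.Statements.S3793
import Cfsg.Agent.C3.FP5

set_option autoImplicit false
open Cfsg

namespace Cfsg.Agent.S3793

open H2 Subgroup in

/-- The Shult–Gross Theorem: let p be an odd prime and G a finite solvable group with an automorphism σ of order p^n fixing only the identity. Then G has Fitting height at most n: G has Fitting height at most m when there is a chain of normal subgroups 1 = F₀ ≤ F₁ ≤ ⋯ ≤ F_m = G with each F_{i+1}/F_i nilpotent. -/
theorem result {G : Type*} [Group G] [Finite G] (hG : Group.IsSolvable G) {p : ℕ} (hp : p.Prime) (hp2 : p ≠ 2) (σ : MulAut G) (n : ℕ) (hσ : orderOf σ = p ^ n) (hfpf : ∀ g : G, σ g = g → g = 1) : ∃ F : Fin (n + 1) → Subgroup G, F 0 = ⊥ ∧ F (Fin.last n) = ⊤ ∧ Monotone F ∧ (∀ i, (F i).Normal) ∧ ∀ i : Fin n, ∃ k : ℕ, (F i.succ).lowerCentralSeries k ≤ F i.castSucc := by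
  haveI := Fact.mk hp
  have hP : IsPGroup p (zpowers σ) := IsPGroup.of_card (by rw [Nat.card_zpowers, hσ])
  have hc : (Nat.card G).Coprime p := by
    refine (hp.coprime_iff_not_dvd.2 fun hd => ?_).symm
    obtain ⟨b, hb, hb1⟩ := hP.exists_fixed_point_of_prime_dvd_card_of_fixed_point G hd (a := 1) (fun x => map_one x.1)
    exact hb1 (hfpf b (hb ⟨σ, mem_zpowers σ⟩)).symm
  have hz : zpowers (⟨σ, mem_zpowers σ⟩ : zpowers σ) = ⊤ := eq_top_iff.2 fun ⟨_, k, rfl⟩ _ => ⟨k, rfl⟩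
  obtain ⟨m, hm⟩ := C3.FP.sg_aux (hp.odd_of_ne_two hp2) n _ (sl (zpowers σ).subtype ⊤) (SemidirectProduct.inr ⟨σ, mem_zpowers σ⟩)
    (isSolvable_sl_top hG) (by rw [← sr_zpowers, hz, sl_sup_sr]) (by rwa [card_sl_top]) (eq_bot_iff.2 (by
      rw [← sr_zpowers]
      rintro _ ⟨⟨g, -, rfl⟩, h⟩
      rw [hfpf g (inl_mem_centralizer_sr.1 h _ (mem_zpowers _)), map_one]; exact one_mem _))
    (by rw [← map_pow, ← map_one SemidirectProduct.inr]; congr 1; exact Subtype.ext (by rw [← hσ]; exact pow_orderOf_eq_one σ))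
  rw [← C3.FP.itL_map, sl_eq_bot] at hm
  have e : ∀ i : Fin n, C3.FP.itL m (n - i.castSucc) (⊤ : Subgroup G) = (C3.FP.itL m (n - i.succ) ⊤).lowerCentralSeries m := fun i => by
    rw [← C3.FP.itL_succ]; congr 1; have := i.2; simp only [Fin.val_succ, Fin.val_castSucc]; omega
  refine ⟨fun i => C3.FP.itL m (n - i) ⊤, hm, by simp [C3.FP.itL], Fin.monotone_iff_le_succ.2 fun i => ?_,
    fun i => C3.FP.itL_normal _ _ _, fun i => ⟨m, (e i).ge⟩⟩
  exact (e i).le.trans (Subgroup.lowerCentralSeries_le_self _ _)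

end Cfsg.Agent.S3793
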