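import Cfsg.Statements.S3794
import Cfsg.Agent.C3.FP1

set_option autoImplicit false
open Cfsg

namespace Cfsg.Agent.S3794

/-- Let G be a finite solvable group with an automorphism σ satisfying σ⁴ = 1 and fixing only the identity. Then the derived subgroup G' is nilpotent. -/
theorem result {G : Type*} [Group G] [Finite G] (hG : Group.IsSolvable G) (σ : MulAut G) (hσ : σ ^ 4 = 1) (hfpf : ∀ g : G, σ g = g → g = 1) : Group.IsNilpotent (commutator G) := by
  haveI : Finite (G ⋊[MonoidHom.id (MulAut G)] MulAut G) := Finite.of_equiv _ SemidirectProduct.equivProd.symm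
  haveI : (SemidirectProduct.inl : G →* G ⋊[MonoidHom.id (MulAut G)] MulAut G).range.Normal := by
    rw [SemidirectProduct.range_inl_eq_ker_rightHom]; infer_instance
  refine C3.FP.nil_of_inl (MonoidHom.id (MulAut G)) (C3.FP.four_nil _ (SemidirectProduct.inr σ)
    (solvable_of_surjective (MonoidHom.rangeRestrict_surjective _)) (by rw [← map_pow, hσ, map_one]) ?_)
  rintro _ ⟨g, rfl⟩ h
  rw [← map_inv, ← SemidirectProduct.inl_aut] at h
  rw [hfpf g (SemidirectProduct.inl_injective h), map_one]

end Cfsg.Agent.S3794
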