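import Cfsg.Statements.S3796
import Cfsg.Agent.C3.FP4

set_option autoImplicit false
open Cfsg

namespace Cfsg.Agent.S3796

/-- Ward's Theorem: let G be a finite solvable group and A an elementary abelian group of automorphisms of G of order p² (p a prime) with no non-identity common fixed point. Then G has Fitting height at most 2: G has Fitting height at most m when there is a chain of normal subgroups 1 = F₀ ≤ F₁ ≤ ⋯ ≤ F_m = G with each F_{i+1}/F_i nilpotent. -/
theorem result {G : Type*} [Group G] [Finite G] (hG : Group.IsSolvable G) {p : ℕ} (hp : p.Prime) (A : Subgroup (MulAut G)) (hA : Cfsg.IsElementaryAbelian p A) (hcard : Nat.card A = p ^ 2) (hfpf : ∀ g : G, (∀ a ∈ A, a g = g) → g = 1) : ∃ F : Fin (2 + 1) → Subgroup G, F 0 = ⊥ ∧ F (Fin.last 2) = ⊤ ∧ Monotone F ∧ (∀ i, (F i).Normal) ∧ ∀ i : Fin 2, ∃ k : ℕ, (F i.succ).lowerCentralSeries k ≤ F i.castSucc := by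
  haveI := Fact.mk hp
  have hP : IsPGroup p A := IsPGroup.of_card hcard
  have hc : (Nat.card A).Coprime (Nat.card G) := by
    rw [hcard]
    refine Nat.Coprime.pow_left _ (hp.coprime_iff_not_dvd.2 fun hd => ?_)
    obtain ⟨b, hb, hb1⟩ := hP.exists_fixed_point_of_prime_dvd_card_of_fixed_point G hd (a := 1) (fun x => map_one x.1)
    exact hb1 (hfpf b fun a ha => hb ⟨a, ha⟩).symm
  obtain ⟨m, hm⟩ := C3.FP.pq_nil' A.subtype hp hp hG hc (fun g h => hfpf g fun a ha => h ⟨a, ha⟩) (by rw [hcard, sq])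
    (.inr fun a => Subtype.ext (hA.2 a a.2))
  haveI := C3.FP.lcs_normal (⊤ : Subgroup G) m
  obtain ⟨k, hk⟩ := (Subgroup.isNilpotent_iff_lowerCentralSeries _).1 hm
  refine ⟨![⊥, (⊤ : Subgroup G).lowerCentralSeries m, ⊤], rfl, rfl, Fin.monotone_iff_le_succ.2 fun i => ?_, fun i => ?_, fun i => ?_⟩
  · fin_cases i
    exacts [bot_le, le_top]
  · fin_cases i
    exacts [Subgroup.normal_bot, this, Subgroup.normal_top]
  · fin_cases i
    exacts [⟨k, hk.le⟩, ⟨m, le_rfl⟩]

end Cfsg.Agent.S3796
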