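import Cfsg.Statements.S3799
import Mathlib
import Cfsg.Agent.H2.ES2

set_option autoImplicit false
open Cfsg

namespace Cfsg.Agent.S3799

open Cfsg.Agent.H2 Cfsg.Agent.H4 Subgroup Module

/-- For every odd prime p and every n ≥ 1 there is an extraspecial p-group of order p^(1+2n) and exponent p; concretely, the general linear group of degree n + 2 over the field with p elements contains such a subgroup. -/
theorem result (p : ℕ) [Fact p.Prime] (hp : p ≠ 2) (n : ℕ) (hn : 1 ≤ n) : ∃ E : Subgroup (Matrix.GeneralLinearGroup (Fin (n + 2)) (ZMod p)), Cfsg.IsExtraspecial p ↥E ∧ Nat.card E = p ^ (1 + 2 * n) ∧ ∀ x ∈ E, x ^ p = 1 := by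
  let β : ((Fin n → ZMod p) × (Fin n → ZMod p)) →ₗ[ZMod p]
      ((Fin n → ZMod p) × (Fin n → ZMod p)) →ₗ[ZMod p] ZMod p :=
    LinearMap.mk₂ (ZMod p) (fun u v => u.1 ⬝ᵥ v.2) (by simp) (by simp) (by simp) (by simp)
  have hβ : ∀ u v, β u v = u.1 ⬝ᵥ v.2 := fun _ _ => rfl
  let c := Heis.cExt β
  have hc : c.sp.Nondeg := fun u hu => by
    refine Prod.ext (funext fun i => ?_) (funext fun i => ?_)
    · have := hu (0, Pi.single i 1)
      rw [CExt.sp_B, Heis.B_eq] at this
      simpa [hβ] using this
    · have := hu (Pi.single i 1, 0)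
      rw [CExt.sp_B, Heis.B_eq] at this
      simpa [hβ] using this
  haveI : Nonempty (Fin n) := ⟨⟨0, hn⟩⟩
  let W := ZMod p × (Fin n → ZMod p) × ZMod p
  let ρ₀ : Heis β →* Module.End (ZMod p) W :=
    { toFun := fun x =>
        { toFun := fun w => (w.1 + x.v.1 ⬝ᵥ w.2.1 + x.a * w.2.2, w.2.1 + w.2.2 • x.v.2, w.2.2)
          map_add' := fun a b => by
            refine Prod.ext ?_ (Prod.ext ?_ rfl)
            · simp [W]; ring
            · simp [W, add_smul]; abel
          map_smul' := fun k a => by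
            refine Prod.ext ?_ (Prod.ext ?_ rfl)
            · simp [W]; ring
            · simp [W, mul_smul] }
      map_one' := LinearMap.ext fun w => by simp
      map_mul' := fun x y => LinearMap.ext fun w => by
        refine Prod.ext ?_ (Prod.ext ?_ rfl)
        · simp [hβ]; ring
        · simp; abel }
  have h0 : Function.Injective ρ₀ := by
    rw [injective_iff_map_eq_one]
    intro x hx
    have h1 := LinearMap.congr_fun hx (0, 0, 1)
    have h2 := fun i => LinearMap.congr_fun hx (0, Pi.single i 1, 0)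
    simp [ρ₀, W] at h1 h2
    exact Heis.ext (Prod.ext (funext h2) h1.2) h1.1
  let e : W ≃ₗ[ZMod p] (Fin (n + 2) → ZMod p) := LinearEquiv.ofFinrankEq _ _ (by simp [W]; ring)
  let ψ : Heis β →* Matrix.GeneralLinearGroup (Fin (n + 2)) (ZMod p) :=
    (glE.symm.toMonoidHom.comp (conjE e).toMonoidHom).comp
      ((LinearMap.GeneralLinearGroup.generalLinearEquiv (ZMod p) W).toMonoidHom.comp ρ₀.toHomUnits)
  have hψ : Function.Injective ψ := by
    refine (glE.symm.injective.comp (conjE e).injective).comp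
      ((LinearMap.GeneralLinearGroup.generalLinearEquiv (ZMod p) W).injective.comp ?_)
    intro x y h
    exact h0 (congrArg Units.val h)
  have ε := MonoidHom.ofInjective hψ
  refine ⟨ψ.range, isExtraspecial_congr ε (c.isExtraspecial hc), ?_, ?_⟩
  · rw [← Nat.card_congr ε.toEquiv, c.card_eq_pow]
    simp; ring
  · rintro _ ⟨x, rfl⟩
    rw [← map_pow, c.P_eq_zero.1, map_one]
    obtain ⟨k, hk⟩ : p ∣ p.choose 2 := (Fact.out : p.Prime).dvd_choose_self two_ne_zero
      (lt_of_le_of_ne (Fact.out : p.Prime).two_le hp.symm)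
    rw [Heis.P_eq, hk, ← Nat.cast_smul_eq_nsmul (ZMod p)]; simp

end Cfsg.Agent.S3799
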