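import Cfsg.Statements.S3950
import Cfsg.Agent.H8.Hopf3

set_option autoImplicit false
open Cfsg

namespace Cfsg.Agent.S3950

open Subgroup hiding commutator_def
open Function Cfsg.Agent.Hopf
open scoped commutatorElement


/-- A finite abelian group has trivial Schur multiplier if and only if it is cyclic. -/
theorem result {G : Type*} [CommGroup G] [Finite G] : Cfsg.HasCyclicSchurMultiplier G 1 ↔ IsCyclic G := by
  refine ⟨fun h => ?_, fun _ => mult_cyclic⟩
  classical
  obtain ⟨ι, _, n, hn, ⟨e⟩⟩ := CommGroup.equiv_prod_multiplicative_zmod_of_finite G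
  by_cases hc : Pairwise (Nat.Coprime on n)
  · have e2 := (ZMod.prodEquivPi n hc).toAddEquiv
    have : IsCyclic (Multiplicative (ZMod (∏ i, n i))) := inferInstance
    exact isCyclic_of_surjective ((AddEquiv.toMultiplicative e2).trans
      ((MulEquiv.piMultiplicative _).trans e.symm)) (MulEquiv.surjective _)
  exfalso
  simp only [Pairwise, not_forall] at hc
  obtain ⟨i, j, hij, hc⟩ := hc
  obtain ⟨p, hp, hi, hj⟩ := Nat.Prime.not_coprime_iff_dvd.1 hc
  have := Fact.mk hp
  let f : G → ZMod p := fun g => ZMod.castHom hi (ZMod p) (e g i).toAdd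
  let f' : G → ZMod p := fun g => ZMod.castHom hj (ZMod p) (e g j).toAdd
  have hf : ∀ a b, f (a * b) = f a + f b := fun a b => by simp only [f, map_mul, Pi.mul_apply, toAdd_mul, map_add]
  have hf' : ∀ a b, f' (a * b) = f' a + f' b := fun a b => by simp only [f', map_mul, Pi.mul_apply, toAdd_mul, map_add]
  let β : G →* G →* Multiplicative (ZMod p) :=
    MonoidHom.mk' (fun x => MonoidHom.mk' (fun y => Multiplicative.ofAdd (f x * f' y))
      fun a b => by rw [hf', mul_add, ofAdd_add]) fun a b => by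
      ext1 y
      simp only [MonoidHom.mk'_apply, MonoidHom.mul_apply]
      rw [hf, add_mul, ofAdd_add]
  have hβ : ∀ x y, β x y = Multiplicative.ofAdd (f x * f' y) := fun _ _ => rfl
  have h1 := BE.inc_mem (β := β) (mul_comm (e.symm (Pi.mulSingle i (Multiplicative.ofAdd 1)))
    (e.symm (Pi.mulSingle j (Multiplicative.ofAdd 1))))
  simp only [hβ, f, f', MulEquiv.apply_symm_apply, Pi.mulSingle_eq_same, Pi.mulSingle_eq_of_ne hij, toAdd_ofAdd,
    map_one, toAdd_one, map_zero, zero_mul, ofAdd_zero, inv_one, mul_one] at h1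
  have h2 := triv_ker h (σ := BE.pr β) ⟨fun g => ⟨⟨g, 1⟩, rfl⟩, fun x hx => mem_center_iff.2 fun y => ?_, fun x hx => ?_⟩
  · have h3 : BE.inc β (Multiplicative.ofAdd 1) ∈ (BE.pr β).ker := rfl
    rw [h2] at h3
    exact one_ne_zero (congrArg (fun x => x.t.toAdd) (mem_bot.1 h3))
  · have h3 : x.g = 1 := hx
    ext
    · simp [h3]
    · simp [h3, add_comm]
  · have h3 : x = BE.inc β (Multiplicative.ofAdd 1) ^ x.t.toAdd.val := by
      rw [← map_pow, ← ofAdd_nsmul, nsmul_one, ZMod.natCast_zmod_val]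
      exact BE.ext hx rfl
    rw [h3]; exact pow_mem h1 _

end Cfsg.Agent.S3950
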