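import Cfsg.Statements.S3951
import Cfsg.Agent.H8.Hopf3

set_option autoImplicit false
open Cfsg

namespace Cfsg.Agent.S3951

open Subgroup hiding commutator_def
open Function Cfsg.Agent.Hopf
open scoped commutatorElement


/-- For positive integers `m` and `n` with `n` dividing `m`, the Schur multiplier of the abelian group `ZMod m × ZMod n` (written multiplicatively) is cyclic of order `n`. In particular the elementary abelian group of order `p ^ 2` has multiplier of order `p`. -/
theorem result (m n : ℕ) [NeZero m] [NeZero n] (hnm : n ∣ m) : Cfsg.HasCyclicSchurMultiplier (Multiplicative (ZMod m × ZMod n)) n := by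
  refine mult_congr (mult_prod (mult_cyclic (G := Multiplicative (ZMod m))) (mult_cyclic (G := Multiplicative (ZMod n))))
    (MulEquiv.prodMultiplicative _ _).symm (MulEquiv.uniqueProd.trans (MulEquiv.uniqueProd.trans ?_))
  let c : Multiplicative (ZMod m) →* Multiplicative (ZMod n) →* Multiplicative (ZMod n) :=
    MonoidHom.mk' (fun x => MonoidHom.mk' (fun y => Multiplicative.ofAdd (ZMod.castHom hnm (ZMod n) x.toAdd * y.toAdd))
      fun a b => by rw [toAdd_mul, mul_add, ofAdd_add]) fun a b => by
      refine MonoidHom.ext fun y => ?_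
      simp only [MonoidHom.mk'_apply, MonoidHom.mul_apply]
      rw [toAdd_mul, map_add, add_mul, ofAdd_add]
  have key := tm_lift c
  refine MulEquiv.ofBijective key.choose ?_
  have hf := key.choose_spec
  generalize key.choose = f at hf
  obtain ⟨t, ht⟩ : ∃ t, t = tm (Multiplicative (ZMod m)) (Multiplicative (ZMod n)) (Multiplicative.ofAdd 1)
    (Multiplicative.ofAdd 1) := ⟨_, rfl⟩
  have h1 : ∀ (k : ℕ) [NeZero k] (x : Multiplicative (ZMod k)), x = Multiplicative.ofAdd 1 ^ x.toAdd.val := fun k _ x => by
    rw [← ofAdd_nsmul, nsmul_one, ZMod.natCast_zmod_val]; rfl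
  have h2 : ∀ u, u ∈ zpowers t := tm_gen fun x y => by
    rw [h1 m x, h1 n y, map_pow, map_pow, MonoidHom.pow_apply, ← ht]
    exact pow_mem (pow_mem (mem_zpowers t) _) _
  have h3 : t ^ n = 1 := by
    rw [ht, ← map_pow, ← ofAdd_nsmul, nsmul_one, ZMod.natCast_self, ofAdd_zero, map_one]
  refine Surjective.bijective_of_nat_card_le (fun y => ⟨tm _ _ (Multiplicative.ofAdd 1) y, ?_⟩) ?_
  · rw [hf]; change Multiplicative.ofAdd (ZMod.castHom hnm (ZMod n) 1 * y.toAdd) = y; rw [map_one, one_mul]; rfl
  · rw [← card_top, ← (eq_top_iff' _).2 h2, Nat.card_zpowers, Nat.card_congr Multiplicative.toAdd, Nat.card_zmod]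
    exact orderOf_le_of_pow_eq_one (Nat.pos_of_ne_zero (NeZero.ne n)) h3

end Cfsg.Agent.S3951
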