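import Cfsg.Statements.S3952
import Cfsg.Agent.H8.Hopf2

set_option autoImplicit false
open Cfsg

namespace Cfsg.Agent.S3952

open Subgroup hiding commutator_def
open Function Cfsg.Agent.Hopf
open scoped commutatorElement


/-- If `A` is the Schur multiplier of the finite group `Q`, then the square of the exponent of `A` divides the order of `Q`. -/
theorem result {Q : Type*} [Group Q] [Finite Q] {A : Type*} [CommGroup A] (hA : Cfsg.HasSchurMultiplier Q A) : Monoid.exponent A ^ 2 ∣ Nat.card Q := by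
  obtain ⟨Γ, _, _, σ, hσ, ⟨k⟩⟩ := hA.1
  have := mult_finite hA
  have h0 : Monoid.exponent A ≠ 0 := Monoid.exponent_ne_zero_of_finite
  rw [Nat.dvd_iff_prime_pow_dvd_dvd]
  intro p j hp hj
  have := Fact.mk hp
  obtain ⟨a, ha⟩ := hp.exists_orderOf_eq_pow_factorization_exponent A
  obtain ⟨e, he⟩ : ∃ e, e = (Monoid.exponent A).factorization p := ⟨_, rfl⟩
  rw [← he] at ha
  have hj' : j ≤ e * 2 := by
    have := (hp.pow_dvd_iff_le_factorization (pow_ne_zero 2 h0)).1 hj
    rw [Nat.factorization_pow] at this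
    simp only [Finsupp.smul_apply, smul_eq_mul] at this
    omega
  obtain ⟨P⟩ : Nonempty (Sylow p Q) := inferInstance
  obtain ⟨H, hH⟩ : ∃ H, H = (P : Subgroup Q).comap σ := ⟨_, rfl⟩
  have hkH : σ.ker ≤ H := hH ▸ ker_le_comap σ _
  obtain ⟨b, hb⟩ : ∃ b : σ.ker, b = k.symm a := ⟨_, rfl⟩
  have hbo : orderOf (b : Γ) = p ^ e := by rw [orderOf_coe, hb, MulEquiv.orderOf_eq, ha]
  have h1 := pow_index_mem (H := H) (hσ.2.1 b.2) (hσ.2.2 b.2)
  have hi : H.index = (P : Subgroup Q).index := hH ▸ index_comap_of_surjective _ hσ.1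
  have hco : (orderOf (b : Γ)).Coprime H.index := by
    rw [hbo, hi]
    exact Nat.Coprime.pow_left _ ((hp.coprime_iff_not_dvd).2 P.not_dvd_index)
  have h2 : (b : Γ) ∈ ⁅H, H⁆ := by
    obtain ⟨m, hm⟩ := exists_pow_eq_self_of_coprime hco.symm
    exact hm ▸ pow_mem h1 m
  rw [← map_subtype_commutator] at h2
  obtain ⟨c, hc, hcb⟩ := h2
  have h3 := sq_le_index (Γ := H) (Z := σ.ker.subgroupOf H) (fun z hz => by
    rw [mem_center_iff]; exact fun g => Subtype.ext (mem_center_iff.1 (hσ.2.1 hz) g)) (a := c)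
    (by rw [mem_subgroupOf]; change H.subtype c ∈ _; rw [hcb]; exact b.2) hc hp
    (by rw [← orderOf_coe]; change orderOf (H.subtype c) = _; rw [hcb, hbo])
  change _ ≤ σ.ker.relIndex H at h3
  rw [relIndex_ker, hH, map_comap_eq_self_of_surjective hσ.1, P.card_eq_multiplicity, ← pow_mul,
    Nat.pow_le_pow_iff_right hp.one_lt] at h3
  exact (pow_dvd_pow p (hj'.trans h3)).trans (Nat.ordProj_dvd _ _)

end Cfsg.Agent.S3952
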