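import Cfsg.Statements.S3953
import Cfsg.Agent.H8.Hopf2
import Cfsg.Agent.S3952

set_option autoImplicit false
open Cfsg

namespace Cfsg.Agent.S3953

open Subgroup hiding commutator_def
open Function Cfsg.Agent.Hopf
open scoped commutatorElement

theorem exists_transfer {F G : Type*} [Group F] [IsFreeGroup F] [Group G] [Finite G] {φ : F →* G}
    (h : Surjective φ) (P : Subgroup G) (S : Subgroup F) [S.FiniteIndex] (ψ : S →* P)
    (hψ : ∀ x : S, (ψ x : G) = φ x) (hS : φ.ker ≤ S) :
    ∃ (t : HM φ →* HM ψ) (i : HM ψ →* HM φ), ∀ a, i (t a) = a ^ S.index := by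
  classical
  have hfin := finite_HM h
  have := Fintype.ofFinite (F ⧸ S)
  have hk : ∀ x : S, x ∈ ψ.ker ↔ (x : F) ∈ φ.ker := fun x => by
    rw [MonoidHom.mem_ker, MonoidHom.mem_ker, ← hψ, Subtype.ext_iff]; rfl
  have hc := Hp_cent ψ
  letI : CommGroup (Hp ψ).ker := { (inferInstance : Group (Hp ψ).ker) with
    mul_comm := fun a b => Subtype.ext (mem_center_iff.1 (hc b.2) a) }
  let mkS : φ.ker →* (Hp ψ).ker := ((QuotientGroup.mk' (HC ψ)).comp (inclusion hS)).codRestrict _
    fun x => (hk _).2 x.2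
  let θ : F → φ.ker →* (Hp ψ).ker := fun g => mkS.comp (MulAut.conjNormal g⁻¹).toMonoidHom
  have hθ : ∀ g h r, θ g (MulAut.conjNormal h⁻¹ r) = θ (h * g) r := fun g h r => by
    change mkS _ = mkS _
    congr 1
    apply Subtype.ext
    simp [mul_assoc]
  have hθ1 : ∀ s ∈ S, ∀ r, θ s r = mkS r := fun s hs r => by
    apply Subtype.ext
    have h1 := mem_center_iff.1 (hc (mkS r).2) ((⟨s, hs⟩ : S) : HE ψ)
    have h2 : (θ s r : HE ψ) = (((⟨s, hs⟩ : S) : HE ψ))⁻¹ * mkS r * ((⟨s, hs⟩ : S) : HE ψ) := by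
      change ((_ : S) : HE ψ) = ((_ * _ * _ : S) : HE ψ)
      congr 1
      apply Subtype.ext
      simp
    rw [h2, mul_assoc, ← h1, inv_mul_cancel_left]
  have hθ2 : ∀ g, ∀ s ∈ S, θ (g * s) = θ g := fun g s hs => MonoidHom.ext fun r => by
    rw [← hθ, hθ1 s hs]; rfl
  let θ' : F ⧸ S → φ.ker →* (Hp ψ).ker := fun q => Quotient.liftOn' q θ fun a b hab => by
    rw [QuotientGroup.leftRel_apply] at hab
    rw [← hθ2 a _ hab, mul_inv_cancel_left]
  let T : φ.ker →* (Hp ψ).ker := ∏ q, θ' q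
  have hT : ∀ g r, T (MulAut.conjNormal g⁻¹ r) = T r := fun g r => by
    simp only [T, MonoidHom.finset_prod_apply]
    rw [← Equiv.prod_comp (MulAction.toPerm g) fun q => θ' q r]
    refine Finset.prod_congr rfl fun q _ => ?_
    induction q using QuotientGroup.induction_on with | H q => ?_
    exact hθ q g r
  let mkR : φ.ker →* (Hp φ).ker := ((QuotientGroup.mk' (HC φ)).comp φ.ker.subtype).codRestrict _ fun x => x.2
  have hR : Surjective mkR := by
    rintro ⟨x, hx⟩
    induction x using QuotientGroup.induction_on with | H x => ?_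
    exact ⟨⟨x, hx⟩, rfl⟩
  have hRT : mkR.ker ≤ T.ker := fun x hx => by
    have h1 : (x : F) ∈ HC φ := (QuotientGroup.eq_one_iff _).1 (congrArg Subtype.val hx)
    have h2 : HC φ ≤ T.ker.map φ.ker.subtype := by
      rw [HC, commutator_le]
      intro a ha b _
      refine ⟨⟨a, ha⟩ * MulAut.conjNormal b⁻¹⁻¹ ⟨a, ha⟩⁻¹, ?_, ?_⟩
      · rw [SetLike.mem_coe, MonoidHom.mem_ker, map_mul, hT, map_inv, mul_inv_cancel]
      · simp [commutatorElement_def, mul_assoc]
    obtain ⟨y, hy, h3⟩ := h2 h1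
    exact (Subtype.ext h3 : y = x) ▸ hy
  let T' := mkR.liftOfSurjective hR ⟨T, hRT⟩
  have hT' : ∀ x, T' (mkR x) = T x := fun x => mkR.liftOfRightInverse_comp_apply _ _ _ x
  let j : HE ψ →* HE φ := QuotientGroup.map _ _ S.subtype (by
    rw [HC, commutator_le]
    intro a ha b _
    rw [mem_comap, map_commutatorElement]
    exact commutator_mem_commutator ((hk a).1 ha) (mem_top _))
  have hj : ∀ x : HE ψ, x ∈ (Hp ψ).ker → j x ∈ (Hp φ).ker := fun x hx => by
    induction x using QuotientGroup.induction_on with | H x => ?_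
    exact (hk x).1 hx
  let t0 := (Hp ψ).ker.subtype.comp (T'.comp (inclusion (HM_le_ker (φ := φ))))
  refine ⟨t0.codRestrict _ fun a => mem_inf.2 ⟨(T' _).2, ?_⟩, (j.comp (HM ψ).subtype).codRestrict _
    fun b => mem_inf.2 ⟨hj _ b.2.1, ?_⟩, fun a => Subtype.ext ?_⟩
  · refine HE_tf (n := Nat.card (HM φ)) Nat.card_pos.ne' ?_
    rw [← map_pow, pow_card_eq_one', map_one]; exact one_mem _
  · have h1 : (_root_.commutator (HE ψ)).map j ≤ _root_.commutator _ := by
      rw [commutator_def, map_commutator]; exact commutator_mono le_top le_top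
    exact h1 ⟨_, b.2.2, rfl⟩
  · obtain ⟨r, hr⟩ := hR (inclusion HM_le_ker a)
    change j (T' (inclusion HM_le_ker a)) = (a : HE φ) ^ S.index
    have h1 : (a : HE φ) = mkR r := (congrArg Subtype.val hr).symm
    have hc' := Hp_cent φ
    letI : CommGroup (Hp φ).ker := { (inferInstance : Group (Hp φ).ker) with
      mul_comm := fun a b => Subtype.ext (mem_center_iff.1 (hc' b.2) a) }
    let j' : (Hp ψ).ker →* (Hp φ).ker := (j.comp (Hp ψ).ker.subtype).codRestrict _ fun x => hj _ x.2
    have h2 : ∀ q, j' (θ' q r) = mkR r := fun q => by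
      induction q using QuotientGroup.induction_on with | H q => ?_
      apply Subtype.ext
      have h3 : (j' (θ' q r) : HE φ) = (q : HE φ)⁻¹ * mkR r * (q : HE φ) := by
        change ((_ : F) : HE φ) = ((_ * _ * _ : F) : HE φ)
        congr 1
        simp
      rw [h3, mul_assoc, ← mem_center_iff.1 (hc' (mkR r).2), inv_mul_cancel_left]
    have h3 : j' (T r) = mkR r ^ S.index := by
      simp only [T, MonoidHom.finset_prod_apply, map_prod, h2, Finset.prod_const, Finset.card_univ]
      rw [index, Nat.card_eq_fintype_card]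
    rw [← hr, hT', h1]
    exact congrArg Subtype.val h3

/-- Let `P` be a Sylow `p`-subgroup of the finite group `G`, let `A` be the Schur multiplier of `G` and `B` that of `P`. Then the `p`-primary component of `A` is isomorphic to a direct factor of `B`: there are subgroups `C` and `D` of `B` meeting trivially and generating `B`, with `C` isomorphic to the `p`-primary component of `A`. -/
theorem result {G : Type*} [Group G] [Finite G] (p : ℕ) [Fact p.Prime] (P : Sylow p G) {A B : Type*} [CommGroup A] [CommGroup B] (hA : Cfsg.HasSchurMultiplier G A) (hB : Cfsg.HasSchurMultiplier P B) : ∃ C D : Subgroup B, C ⊓ D = ⊥ ∧ C ⊔ D = ⊤ ∧ Nonempty (CommGroup.primaryComponent A p ≃* C) := by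
  have hp : p.Prime := Fact.out
  have h := fp_surj G
  obtain ⟨S, hS⟩ : ∃ S, S = (P : Subgroup G).comap (fp G) := ⟨_, rfl⟩
  have hi : S.index = (P : Subgroup G).index := hS ▸ index_comap_of_surjective _ h
  have : S.FiniteIndex := ⟨hi ▸ index_ne_zero_of_finite⟩
  let ψ : S →* P := ((fp G).comp S.subtype).codRestrict P fun x => hS.le x.2
  have hψ : Surjective ψ := fun u => by
    obtain ⟨x, hx⟩ := h u
    exact ⟨⟨x, by rw [hS, mem_comap, hx]; exact u.2⟩, Subtype.ext hx⟩
  obtain ⟨t0, i0, hti0⟩ := exists_transfer h P S ψ (fun _ => rfl) (hS ▸ ker_le_comap _ _)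
  obtain ⟨eA⟩ := mult_equiv hA h
  obtain ⟨eB⟩ := mult_equiv hB hψ
  let t : A →* B := eB.symm.toMonoidHom.comp (t0.comp eA.toMonoidHom)
  let i : B →* A := eA.symm.toMonoidHom.comp (i0.comp eB.toMonoidHom)
  have hti : ∀ a, i (t a) = a ^ S.index := fun a => by simp [i, t, hti0]
  have hco : ∀ n, (p ^ n).Coprime S.index := fun n =>
    Nat.Coprime.pow_left _ ((hp.coprime_iff_not_dvd).2 (hi ▸ P.not_dvd_index))
  have hinj : ∀ a ∈ CommGroup.primaryComponent A p, i (t a) = 1 → a = 1 := fun a ha h1 => by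
    obtain ⟨n, hn⟩ := CommMonoid.mem_primaryComponent.1 ha
    rw [hti] at h1
    have := (pow_gcd_eq_one.2 ⟨hn, h1⟩ : a ^ (p ^ n).gcd S.index = 1)
    rwa [hco, pow_one] at this
  refine ⟨(t.comp (CommGroup.primaryComponent A p).subtype).range, i.ker, ?_, ?_,
    ⟨MonoidHom.ofInjective ((injective_iff_map_eq_one _).2 fun a ha => Subtype.ext (hinj a a.2 ?_))⟩⟩
  · rw [eq_bot_iff_forall]
    rintro _ ⟨⟨a, rfl⟩, h1⟩
    change t a = 1
    rw [hinj a a.2 h1, map_one]
  · rw [eq_top_iff]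
    intro b _
    have h1 := S3952.result hB
    obtain ⟨n, hn⟩ := P.isPGroup'.exists_card_eq
    have h2 : b ^ p ^ n = 1 := by
      rw [← Monoid.exponent_dvd_iff_forall_pow_eq_one.1 ((dvd_pow_self _ two_ne_zero).trans (hn ▸ h1)) b]
    have h3 : i b ^ p ^ n = 1 := by rw [← map_pow, h2, map_one]
    obtain ⟨m, hm⟩ := exists_pow_eq_self_of_coprime (x := i b)
      ((hco n).coprime_dvd_left (orderOf_dvd_of_pow_eq_one h3)).symm
    have h4 : b = t (i b ^ m) * ((t (i b ^ m))⁻¹ * b) := by simp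
    rw [h4]
    refine mul_mem_sup ⟨⟨i b ^ m, pow_mem (CommMonoid.mem_primaryComponent.2 ⟨n, h3⟩) m⟩, rfl⟩ ?_
    rw [MonoidHom.mem_ker, map_mul, map_inv, hti, ← pow_mul, mul_comm m, pow_mul, hm, inv_mul_cancel]
  · change i (t a) = 1
    rw [show t a = 1 from ha, map_one]

end Cfsg.Agent.S3953
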