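import Cfsg.Statements.S3954
import Cfsg.Agent.H8.Hopf2

set_option autoImplicit false
open Cfsg

namespace Cfsg.Agent.S3954

open Subgroup hiding commutator_def
open Function Cfsg.Agent.Hopf
open scoped commutatorElement

theorem exists_inj {B C : Type*} [CommGroup B] [Finite B] [Group C] (π : B →* C) (hπ : Surjective π) :
    ∃ i : C →* B, Injective i := by
  letI : CommGroup C := { (inferInstance : Group C) with
    mul_comm := fun a b => by
      obtain ⟨a, rfl⟩ := hπ a
      obtain ⟨b, rfl⟩ := hπ b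
      rw [← map_mul, ← map_mul, mul_comm] }
  have := Finite.of_surjective π hπ
  have : NeZero (Monoid.exponent B) := ⟨Monoid.exponent_ne_zero_of_finite⟩
  have : NeZero (Monoid.exponent C) := ⟨Monoid.exponent_ne_zero_of_finite⟩
  obtain ⟨e⟩ := CommGroup.monoidHom_mulEquiv_of_hasEnoughRootsOfUnity B ℂ
  obtain ⟨f⟩ := CommGroup.monoidHom_mulEquiv_of_hasEnoughRootsOfUnity C ℂ
  let j : (C →* ℂˣ) →* (B →* ℂˣ) := MonoidHom.mk' (fun χ => χ.comp π) fun _ _ => rfl
  have hj : Injective j := fun a b h => (MonoidHom.cancel_right hπ).1 h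
  exact ⟨e.toMonoidHom.comp (j.comp f.symm.toMonoidHom), e.injective.comp (hj.comp f.symm.injective)⟩

/-- Let `U` be a subgroup of index `m` in the finite group `G`, let `A` be the Schur multiplier of `G` and `B` that of `U`. Then the subgroup of `m`-th powers of `A` is isomorphic to a subgroup of `B`. -/
theorem result {G : Type*} [Group G] [Finite G] (U : Subgroup G) {A B : Type*} [CommGroup A] [CommGroup B] (hA : Cfsg.HasSchurMultiplier G A) (hB : Cfsg.HasSchurMultiplier U B) : ∃ C : Subgroup B, Nonempty ((powMonoidHom U.index : A →* A).range ≃* C) := by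
  obtain ⟨Γ, _, _, σ, hσ, ⟨k⟩⟩ := hA.1
  have := mult_finite hB
  obtain ⟨H, hH⟩ : ∃ H, H = U.comap σ := ⟨_, rfl⟩
  have hkH : σ.ker ≤ H := hH ▸ ker_le_comap σ _
  let τ : H →* U := (σ.comp H.subtype).codRestrict U fun x => hH.le x.2
  have hτ : Surjective τ := fun u => by
    obtain ⟨x, hx⟩ := hσ.1 u
    exact ⟨⟨x, by rw [hH, mem_comap, hx]; exact u.2⟩, Subtype.ext hx⟩
  have hτk : ∀ x : H, x ∈ τ.ker ↔ (x : Γ) ∈ σ.ker := fun x => Subtype.ext_iff
  obtain ⟨π, hπ⟩ := mult_surj_inf hB hτ fun z hz => by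
    rw [mem_center_iff]; exact fun g => Subtype.ext (mem_center_iff.1 (hσ.2.1 ((hτk z).1 hz)) g)
  obtain ⟨i, hi⟩ := exists_inj π hπ
  have hidx : H.index = U.index := hH ▸ index_comap_of_surjective _ hσ.1
  let j0 : (powMonoidHom U.index : A →* A).range →* H :=
    (inclusion hkH).comp (k.symm.toMonoidHom.comp (Subgroup.subtype _))
  let j := j0.codRestrict (τ.ker ⊓ _root_.commutator H) (by
    rintro ⟨_, a, rfl⟩
    refine mem_inf.2 ⟨(hτk _).2 (k.symm _).2, ?_⟩
    have h1 := pow_index_mem (H := H) (hσ.2.1 (k.symm a).2) (hσ.2.2 (k.symm a).2)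
    rw [← map_subtype_commutator] at h1
    obtain ⟨c, hc, h1⟩ := h1
    suffices h : j0 ⟨_, a, rfl⟩ = c from h ▸ hc
    apply Subtype.ext
    change ((k.symm (a ^ U.index) : σ.ker) : Γ) = H.subtype c
    rw [h1, map_pow, hidx]; rfl)
  have hj : Injective j := (MonoidHom.injective_codRestrict _ _ _).2
    ((inclusion_injective hkH).comp (k.symm.injective.comp Subtype.val_injective))
  exact ⟨_, ⟨MonoidHom.ofInjective (f := i.comp j) (hi.comp hj)⟩⟩

end Cfsg.Agent.S3954
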