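import Cfsg.Statements.S3957
import Cfsg.Agent.H8.Hopf

set_option autoImplicit false
universe u v
open Cfsg

namespace Cfsg.Agent.S3957

open Subgroup hiding commutator_def
open Function Cfsg.Agent.Hopf
open scoped commutatorElement


/-- Let `Q` be a finite group with Schur multiplier `A` and let `τ : Δ →* Q` be a finite stem extension, `Δ` in the universe of `Q`. Then there is a finite stem extension `σ : Γ →* Q` with kernel isomorphic to `A` (a Schur covering group) and a surjective homomorphism `β : Γ →* Δ` with `τ ∘ β = σ`. -/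
theorem result {Q : Type u} [Group Q] [Finite Q] {A : Type v} [CommGroup A] (hA : Cfsg.HasSchurMultiplier Q A) {Δ : Type u} [Group Δ] [Finite Δ] (τ : Δ →* Q) (hτ : Cfsg.IsStemExtension τ) : ∃ (Γ : Type u) (_ : Group Γ) (_ : Finite Γ) (σ : Γ →* Q), Cfsg.IsStemExtension σ ∧ Nonempty (σ.ker ≃* A) ∧ ∃ β : Γ →* Δ, Function.Surjective β ∧ τ.comp β = σ := by
  have := mult_finite' hA
  have h := fp_surj Q
  obtain ⟨β, hβ⟩ := exists_lift' (fp Q) hτ.1 hτ.2.1
  have h2 : ∀ x, τ (β x) = Hp (fp Q) x := DFunLike.congr_fun hβ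
  have h1 := map_HM h hτ.2.1 hβ
  rw [inf_eq_left.2 hτ.2.2] at h1
  obtain ⟨D, hD, hD1, hD2⟩ := exists_compl (φ := fp Q) (N := β.ker)
    (fun x hx => by rw [MonoidHom.mem_ker, ← h2, MonoidHom.mem_ker.1 hx, map_one]) (fun x hx => by
      have h3 : β x ∈ τ.ker := MonoidHom.mem_ker.2 ((h2 x).trans hx)
      rw [← h1] at h3
      obtain ⟨m, hm, h3⟩ := h3
      have h4 : x = x * m⁻¹ * m := by simp
      rw [h4]
      exact mul_mem_sup (by rw [MonoidHom.mem_ker, map_mul, map_inv, h3, mul_inv_cancel]) hm)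
  have := normal_of_le (hD2 ▸ le_sup_left : D ≤ (Hp (fp Q)).ker)
  obtain ⟨_, σ, hσ, hσ', ⟨e⟩⟩ := exists_cover h hD1 hD2
  obtain ⟨k⟩ := mult_equiv hA h
  have h5 : τ.comp (QuotientGroup.lift D β hD) = σ := by
    ext x
    exact (h2 _).trans (DFunLike.congr_fun hσ' _).symm
  exact ⟨_, inferInstance, inferInstance, σ, hσ, ⟨e.trans k.symm⟩, QuotientGroup.lift D β hD,
    surj_of_stem hτ (h5 ▸ hσ.1), h5⟩

end Cfsg.Agent.S3957
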