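import Cfsg.Statements.S3958
import Cfsg.Agent.H8.Hopf

set_option autoImplicit false
universe u v
open Cfsg

namespace Cfsg.Agent.S3958

open Subgroup hiding commutator_def
open Function Cfsg.Agent.Hopf
open scoped commutatorElement


/-- Let `σ : Γ →* Q` be a finite stem extension of the finite group `Q` with `Γ` of trivial Schur multiplier. Then `σ` is a Schur covering group of `Q`: for every finite stem extension `τ : Δ →* Q` with `Δ` in the same universe as `Q`, the kernel of `τ` is a homomorphic image of the kernel of `σ`. -/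
theorem result {Q : Type u} [Group Q] [Finite Q] {Γ : Type v} [Group Γ] [Finite Γ] (σ : Γ →* Q) (hσ : Cfsg.IsStemExtension σ) (hΓ : Cfsg.HasCyclicSchurMultiplier Γ 1) (Δ : Type u) [Group Δ] [Finite Δ] (τ : Δ →* Q) (hτ : Cfsg.IsStemExtension τ) : ∃ π : σ.ker →* τ.ker, Function.Surjective π := by
  have h := fp_surj Γ
  have h' : Surjective (σ.comp (fp Γ)) := hσ.1.comp h
  have hle : HC (σ.comp (fp Γ)) ≤ (fp Γ).ker := by
    rw [HC, commutator_le]
    intro a ha b _
    rw [MonoidHom.mem_ker, map_commutatorElement, commutatorElement_eq_one_iff_mul_comm]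
    exact (mem_center_iff.1 (hσ.2.1 ha) _).symm
  refine surj_of_inj h' hσ (τ := QuotientGroup.lift _ (fp Γ) hle) (by ext; rfl) ?_ hτ
  rw [eq_bot_iff_forall]
  intro x hx
  induction x using QuotientGroup.induction_on with | H x => ?_
  obtain ⟨e⟩ := mult_equiv hΓ h
  have hs : Subsingleton (HM (fp Γ)) := e.symm.injective.subsingleton
  have h1 : (x : HE (fp Γ)) ∈ HM (fp Γ) := mem_inf.2 ⟨hx.1, mk_mem_comm.2 (mk_mem_comm.1 hx.2.2)⟩
  have h2 : (x : HE (fp Γ)) = 1 := congrArg Subtype.val (hs.elim ⟨_, h1⟩ 1)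
  rw [QuotientGroup.eq_one_iff] at h2 ⊢
  exact commutator_mono (fun y hy => by rw [MonoidHom.mem_ker, MonoidHom.comp_apply, MonoidHom.mem_ker.1 hy, map_one]) le_rfl h2

end Cfsg.Agent.S3958
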