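import Cfsg.Statements.S3960
import Cfsg.Agent.H8.Hopf2

set_option autoImplicit false
universe u
open Cfsg

namespace Cfsg.Agent.S3960

open Subgroup hiding commutator_def
open Function Cfsg.Agent.Hopf
open scoped commutatorElement


/-- A finite perfect group `Q` has a universal central extension: a finite perfect group `G` in the universe of `Q` and a surjective homomorphism `π : G →* Q` with central kernel such that for every group `X` in that universe and every surjective homomorphism `ξ : X →* Q` with central kernel there is exactly one homomorphism `η : G →* X` with `ξ ∘ η = π`. -/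
theorem result {Q : Type u} [Group Q] [Finite Q] (hQ : Group.IsPerfect Q) : ∃ (G : Type u) (_ : Group G) (_ : Finite G) (π : G →* Q), Group.IsPerfect G ∧ Function.Surjective π ∧ π.ker ≤ Subgroup.center G ∧ ∀ (X : Type u) [Group X] (ξ : X →* Q), Function.Surjective ξ → ξ.ker ≤ Subgroup.center X → ∃! η : G →* X, ξ.comp η = π := by
  have h := fp_surj Q
  have hc := Hp_cent (fp Q)
  have := finite_commutator (Hp_surj h) hc
  obtain ⟨π, hπ⟩ : ∃ π, π = (Hp (fp Q)).comp (_root_.commutator (HE (fp Q))).subtype := ⟨_, rfl⟩
  have hs : Surjective π := fun q => by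
    have h1 := map_commutator_of_surj (σ := MonoidHom.id Q) (by simp [MonoidHom.ker_id]) (τ := Hp (fp Q)) (Hp_surj h)
    obtain ⟨x, hx, rfl⟩ : q ∈ (_root_.commutator _).map (Hp (fp Q)) := h1 ▸ Group.IsPerfect.mem_commutator
    exact ⟨⟨x, hx⟩, hπ ▸ rfl⟩
  have hP : Group.IsPerfect (_root_.commutator (HE (fp Q))) := by
    rw [isPerfect_iff, ← map_subtype_commutator]
    exact map_commutator_of_surj hc (hπ ▸ hs)
  refine ⟨_, inferInstance, inferInstance, π, hP, hs, fun x hx => ?_, fun X _ ξ hξ hξ' => ?_⟩
  · rw [hπ] at hx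
    rw [mem_center_iff]
    exact fun g => Subtype.ext (mem_center_iff.1 (hc hx) g)
  · obtain ⟨τ, hτ⟩ := exists_lift' (fp Q) hξ hξ'
    have h2 : ξ.comp (τ.comp (_root_.commutator (HE (fp Q))).subtype) = π := by
      rw [hπ, ← hτ]; rfl
    refine ⟨_, h2, fun η hη => MonoidHom.ext fun x => ?_⟩
    exact lift_eq hξ' (hη.trans h2.symm) Group.IsPerfect.mem_commutator

end Cfsg.Agent.S3960
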