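import Cfsg.Statements.S3962
import Cfsg.Agent.GS.Lem1

set_option autoImplicit false
open Cfsg

namespace Cfsg.Agent.S3962

open Cfsg.Agent.H1

/-- Let `G` be a perfect group and `π : G →* Q` a surjective homomorphism whose kernel is central. Then `π` maps the centre of `G` onto the centre of `Q`. Taking `π` to be the map to `G ⧸ Z(G)` shows that the central quotient of a perfect group has trivial centre. -/
theorem result {G Q : Type*} [Group G] [Group Q] (hG : Group.IsPerfect G) (π : G →* Q) (hπ : Function.Surjective π) (hker : π.ker ≤ Subgroup.center G) : (Subgroup.center G).map π = Subgroup.center Q := by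
  open Subgroup Pointwise commutatorElement Cfsg.Agent.BG Cfsg.Agent.GS in
  open Cfsg.Agent.H2 hiding card_lt_of_lt card_lt_of_ne_top isMulCommutative_of_le isPGroup_zpowers_iff mem_of_pow_mem_of_coprime inf_eq_bot_of_cop exists_maxElem_ge Sec in
  open Cfsg.Agent.H8 (Op Opp Fit SN) in
  open Cfsg.Agent.L (FPF) in focus
    refine le_antisymm ?_ fun z hz => ?_
    · rintro _ ⟨z, hz, rfl⟩
      refine mem_center_iff.2 fun q => ?_
      obtain ⟨g, rfl⟩ := hπ q
      rw [← map_mul, ← map_mul, mem_center_iff.1 hz g]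
    · have h1 : ⁅(center Q).comap π, ⊤⁆ ≤ center G := commutator_le.2 fun a ha b _ => hker (by
        rw [MonoidHom.mem_ker, map_commutatorElement, commutatorElement_eq_one_iff_mul_comm]
        exact (mem_center_iff.1 ha _).symm)
      have h2 : ⁅⁅(center Q).comap π, ⊤⁆, ⊤⁆ ≤ ⊥ := (le_cent_iff_comm.1 (h1.trans (center_le_cent _))).le
      have h3 : ⁅⁅(⊤ : Subgroup G), ⊤⁆, (center Q).comap π⁆ ≤ ⊥ := three_subgroups_normal (by rwa [commutator_comm ⊤]) h2
      rw [der_top, hG.commutator_eq_top, le_bot_iff, ← le_cent_iff_comm, le_cent_comm, cent_top] at h3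
      obtain ⟨g, rfl⟩ := hπ z
      exact mem_map_of_mem π (h3 hz)

end Cfsg.Agent.S3962
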