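import Cfsg.Statements.S3961
import Cfsg.Agent.H8.Hopf2
import Cfsg.Agent.S3962

set_option autoImplicit false
universe u v
open Cfsg

namespace Cfsg.Agent.S3961

open Subgroup hiding commutator_def
open Function Cfsg.Agent.Hopf
open scoped commutatorElement


/-- Let `π : G →* Q` be a surjective homomorphism with central kernel from a finite perfect group `G` (a perfect cover of `Q`). Then `π` is universal, in the sense that every surjective homomorphism `ξ : X →* Q` with central kernel from a group `X` in the universe of `G` admits a homomorphism `η : G →* X` with `ξ ∘ η = π`, if and only if `G` has trivial Schur multiplier. -/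
theorem result {G : Type u} {Q : Type v} [Group G] [Group Q] [Finite G] (hG : Group.IsPerfect G) (π : G →* Q) (hπ : Function.Surjective π) (hker : π.ker ≤ Subgroup.center G) : (∀ (X : Type u) [Group X] (ξ : X →* Q), Function.Surjective ξ → ξ.ker ≤ Subgroup.center X → ∃ η : G →* X, ξ.comp η = π) ↔ Cfsg.HasCyclicSchurMultiplier G 1 := by
  constructor
  · intro h
    rw [triv_iff]
    intro Γ _ _ σ hσ
    have hP : Group.IsPerfect Γ := by
      have h1 := map_commutator_of_surj (σ := MonoidHom.id G) (by simp [MonoidHom.ker_id]) (τ := σ) hσ.1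
      refine ⟨eq_top_iff.2 fun x _ => ?_⟩
      obtain ⟨y, hy, h2⟩ : σ x ∈ (_root_.commutator _).map σ := h1 ▸ Group.IsPerfect.mem_commutator
      have h3 : y⁻¹ * x ∈ _root_.commutator Γ := hσ.2.2 (by simp [h2])
      simpa using mul_mem hy h3
    have hc : (π.comp σ).ker ≤ center Γ := fun x hx => by
      have h1 : σ x ∈ (center Γ).map σ := S3962.result hP σ hσ.1 hσ.2.1 ▸ hker hx
      obtain ⟨y, hy, h2⟩ := h1
      have h3 : y⁻¹ * x ∈ center Γ := hσ.2.1 (by simp [h2])
      simpa using mul_mem hy h3
    obtain ⟨η, hη⟩ := h Γ (π.comp σ) (hπ.comp hσ.1) hc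
    have h1 : ∀ x, σ (η x) = x := fun x =>
      lift_eq hker (τ := σ.comp η) (τ' := MonoidHom.id G) hη Group.IsPerfect.mem_commutator
    have h2 : Surjective η := surj_of_stem hσ fun x => ⟨x, h1 x⟩
    rw [eq_bot_iff_forall]
    intro x hx
    obtain ⟨y, rfl⟩ := h2 x
    rw [MonoidHom.mem_ker, h1] at hx
    rw [hx, map_one]
  · intro hG1 X _ ξ hξ hξ'
    have h := fp_surj G
    obtain ⟨τ, hτ⟩ := exists_lift (fp G) hξ hξ' π
    obtain ⟨e⟩ := mult_equiv hG1 h
    have hs : Subsingleton (HM (fp G)) := e.symm.injective.subsingleton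
    let ι := (Hp (fp G)).comp (_root_.commutator (HE (fp G))).subtype
    have hι : Bijective ι := by
      refine ⟨(injective_iff_map_eq_one _).2 fun x hx => Subtype.ext ?_, fun q => ?_⟩
      · exact congrArg (fun y : HM (fp G) => (y : HE (fp G))) (hs.elim ⟨x.1, mem_inf.2 ⟨hx, x.2⟩⟩ 1)
      · have h1 := map_commutator_of_surj (σ := MonoidHom.id G) (by simp [MonoidHom.ker_id]) (τ := Hp (fp G)) (Hp_surj h)
        obtain ⟨x, hx, rfl⟩ : q ∈ (_root_.commutator _).map (Hp (fp G)) := h1 ▸ Group.IsPerfect.mem_commutator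
        exact ⟨⟨x, hx⟩, rfl⟩
    let k := MulEquiv.ofBijective ι hι
    refine ⟨(τ.comp (_root_.commutator (HE (fp G))).subtype).comp k.symm.toMonoidHom, MonoidHom.ext fun g => ?_⟩
    obtain ⟨x, rfl⟩ := k.surjective g
    have h2 := DFunLike.congr_fun hτ x.1
    simp only [MonoidHom.comp_apply, MulEquiv.coe_toMonoidHom, MulEquiv.symm_apply_apply] at h2 ⊢
    exact h2

end Cfsg.Agent.S3961
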