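import Cfsg.Statements.S3966
import Cfsg.Agent.H8.Hopf4

set_option autoImplicit false
open Cfsg

namespace Cfsg.Agent.S3966

open Subgroup hiding commutator_def
open Function Cfsg.Agent.Hopf
open scoped commutatorElement

open QuaternionGroup in
theorem gen (n : ℕ) [NeZero n] : Subgroup.closure ({a 1, xa 0} : Set (QuaternionGroup n)) = ⊤ := by
  rw [eq_top_iff]
  have h1 : ∀ i, a i ∈ Subgroup.closure ({a 1, xa 0} : Set (QuaternionGroup n)) := fun i => by
    rw [← ZMod.natCast_zmod_val i, ← a_one_pow]; exact pow_mem (Subgroup.subset_closure (by simp)) _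
  rintro (i | i) -
  · exact h1 i
  · have : xa i = xa 0 * a i := by simp
    rw [this]; exact mul_mem (Subgroup.subset_closure (by simp)) (h1 i)

/-- For even `n ≥ 2` the dicyclic group of order `4 n` is a stem extension of the dihedral group of order `2 n` with kernel of order `2`: there is a surjective homomorphism `QuaternionGroup n →* DihedralGroup n` whose kernel is central, lies in the commutator subgroup and has two elements. Together with the order of the multiplier this exhibits the dicyclic group as a Schur covering group of the dihedral group. -/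
theorem result (n : ℕ) [NeZero n] (hn : Even n) : ∃ σ : QuaternionGroup n →* DihedralGroup n, Cfsg.IsStemExtension σ ∧ Nat.card σ.ker = 2 := by
  let c := ZMod.castHom (dvd_mul_left n 2) (ZMod n)
  let σ : QuaternionGroup n →* DihedralGroup n := MonoidHom.mk'
    (fun x => match x with | .a i => .r (c i) | .xa i => .sr (c i)) (by
      rintro (i | i) (j | j) <;> simp [c])
  have hn0 : (n : ZMod (2 * n)) ≠ 0 := by
    rw [Ne, ZMod.natCast_eq_zero_iff]
    intro h
    have := Nat.le_of_dvd (NeZero.pos n) h
    have := NeZero.pos n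
    omega
  have h2 : (n : ZMod (2 * n)) + n = 0 := by
    rw [← Nat.cast_add, ← two_mul, ZMod.natCast_self]
  have hk : σ.ker = zpowers (QuaternionGroup.a n) := by
    apply le_antisymm
    · rintro (i | i) h
      · have h1 : c i = 0 := DihedralGroup.r.inj h
        rw [← ZMod.natCast_zmod_val i, map_natCast, ZMod.natCast_eq_zero_iff] at h1
        obtain ⟨k, hk⟩ := h1
        rw [← ZMod.natCast_zmod_val i, hk, ← QuaternionGroup.a_one_pow, ← QuaternionGroup.a_one_pow, pow_mul]
        exact pow_mem (mem_zpowers _) _
      · exact absurd h (by rintro ⟨⟩)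
    · rw [zpowers_le]
      change DihedralGroup.r (c n) = 1
      rw [map_natCast, ZMod.natCast_self]; rfl
  refine ⟨σ, ⟨?_, ?_, ?_⟩, ?_⟩
  · rintro (i | i)
    · exact ⟨.a i.val, congrArg DihedralGroup.r (by rw [map_natCast, ZMod.natCast_zmod_val])⟩
    · exact ⟨.xa i.val, congrArg DihedralGroup.sr (by rw [map_natCast, ZMod.natCast_zmod_val])⟩
  · rw [hk, zpowers_le]
    refine center_of_gen (gen n) (by simp [add_comm]) ?_
    simp [eq_neg_iff_add_eq_zero, h2]
  · obtain ⟨k, hk'⟩ := hn
    have h3 : ⁅QuaternionGroup.a (n := n) 1, QuaternionGroup.xa (n := n) 0⁆ = QuaternionGroup.a 1 ^ 2 := by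
      rw [commutatorElement_def, mul_assoc, ← mul_inv_rev, mul_inv_eq_iff_eq_mul, QuaternionGroup.a_one_pow]
      simp; ring
    rw [hk, zpowers_le, ← QuaternionGroup.a_one_pow, show QuaternionGroup.a (n := n) 1 ^ n = (QuaternionGroup.a 1 ^ 2) ^ k by
      rw [← pow_mul, two_mul k, ← hk'], ← h3]
    exact pow_mem (commutator_mem_commutator (mem_top _) (mem_top _)) _
  · rw [hk, Nat.card_zpowers]
    refine orderOf_eq_prime ?_ fun h => hn0 (QuaternionGroup.a.inj h)
    rw [sq, QuaternionGroup.a_mul_a, h2]; rfl

end Cfsg.Agent.S3966
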