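import Cfsg.Statements.S3963
import Cfsg.Agent.H8.Hopf4
import Cfsg.Agent.S3966

set_option autoImplicit false
open Cfsg

namespace Cfsg.Agent.S3963

open Subgroup hiding commutator_def
open Function Cfsg.Agent.Hopf
open scoped commutatorElement


/-- For every `n ≥ 1` the dicyclic (generalized quaternion) group of order `4 n` has trivial Schur multiplier. -/
theorem result (n : ℕ) [NeZero n] : Cfsg.HasCyclicSchurMultiplier (QuaternionGroup n) 1 := by
  rw [triv_iff]
  intro Γ _ _ σ hσ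
  have hn := NeZero.pos n
  have h1 : QuaternionGroup.a (n := n) 1 ^ (2 * n - 1) = (QuaternionGroup.a 1)⁻¹ := by
    rw [eq_inv_iff_mul_eq_one, ← pow_succ, Nat.sub_add_cancel (by omega), QuaternionGroup.a_one_pow_n]
  obtain ⟨c, c1, c2, -, c4, -⟩ := meta_upper hσ (S3966.gen n) (m := 2 * n) (n := 2) (r := 2 * n - 1) (t := n)
    (by rw [h1, mul_inv_eq_iff_eq_mul, eq_inv_mul_iff_mul_eq]; simp) QuaternionGroup.a_one_pow_n
    (by rw [QuaternionGroup.xa_sq, QuaternionGroup.a_one_pow])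
  rw [eq_bot_iff_forall]
  intro z hz
  obtain ⟨j, rfl⟩ := (mem_powers_iff_mem_zpowers.2 (c2 hz) : z ∈ Submonoid.powers c)
  rw [MonoidHom.mem_ker, map_pow, c1, h1, ← sq, inv_pow, inv_pow, inv_eq_one, ← pow_mul, ← orderOf_dvd_iff_pow_eq_one,
    QuaternionGroup.orderOf_a_one, Nat.mul_dvd_mul_iff_left two_pos] at hz
  obtain ⟨k, rfl⟩ := hz
  change c ^ (n * k) = 1
  rw [pow_mul, c4, one_pow]

end Cfsg.Agent.S3963
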