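import Cfsg.Statements.S3964
import Cfsg.Agent.H8.Hopf4

set_option autoImplicit false
open Cfsg

namespace Cfsg.Agent.S3964

open Subgroup hiding commutator_def
open Function Cfsg.Agent.Hopf
open scoped commutatorElement

open DihedralGroup in
theorem upper (n : ℕ) [NeZero n] {Γ : Type*} [Group Γ] [Finite Γ] {σ : Γ →* DihedralGroup n} (hσ : IsStemExtension σ) :
    ∃ c : Γ, c ^ n = 1 ∧ σ.ker ≤ zpowers c ∧ ∀ j : ℕ, c ^ j ∈ σ.ker ↔ n ∣ 2 * j := by
  have gen : Subgroup.closure ({r 1, sr 0} : Set (DihedralGroup n)) = ⊤ := by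
    rw [eq_top_iff]
    have h1 : ∀ i, r i ∈ Subgroup.closure ({r 1, sr 0} : Set (DihedralGroup n)) := fun i => by
      rw [← ZMod.natCast_zmod_val i, ← r_one_pow]; exact pow_mem (Subgroup.subset_closure (by simp)) _
    rintro (i | i) -
    · exact h1 i
    · have : sr i = sr 0 * r i := by simp
      rw [this]; exact mul_mem (Subgroup.subset_closure (by simp)) (h1 i)
  have hn := NeZero.pos n
  have h1 : r (n := n) 1 ^ (n - 1) = (r 1)⁻¹ := by
    rw [eq_inv_iff_mul_eq_one, ← pow_succ, Nat.sub_add_cancel (by omega), r_one_pow_n]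
  obtain ⟨c, c1, c2, c3, -, -⟩ := meta_upper hσ gen (m := n) (n := 2) (r := n - 1) (t := 0)
    (by rw [h1]; simp) r_one_pow_n (by rw [sq, sr_mul_self, pow_zero])
  refine ⟨c, c3, c2, fun j => ?_⟩
  rw [MonoidHom.mem_ker, map_pow, c1, h1, ← sq, inv_pow, inv_pow, inv_eq_one, ← pow_mul, ← orderOf_dvd_iff_pow_eq_one,
    orderOf_r_one]

/-- For odd `n` the dihedral group of order `2 n` has trivial Schur multiplier. -/
theorem result (n : ℕ) (hn : Odd n) : Cfsg.HasCyclicSchurMultiplier (DihedralGroup n) 1 := by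
  have : NeZero n := ⟨hn.pos.ne'⟩
  rw [triv_iff]
  intro Γ _ _ σ hσ
  obtain ⟨c, c1, c2, c3⟩ := upper n hσ
  rw [eq_bot_iff_forall]
  intro z hz
  obtain ⟨j, rfl⟩ := (mem_powers_iff_mem_zpowers.2 (c2 hz) : z ∈ Submonoid.powers c)
  obtain ⟨k, rfl⟩ := (Nat.coprime_two_right.2 hn).dvd_of_dvd_mul_left ((c3 j).1 hz)
  change c ^ (n * k) = 1
  rw [pow_mul, c1, one_pow]

end Cfsg.Agent.S3964
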