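import Cfsg.Statements.S3965
import Cfsg.Agent.H8.Hopf4
import Cfsg.Agent.S3964
import Cfsg.Agent.S3966

set_option autoImplicit false
open Cfsg

namespace Cfsg.Agent.S3965

open Subgroup hiding commutator_def
open Function Cfsg.Agent.Hopf
open scoped commutatorElement


/-- For even `n ≥ 2` the dihedral group of order `2 n` has Schur multiplier cyclic of order `2`. -/
theorem result (n : ℕ) [NeZero n] (hn : Even n) : Cfsg.HasCyclicSchurMultiplier (DihedralGroup n) 2 := by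
  obtain ⟨σ, hσ, hk⟩ := S3966.result n hn
  have := Fact.mk Nat.prime_two
  have : IsCyclic σ.ker := isCyclic_of_prime_card hk
  refine mult_mk hσ (mulEquivOfCyclicCardEq (by rw [hk, Nat.card_congr Multiplicative.toAdd, Nat.card_zmod]))
    fun Γ _ _ τ hτ => ?_
  obtain ⟨c, c1, c2, c3⟩ := S3964.upper n hτ
  obtain ⟨k, hk⟩ := hn
  rw [← two_mul] at hk
  refine exists_surj_zmod (z := c ^ k) ((c3 k).2 hk.dvd) (fun z hz => ?_) (by rw [← pow_mul, mul_comm, ← hk, c1])
  obtain ⟨j, rfl⟩ := (mem_powers_iff_mem_zpowers.2 (c2 hz) : z ∈ Submonoid.powers c)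
  obtain ⟨l, rfl⟩ := (Nat.mul_dvd_mul_iff_left two_pos).1 (hk ▸ (c3 j).1 hz : 2 * k ∣ 2 * j)
  change c ^ (k * l) ∈ _
  rw [pow_mul]; exact pow_mem (mem_zpowers _) _

end Cfsg.Agent.S3965
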