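import Cfsg.Statements.S3967
import Cfsg.Agent.H8.Hopf4

set_option autoImplicit false
open Cfsg

namespace Cfsg.Agent.S3967

open Subgroup hiding commutator_def
open Function Cfsg.Agent.Hopf
open scoped commutatorElement

theorem aux (m' d n u l s' : ℕ) (hm' : 0 < m') (hd : 0 < d) (hn : 0 < n) (hu : m'.Coprime u)
    (hs : ∑ i ∈ Finset.range n, (d * u + 1) ^ i = m' * s') :
    HasCyclicSchurMultiplier (MC (d * m') n (d * u + 1) (m' * l)) (Nat.gcd l (Nat.gcd d s')) := by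
  obtain ⟨g, hg⟩ : ∃ g, g = Nat.gcd l (Nat.gcd d s') := ⟨_, rfl⟩
  rw [← hg]
  have g1 : g ∣ l := hg ▸ Nat.gcd_dvd_left _ _
  have g2 : g ∣ d := hg ▸ (Nat.gcd_dvd_right _ _).trans (Nat.gcd_dvd_left _ _)
  have g3 : g ∣ s' := hg ▸ (Nat.gcd_dvd_right _ _).trans (Nat.gcd_dvd_right _ _)
  have g0 : 0 < g := Nat.pos_of_dvd_of_pos g2 hd
  have key : ∀ M v, M ∣ (∑ i ∈ Finset.range n, (v + 1) ^ i) * v → (v + 1) ^ n ≡ 1 [MOD M] := fun M v h => by
    rw [← geom_sum_mul_add]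
    exact (Nat.modEq_iff_dvd' (Nat.le_add_left _ _)).2 (by simpa using h) |>.symm
  have key2 : ∀ M v t, M ∣ v * t → (v + 1) * t ≡ t [MOD M] := fun M v t h => by
    rw [add_mul, one_mul]
    exact (Nat.modEq_iff_dvd' (Nat.le_add_left _ _)).2 (by simpa using h) |>.symm
  have ho := MC.ord (m := d * m') (n := n) (r := d * u + 1) (t := m' * l) (by positivity) hn
    (key _ _ (by rw [hs]; exact ⟨s' * u, by ring⟩)) (key2 _ _ _ ⟨u * l, by ring⟩)
  have : NeZero (m' * g) := ⟨by positivity⟩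
  obtain ⟨v, hv⟩ := ZMod.unitsMap_surjective (dvd_mul_right m' g) (ZMod.unitOfCoprime u hu.symm)
  obtain ⟨w, hw⟩ : ∃ w, w = (v : ZMod (m' * g)).val := ⟨_, rfl⟩
  have w1 : w.Coprime (m' * g) := hw ▸ ZMod.val_coe_unit_coprime v
  have w2 : w ≡ u [MOD m'] := by
    rw [← ZMod.natCast_eq_natCast_iff, hw]
    have := congrArg Units.val hv
    rw [ZMod.unitsMap_def, Units.coe_map, ZMod.coe_unitOfCoprime] at this
    rw [← this]; simp
  have w3 : d * w + 1 ≡ d * u + 1 [MOD d * m'] := (w2.mul_left' d).add_right 1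
  have w4 : m' * g ∣ ∑ i ∈ Finset.range n, (d * w + 1) ^ i := by
    have h1 : ∑ i ∈ Finset.range n, (d * w + 1) ^ i ≡ ∑ i ∈ Finset.range n, (d * u + 1) ^ i [MOD m' * g] :=
      Nat.ModEq.sum fun i _ => (w3.of_dvd (mul_comm d m' ▸ Nat.mul_dvd_mul_left m' g2)).pow i
    exact (h1.dvd_iff dvd_rfl).2 (hs ▸ Nat.mul_dvd_mul_left m' g3)
  have ho' := MC.ord (m := d * m' * g) (n := n) (r := d * w + 1) (t := m' * l) (by positivity) hn
    (key _ _ (by obtain ⟨c, hc⟩ := w4; rw [hc]; exact ⟨c * w, by ring⟩))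
    (key2 _ _ _ (by obtain ⟨c, rfl⟩ := g1; exact ⟨c * w, by ring⟩))
  have : Finite (MC (d * m' * g) n (d * w + 1) (m' * l)) := finite_of_meta MC.gen (by positivity) hn MC.r3 MC.r1 MC.r2
  obtain ⟨σ, s1, s2⟩ := MC.exists_hom (m := d * m' * g) (n := n) (r := d * w + 1) (t := m' * l)
    (H := MC (d * m') n (d * u + 1) (m' * l)) (by rw [pow_mul, MC.r1, one_pow]) MC.r2
    (MC.r3.trans (pow_eq_pow_iff_modEq.2 (ho.symm ▸ w3.symm)))
  obtain ⟨x, hx⟩ : ∃ x : MC (d * m' * g) n (d * w + 1) (m' * l), x = PresentedGroup.of true := ⟨_, rfl⟩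
  obtain ⟨y, hy⟩ : ∃ x : MC (d * m' * g) n (d * w + 1) (m' * l), x = PresentedGroup.of false := ⟨_, rfl⟩
  have r2 : y ^ n = x ^ (m' * l) := hx ▸ hy ▸ MC.r2
  have r3 : y * x * y⁻¹ = x ^ (d * w + 1) := hx ▸ hy ▸ MC.r3
  have hgen : Subgroup.closure {x, y} = ⊤ := hx ▸ hy ▸ MC.gen
  rw [← hx] at ho' s1
  rw [← hy] at s2
  obtain ⟨K, hK⟩ : ∃ K, K = zpowers (x ^ (d * m')) := ⟨_, rfl⟩
  have hc : K ≤ center _ := hK ▸ zpowers_le_of_mem (center_of_gen hgen ((Commute.refl x).pow_right _) (by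
    rw [← mul_inv_eq_iff_eq_mul, ← conj_pow, r3, ← pow_mul, pow_eq_pow_iff_modEq, ho']
    obtain ⟨c, rfl⟩ := g2
    exact key2 _ _ _ ⟨c * w, by ring⟩))
  have : K.Normal := ⟨fun z hz g => by rw [mem_center_iff.1 (hc hz) g]; simpa using hz⟩
  have hk : σ.ker = K := by
    apply le_antisymm
    · obtain ⟨ω, o1, o2⟩ := MC.exists_hom (m := d * m') (n := n) (r := d * u + 1) (t := m' * l)
        (x := QuotientGroup.mk' K x) (y := QuotientGroup.mk' K y)
        (by rw [← map_pow]; exact (QuotientGroup.eq_one_iff _).2 (hK ▸ mem_zpowers _))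
        (by rw [← map_pow, r2, map_pow]) (by
          rw [← map_inv, ← map_mul, ← map_mul, r3, map_pow, pow_eq_pow_iff_modEq]
          refine w3.of_dvd (orderOf_dvd_of_pow_eq_one ?_)
          rw [← map_pow]; exact (QuotientGroup.eq_one_iff _).2 (hK ▸ mem_zpowers _))
      have h1 : ω.comp σ = QuotientGroup.mk' K := MonoidHom.eq_of_eqOn_dense hgen (by
        rintro _ (rfl | rfl)
        · rw [MonoidHom.comp_apply, s1, o1]
        · rw [MonoidHom.comp_apply, s2, o2])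
      intro z hz
      rw [← QuotientGroup.eq_one_iff, ← QuotientGroup.mk'_apply, ← h1, MonoidHom.comp_apply, MonoidHom.mem_ker.1 hz, map_one]
    · rw [hK, zpowers_le, MonoidHom.mem_ker, map_pow, s1, MC.r1]
  refine mult_mk (σ := σ) ⟨?_, hk ▸ hc, ?_⟩ ?_ fun Γ _ _ τ hτ => ?_
  · rw [← MonoidHom.range_eq_top, eq_top_iff, ← MC.gen, closure_le]
    rintro _ (rfl | rfl)
    exacts [⟨x, s1⟩, ⟨y, s2⟩]
  · rw [hk, hK, zpowers_le, pow_mul x]
    refine pow_mem ?_ _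
    have h1 : (x ^ d) ^ w = ⁅y, x⁆ := by rw [commutatorElement_def, r3, pow_succ x, pow_mul x, mul_inv_cancel_right]
    obtain ⟨k, hk⟩ := exists_pow_eq_self_of_coprime (x := x ^ d) (n := w) (by
      rwa [orderOf_pow_of_dvd (x := x) hd.ne' ⟨m' * g, ho'.trans (mul_assoc _ _ _)⟩, ho', mul_assoc, Nat.mul_div_cancel_left _ hd])
    rw [← hk, h1]
    exact pow_mem (commutator_mem_commutator (mem_top _) (mem_top _)) _
  · have : IsCyclic σ.ker := by rw [hk, hK]; infer_instance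
    refine mulEquivOfCyclicCardEq ?_
    rw [hk, hK, Nat.card_zpowers, orderOf_pow_of_dvd (x := x) (by positivity) ((dvd_mul_right _ _).trans ho'.symm.dvd), ho',
      Nat.mul_div_cancel_left _ (by positivity), Nat.card_congr Multiplicative.toAdd, Nat.card_zmod]
  · obtain ⟨c, c1, c2, c3, c4, c5⟩ := meta_upper hτ MC.gen MC.r3 MC.r1 MC.r2
    obtain ⟨a, ha⟩ : ∃ x : MC (d * m') n (d * u + 1) (m' * l), x = PresentedGroup.of true := ⟨_, rfl⟩
    rw [← ha] at c1 ho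
    rw [pow_succ a, mul_inv_cancel_right] at c1
    refine exists_surj_zmod (z := c ^ m') ?_ (fun z hz => ?_) ?_
    · rw [MonoidHom.mem_ker, map_pow, c1, ← pow_mul a, ← orderOf_dvd_iff_pow_eq_one, ho]
      exact ⟨u, by ring⟩
    · obtain ⟨j, rfl⟩ := (mem_powers_iff_mem_zpowers.2 (c2 hz) : z ∈ Submonoid.powers c)
      rw [MonoidHom.mem_ker, map_pow, c1, ← pow_mul a, ← orderOf_dvd_iff_pow_eq_one, ho, mul_assoc,
        Nat.mul_dvd_mul_iff_left hd] at hz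
      obtain ⟨k, rfl⟩ := hu.dvd_of_dvd_mul_left hz
      change c ^ (m' * k) ∈ _
      rw [pow_mul]; exact pow_mem (mem_zpowers _) _
    · rw [hg, pow_gcd_eq_one, pow_gcd_eq_one, ← pow_mul, ← pow_mul, ← pow_mul, mul_comm m' d, ← hs]
      exact ⟨c4, c3, c5⟩

/-- Let `m, n ≥ 1`, `r ≥ 1` with `r ^ n ≡ 1 (mod m)`, and `l` a natural number; put `d = gcd(m, r - 1)`, `t = m l / d` and `h = d · gcd(m, 1 + r + ⋯ + r^(n-1)) / m`. The group presented by generators `a, b` and relations `a ^ m = 1`, `b ^ n = a ^ t`, `b a b⁻¹ = a ^ r` (a metacyclic group of order `m n`) has Schur multiplier cyclic of order `gcd(l, h)`. -/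
theorem result (m n r l : ℕ) (hm : 0 < m) (hn : 0 < n) (hr : 0 < r) (hrn : r ^ n ≡ 1 [MOD m]) : Cfsg.HasCyclicSchurMultiplier (PresentedGroup ({FreeGroup.of true ^ m, (FreeGroup.of false) ^ n * (FreeGroup.of true ^ (m * l / Nat.gcd m (r - 1)))⁻¹, FreeGroup.of false * FreeGroup.of true * (FreeGroup.of false)⁻¹ * (FreeGroup.of true ^ r)⁻¹} : Set (FreeGroup Bool))) (Nat.gcd l (Nat.gcd m (r - 1) * Nat.gcd m (∑ i ∈ Finset.range n, r ^ i) / m)) := by
  obtain ⟨r, rfl⟩ : ∃ r', r = r' + 1 := ⟨r - 1, by omega⟩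
  rw [Nat.add_sub_cancel]
  obtain ⟨m', u, hu, h1, h2⟩ := Nat.exists_coprime m r
  have hd : 0 < m.gcd r := Nat.gcd_pos_of_pos_left _ hm
  generalize m.gcd r = d at h1 h2 hd
  subst h1 h2
  have hm' : 0 < m' := Nat.pos_of_mul_pos_right hm
  have h3 : m' ∣ ∑ i ∈ Finset.range n, (u * d + 1) ^ i := by
    rw [← geom_sum_mul_add] at hrn
    have := (Nat.modEq_iff_dvd' (Nat.le_add_left _ _)).1 hrn.symm
    rw [Nat.add_sub_cancel, ← mul_assoc, Nat.mul_dvd_mul_iff_right hd] at this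
    exact hu.dvd_of_dvd_mul_right this
  obtain ⟨s', hs⟩ := h3
  have h4 : m' * d * l / d = m' * l := by rw [mul_right_comm, Nat.mul_div_cancel _ hd]
  have h5 : d * (m' * d).gcd (m' * s') / (m' * d) = d.gcd s' := by
    rw [Nat.gcd_mul_left, ← mul_assoc, mul_comm d m', Nat.mul_div_cancel_left _ hm]
  rw [hs, h4, h5, mul_comm m' d, mul_comm u d]
  exact aux m' d n u l s' hm' hd hn hu (mul_comm u d ▸ hs)

end Cfsg.Agent.S3967
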