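import Cfsg.Statements.S3968
import Mathlib
import Cfsg.Agent.H3.Kernel
import Cfsg.Agent.H1.Frattini

set_option autoImplicit false
open Cfsg

namespace Cfsg.Agent.S3968

open Cfsg.Agent.H3 Subgroup

/-- Let `p` be a prime and `G` a finite group with a faithful irreducible complex character of degree `p` (so `G` is an irreducible linear group in `p` variables). If `p ^ 2` divides the order of `G`, then the centre of `G` is nontrivial. -/
theorem result {G : Type*} [Group G] [Finite G] (p : ℕ) (hp : p.Prime) (χ : Cfsg.IrrCharacter G) (hdeg : χ.1 1 = p) (hfaith : ∀ g : G, χ.1 g = χ.1 1 → g = 1) (hdiv : p ^ 2 ∣ Nat.card G) : Subgroup.center G ≠ ⊥ := by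
  intro hZ
  classical
  have := Fact.mk hp
  obtain ⟨P⟩ := (inferInstance : Nonempty (Sylow p G))
  letI := Fintype.ofFinite (P : Subgroup G)
  have hd : charDegree χ.1 = p := by simp [charDegree, hdeg]
  have hk : charKer χ.1 = ⊥ := eq_bot_iff.2 fun g hg => hfaith g (apply_of_mem_charKer hg)
  have h1 : ∀ z ∈ center (P : Subgroup G), z ≠ 1 → χ.1 z = 0 := fun z hz h => by
    refine (χ.2.eq_zero_or_mem_charCenter z ?_).resolve_right fun e => ?_
    · rw [hd, hp.coprime_iff_not_dvd]
      exact fun e => P.not_dvd_index (e.trans (index_dvd_of_le fun g hg =>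
        mem_centralizer_singleton_iff.2 (congrArg Subtype.val (mem_center_iff.1 hz ⟨g, hg⟩))))
    · rw [χ.2.charCenter_eq_center hk, hZ] at e
      exact h (Subtype.ext e)
  have h2 : p ^ 2 ∣ Nat.card (P : Subgroup G) := P.pow_dvd_card_of_pow_dvd_card hdiv
  have hφ : IsCharacter (P : Subgroup G) fun x => χ.1 x := χ.2.isCharacter.comp (P : Subgroup G).subtype
  by_cases h3 : ∀ θ : IrrCharacter (P : Subgroup G), classInner (fun x : (P : Subgroup G) => χ.1 x) θ ≠ 0 → θ.1 1 = 1
  · have h4 : commutator (P : Subgroup G) = ⊥ := eq_bot_iff.2 fun g hg => Subtype.ext (hfaith g (by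
      refine (hφ.isClassFunction.apply_eq_sum_irr g).trans ((Finset.sum_congr rfl fun θ _ => ?_).trans
        (hφ.isClassFunction.apply_eq_sum_irr 1).symm)
      by_cases e : classInner (fun x : (P : Subgroup G) => χ.1 x) θ = 0
      · rw [e, zero_mul, zero_mul]
      · rw [apply_of_mem_charKer (θ.2.degree_eq_one_iff.1 (h3 θ e) hg)]))
    obtain ⟨n, hn⟩ := hφ.exists_nat_inner (isCharacter_one (G := (P : Subgroup G)))
    rw [classInner, Finset.sum_eq_single 1 (fun z _ hz => by
      rw [h1 z ((commutator_eq_bot_iff_center_eq_top _).1 h4 ▸ mem_top z) hz, zero_mul]) (by simp),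
      inv_mul_eq_iff_eq_mul₀ (Nat.cast_ne_zero.2 Nat.card_pos.ne')] at hn
    have h5 : p = Nat.card (P : Subgroup G) * n := by simpa [hdeg, ← Nat.cast_mul] using hn
    exact (Nat.le_of_dvd hp.pos (h2.trans (Dvd.intro _ h5.symm))).not_gt (by nlinarith [hp.one_lt])
  · push Not at h3
    obtain ⟨θ, h3, h4⟩ := h3
    obtain ⟨k, hk⟩ := P.2.exists_card_eq
    obtain ⟨j, -, hj⟩ := (Nat.dvd_prime_pow hp).1 (hk ▸ θ.2.degree_dvd_card)
    have h5 : charDegree θ.1 ≤ charDegree χ.1 := hφ.degree_le_of_inner_ne_zero θ.2 h3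
    have h6 := θ.2.cast_charDegree.symm
    have h7 : charDegree θ.1 = p := le_antisymm (hd ▸ h5) (hj ▸ Nat.le_self_pow (fun e => h4 (by
      rw [h6, hj, e]; simp)) p)
    have h8 := hφ.eq_of_inner_ne_zero_of_degree θ.2 h3 (by rw [h6, h7]; exact hdeg)
    have : Nontrivial (P : Subgroup G) := Finite.one_lt_card_iff_nontrivial.1
      ((Nat.one_lt_pow two_ne_zero hp.one_lt).trans_le (Nat.le_of_dvd Nat.card_pos h2))
    have := P.2.center_nontrivial
    obtain ⟨⟨z, hz⟩, h9⟩ := exists_ne (1 : center (P : Subgroup G))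
    have := θ.2.isCharacter.mem_charCenter_iff.1 (θ.2.center_le_charCenter hz)
    rw [h7, ← h8] at this
    simp only [h1 z hz fun e => h9 (Subtype.ext e), norm_zero] at this
    exact hp.ne_zero (by exact_mod_cast this.symm)

end Cfsg.Agent.S3968
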