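import Cfsg.Statements.S3969
import Cfsg.Agent.H8.Cls

set_option autoImplicit false
open Cfsg

namespace Cfsg.Agent.S3969

open Subgroup hiding commutator_def
open Function Cfsg.Agent.Hopf Cfsg.Agent.Reg
open scoped commutatorElement


/-- Let `P` be an abelian Sylow `p`-subgroup of the finite group `G`, generated by `d` elements (`d` its minimal number of generators). If the order of `G` is coprime to `(p - 1)(p ^ 2 - 1) ⋯ (p ^ d - 1)`, then `G` has a normal `p`-complement. (The classical statement needs only the largest number of cyclic factors of `P` of equal order in place of `d`; the form here follows from it.) -/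
theorem result {G : Type*} [Group G] [Finite G] (p : ℕ) [Fact p.Prime] (P : Sylow p G) (hab : IsMulCommutative (P : Subgroup G)) (hcop : Nat.Coprime (Nat.card G) (∏ i ∈ Finset.Icc 1 (Group.rank (P : Subgroup G)), (p ^ i - 1))) : Cfsg.HasNormalPComplement p G := by
  refine H2.hasNPC_iff_top.2 (npc_of_abelian P hab fun q hq hqp Q hQ hn => ?_)
  have := Fact.mk hq
  by_contra hc
  obtain ⟨i, hi, h1, h2⟩ := dvd_of_not_cent hqp P.2 hQ hn hc
  rw [relIndex_frat] at h1
  have h3 := (Nat.pow_dvd_pow_iff_le_right (Fact.out : p.Prime).one_lt).1 (h1.trans (index_frattini_dvd P.2))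
  have h4 := dvd_card_of_ne_bot hQ (by rintro rfl; exact hc bot_le)
  exact hq.one_lt.ne' (Nat.eq_one_of_dvd_coprimes hcop h4 (h2.trans (Finset.dvd_prod_of_mem _ (Finset.mem_Icc.2 ⟨hi, h3⟩))))

end Cfsg.Agent.S3969
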