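import Cfsg.Statements.S3970
import Cfsg.Agent.H8.Cls

set_option autoImplicit false
open Cfsg

namespace Cfsg.Agent.S3970

open Subgroup hiding commutator_def
open Function Cfsg.Agent.Hopf Cfsg.Agent.Reg
open scoped commutatorElement


/-- Let `G` be a finite group such that for every prime `p` dividing its order, other than the largest such prime, the Sylow `p`-subgroups are abelian and generated by at most two elements, and suppose `12` does not divide the order of `G`. Then `G` is solvable. In particular a group of cube-free order not divisible by `12` is solvable. -/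
theorem result {G : Type*} [Group G] [Finite G] (h : ∀ p : ℕ, p.Prime → p ∣ Nat.card G → (∃ q : ℕ, q.Prime ∧ q ∣ Nat.card G ∧ p < q) → ∀ P : Sylow p G, IsMulCommutative (P : Subgroup G) ∧ Group.rank (P : Subgroup G) ≤ 2) (h12 : ¬ 12 ∣ Nat.card G) : Group.IsSolvable G := by
  revert h h12
  refine sub_ind (P := fun G _ _ => (∀ p : ℕ, p.Prime → p ∣ Nat.card G → (∃ q : ℕ, q.Prime ∧ q ∣ Nat.card G ∧ p < q) →
    ∀ P : Sylow p G, IsMulCommutative (P : Subgroup G) ∧ Group.rank (P : Subgroup G) ≤ 2) → ¬ 12 ∣ Nat.card G →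
    Group.IsSolvable G) (fun G _ _ ih h h12 => ?_) G
  by_cases h1 : Nat.card G = 1
  · have := (Nat.card_eq_one_iff_unique.1 h1).1; infer_instance
  obtain ⟨p, hp'⟩ : ∃ p, p = (Nat.card G).minFac := ⟨_, rfl⟩
  have hp : p.Prime := hp' ▸ Nat.minFac_prime h1
  have hd : p ∣ Nat.card G := hp' ▸ Nat.minFac_dvd _
  have hmin : ∀ q : ℕ, q.Prime → q ∣ Nat.card G → p ≤ q := fun q hq hqd => hp' ▸ Nat.minFac_le_of_dvd hq.two_le hqd
  have := Fact.mk hp
  obtain ⟨P⟩ : Nonempty (Sylow p G) := inferInstance
  have h2 : H2.PNil p (⊤ : Subgroup G) := by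
    by_cases h2 : ∃ q : ℕ, q.Prime ∧ q ∣ Nat.card G ∧ p < q
    · obtain ⟨h3, h4⟩ := h p hp hd h2 P
      refine npc_of_abelian P h3 fun q hq hqp Q hQ hn => by_contra fun hc => ?_
      have := Fact.mk hq
      obtain ⟨i, hi, h5, h6⟩ := dvd_of_not_cent hqp P.2 hQ hn hc
      have h7 := h5.trans ((relIndex_dvd_card _ _).trans (card_subgroup_dvd_card _))
      rw [relIndex_frat] at h5
      have h8 := ((Nat.pow_dvd_pow_iff_le_right hp.one_lt).1 (h5.trans (index_frattini_dvd P.2))).trans h4
      have h9 := dvd_card_of_ne_bot hQ (by rintro rfl; exact hc bot_le)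
      have h10 := lt_of_le_of_ne (hmin q hq h9) hqp.symm
      have h11 := hp.two_le
      interval_cases i
      · have := Nat.le_of_dvd (by simp; omega) h6
        simp at this; omega
      · rw [show p ^ 2 - 1 = (p + 1) * (p - 1) by rw [← Nat.sq_sub_sq, one_pow]] at h6
        rcases (Nat.Prime.dvd_mul hq).1 h6 with h6 | h6
        · obtain rfl : q = p + 1 := le_antisymm (Nat.le_of_dvd (by omega) h6) h10
          obtain rfl : p = 2 := by
            rcases hp.eq_two_or_odd' with h | h
            · exact h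
            · have := hq.even_iff.1 h.add_one; omega
          exact h12 (Nat.Coprime.mul_dvd_of_dvd_of_dvd (by norm_num : Nat.Coprime 4 3) h7 h9)
        · have := Nat.le_of_dvd (by omega) h6
          omega
    · refine H2.pNil_of_isPGroup (IsPGroup.to_subgroup (IsPGroup.iff_card.2 ⟨_, Nat.eq_prime_pow_of_unique_prime_dvd
        Nat.card_pos.ne' fun {q} hq hqd => ?_⟩) _)
      by_contra h3
      exact h2 ⟨q, hq, hqd, lt_of_le_of_ne (hmin q hq hqd) (Ne.symm h3)⟩
  have h3 := H2.pNil_iff_card.1 h2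
  rw [H2.resOf_top] at h3
  have h4 : pResidual p G ≠ ⊤ := fun e => by
    rw [e, card_top] at h3
    exact hp.one_lt.ne' (Nat.eq_one_of_dvd_coprimes h3 hd dvd_rfl)
  have h5 := ih _ h4 (fun r hr hrd ⟨q, hq, hqd, hrq⟩ R => ?_) fun h => h12 (h.trans (card_subgroup_dvd_card _))
  · have := (H2.isPGroup_quotient_pResidual p G).isNilpotent
    exact solvable_of_ker_le_range (pResidual p G).subtype (QuotientGroup.mk' (pResidual p G)) (by simp)
  have := Fact.mk hr
  obtain ⟨k, hk⟩ := H2.index_pResidual p G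
  have h6 := H1.isSylowIn_map_subtype R
  obtain ⟨S, hS⟩ := H1.IsSylowIn.exists_sylow_top (p := r) (P := (R : Subgroup _).map (pResidual p G).subtype)
    ⟨le_top, h6.2.1, by
      rw [relIndex_top_right, ← relIndex_mul_index h6.1, hr.dvd_mul, hk]
      rintro (h | h)
      · exact h6.2.2 h
      · exact hr.one_lt.ne' (Nat.eq_one_of_dvd_coprimes h3 hrd (hr.dvd_of_dvd_pow h))⟩
  obtain ⟨h7, h8⟩ := h r hr (hrd.trans (card_subgroup_dvd_card _)) ⟨q, hq, hqd.trans (card_subgroup_dvd_card _), hrq⟩ S
  have e := (equivMapOfInjective (R : Subgroup _) _ (pResidual p G).subtype_injective).trans (MulEquiv.subgroupCongr hS.symm)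
  exact ⟨⟨⟨fun a b => e.injective (by rw [map_mul, map_mul, h7.is_comm.comm])⟩⟩, (Group.rank_congr e).trans_le h8⟩

end Cfsg.Agent.S3970
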