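import Cfsg.Statements.S3971
import Cfsg.Agent.H8.Cls

set_option autoImplicit false
open Cfsg

namespace Cfsg.Agent.S3971

open Subgroup hiding commutator_def
open Function Cfsg.Agent.Hopf Cfsg.Agent.Reg
open scoped commutatorElement Pointwise


/-- Let `G` be a finite group of order `2 ^ a * n` with `n` odd and not divisible by `3`, and suppose `G` has an element of order `2 ^ (a - 1)` (so a Sylow `2`-subgroup has a cyclic subgroup of index at most `2`). Then `G` has a normal subgroup of order `n`. -/
theorem result {G : Type*} [Group G] [Finite G] (a n : ℕ) (hG : Nat.card G = 2 ^ a * n) (hn : Odd n) (h3 : ¬ 3 ∣ n) (hx : ∃ x : G, orderOf x = 2 ^ (a - 1)) : ∃ N : Subgroup G, N.Normal ∧ Nat.card N = n := by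
  obtain ⟨x, hx⟩ := hx
  have h2 : ¬ 2 ∣ n := fun h => (Nat.not_even_iff_odd.2 hn) (even_iff_two_dvd.2 h)
  have hc : ∀ S : Sylow 2 G, Nat.card S = 2 ^ a := fun S => by
    rw [S.card_eq_multiplicity, hG, Nat.factorization_mul (by simp) (by rintro rfl; simp at h2)]
    simp [Nat.factorization_eq_zero_of_not_dvd h2, Nat.prime_two.factorization_self]
  have h : H2.PNil 2 (⊤ : Subgroup G) := pNil_of_q fun U _ hU _ q hq hq2 Q _ hQ hn => by_contra fun hc' => by
    have := Fact.mk hq
    obtain ⟨i, hi, h5, h6⟩ := dvd_of_not_cent hq2 hU hQ hn hc'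
    obtain ⟨S, hS⟩ := hU.exists_le_sylow
    obtain ⟨g, -, hg⟩ := (H1.isSylowIn_top S).exists_conj_le le_top
      (IsPGroup.of_card (G := zpowers x) (by rw [Nat.card_zpowers, hx]))
    obtain ⟨C, hC⟩ : ∃ C : Subgroup G, C = MulAut.conj g • zpowers x := ⟨_, rfl⟩
    have h7 : C = zpowers (g * x * g⁻¹) := by rw [hC]; exact MonoidHom.map_zpowers _ _
    have h8 : C.relIndex S ∣ 2 := by
      have := (C.subgroupOf S).card_mul_index
      rw [Nat.card_congr (subgroupOfEquivOfLe (hC ▸ hg)).toEquiv, hc, h7, Nat.card_zpowers,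
        show orderOf (g * x * g⁻¹) = orderOf x from (MulAut.conj g).orderOf_eq x, hx, ← h7] at this
      refine Nat.dvd_of_mul_dvd_mul_left (pow_pos two_pos (a - 1)) ?_
      rw [relIndex, this, ← pow_succ]; exact pow_dvd_pow 2 (by omega)
    have h9 : (C.subgroupOf U).index ∣ 2 := by
      have h9 := (relIndex_le_of_le_right hS index_ne_zero_of_finite).trans (Nat.le_of_dvd two_pos h8)
      have h10 : C.relIndex U ≠ 0 := index_ne_zero_of_finite
      change C.relIndex U ∣ 2
      interval_cases C.relIndex U <;> simp_all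
    have h10 : (C.subgroupOf U).Normal := by
      rcases (Nat.dvd_prime Nat.prime_two).1 h9 with h | h
      · rw [index_eq_one.1 h]; infer_instance
      · exact normal_of_index_eq_two h
    have : IsCyclic C := h7 ▸ inferInstance
    have h11 := index_Pw_le (G := U) ⟨_, h10, isCyclic_of_injective (U.subtype.subgroupComap C)
      (fun a b e => Subtype.ext (Subtype.ext (congrArg (fun z : C => (z : G)) e))), isCyclic_of_card_dvd_prime h9⟩ two_pos
    rw [relIndex_frat] at h5
    have h12 := (Nat.pow_le_pow_iff_right one_lt_two).1 ((Nat.le_of_dvd (Nat.pos_of_ne_zero index_ne_zero_of_finite)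
      (h5.trans (index_dvd_of_le (Pw_le_iff.2 fun x _ => H1.pow_mem_frattini hU x)))).trans h11)
    have h13 := dvd_card_of_ne_bot hQ (by rintro rfl; exact hc' bot_le)
    interval_cases i
    · exact hq.one_lt.ne' (Nat.dvd_one.1 h6)
    · obtain rfl := (Nat.prime_dvd_prime_iff_eq hq Nat.prime_three).1 h6
      exact h3 ((Nat.Coprime.pow_right a (by norm_num : Nat.Coprime 3 2)).dvd_of_dvd_mul_left (hG ▸ h13))
  obtain ⟨P⟩ : Nonempty (Sylow 2 G) := inferInstance
  have := (h.isComplement' P).card_mul_card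
  rw [hc, hG, mul_comm, mul_right_inj' (by simp)] at this
  exact ⟨_, inferInstance, this⟩

end Cfsg.Agent.S3971
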