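import Cfsg.Statements.S3973
import Cfsg.Agent.H8.Hopf3

set_option autoImplicit false
open Cfsg

namespace Cfsg.Agent.S3973

open Subgroup hiding commutator_def
open Function Cfsg.Agent.Hopf
open scoped commutatorElement

theorem rank_le_finrank {A N : Type*} [CommGroup A] [Finite A] [AddCommGroup N] [Module.Free ℤ N]
    [Module.Finite ℤ N] (h : N →+ Additive A) (hs : Surjective h) : Group.rank A ≤ Module.finrank ℤ N := by
  classical
  let b := Module.finBasis ℤ N
  refine (Group.rank_le (S := Finset.univ.image fun i => (h (b i)).toMul) ?_).trans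
    (Finset.card_image_le.trans (by simp))
  rw [eq_top_iff]
  intro a _
  obtain ⟨x, hx⟩ := hs (Additive.ofMul a)
  have h1 : a = ∏ i, (h (b i)).toMul ^ b.repr x i := by
    have := congrArg Additive.toMul hx
    rw [← b.sum_repr x, map_sum, toMul_sum] at this
    simp only [map_zsmul, toMul_zsmul] at this
    exact this.symm
  rw [h1]
  exact prod_mem fun i _ => zpow_mem (Subgroup.subset_closure (by simp)) _

/-- If a finite group is presented by `n` generators and a finite set of `r` relators, then its Schur multiplier can be generated by `r - n` elements. In particular a finite group with a presentation having as many relators as generators has trivial Schur multiplier. -/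
theorem result (n : ℕ) (rels : Finset (FreeGroup (Fin n))) [Finite (PresentedGroup (rels : Set (FreeGroup (Fin n))))] {A : Type*} [CommGroup A] [Finite A] (hA : Cfsg.HasSchurMultiplier (PresentedGroup (rels : Set (FreeGroup (Fin n)))) A) : Group.rank A ≤ rels.card - n := by
  obtain ⟨φ, hφ⟩ : ∃ φ, φ = PresentedGroup.mk (rels : Set (FreeGroup (Fin n))) := ⟨_, rfl⟩
  have h : Surjective φ := hφ ▸ PresentedGroup.mk_surjective _
  have hk : φ.ker = normalClosure rels := hφ ▸ QuotientGroup.ker_mk' _
  obtain ⟨e⟩ := mult_equiv hA h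
  have hc := Hp_cent φ
  letI : CommGroup (Hp φ).ker := { (inferInstance : Group (Hp φ).ker) with
    mul_comm := fun a b => Subtype.ext (mem_center_iff.1 (hc b.2) a) }
  have hr : ∀ r : rels, ((r : FreeGroup (Fin n)) : HE φ) ∈ (Hp φ).ker := fun r =>
    hk.ge (subset_normalClosure r.2)
  let f : (rels → ℤ) →ₗ[ℤ] Additive (Hp φ).ker := Fintype.linearCombination ℤ fun r => Additive.ofMul ⟨_, hr r⟩
  have hf : Surjective f := by
    let X : Subgroup (HE φ) := (AddSubgroup.toSubgroup' f.range.toAddSubgroup).map (Hp φ).ker.subtype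
    have : X.Normal := normal_of_le (map_subtype_le _)
    have h1 : normalClosure (rels : Set (FreeGroup (Fin n))) ≤ X.comap (QuotientGroup.mk' _) := by
      classical
      refine normalClosure_le_normal fun r hr' => ⟨⟨_, hr ⟨r, hr'⟩⟩, ⟨Pi.single ⟨r, hr'⟩ 1, ?_⟩, rfl⟩
      simp only [f, Fintype.linearCombination_apply_single, one_smul]; rfl
    rintro ⟨x, hx⟩
    induction x using QuotientGroup.induction_on with | H x => ?_
    obtain ⟨y, ⟨v, hv⟩, h2⟩ := h1 (hk.le hx)
    exact ⟨v, hv.trans (Subtype.ext h2)⟩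
  let ε : FreeGroup (Fin n) →* Multiplicative (Fin n → ℤ) := FreeGroup.lift fun i => Multiplicative.ofAdd (Pi.single i 1)
  have hε : Surjective ε := fun v => by
    refine ⟨(List.ofFn fun i => FreeGroup.of i ^ v.toAdd i).prod, ?_⟩
    rw [map_list_prod, List.map_ofFn, List.prod_ofFn]
    ext j
    simp [ε, toAdd_prod, Pi.single_apply]
  let ε' : HE φ →* Multiplicative (Fin n → ℤ) := QuotientGroup.lift _ ε
    ((HC_le_comm φ).trans (Abelianization.commutator_subset_ker ε))
  let g : Additive (Hp φ).ker →ₗ[ℤ] (Fin n → ℤ) :=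
    (MonoidHom.toAdditiveLeft (ε'.comp (Hp φ).ker.subtype)).toIntLinearMap
  have h1 := (g ∘ₗ f).ker.finrank_quotient_add_finrank
  rw [(g ∘ₗ f).quotKerEquivRange.finrank_eq] at h1
  have h2 : n ≤ Module.finrank ℤ (g ∘ₗ f).range := by
    obtain ⟨N, hN⟩ : ∃ N, N = Nat.card (PresentedGroup (rels : Set (FreeGroup (Fin n)))) := ⟨_, rfl⟩
    have hN0 : (N : ℤ) ≠ 0 := by rw [hN]; exact_mod_cast Nat.card_pos.ne'
    have h3 := LinearMap.finrank_le_finrank_of_injective
      (f := (((N : ℤ) • LinearMap.id : (Fin n → ℤ) →ₗ[ℤ] (Fin n → ℤ))).codRestrict (g ∘ₗ f).range fun v => by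
        obtain ⟨x, hx⟩ := hε (Multiplicative.ofAdd v)
        have h4 : ((x ^ N : FreeGroup (Fin n)) : HE φ) ∈ (Hp φ).ker := by
          rw [MonoidHom.mem_ker, Hp_mk, map_pow, hN, pow_card_eq_one']
        obtain ⟨w, hw⟩ := hf (Additive.ofMul ⟨_, h4⟩)
        refine ⟨w, ?_⟩
        rw [LinearMap.comp_apply, hw]
        change (ε (x ^ N)).toAdd = _
        rw [map_pow, hx]; simp)
      fun a b hab => smul_right_injective _ hN0 (by simpa using congrArg Subtype.val hab)
    simpa using h3
  let M : Submodule ℤ (Additive (Hp φ).ker) :=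
    (Subgroup.toAddSubgroup ((HM φ).subgroupOf (Hp φ).ker)).toIntSubmodule
  have h3 : M.comap f ≤ (g ∘ₗ f).ker := fun v hv =>
    congrArg Multiplicative.toAdd (Abelianization.commutator_subset_ker ε' hv.2)
  have h4 := Submodule.finrank_mono h3
  let k : M.comap f →+ Additive (HM φ) := AddMonoidHom.mk' (fun v => Additive.ofMul ⟨(f v).toMul, v.2⟩) fun a b =>
    Subtype.ext (by
      change ((f (a + b)).toMul : HE φ) = (f a).toMul * (f b).toMul
      rw [map_add]; rfl)
  have h5 := rank_le_finrank ((MonoidHom.toAdditive e.symm.toMonoidHom).comp k) (e.symm.surjective.comp fun a => by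
    obtain ⟨v, hv⟩ := hf (Additive.ofMul ⟨_, a.2.1⟩)
    exact ⟨⟨v, by change f v ∈ M; rw [hv]; exact a.2⟩, Subtype.ext (by
      change ((f v).toMul : HE φ) = _
      rw [hv]; rfl)⟩)
  simp only [Module.finrank_fintype_fun_eq_card, Fintype.card_coe] at h1
  omega

end Cfsg.Agent.S3973
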