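import Cfsg.Statements.S3974
import Cfsg.Agent.H8.Hopf2

set_option autoImplicit false
universe u v
open Cfsg

namespace Cfsg.Agent.S3974

open Subgroup hiding commutator_def
open Function Cfsg.Agent.Hopf
open scoped commutatorElement


/-- Let `Q` be a finite group with Schur multiplier `A`. Any two Schur covering groups of `Q` (finite stem extensions `σ₁ : Γ₁ →* Q`, `σ₂ : Γ₂ →* Q` with kernels isomorphic to `A`, `Γ₁, Γ₂` in the universe of `Q`) are isomorphic over `Q` — there is a group isomorphism `e : Γ₁ ≃* Γ₂` with `σ₂ ∘ e = σ₁` — if and only if the order of the commutator quotient of `Q` is coprime to the order of `A`. In particular a finite perfect group has a unique Schur covering group up to isomorphism over it. -/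
theorem result {Q : Type u} [Group Q] [Finite Q] {A : Type v} [CommGroup A] (hA : Cfsg.HasSchurMultiplier Q A) : (∀ (Γ₁ Γ₂ : Type u) [Group Γ₁] [Finite Γ₁] [Group Γ₂] [Finite Γ₂] (σ₁ : Γ₁ →* Q) (σ₂ : Γ₂ →* Q), Cfsg.IsStemExtension σ₁ → Cfsg.IsStemExtension σ₂ → Nonempty (σ₁.ker ≃* A) → Nonempty (σ₂.ker ≃* A) → ∃ e : Γ₁ ≃* Γ₂, σ₂.comp e.toMonoidHom = σ₁) ↔ Nat.Coprime (Nat.card (Abelianization Q)) (Nat.card A) := by
  have := mult_finite' hA
  have := mult_finite hA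
  have h := fp_surj Q
  have hc := Hp_cent (fp Q)
  constructor
  · intro H
    by_contra hco
    classical
    obtain ⟨p, hp, h1, h2⟩ := Nat.Prime.not_coprime_iff_dvd.1 hco
    have := Fact.mk hp
    obtain ⟨ι, _, n, hn, ⟨e⟩⟩ := CommGroup.equiv_prod_multiplicative_zmod_of_finite (Abelianization Q)
    rw [Nat.card_congr e.toEquiv, Nat.card_pi] at h1
    obtain ⟨i, -, hi⟩ := (Prime.dvd_finset_prod_iff hp.prime _).1 h1
    rw [Nat.card_congr Multiplicative.toAdd, Nat.card_zmod] at hi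
    have hn0 : n i ≠ 0 := by have := hn i; omega
    obtain ⟨a, ha⟩ : ∃ a : A, ∀ b : A, b ^ p ≠ a := by
      by_contra! h3
      have h4 : Injective (powMonoidHom p : A →* A) := Finite.injective_iff_surjective.2 h3
      obtain ⟨x, hx⟩ := exists_prime_orderOf_dvd_card' p h2
      have h5 : x = 1 := (injective_iff_map_eq_one _).1 h4 x (hx ▸ pow_orderOf_eq_one x)
      rw [h5, orderOf_one] at hx
      exact hp.one_lt.ne hx
    let χ : Q →* Multiplicative (ZMod (n i)) := (Pi.evalMonoidHom _ i).comp (e.toMonoidHom.comp Abelianization.of)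
    obtain ⟨ψ, hψ⟩ := exists_lift (fp Q) (σ := AddMonoidHom.toMultiplicative (Int.castAddHom (ZMod (n i))))
      (ZMod.intCast_surjective (n := n i)) (by rw [CommGroup.center_eq_top]; exact le_top) χ
    replace hψ : ∀ x, ((ψ x).toAdd : ZMod (n i)) = (χ (Hp (fp Q) x)).toAdd := fun x =>
      congrArg Multiplicative.toAdd (DFunLike.congr_fun hψ x)
    have hd : ∀ x : (Hp (fp Q)).ker, (n i : ℤ) ∣ (ψ x).toAdd := fun x => by
      rw [← ZMod.intCast_zmod_eq_zero_iff_dvd, hψ, MonoidHom.mem_ker.1 x.2, map_one, toAdd_one]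
    let θ : (Hp (fp Q)).ker →* A := MonoidHom.mk' (fun x => a ^ ((ψ x).toAdd / n i)) fun x y => by
      rw [coe_mul, map_mul, toAdd_mul, Int.add_ediv_of_dvd_left (hd x), zpow_add]
    have hθ : ∀ x : (Hp (fp Q)).ker, (x : HE (fp Q)) ∈ _root_.commutator _ → θ x = 1 := fun x hx => by
      change a ^ ((ψ x).toAdd / n i) = 1
      rw [MonoidHom.mem_ker.1 (Abelianization.commutator_subset_ker ψ hx)]; simp
    obtain ⟨Γ, _, _, σ, hσ, ⟨k⟩⟩ := hA.1
    obtain ⟨τ, hτ⟩ := exists_lift' (fp Q) hσ.1 hσ.2.1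
    have hτ' : ∀ x, σ (τ x) = Hp (fp Q) x := DFunLike.congr_fun hτ
    let τ' : (Hp (fp Q)).ker →* A := k.toMonoidHom.comp ((τ.comp (Subgroup.subtype _)).codRestrict σ.ker
      fun x => (hτ' x).trans x.2)
    have hi1 := cover_inj hA h hσ k hτ
    have hi2 := map_HM h hσ.2.1 hτ
    rw [inf_eq_left.2 hσ.2.2] at hi2
    obtain ⟨D, hD⟩ : ∃ D, D = (τ' / θ).ker.map (Hp (fp Q)).ker.subtype := ⟨_, rfl⟩
    have hD1 : D ⊓ HM (fp Q) = ⊥ := by
      rw [eq_bot_iff_forall, hD]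
      rintro _ ⟨⟨x, hx, rfl⟩, hx'⟩
      rw [SetLike.mem_coe, MonoidHom.mem_ker, MonoidHom.div_apply, hθ x hx'.2, div_one] at hx
      exact hi1.le ⟨congrArg Subtype.val (k.map_eq_one_iff.1 hx), hx'⟩
    have hD2 : D ⊔ HM (fp Q) = (Hp (fp Q)).ker := by
      refine le_antisymm (sup_le (hD ▸ map_subtype_le _) HM_le_ker) fun x hx => ?_
      obtain ⟨m, hm, h3⟩ := hi2.ge (k.symm ((τ' / θ) ⟨x, hx⟩)).2
      have h4 : x = x * m⁻¹ * m := by simp
      rw [h4]
      refine mul_mem_sup (hD ▸ ⟨⟨x, hx⟩ * ⟨m, hm.1⟩⁻¹, ?_, rfl⟩) hm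
      rw [SetLike.mem_coe, MonoidHom.mem_ker, map_mul, map_inv, mul_inv_eq_one, MonoidHom.div_apply τ' θ ⟨m, _⟩,
        hθ _ hm.2, div_one]
      exact k.symm_apply_eq.1 (Subtype.ext h3.symm)
    have := normal_of_le (hD2 ▸ le_sup_left : D ≤ (Hp (fp Q)).ker)
    obtain ⟨_, σ₂, hσ₂, h3, ⟨k₂⟩⟩ := exists_cover h hD1 hD2
    obtain ⟨kA⟩ := mult_equiv hA h
    obtain ⟨f, hf⟩ := H _ Γ σ₂ σ hσ₂ hσ ⟨k₂.trans kA.symm⟩ ⟨k⟩
    obtain ⟨μ, hμ⟩ := exists_diff hσ.2.1 τ (f.toMonoidHom.comp (QuotientGroup.mk' D)) fun x => by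
      have k1 := DFunLike.congr_fun hf (QuotientGroup.mk' D x)
      have k2 := DFunLike.congr_fun h3 x
      simp only [MonoidHom.comp_apply] at k1 k2 ⊢
      rw [MonoidHom.mem_ker, map_mul, map_inv, k1, k2, hτ', mul_inv_cancel]
    let μ' := k.toMonoidHom.comp μ
    have hμ1 : ∀ x ∈ _root_.commutator _, μ' x = 1 := fun x hx => Abelianization.commutator_subset_ker μ' hx
    have hμ2 : ∀ x : (Hp (fp Q)).ker, μ' x = θ x := by
      rintro ⟨x, hx⟩
      have hx' := hD2.ge hx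
      rw [← SetLike.mem_coe, normal_mul] at hx'
      obtain ⟨d, hd, m, hm, rfl⟩ := hx'
      have hd' := hd
      rw [hD] at hd
      obtain ⟨d, hd, rfl⟩ := hd
      have h4 : θ ⟨_, hx⟩ = θ d * θ ⟨m, hm.1⟩ := by rw [← map_mul]; rfl
      rw [h4, map_mul, hμ1 m hm.2, hθ ⟨m, hm.1⟩ hm.2, mul_one, mul_one]
      rw [SetLike.mem_coe, MonoidHom.mem_ker, MonoidHom.div_apply, div_eq_one] at hd
      rw [← hd]
      refine congrArg k (Subtype.ext ((hμ _).trans ?_))
      rw [MonoidHom.comp_apply, QuotientGroup.mk'_apply, (QuotientGroup.eq_one_iff _).2 hd', map_one, inv_one, mul_one]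
      rfl
    obtain ⟨y, hy⟩ := QuotientGroup.mk'_surjective _ (e.symm (Pi.mulSingle i (Multiplicative.ofAdd 1)))
    replace hy : Abelianization.of y = e.symm (Pi.mulSingle i (Multiplicative.ofAdd 1)) := hy
    obtain ⟨x, rfl⟩ := Hp_surj h y
    have h4 : Hp (fp Q) (x ^ n i) ∈ _root_.commutator Q := by
      rw [← Abelianization.ker_of, MonoidHom.mem_ker, map_pow, map_pow, hy, ← map_pow, ← Pi.mulSingle_pow,
        ← ofAdd_nsmul, nsmul_one, ZMod.natCast_self, ofAdd_zero, Pi.mulSingle_one, map_one]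
    rw [← map_commutator_of_surj (σ := MonoidHom.id Q) (by simp [MonoidHom.ker_id]) (τ := Hp (fp Q)) (Hp_surj h)] at h4
    obtain ⟨c, hc1, hc2⟩ := h4
    have h5 := hμ2 ⟨x ^ n i * c⁻¹, by rw [MonoidHom.mem_ker, map_mul, map_inv, hc2, mul_inv_cancel]⟩
    change μ' (x ^ n i * c⁻¹) = a ^ ((ψ (x ^ n i * c⁻¹)).toAdd / n i) at h5
    rw [map_mul, map_mul, map_inv, map_inv, hμ1 c hc1, MonoidHom.mem_ker.1 (Abelianization.commutator_subset_ker ψ hc1),
      inv_one, inv_one, mul_one, mul_one, map_pow, map_pow, toAdd_pow, nsmul_eq_mul,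
      Int.mul_ediv_cancel_left _ (by exact_mod_cast hn0)] at h5
    have h6 : (n i : ℤ) ∣ (ψ x).toAdd - 1 := by
      rw [← ZMod.intCast_zmod_eq_zero_iff_dvd, Int.cast_sub, hψ, Int.cast_one, sub_eq_zero]
      change (e (Abelianization.of _) i).toAdd = 1
      rw [hy, MulEquiv.apply_symm_apply, Pi.mulSingle_eq_same, toAdd_ofAdd]
    obtain ⟨j, hj⟩ := h6
    obtain ⟨l, hl⟩ := hi
    rw [sub_eq_iff_eq_add.1 hj, zpow_add_one, ← inv_mul_eq_iff_eq_mul] at h5
    apply ha ((a ^ (l * j : ℤ))⁻¹ * μ' x ^ l)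
    have h7 : (n i : ℤ) * j = l * j * p := by rw [hl]; push_cast; ring
    rw [mul_pow, inv_pow, ← pow_mul, ← zpow_natCast _ p, ← zpow_mul, ← h7, mul_comm l p, ← hl, h5]
  · intro hco Γ₁ Γ₂ _ _ _ _ σ₁ σ₂ h₁ h₂ ⟨k₁⟩ ⟨k₂⟩
    obtain ⟨τ₁, hτ₁⟩ := exists_lift' (fp Q) h₁.1 h₁.2.1
    obtain ⟨τ₂, hτ₂⟩ := exists_lift' (fp Q) h₂.1 h₂.2.1
    have e1 : ∀ x, σ₁ (τ₁ x) = Hp (fp Q) x := DFunLike.congr_fun hτ₁
    have e2 : ∀ x, σ₂ (τ₂ x) = Hp (fp Q) x := DFunLike.congr_fun hτ₂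
    have hi1 := cover_inj hA h h₁ k₁ hτ₁
    have hi2 := map_HM h h₁.2.1 hτ₁
    rw [inf_eq_left.2 h₁.2.2] at hi2
    have hk : τ₁.ker ≤ (Hp (fp Q)).ker := fun x hx => by
      rw [MonoidHom.mem_ker, ← e1, MonoidHom.mem_ker.1 hx, map_one]
    let ι := (Abelianization.of (G := HE (fp Q))).comp τ₁.ker.subtype
    have hι : Injective ι := (injective_iff_map_eq_one _).2 fun x hx => Subtype.ext (hi1.le ⟨x.2, hk x.2, by
      rw [← Abelianization.ker_of]; exact hx⟩)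
    let e := MonoidHom.ofInjective hι
    let f : τ₁.ker →* A := k₂.toMonoidHom.comp ((τ₂.comp (Subgroup.subtype _)).codRestrict σ₂.ker
      fun x => (e2 x).trans (hk x.2))
    obtain ⟨N, hN⟩ : ∃ N, N = Nat.card (Abelianization Q) := ⟨_, rfl⟩
    have hr : ∀ y : Abelianization (HE (fp Q)), y ^ N ∈ ι.range := fun y => by
      obtain ⟨x, rfl⟩ : ∃ x, Abelianization.of x = y := QuotientGroup.mk'_surjective _ y
      have h4 : Hp (fp Q) (x ^ N) ∈ _root_.commutator Q := by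
        rw [← Abelianization.ker_of, MonoidHom.mem_ker, map_pow, map_pow, hN, pow_card_eq_one']
      rw [← map_commutator_of_surj (σ := MonoidHom.id Q) (by simp [MonoidHom.ker_id]) (τ := Hp (fp Q)) (Hp_surj h)] at h4
      obtain ⟨c, hc1, hc2⟩ := h4
      have h5 : τ₁ (x ^ N * c⁻¹) ∈ σ₁.ker := by
        rw [MonoidHom.mem_ker, e1, map_mul, map_inv, hc2, mul_inv_cancel]
      obtain ⟨m, hm, h6⟩ := hi2.ge h5
      refine ⟨⟨x ^ N * c⁻¹ * m⁻¹, by rw [MonoidHom.mem_ker, map_mul, map_inv, h6, mul_inv_cancel]⟩, ?_⟩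
      change Abelianization.of (x ^ N * c⁻¹ * m⁻¹) = _
      rw [map_mul, map_mul, map_inv, map_inv, MonoidHom.mem_ker.1 (Abelianization.commutator_subset_ker _ hc1),
        MonoidHom.mem_ker.1 (Abelianization.commutator_subset_ker _ hm.2), inv_one, mul_one, mul_one, map_pow]
    let χ0 : HE (fp Q) →* A := (f.comp e.symm.toMonoidHom).comp
      (((powMonoidHom N).codRestrict ι.range hr).comp Abelianization.of)
    have hχ0 : ∀ d : τ₁.ker, χ0 d = f d ^ N := fun d => by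
      rw [← map_pow, ← e.symm_apply_apply (d ^ N)]
      refine congrArg (fun y => f (e.symm y)) (Subtype.ext ?_)
      exact (map_pow ι d N).symm
    let χ : HE (fp Q) →* A := (MulEquiv.ofBijective (powMonoidHom N : A →* A)
      (powCoprime (G := A) (hN ▸ hco.symm : (Nat.card A).Coprime N)).bijective).symm.toMonoidHom.comp χ0
    have hχ : ∀ d : τ₁.ker, χ d = f d := fun d => by
      simp only [χ, MonoidHom.comp_apply, MulEquiv.coe_toMonoidHom]
      rw [MulEquiv.symm_apply_eq]; exact hχ0 d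
    obtain ⟨ρ, hρ⟩ := exists_adjust (surj_of_stem h₁ (hτ₁ ▸ Hp_surj h)) τ₂
      (σ₂.ker.subtype.comp (k₂.symm.toMonoidHom.comp χ)) (fun x => h₂.2.1 (k₂.symm _).2) fun d hd => by
        have := hχ ⟨d, hd⟩
        simp only [MonoidHom.comp_apply, MulEquiv.coe_toMonoidHom] at this ⊢
        rw [this]
        change _ = ((k₂.symm (k₂ _) : σ₂.ker) : Γ₂)
        rw [k₂.symm_apply_apply]; rfl
    have h3 : σ₂.comp ρ = σ₁ := MonoidHom.ext fun g => by
      obtain ⟨x, rfl⟩ := surj_of_stem h₁ (hτ₁ ▸ Hp_surj h) g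
      rw [MonoidHom.comp_apply, hρ, map_mul, map_inv, e1, e2]
      change _ * (σ₂ (k₂.symm _ : σ₂.ker))⁻¹ = _
      rw [MonoidHom.mem_ker.1 (k₂.symm _).2, inv_one, mul_one]
    have h4 : Bijective ρ := (surj_of_stem h₂ (h3 ▸ h₁.1)).bijective_of_nat_card_le (by
      rw [← σ₁.ker.card_mul_index, ← σ₂.ker.card_mul_index, index_ker, index_ker, MonoidHom.range_eq_top.2 h₁.1,
        MonoidHom.range_eq_top.2 h₂.1, Nat.card_congr k₁.toEquiv, Nat.card_congr k₂.toEquiv])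
    exact ⟨MulEquiv.ofBijective ρ h4, h3⟩

end Cfsg.Agent.S3974
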