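import Cfsg.Statements.S3977
import Cfsg.Agent.L.PCyc2

set_option autoImplicit false
open Cfsg

namespace Cfsg.Agent.S3977

open Cfsg.Agent
theorem aux.{u} (p s : ℕ) (hp : p.Prime) (hs : 1 ≤ s) (h2 : p ≠ 2 ∨ 2 ≤ s) (m : ℕ) : ∀ (G : Type u) [Group G] [Finite G],
    Nat.card G = p ^ m → s < m →
    (∀ H K : Subgroup G, Nat.card H = p ^ s → Nat.card K = p ^ s → H = K) → IsCyclic G := by
  have := Fact.mk hp
  induction m with
  | zero => intro G _ _ _ h; omega
  | succ m ih =>
    intro G _ _ hG hsm huniq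
    have hP : IsPGroup p G := .of_card hG
    have hM : ∀ M : Subgroup G, IsCoatom M → Nat.card M = p ^ m := fun M hM => by
      have := M.card_mul_index
      rw [L.index_eq_of_isCoatom_of_isPGroup hP hM, hG, pow_succ] at this
      exact Nat.eq_of_mul_eq_mul_right hp.pos this
    by_contra hnc
    have hz : ∀ x : G, Subgroup.zpowers x ≠ ⊤ := fun x h => hnc (isCyclic_iff_exists_zpowers_eq_top.mpr ⟨x, h⟩)
    by_cases hsm' : s = m
    · subst hsm'
      obtain ⟨M, h1, -⟩ := L.exists_coatom_of_ne_top (hz 1)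
      obtain ⟨x, hx⟩ := L.exists_not_mem_of_index_ne_one (H := M) (fun h => h1.1 (Subgroup.index_eq_one.mp h))
      obtain ⟨M', h3, h4⟩ := L.exists_coatom_of_ne_top (hz x)
      exact hx (huniq M' M (hM _ h3) (hM _ h1) ▸ h4 (Subgroup.mem_zpowers x))
    have hcyc : ∀ M : Subgroup G, IsCoatom M → IsCyclic M := fun M h =>
      ih M (hM M h) (by omega) fun H K hH hK => Subgroup.map_injective M.subtype_injective
        (huniq _ _ (by rwa [L.card_map_subtype]) (by rwa [L.card_map_subtype]))
    rcases L.isCyclic_or_index_two_of_normal_abelian_cyclic hP (fun A _ hA => by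
      by_cases hA' : A = ⊤
      · exfalso
        obtain ⟨H, hH⟩ := Sylow.exists_subgroup_card_pow_prime (G := G) p (n := 2) (hG ▸ pow_dvd_pow p (by omega))
        have hH' : H ≠ ⊤ := fun h => by
          rw [h, Subgroup.card_top, hG] at hH
          have := Nat.pow_right_injective hp.two_le hH
          omega
        obtain ⟨M, h1, h3⟩ := L.exists_coatom_of_ne_top hH'
        have := hcyc M h1
        exact L.not_isCyclic_of_elementary hp (E := H) (fun a _ => hA.2 a (hA' ▸ Subgroup.mem_top a))
          (by rw [hH]; nlinarith [hp.one_lt]) (Subgroup.isCyclic_of_le h3)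
      · obtain ⟨M, h1, h3⟩ := L.exists_coatom_of_ne_top hA'
        have := hcyc M h1
        exact Subgroup.isCyclic_of_le h3) with h | ⟨rfl, a, ha, h⟩
    · exact hnc h
    have := Subgroup.normal_of_index_eq_two ha
    obtain ⟨b, hb⟩ := L.exists_not_mem_of_index_ne_one (H := Subgroup.zpowers a) (by omega)
    obtain ⟨r, hr⟩ := L.exists_conj_eq_zpow (a := a) (g := b) (Subgroup.le_normalizer_of_normal (Subgroup.mem_top b))
    obtain ⟨M, h1, h3⟩ := L.exists_coatom_of_ne_top (hz b)
    have := hcyc M h1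
    have h4 : b * a ^ 2 = a ^ 2 * b := L.mul_comm_of_isMulCommutative (h3 (Subgroup.mem_zpowers b))
      (frattini_le_coatom h1 (L.pow_mem_frattini hP a))
    have h5 : a ^ (r * 2) = a ^ (2 : ℤ) := by
      rw [← L.conj_zpow_of_conj hr, zpow_ofNat, h4, mul_inv_cancel_right]
    have h6 := (zpow_eq_zpow_iff_modEq.mp h5).symm.dvd
    rw [L.orderOf_eq_of_index hp hG ha] at h6
    obtain ⟨k, rfl⟩ : ∃ k, m = k + 3 := ⟨m - 3, by omega⟩
    obtain ⟨v, hv⟩ := h6
    refine (h b hb r hr).1 ⟨2 ^ k * v, ?_⟩
    push_cast at hv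
    have : 2 * (r - 1) = 2 * (4 * (2 ^ k * v)) := by linear_combination hv
    omega


/-- Let `p` be a prime and `G` a group of order `p ^ m` which has exactly one subgroup of order `p ^ s`, where `1 ≤ s < m`, and where `s ≥ 2` if `p = 2`. Then `G` is cyclic. (For `p = 2` and `s = 1` the generalized quaternion groups also occur; that case is the classical criterion for a unique involution.) -/
theorem result {G : Type*} [Group G] [Finite G] (p m s : ℕ) (hp : p.Prime) (hG : Nat.card G = p ^ m) (hs : 1 ≤ s) (hsm : s < m) (h2 : p ≠ 2 ∨ 2 ≤ s) (huniq : ∀ H K : Subgroup G, Nat.card H = p ^ s → Nat.card K = p ^ s → H = K) : IsCyclic G := by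
  exact aux p s hp hs h2 m G hG hsm huniq

end Cfsg.Agent.S3977
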