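import Cfsg.Statements.S3978
import Cfsg.Agent.H8.Hopf2

set_option autoImplicit false
open Cfsg

namespace Cfsg.Agent.S3978

open Subgroup hiding commutator_def
open Function Cfsg.Agent.Hopf
open scoped commutatorElement


/-- A finite group `Q` has trivial Schur multiplier if and only if, for every `n`, every homomorphism from `Q` to the projective general linear group (the quotient of `GL n ℂ` by its centre) lifts to a homomorphism into `GL n ℂ`. -/
theorem result {Q : Type*} [Group Q] [Finite Q] : Cfsg.HasCyclicSchurMultiplier Q 1 ↔ ∀ (n : ℕ) (γ : Q →* (GL (Fin n) ℂ ⧸ Subgroup.center (GL (Fin n) ℂ))), ∃ ρ : Q →* GL (Fin n) ℂ, (QuotientGroup.mk' (Subgroup.center (GL (Fin n) ℂ))).comp ρ = γ := by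
  have hid : IsStemExtension (MonoidHom.id Q) :=
    ⟨surjective_id, by simp [MonoidHom.ker_id], by simp [MonoidHom.ker_id]⟩
  have : Subsingleton (MonoidHom.id Q).ker := by rw [MonoidHom.ker_id]; infer_instance
  have : Unique (MonoidHom.id Q).ker := ⟨⟨1⟩, fun _ => Subsingleton.elim _ _⟩
  constructor
  · intro h n γ
    exact proj_lift h hid MulEquiv.ofUnique n γ
  · intro h
    rw [triv_iff]
    intro Γ _ _ σ hσ
    obtain ⟨π, hπ⟩ := cover_of_lift hid h hσ
    have := hπ.subsingleton
    exact eq_bot_of_subsingleton _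

end Cfsg.Agent.S3978
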