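import Cfsg.Statements.S3979
import Cfsg.Agent.H8.Hopf

set_option autoImplicit false
open Cfsg

namespace Cfsg.Agent.S3979

open Subgroup hiding commutator_def
open Function Cfsg.Agent.Hopf
open scoped commutatorElement


/-- A finite cyclic group has trivial Schur multiplier: every finite stem extension of it is an isomorphism, said through `HasCyclicSchurMultiplier G 1`. -/
theorem result {G : Type*} [Group G] [Finite G] [IsCyclic G] : Cfsg.HasCyclicSchurMultiplier G 1 := by
  rw [triv_iff]
  intro Γ _ _ σ hσ
  have h : ∀ a b : Γ, a * b = b * a := commutative_of_cyclic_center_quotient σ hσ.2.1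
  refine le_bot_iff.1 (hσ.2.2.trans ?_)
  rw [commutator_def, commutator_le]
  intro a _ b _
  exact commutatorElement_eq_one_iff_mul_comm.2 (h a b)

end Cfsg.Agent.S3979
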