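import Cfsg.Statements.S3980
import Cfsg.Agent.H8.Hopf3

set_option autoImplicit false
universe u v w
open Cfsg

namespace Cfsg.Agent.S3980

open Subgroup hiding commutator_def
open Function Cfsg.Agent.Hopf
open scoped commutatorElement


/-- Let `Q₁` and `Q₂` be finite groups whose commutator quotients have coprime orders, with Schur multipliers `A` and `B`. Then the Schur multiplier of `Q₁ × Q₂` is isomorphic to `A × B`. -/
theorem result {Q₁ : Type u} {Q₂ : Type v} [Group Q₁] [Group Q₂] [Finite Q₁] [Finite Q₂] {A B : Type w} [CommGroup A] [CommGroup B] (hA : Cfsg.HasSchurMultiplier Q₁ A) (hB : Cfsg.HasSchurMultiplier Q₂ B) (hcop : Nat.Coprime (Nat.card (Abelianization Q₁)) (Nat.card (Abelianization Q₂))) : Cfsg.HasSchurMultiplier (Q₁ × Q₂) (A × B) := by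
  have h : ∀ t : TT Q₁ Q₂, t ∈ (⊥ : Subgroup _) := tm_gen fun x y => by
    have h1 : tm Q₁ Q₂ x y ^ Nat.card (Abelianization Q₁) = 1 := by
      have := (Abelianization.lift ((tm Q₁ Q₂).flip y)).map_pow (Abelianization.of x) (Nat.card (Abelianization Q₁))
      rw [pow_card_eq_one', map_one] at this
      exact this.symm
    have h2 : tm Q₁ Q₂ x y ^ Nat.card (Abelianization Q₂) = 1 := by
      have := (Abelianization.lift (tm Q₁ Q₂ x)).map_pow (Abelianization.of y) (Nat.card (Abelianization Q₂))
      rw [pow_card_eq_one', map_one] at this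
      exact this.symm
    have := (pow_gcd_eq_one.2 ⟨h1, h2⟩ : tm Q₁ Q₂ x y ^ Nat.gcd _ _ = 1)
    rwa [hcop, pow_one] at this
  have : Unique (TT Q₁ Q₂) := ⟨⟨1⟩, h⟩
  exact mult_congr (mult_prod hA hB) (MulEquiv.refl _) ((MulEquiv.refl A).prodCongr MulEquiv.prodUnique)

end Cfsg.Agent.S3980
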