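import Cfsg.Statements.S4002
import Cfsg.Agent.H9.TwoFr
import Cfsg.Agent.H1.Hall

set_option autoImplicit false
open Cfsg

namespace Cfsg.Agent.S4002

open Cfsg.Agent Cfsg.Agent.H9
theorem dvd_of_hall {G : Type*} [Group G] {π : Set ℕ} {L H : Subgroup G} (h : IsPiHallOf π L H) {r : ℕ} (hr : r.Prime)
    (hπ : r ∈ π) (hd : r ∣ Nat.card H) : r ∣ Nat.card L := by
  have := Subgroup.relIndex_mul_relIndex ⊥ L H bot_le h.1
  rw [Subgroup.relIndex_bot_left, Subgroup.relIndex_bot_left] at this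
  rw [← this] at hd
  exact ((Nat.Prime.dvd_mul hr).mp hd).resolve_right (h.2.2 r hr hπ)

theorem elem_sub {G : Type*} [Group G] [Finite G] [Group.IsSolvable G] {H : Subgroup G} (hH : H ≠ ⊥) :
    ∃ (V : Subgroup G) (s : ℕ), V ≤ H ∧ H ≤ Subgroup.normalizer (V : Set G) ∧ V ≠ ⊥ ∧ IsMulCommutative V ∧ s.Prime ∧
      (∀ x ∈ V, x ≠ 1 → orderOf x = s) ∧ s ∣ Nat.card H ∧ IsPGroup s V := by
  obtain ⟨V, h1, h2, h3, h4⟩ := L.exists_minimal_invariant H H Subgroup.le_normalizer hH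
  obtain ⟨h5, s, hs, h6⟩ := L.elementary_of_minimal_invariant h2 h3 h4
  haveI := Fact.mk hs
  have h7 : ∀ x ∈ V, x ≠ 1 → orderOf x = s := fun x hx h => orderOf_eq_prime (h6 x hx) h
  obtain ⟨x, hx, hx1⟩ := (Subgroup.bot_or_exists_ne_one V).resolve_left h3
  exact ⟨V, s, h1, h2, h3, h5, hs, h7, h7 x hx hx1 ▸ Subgroup.orderOf_dvd_natCard H (h1 hx),
    L.isPGroup_of_forall_pow_eq_one h6⟩

theorem three_primes {G : Type*} [Group G] [Finite G] [Group.IsSolvable G] (π : Set ℕ)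
    (hno : ∀ a ∈ π, ∀ b ∈ π, a.Prime → b.Prime → a ≠ b → ∀ g : G, orderOf g ≠ a * b)
    (h3 : ∀ s t : ℕ, ∃ r ∈ π, r.Prime ∧ r ∣ Nat.card G ∧ r ≠ s ∧ r ≠ t) : False := by
  have hne : ∀ {X : Subgroup G} {r : ℕ}, r.Prime → r ∣ Nat.card X → X ≠ ⊥ := by
    rintro X r hr h rfl
    exact hr.one_lt.ne' (Nat.dvd_one.mp (by simpa using h))
  obtain ⟨H, hH⟩ := H1.exists_hallOf π (K := (⊤ : Subgroup G)) inferInstance
  have hHd : ∀ r ∈ π, r.Prime → r ∣ Nat.card G → r ∣ Nat.card H := fun r h1 h2 h3 =>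
    dvd_of_hall hH h2 h1 (by rwa [Subgroup.card_top])
  obtain ⟨r0, a1, a2, a3, -⟩ := h3 0 0
  obtain ⟨V, s, v1, v2, v3, v4, hs, v5, v6, -⟩ := elem_sub (hne a2 (hHd r0 a1 a2 a3))
  obtain ⟨L, hL⟩ := H1.exists_hallOf {s}ᶜ (K := H) inferInstance
  have hf : Cfsg.Agent.L.FPF V L := Cfsg.Agent.L.FPF.of_forall fun x hx hx1 k hk hc => by
    by_contra hk1
    obtain ⟨t, ht, htd⟩ := Nat.exists_prime_and_dvd (mt orderOf_eq_one_iff.mp hx1)
    obtain ⟨y, hy, hyo⟩ := TF.exists_order_of_dvd htd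
    have hts : t ≠ s := hL.2.1 t ht (htd.trans (Subgroup.orderOf_dvd_natCard L hx))
    obtain ⟨j, rfl⟩ := hy
    exact hno t (hH.2.1 t ht (htd.trans (Subgroup.orderOf_dvd_natCard H (hL.1 hx)))) s (hH.2.1 s hs v6) ht hs hts _
      (TF.order_mul ht hs hts hyo (v5 k hk hk1) (Commute.zpow_left hc j))
  have hLd : ∀ r ∈ π, r.Prime → r ∣ Nat.card G → r ≠ s → r ∣ Nat.card L := fun r h1 h2 h3 h4 =>
    dvd_of_hall hL h2 h4 (hHd r h1 h2 h3)
  obtain ⟨r1, b1, b2, b3, b4, -⟩ := h3 s s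
  obtain ⟨W, t, w1, w2, w3, w4, ht, w5, w6, w7⟩ := elem_sub (hne b2 (hLd r1 b1 b2 b3 b4))
  obtain ⟨r, c1, c2, c3, c4, c5⟩ := h3 s t
  obtain ⟨y, hy, hyo⟩ := TF.exists_order_prime c2 (hLd r c1 c2 c3 c4)
  haveI := Fact.mk ht
  haveI : IsCyclic W := (hf.mono le_rfl w1).isCyclic_of_isMulCommutative (w1.trans (hL.1.trans v2)) v3
  have hy' := Subgroup.zpowers_le.mpr hy
  obtain ⟨j, hj⟩ := IsPGroup.iff_card.mp w7
  have := hf.le_centralizer_of_isCyclic (hL.1.trans v2) v3 w1 hy' w7 (by rw [Nat.card_zpowers, hyo]; exact c2)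
    (hy'.trans w2) (by rw [Nat.card_zpowers, hyo, hj]; exact ((Nat.coprime_primes ht c2).mpr c5.symm).pow_left j)
  obtain ⟨w, hw, hw1⟩ := (Subgroup.bot_or_exists_ne_one W).resolve_left w3
  exact hno t (hH.2.1 t ht (w6.trans (Subgroup.card_dvd_of_le hL.1))) r c1 ht c2 c5.symm _
    (TF.order_mul ht c2 c5.symm (w5 w hw hw1) hyo (this (Subgroup.mem_zpowers y) w hw))

theorem exists_three (n : ℕ) (hn : 7 ≤ n) : ∃ p q r : ℕ, p.Prime ∧ q.Prime ∧ r.Prime ∧ p < q ∧ q < r ∧ r ≤ n ∧ n < p * q := by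
  by_cases h1 : n < 15
  · exact ⟨3, 5, 7, by norm_num, by norm_num, by norm_num, by omega, by omega, by omega, by omega⟩
  by_cases h2 : n < 77
  · exact ⟨7, 11, 13, by norm_num, by norm_num, by norm_num, by omega, by omega, by omega, by omega⟩
  obtain ⟨p, hp, p1, p2⟩ := Nat.exists_prime_lt_and_le_two_mul (n / 8) (by omega)
  obtain ⟨q, hq, q1, q2⟩ := Nat.exists_prime_lt_and_le_two_mul (2 * (n / 8)) (by omega)
  obtain ⟨r, hr, r1, r2⟩ := Nat.exists_prime_lt_and_le_two_mul (4 * (n / 8)) (by omega)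
  refine ⟨p, q, r, hp, hq, hr, by omega, by omega, by omega, ?_⟩
  calc n < (n / 8 + 1) * 16 := by omega
    _ ≤ p * q := Nat.mul_le_mul (by omega) (by omega)

/-- If the set of element orders of a finite group G is {1, 2, …, n} with n ≥ 7, then G is not solvable. -/
theorem result {G : Type*} [Group G] [Finite G] (n : ℕ) (hn : 7 ≤ n) (h : Set.range (orderOf : G → ℕ) = {k : ℕ | 1 ≤ k ∧ k ≤ n}) : ¬ Group.IsSolvable G := by
  intro hs
  obtain ⟨p, q, r, hp, hq, hr, h1, h2, h3, h4⟩ := exists_three n hn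
  have hle : ∀ g : G, orderOf g ≤ n := fun g => (show orderOf g ∈ {k : ℕ | 1 ≤ k ∧ k ≤ n} from h ▸ ⟨g, rfl⟩).2
  have hd : ∀ k, 1 ≤ k → k ≤ n → k ∣ Nat.card G := fun k k1 k2 => by
    obtain ⟨g, rfl⟩ : k ∈ Set.range (orderOf : G → ℕ) := h ▸ ⟨k1, k2⟩
    exact orderOf_dvd_natCard g
  refine three_primes (G := G) {p, q, r} ?_ fun s t => ?_
  · intro a ha b hb _ _ hab g hg
    have := hle g
    rw [hg] at this
    have e1 : p * q ≤ p * r := Nat.mul_le_mul_left _ h2.le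
    have e2 : p * q ≤ q * r := Nat.mul_le_mul h1.le h2.le
    rcases ha with rfl | rfl | rfl <;> rcases hb with rfl | rfl | rfl <;> first | exact hab rfl | nlinarith
  · have := hp.one_lt
    by_cases a1 : p ≠ s ∧ p ≠ t
    · exact ⟨p, by simp, hp, hd p (by omega) (by omega), a1⟩
    by_cases a2 : q ≠ s ∧ q ≠ t
    · exact ⟨q, by simp, hq, hd q (by omega) (by omega), a2⟩
    exact ⟨r, by simp, hr, hd r (by omega) (by omega), by omega⟩

end Cfsg.Agent.S4002
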