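import Cfsg.Statements.S3992
import Cfsg.Agent.H9.TwoFr
import Cfsg.Agent.S4002
import Cfsg.Agent.H8.Act

set_option autoImplicit false
open Cfsg

namespace Cfsg.Agent.S3992

open Cfsg.Agent Cfsg.Agent.H9

/-- Let G be a finite non-solvable group in which every element has prime-power order, and let R be its largest solvable normal subgroup. Then R is a p-group for some prime p; G/R has a non-abelian simple normal subgroup contained in every nontrivial normal subgroup of G/R (its unique minimal normal subgroup); and the order of every solvable subgroup of G has at most two prime divisors. -/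
theorem result {G : Type*} [Group G] [Finite G] (hns : ¬ Group.IsSolvable G) (hpp : ∀ g : G, g ≠ 1 → IsPrimePow (orderOf g))
    (R : Subgroup G) [R.Normal] (hRs : Group.IsSolvable ↥R) (hRmax : ∀ N : Subgroup G, N.Normal → Group.IsSolvable ↥N → N ≤ R) :
    (∃ p : ℕ, p.Prime ∧ IsPGroup p ↥R) ∧
      (∃ M : Subgroup (G ⧸ R), M.Normal ∧ IsSimpleGroup ↥M ∧ ¬ IsMulCommutative ↥M ∧
        ∀ N : Subgroup (G ⧸ R), N.Normal → N ≠ ⊥ → M ≤ N) ∧
      ∀ H : Subgroup G, Group.IsSolvable ↥H → (Nat.card ↥H).primeFactors.card ≤ 2 := by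
  have hno : ∀ {X : Type _} [Group X] [Finite X] (f : G →* X), Function.Surjective f → ∀ {p q : ℕ}, p.Prime → q.Prime →
      p ≠ q → ∀ x : X, orderOf x ≠ p * q := by
    intro X _ _ f hf p q hp hq hne x hx
    obtain ⟨g, rfl⟩ := hf x
    have h1 : p * q ∣ orderOf g := hx ▸ orderOf_map_dvd f g
    have hg : g ≠ 1 := by
      rintro rfl
      rw [orderOf_one, Nat.dvd_one, mul_eq_one] at h1
      exact hp.one_lt.ne' h1.1
    obtain ⟨r, k, hr, -, e⟩ := (isPrimePow_nat_iff _).mp (hpp g hg)
    rw [← e] at h1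
    exact hne (((Nat.prime_dvd_prime_iff_eq hp hr).mp (hp.dvd_of_dvd_pow ((dvd_mul_right p q).trans h1))).trans
      ((Nat.prime_dvd_prime_iff_eq hq hr).mp (hq.dvd_of_dvd_pow ((dvd_mul_left q p).trans h1))).symm)
  have hother : ∀ {X : Type _} [Group X] [Finite X] (T : Subgroup X) {p : ℕ}, p.Prime → ¬ IsPGroup p T →
      ∃ q : ℕ, q.Prime ∧ q ≠ p ∧ ∃ y ∈ T, orderOf y = q := by
    intro X _ _ T p hp hT
    by_contra h
    push Not at h
    refine hT (IsPGroup.of_card (Nat.eq_prime_pow_of_unique_prime_dvd Nat.card_pos.ne' fun {d} hd hdvd => ?_))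
    by_contra hne
    obtain ⟨n, hn, ho⟩ := TF.exists_order_prime hd hdvd
    exact h d hd hne n hn ho
  have hsome : ∀ {X : Type _} [Group X] [Finite X] (T : Subgroup X), T ≠ ⊥ → ∃ q : ℕ, q.Prime ∧ ∃ y ∈ T, orderOf y = q := by
    intro X _ _ T hT
    obtain ⟨q, hq, hd⟩ := Nat.exists_prime_and_dvd (mt Subgroup.card_eq_one.mp hT)
    exact ⟨q, hq, TF.exists_order_prime hq hd⟩
  refine ⟨?_, ?_, fun H hH => ?_⟩
  · by_cases hR : R = ⊥
    · exact ⟨2, Nat.prime_two, hR ▸ IsPGroup.of_bot⟩
    obtain ⟨V, p, hVR, hVn, hV, hp, -, -, hVp, -⟩ := L.exists_elementary_normal_le R hR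
    haveI := Fact.mk hp
    refine ⟨p, hp, ?_⟩
    by_contra hRp
    let O := pCore p G
    have hO : O ≠ ⊥ := fun e => hV (le_bot_iff.mp (e ▸ L.le_pCore hVp))
    let f := QuotientGroup.mk' O
    haveI : (R.map f).Normal := ‹R.Normal›.map f (QuotientGroup.mk'_surjective O)
    haveI := L.isSolvable_map R f
    have hRf : R.map f ≠ ⊥ := fun e => hRp ((L.pCore_isPGroup p G).to_le (by
      rwa [Subgroup.map_eq_bot_iff, QuotientGroup.ker_mk'] at e))
    obtain ⟨W, q, -, hWn, hW, hq, hWc, -, hWq, -⟩ := L.exists_elementary_normal_le (R.map f) hRf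
    haveI := Fact.mk hq
    have hqp : q ≠ p := by
      rintro rfl
      exact hW (le_bot_iff.mp (L.pCore_quotient_eq_bot q G ▸ L.le_pCore hWq))
    have hpo : ∀ {X : Type _} [Group X] [Finite X] {r : ℕ} {P : Subgroup X}, r.Prime → IsPGroup r P → ∀ x ∈ P, x ≠ 1 →
        ∃ y ∈ Subgroup.zpowers x, orderOf y = r := by
      intro X _ _ r P hr hP x hx hx1
      haveI := Fact.mk hr
      obtain ⟨k, hk⟩ := IsPGroup.iff_orderOf.mp hP ⟨x, hx⟩
      have hk' : orderOf x = r ^ k := (Subgroup.orderOf_coe (⟨x, hx⟩ : P)).trans hk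
      refine TF.exists_order_of_dvd (hk' ▸ dvd_pow_self r fun e => hx1 (orderOf_eq_one_iff.mp ?_))
      rw [hk', e, pow_zero]
    obtain ⟨Q0, hQ0⟩ := hWq.exists_le_sylow
    obtain ⟨Q, rfl⟩ := Sylow.mapSurjective_surjective (QuotientGroup.mk'_surjective O) q Q0
    let T := (Q : Subgroup G) ⊓ W.comap f
    have hT : T.map f = W := le_antisymm (Subgroup.map_le_iff_le_comap.mpr inf_le_right) fun w hw => by
      obtain ⟨x, hx, rfl⟩ := hQ0 hw
      exact ⟨x, ⟨hx, hw⟩, rfl⟩
    have hf : L.FPF O T := L.FPF.of_forall fun x hx hx1 k hk hc => by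
      by_contra hk1
      obtain ⟨_, ⟨i, rfl⟩, h1⟩ := hpo hq Q.isPGroup' x hx.1 hx1
      obtain ⟨_, ⟨j, rfl⟩, h2⟩ := hpo hp (L.pCore_isPGroup p G) k hk hk1
      exact hno (MonoidHom.id G) Function.surjective_id hq hp hqp _ (TF.order_mul hq hp hqp h1 h2 (Commute.zpow_zpow hc i j))
    let e := (TF.mapEquiv hf.inf_eq_bot).trans (MulEquiv.subgroupCongr hT)
    haveI : IsMulCommutative T := ⟨⟨fun a b => e.injective (by rw [map_mul, map_mul, hWc.is_comm.comm])⟩⟩
    have hc := hf.isCyclic_of_isMulCommutative Subgroup.le_normalizer_of_normal hO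
    have hWcyc : IsCyclic W := isCyclic_of_surjective e e.surjective
    have h1 := Reg.comm_le_cent_cyc hWcyc
    rw [Subgroup.normalizer_eq_top] at h1
    have h2 : IsPGroup q (Subgroup.centralizer (W : Set (G ⧸ O))) := by
      by_contra h
      obtain ⟨r, hr, hrq, y, hy, hyo⟩ := hother _ hq h
      obtain ⟨w, hw, hw1⟩ := (Subgroup.bot_or_exists_ne_one W).resolve_left hW
      obtain ⟨w', hw', hwo⟩ := hpo hq hWq w hw hw1
      exact hno f (QuotientGroup.mk'_surjective O) hq hr hrq.symm _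
        (TF.order_mul hq hr hrq.symm hwo hyo (hy w' (Subgroup.zpowers_le.mpr hw hw')))
    haveI := (h2.to_le h1).isNilpotent
    haveI := (L.pCore_isPGroup p G).isNilpotent
    haveI : Group.IsSolvable (G ⧸ O) := (Group.isSolvable_iff_subgroup_quotient (commutator (G ⧸ O))).mpr
      ⟨inferInstanceAs (Group.IsSolvable (⁅(⊤ : Subgroup (G ⧸ O)), ⊤⁆ : Subgroup _)),
        inferInstanceAs (Group.IsSolvable (Abelianization (G ⧸ O)))⟩
    exact hns ((Group.isSolvable_iff_subgroup_quotient O).mpr ⟨inferInstance, inferInstance⟩)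
  · let f := QuotientGroup.mk' R
    have hf := QuotientGroup.mk'_surjective R
    have hsol : ∀ N : Subgroup (G ⧸ R), N.Normal → Group.IsSolvable N → N = ⊥ := by
      intro N hN hs
      have h1 : Group.IsSolvable (N.comap f) := Group.isSolvable_of_ker_le_range
        (Subgroup.inclusion (show R ≤ N.comap f from fun x hx => by
          rw [Subgroup.mem_comap, show f x = 1 from (QuotientGroup.eq_one_iff x).mpr hx]; exact one_mem _))
        (f.subgroupComap N) fun x hx => ⟨⟨x.1, (QuotientGroup.eq_one_iff _).mp (congrArg Subtype.val hx)⟩, rfl⟩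
      rw [← Subgroup.map_comap_eq_self_of_surjective hf N, Subgroup.map_eq_bot_iff, QuotientGroup.ker_mk']
      exact hRmax _ inferInstance h1
    have hnp : ∀ N : Subgroup (G ⧸ R), N.Normal → N ≠ ⊥ → ∀ p : ℕ, p.Prime → ¬ IsPGroup p N := fun N hN h p hp hP => by
      haveI := Fact.mk hp
      haveI := hP.isNilpotent
      exact h (hsol N hN inferInstance)
    have htop : (⊤ : Subgroup (G ⧸ R)) ≠ ⊥ := fun e => hns ((Group.isSolvable_iff_subgroup_quotient R).mpr ⟨hRs, by
      haveI : Subsingleton (G ⧸ R) := Subgroup.subsingleton_iff.mp (subsingleton_iff_bot_eq_top.mp e.symm)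
      infer_instance⟩)
    obtain ⟨M, -, hMn, hM, hmin⟩ := L.exists_minimal_normal_le (⊤ : Subgroup (G ⧸ R)) htop
    have hcom : ∀ A B : Subgroup (G ⧸ R), A ≠ ⊥ → (∀ p : ℕ, p.Prime → ¬ IsPGroup p B) → ¬ ∀ a ∈ A, ∀ b ∈ B, a * b = b * a := by
      intro A B hA hB hc
      obtain ⟨p, hp, a, ha, hao⟩ := hsome A hA
      obtain ⟨q, hq, hqp, b, hb, hbo⟩ := hother B hp (hB p hp)
      exact hno f hf hp hq hqp.symm _ (TF.order_mul hp hq hqp.symm hao hbo (hc a ha b hb))
    refine ⟨M, hMn, ?_, fun h => hM (hsol M hMn (L.isSolvable_of_isMulCommutative M)), fun N hN hN1 => ?_⟩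
    · haveI : Nontrivial M := (Subgroup.nontrivial_iff_ne_bot M).mpr hM
      refine ⟨fun K hK => ?_⟩
      by_contra hK'
      push Not at hK'
      obtain ⟨T, hTK, hTn, hT, hTmin⟩ := L.exists_minimal_normal_le K hK'.1
      have hTp : ∀ p : ℕ, p.Prime → ¬ IsPGroup p T := fun p hp hP => by
        have h1 : (pCore p M).map M.subtype ≠ ⊥ := fun e => hT (le_bot_iff.mp
          (((Subgroup.map_eq_bot_iff_of_injective _ M.subtype_injective).mp e) ▸ L.le_pCore hP))
        exact hnp _ (L.normal_map_subtype_of_char _) h1 p hp (L.pCoreMap_isPGroup p M)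
      have hall : ∀ x : G ⧸ R, T ≤ T.comap (MulAut.conjNormal x : MulAut M).toMonoidHom := by
        intro x
        let T' := T.comap (MulAut.conjNormal x : MulAut M).toMonoidHom
        haveI : T'.Normal := hTn.comap _
        rcases hTmin (T ⊓ T') inferInstance inf_le_left with h | h
        · refine absurd ?_ (hcom (T'.map M.subtype) (T.map M.subtype) (fun e => hT ?_) fun p hp hP =>
            hTp p hp (hP.of_equiv (T.equivMapOfInjective _ M.subtype_injective).symm))
          · rintro _ ⟨a, ha, rfl⟩ _ ⟨b, hb, rfl⟩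
            exact congrArg Subtype.val (Subgroup.commute_of_normal_of_disjoint T' T inferInstance hTn
              (disjoint_iff.mpr (inf_comm T T' ▸ h)) a b ha hb)
          · rw [Subgroup.map_eq_bot_iff_of_injective _ M.subtype_injective] at e
            rw [← Subgroup.map_comap_eq_self_of_surjective (f := (MulAut.conjNormal x : MulAut M).toMonoidHom)
              (MulAut.conjNormal x : MulAut M).surjective T]
            exact (congrArg _ e).trans (Subgroup.map_bot _)
        · exact inf_eq_left.mp h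
      have hn : (T.map M.subtype).Normal := ⟨by
        rintro _ ⟨a, ha, rfl⟩ x
        exact ⟨_, hall x ha, rfl⟩⟩
      rcases hmin _ hn (Subgroup.map_subtype_le _) with h | h
      · exact hT ((Subgroup.map_eq_bot_iff_of_injective _ M.subtype_injective).mp h)
      · refine hK'.2 (top_le_iff.mp fun x _ => hTK ?_)
        obtain ⟨y, hy, e⟩ := h.ge x.2
        exact (Subtype.ext e : y = x) ▸ hy
    · rcases hmin (M ⊓ N) inferInstance inf_le_left with h | h
      · exact absurd (fun a ha b hb => Subgroup.commute_of_normal_of_disjoint N M hN hMn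
          (disjoint_iff.mpr (inf_comm M N ▸ h)) a b ha hb) (hcom N M hN1 (hnp M hMn hM))
      · exact inf_eq_left.mp h
  · by_contra h
    obtain ⟨a, ha, b, hb, c, hc, h1, h2, h3⟩ := Finset.two_lt_card.mp (not_le.mp h)
    refine S4002.three_primes (G := H) Set.univ (fun p _ q _ hp hq hne g hg =>
      hno (MonoidHom.id G) Function.surjective_id hp hq hne g.1 ((Subgroup.orderOf_coe g).trans hg)) fun s t => ?_
    by_cases a1 : a ≠ s ∧ a ≠ t
    · exact ⟨a, trivial, Nat.prime_of_mem_primeFactors ha, Nat.dvd_of_mem_primeFactors ha, a1⟩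
    by_cases a2 : b ≠ s ∧ b ≠ t
    · exact ⟨b, trivial, Nat.prime_of_mem_primeFactors hb, Nat.dvd_of_mem_primeFactors hb, a2⟩
    exact ⟨c, trivial, Nat.prime_of_mem_primeFactors hc, Nat.dvd_of_mem_primeFactors hc, by omega⟩

end Cfsg.Agent.S3992
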