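import Cfsg.Statements.S3994
import Cfsg.Agent.GS.Cnt

set_option autoImplicit false
open Cfsg

namespace Cfsg.Agent.S3994

open Cfsg.Agent.H1

/-- Let G be a finite group and n a positive integer. The number of elements of G whose order is divisible by n is either 0 or divisible by the largest divisor of the order of G that is coprime to n. -/
theorem result {G : Type*} [Group G] [Finite G] (n : ℕ) (hn : 0 < n) :
    Nat.card {g : G // n ∣ orderOf g} = 0 ∨
      (Nat.card G / Nat.gcd (Nat.card G) (n ^ Nat.card G)) ∣ Nat.card {g : G // n ∣ orderOf g} := by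
  open Subgroup Pointwise commutatorElement Cfsg.Agent.BG Cfsg.Agent.GS in
  open Cfsg.Agent.H2 hiding card_lt_of_lt card_lt_of_ne_top isMulCommutative_of_le isPGroup_zpowers_iff mem_of_pow_mem_of_coprime inf_eq_bot_of_cop exists_maxElem_ge Sec in
  open Cfsg.Agent.H8 (Op Opp Fit SN) in
  open Cfsg.Agent.L (FPF) in focus
    refine Or.inr ((Nat.dvd_iff_prime_pow_dvd_dvd _ _).2 fun p k hp h => ?_)
    rcases k.eq_zero_or_pos with rfl | hk
    · simp
    have := Fact.mk hp
    have h0 := Nat.gcd_dvd_left (Nat.card G) (n ^ Nat.card G)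
    have h1 : ¬ p ∣ n := fun hd => by
      have h2 : p ^ (Nat.card G).factorization p ∣ (Nat.card G).gcd (n ^ Nat.card G) := Nat.dvd_gcd (Nat.ordProj_dvd _ _)
        ((pow_dvd_pow p (Nat.factorization_lt p Nat.card_pos.ne').le).trans (pow_dvd_pow_of_dvd hd _))
      have h3 := Nat.mul_dvd_mul h2 ((dvd_pow_self p hk.ne').trans h)
      rw [Nat.mul_div_cancel' h0, ← pow_succ] at h3
      exact Nat.pow_succ_factorization_not_dvd Nat.card_pos.ne' hp h3
    obtain ⟨Q, hQ⟩ := Sylow.exists_subgroup_card_pow_prime p (h.trans (Nat.div_dvd_of_dvd h0))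
    rw [← hQ]
    refine dvd_ncard_of_closed (S := {g | n ∣ orderOf g}) (fun g _ x hx => ?_) fun x hx D hD hn v hv => ?_
    · rwa [Set.mem_ofPred, show orderOf (g * x * g⁻¹) = orderOf x from MulEquiv.orderOf_eq (MulAut.conj g) x]
    have h2 := mul_pow_mem_coset hn hv (orderOf (v * x))
    rw [pow_orderOf_eq_one, one_mul, inv_mem_iff] at h2
    have h3 := orderOf_dvd_iff_pow_eq_one.1 (orderOf_dvd_card_of_mem (hD h2))
    rw [← pow_mul, hQ, ← orderOf_dvd_iff_pow_eq_one] at h3
    exact (Nat.Coprime.pow_right k ((Nat.Prime.coprime_iff_not_dvd hp).2 h1).symm).dvd_of_dvd_mul_right (hx.trans h3)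

end Cfsg.Agent.S3994
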