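import Cfsg.Statements.S3995
import Cfsg.Agent.H9.TJ
import Cfsg.Agent.L.PCyc2
import Cfsg.Agent.L.Cores
import Cfsg.Agent.L.Fitting
import Cfsg.Agent.GS.Cnt

set_option autoImplicit false
open Cfsg

namespace Cfsg.Agent.S3995

open Cfsg.Agent Cfsg.Agent.H9
open Cfsg.Agent Cfsg.Agent.H9 Subgroup

theorem sum_cop {m n : ℕ} (h : m.Coprime n) (f : ℕ → ℕ) :
    ∑ d ∈ (m * n).divisors, f d = ∑ a ∈ m.divisors, ∑ b ∈ n.divisors, f (a * b) := by
  rw [Nat.divisors_mul, Finset.mul_def, Finset.sum_image h.mul_injOn_divisors, Finset.sum_product]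

theorem ord_pow {G : Type*} [Group G] [Finite G] {x : G} {d : ℕ} (h : d ∣ orderOf x) : ∃ y : G, orderOf y = d :=
  ⟨_, orderOf_pow_orderOf_div (orderOf_pos x).ne' h⟩

/-- Let G be a finite group such that the numbers of elements of each order that occurs in G (the numbers #{g : o(g) = m}, m ranging over the element orders of G) take exactly two values, 1 and some n ≠ 1. Then either G is a p-group of exponent p and order at least 3 for some prime p, or G is the quaternion group of order 8, or G is cyclic of order 4, or G ≅ Z₂ × P for a p-group P of exponent p with p an odd prime. -/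
theorem result {G : Type*} [Group G] [Finite G] (n : ℕ) (hn : n ≠ 1) (h : ((fun m : ℕ => Nat.card {g : G // orderOf g = m}) '' Set.range (orderOf : G → ℕ)) = {1, n}) :
    (∃ p : ℕ, p.Prime ∧ IsPGroup p G ∧ 3 ≤ Nat.card G ∧ Monoid.exponent G = p) ∨
      Nonempty (G ≃* QuaternionGroup 2) ∨ (IsCyclic G ∧ Nat.card G = 4) ∨
      (∃ (p : ℕ) (P : Type) (_ : Group P) (_ : Finite P), p.Prime ∧ p ≠ 2 ∧ IsPGroup p P ∧ Monoid.exponent P = p ∧
        Nonempty (G ≃* Multiplicative (ZMod 2) × P)) := by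
  classical
  haveI := Fintype.ofFinite G
  set s : ℕ → ℕ := fun m => Nat.card {g : G // orderOf g = m} with hsdef
  have hs : ∀ g : G, s (orderOf g) = 1 ∨ s (orderOf g) = n := fun g => by
    have : s (orderOf g) ∈ ({1, n} : Set ℕ) := h ▸ ⟨_, ⟨g, rfl⟩, rfl⟩
    simpa using this
  have hs3 : ∀ g : G, 2 < orderOf g → s (orderOf g) = n := fun g hg => (hs g).resolve_left fun e => by
    have h1 := (Nat.card_eq_one_iff_unique.mp e).1.elim ⟨g, rfl⟩ ⟨g⁻¹, orderOf_inv g⟩
    have h2 : g ^ 2 = 1 := by rw [sq]; exact mul_eq_one_iff_eq_inv.mpr (congrArg Subtype.val h1)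
    exact absurd (orderOf_le_of_pow_eq_one two_pos h2) (by omega)
  have hs0 : ∀ m, 2 < m → s m = 0 ∨ s m = n := fun m hm => by
    by_cases e : ∃ g : G, orderOf g = m
    · obtain ⟨g, rfl⟩ := e
      exact Or.inr (hs3 g hm)
    · exact Or.inl (Nat.card_eq_zero.mpr (Or.inl ⟨fun g => e ⟨g.1, g.2⟩⟩))
  have h1 : s 1 = 1 := Nat.card_eq_one_iff_unique.mpr ⟨⟨fun a b => Subtype.ext
    ((orderOf_eq_one_iff.mp a.2).trans (orderOf_eq_one_iff.mp b.2).symm)⟩, ⟨⟨1, orderOf_one⟩⟩⟩
  have E : ∀ N, N ≠ 0 → ∑ d ∈ N.divisors, s d = {x : G | x ^ N = 1}.ncard := fun N hN => by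
    have := sum_card_orderOf_eq_card_pow_eq_one (G := G) hN
    rw [Set.ncard_eq_toFinset_card', Set.toFinset_setOf, ← this]
    exact Finset.sum_congr rfl fun d _ => by simp only [s]; rw [Nat.card_eq_fintype_card, Fintype.card_subtype]
  have F : ∀ N, N ∣ Nat.card G → N ∣ ∑ d ∈ N.divisors, s d := fun N hN => by
    rw [E N (by rintro rfl; exact Nat.card_pos.ne' (zero_dvd_iff.mp hN))]; exact GS.dvd_ncard_pow_eq_one hN
  have Fp : ∀ p : ℕ, p.Prime → p ∣ Nat.card G → s p = n → p ∣ n + 1 := fun p hp hd e => by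
    have := F p hd
    rwa [hp.sum_divisors, h1, e] at this
  have kA : ∀ p q : ℕ, p.Prime → q.Prime → p ∣ Nat.card G → q ∣ Nat.card G → s p = n → s q = n → p = q := fun p q hp hq dp dq ep eq => by
    by_contra hne
    have hc := (Nat.coprime_primes hp hq).mpr hne
    have h2 := F _ (hc.mul_dvd_of_dvd_of_dvd dp dq)
    simp only [sum_cop hc, hp.sum_divisors, hq.sum_divisors, one_mul, mul_one, h1, ep, eq] at h2
    have h3 := Fp p hp dp ep
    have h4 := Fp q hq dq eq
    rcases hs0 (p * q) (by nlinarith [hp.two_le, hq.two_le]) with e | e <;> rw [e] at h2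
    · have := Nat.dvd_sub (h3.mul_left 2) ((Dvd.intro _ rfl).trans h2)
      rw [show 2 * (n + 1) - (0 + n + (n + 1)) = 1 by omega] at this
      exact hp.one_lt.ne' (Nat.dvd_one.mp this)
    · have a1 := Nat.dvd_sub (h3.mul_left 3) ((Dvd.intro _ rfl).trans h2)
      have a2 := Nat.dvd_sub (h4.mul_left 3) ((Dvd.intro_left _ rfl).trans h2)
      rw [show 3 * (n + 1) - (n + n + (n + 1)) = 2 by omega] at a1 a2
      exact hne (((Nat.prime_dvd_prime_iff_eq hp Nat.prime_two).mp a1).trans ((Nat.prime_dvd_prime_iff_eq hq Nat.prime_two).mp a2).symm)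
  have kB : ∀ p : ℕ, p.Prime → s p = n → ∀ (x : G) (k : ℕ), orderOf x = p ^ k → x ≠ 1 → orderOf x = p := fun p hp ep x k hx hx1 => by
    rcases k with _ | _ | k
    · exact absurd (orderOf_eq_one_iff.mp hx) hx1
    · simpa using hx
    exfalso
    obtain ⟨y, hy⟩ := ord_pow (hx ▸ pow_dvd_pow p (by omega) : p ^ 2 ∣ orderOf x)
    have h2 := hs3 y (by rw [hy]; nlinarith [hp.two_le])
    have h3 : p ^ 2 ∣ Nat.card G := hy ▸ orderOf_dvd_natCard y
    have h4 := F _ h3
    rw [hy] at h2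
    simp only [Nat.sum_divisors_prime_pow hp, Finset.sum_range_succ, Finset.sum_range_zero, pow_zero, pow_one, h1, ep, h2] at h4
    have := Nat.dvd_sub ((Fp p hp ((dvd_pow_self p two_ne_zero).trans h3) ep).mul_left 2) ((dvd_pow_self p two_ne_zero).trans h4)
    rw [show 2 * (n + 1) - (0 + 1 + n + n) = 1 by omega] at this
    exact hp.one_lt.ne' (Nat.dvd_one.mp this)
  obtain ⟨_, ⟨g, rfl⟩, hg⟩ : n ∈ (fun m : ℕ => Nat.card {g : G // orderOf g = m}) '' Set.range (orderOf : G → ℕ) := h ▸ Or.inr rfl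
  change s (orderOf g) = n at hg
  have hg1 : g ≠ 1 := by rintro rfl; rw [orderOf_one, h1] at hg; exact hn hg.symm
  haveI : Nontrivial G := ⟨g, 1, hg1⟩
  by_cases hall : ∀ p : ℕ, p.Prime → p ∣ Nat.card G → s p = n
  · left
    obtain ⟨p, hp, hd⟩ := Nat.exists_prime_and_dvd (Finite.one_lt_card (α := G)).ne'
    haveI := Fact.mk hp
    have hG : IsPGroup p G := IsPGroup.of_card (Nat.eq_prime_pow_of_unique_prime_dvd Nat.card_pos.ne' fun hq hq' =>
      kA _ _ hq hp hq' hd (hall _ hq hq') (hall _ hp hd))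
    refine ⟨p, hp, hG, ?_, (Monoid.exponent_eq_prime_iff hp).mpr fun x hx => ?_⟩
    · have h2 := E p hp.ne_zero
      rw [hp.sum_divisors, h1, hall p hp hd] at h2
      have h3 := Set.ncard_le_card {x : G | x ^ p = 1}
      have h4 : 0 < n := hg ▸ (by haveI : Nonempty {x : G // orderOf x = orderOf g} := ⟨⟨g, rfl⟩⟩; exact Nat.card_pos)
      omega
    · obtain ⟨k, hk⟩ := IsPGroup.iff_orderOf.mp hG x
      exact kB p hp (hall p hp hd) x k hk hx
  right
  push Not at hall
  obtain ⟨r, hr, hrd, hrs⟩ := hall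
  have hodd : ∀ p : ℕ, p.Prime → p ∣ Nat.card G → p ≠ 2 → s p = n := fun p hp hd h2 => by
    haveI := Fact.mk hp
    obtain ⟨x, hx⟩ := exists_prime_orderOf_dvd_card' p hd
    exact hx ▸ hs3 x (hx ▸ lt_of_le_of_ne hp.two_le (Ne.symm h2))
  obtain rfl : r = 2 := by_contra fun h2 => hrs (hodd r hr hrd h2)
  obtain ⟨z, hz⟩ := exists_prime_orderOf_dvd_card' 2 hrd
  have h2 : s 2 = 1 := (hz ▸ hs z).resolve_right hrs
  have huz : ∀ t : G, orderOf t = 2 → t = z := fun t ht =>
    congrArg Subtype.val ((Nat.card_eq_one_iff_unique.mp h2).1.elim ⟨t, ht⟩ ⟨z, hz⟩)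
  have hzc : ∀ x : G, Commute z x := fun x =>
    (mul_inv_eq_iff_eq_mul.mp (huz (x * z * x⁻¹) (((MulAut.conj x).orderOf_eq z).trans hz))).symm
  by_cases hG : IsPGroup 2 G
  · obtain ⟨y, hy⟩ : ∃ y : G, orderOf y = 4 := by
      obtain ⟨k, hk⟩ := IsPGroup.iff_orderOf.mp hG g
      rcases k with _ | _ | k
      · exact absurd (orderOf_eq_one_iff.mp hk) hg1
      · rw [hk] at hg; exact absurd hg hrs
      · exact ord_pow (hk ▸ pow_dvd_pow 2 (by omega) : 2 ^ 2 ∣ orderOf g)
    have h4 := hs3 y (by omega)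
    rw [hy] at h4
    have h5 := F 4 (hy ▸ orderOf_dvd_natCard y)
    rw [show Nat.divisors 4 = {1, 2, 4} by decide] at h5
    have h8 : ∀ x : G, ¬ 8 ∣ orderOf x := fun x hx => by
      obtain ⟨w, hw⟩ := ord_pow hx
      have h6 := hs3 w (by omega)
      rw [hw] at h6
      have h7 := F 8 (hw ▸ orderOf_dvd_natCard w)
      rw [show Nat.divisors 8 = {1, 2, 4, 8} by decide] at h7
      simp [h1, h2, h4, h6] at h5 h7
      omega
    have h9 : ∀ H : Subgroup G, Nat.card H = 2 → H = zpowers z := fun H hH => by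
      obtain ⟨x, hx⟩ := exists_prime_orderOf_dvd_card' (G := H) 2 (hH ▸ dvd_rfl)
      rw [← orderOf_coe] at hx
      refine (eq_of_le_of_card_ge (zpowers_le.mpr (huz _ hx ▸ x.2)) ?_).symm
      rw [Nat.card_zpowers, hz, hH]
    rcases L.isCyclic_or_quaternion_of_unique hG fun H K hH hK => (h9 H hH).trans (h9 K hK).symm with hc | ⟨-, k, hk, ⟨e⟩⟩
    · refine Or.inr (Or.inl ⟨hc, ?_⟩)
      obtain ⟨x, hx⟩ := isCyclic_iff_exists_orderOf_eq_natCard.mp hc
      obtain ⟨k, hk⟩ := IsPGroup.iff_card.mp hG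
      have a1 := h8 x
      have a2 := orderOf_dvd_natCard y
      rw [hx, hk] at a1
      rw [hy, hk] at a2
      rw [hk]
      rcases k with _ | _ | _ | k
      · simp at a2
      · simp at a2
      · rfl
      · exact absurd (pow_dvd_pow 2 (by omega) : 2 ^ 3 ∣ _) a1
    · obtain rfl : k = 1 := by
        by_contra h6
        refine h8 (e.symm (QuaternionGroup.a 1)) ?_
        rw [MulEquiv.orderOf_eq, QuaternionGroup.orderOf_a_one, ← pow_succ']
        exact (pow_dvd_pow 2 (by omega) : 2 ^ 3 ∣ 2 ^ (k + 1))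
      exact Or.inl ⟨e⟩
  · right; right
    obtain ⟨p, hp, hd, hp2⟩ : ∃ p : ℕ, p.Prime ∧ p ∣ Nat.card G ∧ p ≠ 2 := by
      by_contra h3
      push Not at h3
      exact hG (IsPGroup.of_card (Nat.eq_prime_pow_of_unique_prime_dvd Nat.card_pos.ne' fun hq hq' => h3 _ hq hq'))
    haveI := Fact.mk hp
    have ep := hodd p hp hd hp2
    have hc := (Nat.coprime_primes Nat.prime_two hp).mpr hp2.symm
    obtain ⟨x, hx⟩ := exists_prime_orderOf_dvd_card' p hd
    have h4 : ∀ y : G, orderOf y ≠ 4 := fun y hy => by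
      have a1 := hs3 y (by omega)
      have a2 := hs3 (z * x) (by rw [(hzc x).orderOf_mul_eq_mul_orderOf_of_coprime (by rwa [hz, hx]), hz, hx]; have := hp.two_le; omega)
      rw [(hzc x).orderOf_mul_eq_mul_orderOf_of_coprime (by rwa [hz, hx]), hz, hx] at a2
      rw [hy] at a1
      have hc4 : Nat.Coprime 4 p := hc.pow_left 2
      have a3 := F _ (hc4.mul_dvd_of_dvd_of_dvd (hy ▸ orderOf_dvd_natCard y) hd)
      rw [sum_cop hc4, show Nat.divisors 4 = {1, 2, 4} by decide] at a3
      simp [hp.sum_divisors, h1, h2, a1, a2, ep] at a3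
      have a4 := Fp p hp hd ep
      rcases hs0 (4 * p) (by have := hp.two_le; omega) with e | e <;> rw [e] at a3
      · have := Nat.dvd_sub (a4.mul_left 3) ((Dvd.intro_left _ rfl).trans a3)
        rw [show 3 * (n + 1) - (n + 1 + (n + 1 + (0 + n))) = 1 by omega] at this
        exact hp.one_lt.ne' (Nat.dvd_one.mp this)
      · have := Nat.dvd_sub (a4.mul_left 4) ((Dvd.intro_left _ rfl).trans a3)
        rw [show 4 * (n + 1) - (n + 1 + (n + 1 + (n + n))) = 2 by omega] at this
        exact hp2 ((Nat.prime_dvd_prime_iff_eq hp Nat.prime_two).mp this)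
    obtain ⟨P⟩ : Nonempty (Sylow p G) := inferInstance
    obtain ⟨S⟩ : Nonempty (Sylow 2 G) := inferInstance
    have hS : (S : Subgroup G) ≤ zpowers z := fun t ht => by
      obtain ⟨k, hk⟩ := IsPGroup.iff_orderOf.mp S.isPGroup' ⟨t, ht⟩
      rw [← orderOf_coe] at hk
      rcases k with _ | _ | k
      · rw [show t = 1 from orderOf_eq_one_iff.mp hk]; exact one_mem _
      · rw [huz t hk]; exact mem_zpowers z
      · obtain ⟨y, hy⟩ := ord_pow (hk ▸ pow_dvd_pow 2 (by omega) : 2 ^ 2 ∣ orderOf t)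
        exact absurd hy (h4 y)
    have hi : (P : Subgroup G).index ≤ 2 := by
      have a1 := Nat.eq_prime_pow_of_unique_prime_dvd (p := 2) (index_ne_zero_of_finite (H := (P : Subgroup G))) fun {q} hq hq' => by
        by_contra h3
        have h5 := hq'.trans (index_dvd_card _)
        exact P.not_dvd_index (kA _ _ hq hp h5 hd (hodd q hq h5 h3) ep ▸ hq')
      have a2 := S.pow_dvd_card_of_pow_dvd_card (a1 ▸ index_dvd_card (P : Subgroup G))
      have a3 := card_le_of_le hS
      rw [Nat.card_zpowers, hz] at a3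
      rw [a1]
      exact (Nat.le_of_dvd Nat.card_pos a2).trans a3
    obtain ⟨k, hk⟩ := IsPGroup.iff_card.mp P.isPGroup'
    have hdis : Disjoint (zpowers z) (P : Subgroup G) := disjoint_of_coprime_natCard (by
      rw [Nat.card_zpowers, hz, hk]; exact hc.pow_right k)
    have hi2 : (P : Subgroup G).index = 2 := by
      have a1 : (P : Subgroup G).index ≠ 1 := fun e => by
        rw [index_eq_one.mp e, disjoint_top, zpowers_eq_bot] at hdis
        rw [hdis, orderOf_one] at hz; omega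
      have := index_ne_zero_of_finite (H := (P : Subgroup G))
      omega
    have hcomp := isComplement'_of_card_mul_and_disjoint (by rw [Nat.card_zpowers, hz, ← hi2, index_mul_card]) hdis
    let e1 := MulEquiv.ofBijective ((zpowers z).subtype.noncommCoprod (P : Subgroup G).subtype (by
      rintro ⟨_, i, rfl⟩ b
      exact (hzc b.1).zpow_left i)) hcomp
    let e2 : zpowers z ≃* Multiplicative (ZMod 2) := mulEquivOfPrimeCardEq (p := 2) (by rw [Nat.card_zpowers, hz]) (by simp)
    let e3 : Shrink.{0} P ≃* P := Shrink.mulEquiv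
    haveI : Nontrivial P := (nontrivial_iff_ne_bot _).mpr (P.ne_bot_of_dvd_card hd)
    refine ⟨p, Shrink.{0} P, inferInstance, Finite.of_equiv _ e3.symm.toEquiv, hp, hp2, P.isPGroup'.of_equiv e3.symm, ?_,
      ⟨e1.symm.trans (e2.prodCongr e3.symm)⟩⟩
    rw [Monoid.exponent_eq_of_mulEquiv e3, Monoid.exponent_eq_prime_iff hp]
    intro t ht
    obtain ⟨j, hj⟩ := IsPGroup.iff_orderOf.mp P.isPGroup' t
    rw [← orderOf_coe] at hj ⊢
    exact kB p hp ep t.1 j hj fun e => ht (Subtype.ext e)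

end Cfsg.Agent.S3995
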