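import Cfsg.Statements.S3997
import Cfsg.Agent.GS.Cnt

set_option autoImplicit false
open Cfsg

namespace Cfsg.Agent.S3997

open Cfsg.Agent.H1

/-- Let G and H be finite groups with the same order type: for every m they have the same number of elements of order m. If G is nilpotent then so is H. -/
theorem result {G H : Type*} [Group G] [Finite G] [Group H] [Finite H] (hT : (∀ m : ℕ, Nat.card {g : G // orderOf g = m} = Nat.card {h : H // orderOf h = m})) (hG : Group.IsNilpotent G) :
    Group.IsNilpotent H := by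
  open Subgroup Pointwise commutatorElement Cfsg.Agent.BG Cfsg.Agent.GS in
  open Cfsg.Agent.H2 hiding card_lt_of_lt card_lt_of_ne_top isMulCommutative_of_le isPGroup_zpowers_iff mem_of_pow_mem_of_coprime inf_eq_bot_of_cop exists_maxElem_ge Sec in
  open Cfsg.Agent.H8 (Op Opp Fit SN) in
  open Cfsg.Agent.L (FPF) in focus
    obtain ⟨e, he⟩ := exists_equiv_orderOf hT
    refine nil_top_iff.1 (nil_of_forall_sylIn fun p hp => ?_)
    have := Fact.mk hp
    obtain ⟨P, hP⟩ := exists_sylIn p (⊤ : Subgroup H)
    obtain ⟨Q, hQ⟩ := exists_sylIn p (⊤ : Subgroup G)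
    have : Q.Normal := normal_iff_top_le.2 (le_normalizer.trans (sylIn_norm_of_nil hQ (nil_top_iff.2 hG)))
    have := hall_normal_of_equiv e he (isPiHallOf_top.1 (sylIn_iff_hall.1 hQ)) (isPiHallOf_top.1 (sylIn_iff_hall.1 hP))
    exact ⟨P, hP, le_normalizer_of_normal⟩

end Cfsg.Agent.S3997
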