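import Cfsg.Statements.S3998
import Cfsg.Agent.GS.Cnt

set_option autoImplicit false
open Cfsg

namespace Cfsg.Agent.S3998

open Cfsg.Agent.H1

/-- Let G and H be finite groups with the same order type (for every m the same number of elements of order m). If G is supersolvable then H is solvable. -/
theorem result {G H : Type*} [Group G] [Finite G] [Group H] [Finite H] (hT : (∀ m : ℕ, Nat.card {g : G // orderOf g = m} = Nat.card {h : H // orderOf h = m})) (hG : Cfsg.IsSupersolvable G) :
    Group.IsSolvable H := by
  open Subgroup Pointwise commutatorElement Cfsg.Agent.BG Cfsg.Agent.GS in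
  open Cfsg.Agent.H2 hiding card_lt_of_lt card_lt_of_ne_top isMulCommutative_of_le isPGroup_zpowers_iff mem_of_pow_mem_of_coprime inf_eq_bot_of_cop exists_maxElem_ge Sec in
  open Cfsg.Agent.H8 (Op Opp Fit SN) in
  open Cfsg.Agent.L (FPF) in focus
    obtain ⟨e, he⟩ := exists_equiv_orderOf hT
    have key : ∀ k r, k + r = Nat.card H + 1 → ∃ N : Subgroup H, N.Normal ∧ IsPiHall {p | r ≤ p} N ∧ Group.IsSolvable N := by
      intro k
      induction k with
      | zero =>
        exact fun r hr => ⟨⊥, inferInstance, ⟨piG_bot, fun p hp h1 h2 => by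
          have := Nat.le_of_dvd Nat.card_pos (index_bot (G := H) ▸ h2); simp at h1; omega⟩, inferInstance⟩
      | succ k ih =>
        intro r hr
        obtain ⟨N, h1, h2, h3⟩ := ih (r + 1) (by omega)
        obtain ⟨M, h4, h5⟩ := super_normal_hall hG r
        by_cases hp : r.Prime
        · have := Fact.mk hp
          obtain ⟨P, hP⟩ := exists_sylIn r (⊤ : Subgroup H)
          have h6 : IsPiHall {p | r ≤ p} (P ⊔ N) := ⟨PiG.sup (piG_of_isPGroup hP.pgrp (le_refl r)) (PiG.mono h2.1 fun p h => Nat.le_of_succ_le h)
            le_normalizer_of_normal, fun p hp h hd => by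
              rcases (show r ≤ p from h).eq_or_lt with rfl | h
              · exact not_dvd_index_of_sylIn hP le_sup_left hd
              · exact h2.2 p hp h (hd.trans (index_dvd_of_le le_sup_right))⟩
          exact ⟨_, hall_normal_of_equiv e he h5 h6, h6,
            isSolvable_sup le_normalizer_of_normal (isSolvable_of_isPGroup hP.pgrp) h3⟩
        · exact ⟨N, h1, ⟨PiG.mono h2.1 fun p h => Nat.le_of_succ_le h, fun p hp' h => h2.2 p hp'
            (lt_of_le_of_ne (show r ≤ p from h) fun e => hp (e ▸ hp'))⟩, h3⟩
    obtain ⟨N, -, h2, h3⟩ := key _ 0 rfl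
    rw [index_eq_one.1 (Nat.eq_one_iff_not_exists_prime_dvd.2 fun p hp => h2.2 p hp (Nat.zero_le p))] at h3
    exact Group.isSolvable_of_surjective (f := (⊤ : Subgroup H).subtype) fun x => ⟨⟨x, trivial⟩, rfl⟩

end Cfsg.Agent.S3998
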