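import Cfsg.Statements.S4001
import Cfsg.Agent.H9.TwoFr

set_option autoImplicit false
open Cfsg

namespace Cfsg.Agent.S4001

open Cfsg.Agent Cfsg.Agent.H9

/-- Let G be a 2-Frobenius group: it has normal subgroups H < K with K a Frobenius group with kernel H and G/H a Frobenius group with kernel K/H. Then G is solvable; K/H has odd order coprime to the order of H and to the order of G/K (it is the image of an odd-order Hall subgroup); G/K is cyclic; and the prime graph of G has exactly two connected components, both complete: for distinct primes p, q dividing the order of G, G has an element of order pq exactly when p and q either both divide the order of K/H or both do not. -/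
theorem result {G : Type*} [Group G] [Finite G] (H K : Subgroup G) [H.Normal] [K.Normal] (hlt : H < K)
    (hK : ∃ C : Subgroup ↥K, Cfsg.IsFrobeniusComplement C ∧ Cfsg.frobeniusKernel C = (H.subgroupOf K : Set ↥K))
    (hGH : ∃ C : Subgroup (G ⧸ H), Cfsg.IsFrobeniusComplement C ∧ Cfsg.frobeniusKernel C = (K.map (QuotientGroup.mk' H) : Set (G ⧸ H))) :
    Group.IsSolvable G ∧ Odd (Nat.card (↥K ⧸ H.subgroupOf K)) ∧
      Nat.Coprime (Nat.card (↥K ⧸ H.subgroupOf K)) (Nat.card ↥H * Nat.card (G ⧸ K)) ∧ IsCyclic (G ⧸ K) ∧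
      ∀ p q : ℕ, p.Prime → q.Prime → p ≠ q → p ∣ Nat.card G → q ∣ Nat.card G →
        ((∃ g : G, orderOf g = p * q) ↔ (p ∣ Nat.card (↥K ⧸ H.subgroupOf K) ↔ q ∣ Nat.card (↥K ⧸ H.subgroupOf K))) := by
  obtain ⟨C₀, hC₀, hk⟩ := hK
  obtain ⟨D, hD, hk'⟩ := hGH
  obtain ⟨H', -, a1, a2, a3, a4, -, a5⟩ := GS.exists_frobKernel hC₀
  obtain ⟨K', -, b1, b2, b3, b4, -, -⟩ := GS.exists_frobKernel hD
  obtain rfl : H' = H.subgroupOf K := SetLike.coe_injective (a4.symm.trans hk)
  obtain rfl : K' = K.map (QuotientGroup.mk' H) := SetLike.coe_injective (b4.symm.trans hk')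
  have e1 := Subgroup.map_subgroupOf_eq_of_le hlt.le
  have hf : L.FPF H (C₀.map K.subtype) := by
    have := a3.map K.subtype Subgroup.le_normalizer_of_normal
    rwa [e1] at this
  have hs : H ⊔ C₀.map K.subtype = K := by
    have := congrArg (Subgroup.map K.subtype) a1
    rwa [Subgroup.map_sup, e1, ← MonoidHom.range_eq_map, Subgroup.range_subtype] at this
  have hc : Nat.card (↥K ⧸ H.subgroupOf K) = Nat.card (C₀.map K.subtype) := by
    rw [L.card_map_subtype]
    have h1 := (H.subgroupOf K).card_mul_index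
    have h2 := C₀.card_mul_index
    rw [← a5, mul_comm, ← h1] at h2
    exact (Nat.eq_of_mul_eq_mul_left Nat.card_pos h2).symm
  rw [hc]
  exact TF.two_frob hf hs (fun e => a2 (by rw [e, Subgroup.bot_subgroupOf]))
    (fun e => hC₀.1 ((Subgroup.map_eq_bot_iff_of_injective _ K.subtype_injective).mp e)) b3 b1 hD.1

end Cfsg.Agent.S4001
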