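import Cfsg.Statements.S4003
import Cfsg.Agent.H8.Fib
import Cfsg.Agent.H8.Act
import Cfsg.Agent.L.PCyc

set_option autoImplicit false
open Cfsg

namespace Cfsg.Agent.S4003

open Subgroup hiding commutator_def
open Function Cfsg.Agent.Hopf Cfsg.Agent.Reg
open scoped commutatorElement Pointwise

theorem ord_of_pow {G : Type*} [Group G] [Finite G] {p n : ℕ} (hp : p.Prime) {x : G}
    (h : orderOf (x ^ p) = n) (hd : p ∣ n) : orderOf x = p * n := by
  have h1 : p ∣ orderOf x := hd.trans (h ▸ orderOf_pow_dvd p)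
  rw [← h, orderOf_pow_of_dvd hp.ne_zero h1, Nat.mul_div_cancel' h1]

/-- Let G be a finite group, p an odd prime dividing the order of G whose Sylow p-subgroups are not cyclic, and n = p^s·m with s > 1 and m coprime to p. Then the number of elements of G of order n is a multiple of p^s. -/
theorem result {G : Type*} [Group G] [Finite G] (p : ℕ) [Fact p.Prime] (hodd : p ≠ 2) (hpG : p ∣ Nat.card G)
    (P : Sylow p G) (hP : ¬ IsCyclic ↥(P : Subgroup G)) (s m : ℕ) (hs : 1 < s) (hm : Nat.Coprime p m) :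
    p ^ s ∣ Nat.card {g : G // orderOf g = p ^ s * m} := by
  classical
  have hp : p.Prime := Fact.out
  obtain ⟨r, rfl⟩ : ∃ r, s = r + 1 := ⟨s - 1, by omega⟩
  have hm0 : m ≠ 0 := by
    rintro rfl
    exact hp.one_lt.ne' (by simpa using hm)
  obtain ⟨X, hX⟩ : ∃ X : Set G, X = {g | orderOf g = p ^ (r + 1) * m} := ⟨_, rfl⟩
  have hgoal : Nat.card {g : G // orderOf g = p ^ (r + 1) * m} = X.ncard := by
    rw [hX, ← Nat.card_coe_set_eq]; rfl
  rw [hgoal]
  have o1 : ∀ g ∈ X, orderOf (g ^ p) = p ^ r * m := by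
    intro g hg
    rw [hX] at hg
    rw [orderOf_pow_of_dvd hp.ne_zero (by rw [hg, pow_succ']; exact Dvd.intro _ (mul_assoc _ _ _).symm),
      hg, pow_succ', mul_assoc, Nat.mul_div_cancel_left _ hp.pos]
  have o2 : ∀ g ∈ X, orderOf ((g ^ p) ^ m) = p ^ r := by
    intro g hg
    rw [orderOf_pow_of_dvd hm0 (by rw [o1 g hg]; exact Dvd.intro_left _ rfl), o1 g hg,
      Nat.mul_div_cancel _ (Nat.pos_of_ne_zero hm0)]
  have o3 : ∀ g : G, orderOf (g ^ p) = p ^ r * m → g ∈ X := by
    intro g hg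
    rw [hX]
    show _ = _
    rw [ord_of_pow hp hg (Dvd.dvd.mul_right (dvd_pow_self p (by omega)) _), pow_succ', mul_assoc]
  have o4 : ∀ g ∈ X, ∀ w ∈ zpowers ((g ^ p) ^ m), g * w ∈ X ∧
      zpowers (((g * w) ^ p) ^ m) = zpowers ((g ^ p) ^ m) := by
    intro g hg w hw
    obtain ⟨k, rfl⟩ := mem_powers_iff_mem_zpowers.2 hw
    have e : g * ((g ^ p) ^ m) ^ k = g ^ (1 + p * m * k) := by
      rw [pow_add, pow_one, pow_mul, pow_mul]
    have hw1 : (((g ^ p) ^ m) ^ k) ^ p ^ r = 1 := by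
      rw [← pow_mul, mul_comm, pow_mul, ← o2 g hg, pow_orderOf_eq_one, one_pow]
    have hg' : g * ((g ^ p) ^ m) ^ k ∈ X := by
      rw [hX] at hg ⊢
      show _ = _
      rw [e, Nat.Coprime.orderOf_pow, hg]
      rw [hg]
      refine Nat.Coprime.mul_left (Nat.Coprime.pow_left _ ?_) ?_
      · rw [mul_assoc, Nat.coprime_add_mul_left_right]; simp
      · rw [mul_comm p m, mul_assoc, Nat.coprime_add_mul_left_right]; simp
    refine ⟨hg', eq_of_le_of_card_ge ?_ ?_⟩
    · rw [zpowers_le]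
      show ((g * ((g ^ p) ^ m) ^ k) ^ p) ^ m ∈ _
      have e2 : ((g ^ (1 + p * m * k)) ^ p) ^ m = ((g ^ p) ^ m) ^ (1 + p * m * k) := by
        simp only [← pow_mul]; congr 1; ring
      rw [e, e2]
      exact pow_mem (mem_zpowers _) _
    · have := o2 _ hg'
      exact le_of_eq ((Nat.card_zpowers _).trans ((o2 g hg).trans
        (this.symm.trans (Nat.card_zpowers _).symm)))
  obtain ⟨M, hM⟩ : ∃ M, M = (P : Subgroup G) ⊔ centralizer (P : Set G) := ⟨_, rfl⟩
  rw [← Set.ncard_inter_add_ncard_diff_eq_ncard X (M : Set G)]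
  apply dvd_add
  · obtain ⟨R0, hR0n, ⟨hR0c, hR0e⟩, hR0⟩ := L.exists_normal_elementary_sq_of_odd hodd P.isPGroup' hP
    obtain ⟨R, hR⟩ : ∃ R, R = R0.map (P : Subgroup G).subtype := ⟨_, rfl⟩
    have hRc : Nat.card R = p ^ 2 := by rw [hR, card_map_of_injective (subtype_injective _), hR0]
    have hcen : ⁅R0, ⊤⁆ ≤ center (P : Subgroup G) := by
      have h1 : ⁅R0, ⊤⁆ < R0 := H1.commutator_lt_of_isPGroup (P.isPGroup'.to_subgroup _)
        (P.isPGroup'.to_subgroup _) (by rw [normalizer_eq_top]) (by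
          intro h; rw [h, card_bot] at hR0
          exact (Nat.one_lt_pow two_ne_zero hp.one_lt).ne hR0)
      obtain ⟨i, hi, e⟩ := (Nat.dvd_prime_pow hp).1 (hR0 ▸ card_dvd_of_le h1.le)
      interval_cases i
      · rw [pow_zero, card_eq_one] at e; rw [e]; exact bot_le
      · exact L.le_center_of_card_prime P.isPGroup' _ (by rw [e, pow_one])
      · exact absurd (eq_of_le_of_card_ge h1.le (by rw [e, hR0])) h1.ne
    have hdec : ∀ g ∈ M, ∃ a ∈ (P : Subgroup G), ∃ b ∈ centralizer (P : Set G), g = a * b := by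
      intro g hg
      rw [hM] at hg
      exact (H1.mem_sup_left_norm (H1.le_normalizer_centralizer_self _)).1 hg
    have hpw : ∀ g ∈ M, ∀ u ∈ R, (g * u) ^ p = g ^ p := by
      intro g hg u hu
      obtain ⟨a, ha, b, hb, rfl⟩ := hdec g hg
      rw [hR] at hu
      obtain ⟨u0, hu0, rfl⟩ := hu
      have h1 : ((⟨a, ha⟩ : (P : Subgroup G)) * u0) ^ p = ⟨a, ha⟩ ^ p := by
        have hz : ⁅u0⁻¹, (⟨a, ha⟩ : (P : Subgroup G))⁻¹⁆ ∈ ⁅R0, ⊤⁆ :=
          commutator_mem_commutator (inv_mem hu0) (mem_top _)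
        rw [L.mul_pow_of_central_commutator (z := ⁅u0⁻¹, (⟨a, ha⟩ : (P : Subgroup G))⁻¹⁆)
          (by rw [commutatorElement_def]; group) (mem_center_iff.1 (hcen hz) _)
          (mem_center_iff.1 (hcen hz) _), hR0e u0 hu0, mul_one]
        obtain ⟨k, hk⟩ := hp.dvd_choose_self two_ne_zero (lt_of_le_of_ne hp.two_le hodd.symm)
        rw [hk, pow_mul, hR0e _ (commutator_le_left _ _ hz), one_pow, mul_one]
      have h2 : (a * u0) ^ p = a ^ p := congrArg Subtype.val h1
      have c1 : Commute a b := hb a ha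
      have c2 : Commute (a * u0) b := hb _ (mul_mem ha u0.2)
      have c3 : Commute (u0 : G) b := hb _ u0.2
      show (a * b * u0) ^ p = _
      rw [mul_assoc, ← c3.eq, ← mul_assoc, c2.mul_pow, c1.mul_pow, h2]
    have hRM : R ≤ M := by rw [hR, hM]; exact (map_subtype_le _).trans le_sup_left
    have hn : M ≤ normalizer (R : Set G) := by
      rw [hM, sup_le_iff]
      refine ⟨?_, (centralizer_le (by rw [hR]; exact map_subtype_le _)).trans
        (centralizer_le_normalizer _)⟩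
      rw [hR]
      exact H1.le_normalizer_map_subtype_of_normal _ R0
    apply dvd_ncard_of_fib _ (fun y => (fun w => y * w) '' ((zpowers ((y ^ p) ^ m) ⊔ R : Subgroup G) : Set G))
    intro x hx
    have hz : ∀ g ∈ M, zpowers ((g ^ p) ^ m) ≤ M := fun g hg =>
      zpowers_le.2 (pow_mem (pow_mem hg _) _)
    rw [coset_fib (X ∩ M) (fun y => zpowers ((y ^ p) ^ m) ⊔ R) _ hx]
    · have h1 := H1.card_sup_mul_card_inf ((hz x hx.2).trans hn)
      have h2 : Nat.card ↥(zpowers ((x ^ p) ^ m) ⊓ R) ∣ p := by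
        obtain ⟨i, hi, e⟩ := (Nat.dvd_prime_pow hp).1
          (hRc ▸ card_dvd_of_le (inf_le_right : zpowers ((x ^ p) ^ m) ⊓ R ≤ R))
        interval_cases i
        · rw [e]; simp
        · rw [e]; simp
        · exfalso
          have h3 : zpowers ((x ^ p) ^ m) ⊓ R = R := eq_of_le_of_card_ge inf_le_right (by rw [e, hRc])
          haveI : IsCyclic R := isCyclic_of_le (inf_eq_right.1 h3)
          obtain ⟨v, hv⟩ := IsCyclic.exists_ofOrder_eq_natCard (α := R)
          have h4 : orderOf v ∣ p := by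
            obtain ⟨_, hv'⟩ := v
            subst hR
            obtain ⟨u0, hu0, rfl⟩ := hv'
            exact orderOf_dvd_of_pow_eq_one (Subtype.ext (congrArg (P : Subgroup G).subtype (hR0e u0 hu0) |> (map_pow _ _ _).symm.trans))
          rw [hv, hRc] at h4
          have := Nat.le_of_dvd hp.pos h4
          nlinarith [hp.one_lt]
      rw [Nat.card_zpowers, o2 x hx.1, hRc] at h1
      obtain ⟨c, hc⟩ := h2
      refine ⟨c, Nat.eq_of_mul_eq_mul_right (Nat.card_pos (α := ↥(zpowers ((x ^ p) ^ m) ⊓ R))) ?_⟩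
      rw [h1, mul_assoc, mul_comm c, ← hc]; ring
    · rintro g ⟨hg, hgM⟩ w hw
      obtain ⟨u, hu, v, hv, rfl⟩ := (H1.mem_sup_left_norm ((hz g hgM).trans hn)).1 hw
      obtain ⟨h1, h2⟩ := o4 g hg u hu
      have h3 := hpw (g * u) (mul_mem hgM (hz g hgM hu)) v hv
      rw [← mul_assoc]
      exact ⟨⟨o3 _ (h3 ▸ o1 _ h1), mul_mem (mul_mem hgM (hz g hgM hu)) (hRM hv)⟩, by rw [h3, h2]⟩
  · have hz : ∀ g ∈ X \ M, ∀ w ∈ zpowers ((g ^ p) ^ m), g * w ∈ X \ M ∧
        zpowers (((g * w) ^ p) ^ m) = zpowers ((g ^ p) ^ m) := by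
      intro g hg w hw
      obtain ⟨h1, h2⟩ := o4 g hg.1 w hw
      refine ⟨⟨h1, fun h => hg.2 ?_⟩, h2⟩
      rw [← h2] at hw
      have := mul_mem h (inv_mem (zpowers_le.2 (pow_mem (pow_mem h p) m) hw))
      simpa using this
    rw [ncard_eq_of_fib _ (fun y => (fun w => y * w) '' (zpowers ((y ^ p) ^ m) : Set G)) (p ^ r)
      (fun x hx => by
        rw [coset_fib (X \ M) (fun y => zpowers ((y ^ p) ^ m)) hz hx, Nat.card_zpowers, o2 x hx.1]),
      pow_succ']
    refine Nat.mul_dvd_mul_right ?_ _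
    have hs : ∀ (t y : G), MulAut.conj t • ((fun w => y * w) '' (zpowers ((y ^ p) ^ m) : Set G)) =
        (fun w => (t * y * t⁻¹) * w) '' (zpowers ((((t : G) * y * (t : G)⁻¹) ^ p) ^ m) : Set G) := by
      intro t y
      ext v
      constructor
      · rintro ⟨_, ⟨_, ⟨k, rfl⟩, rfl⟩, rfl⟩
        refine ⟨_, ⟨k, rfl⟩, ?_⟩
        simp only [conj_pow, conj_zpow]
        show _ = (t : G) * _ * (t : G)⁻¹
        group
      · rintro ⟨_, ⟨k, rfl⟩, rfl⟩
        refine ⟨_, ⟨_, ⟨k, rfl⟩, rfl⟩, ?_⟩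
        simp only [conj_pow, conj_zpow]
        show (t : G) * _ * (t : G)⁻¹ = _
        group
    apply p_dvd_ncard_of_act (P.isPGroup'.map (MulAut.conj : G →* MulAut G))
    · rintro ⟨_, t, ht', rfl⟩ _ ⟨y, hy, rfl⟩
      refine ⟨t * y * t⁻¹, ⟨?_, fun h => hy.2 ?_⟩, (hs t y).symm⟩
      · have := hy.1
        rw [hX] at this ⊢
        show _ = _
        rw [← this]; exact MulEquiv.orderOf_eq (MulAut.conj (t : G)) y
      · have ht : (t : G) ∈ M := hM ▸ mem_sup_left ht'
        simpa [mul_assoc] using mul_mem (mul_mem (inv_mem ht) h) ht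
    · rintro _ ⟨y, hy, rfl⟩
      by_contra h
      push Not at h
      apply hy.2
      have h1 : ∀ t ∈ (P : Subgroup G), ∃ k : ℕ, t * y * t⁻¹ = y * ((y ^ p) ^ m) ^ k := by
        intro t ht
        have h2 := (hs t y).symm.trans (h ⟨_, t, ht, rfl⟩)
        have h3 : t * y * t⁻¹ ∈ (fun w => y * w) '' (zpowers ((y ^ p) ^ m) : Set G) :=
          h2 ▸ ⟨1, one_mem _, mul_one _⟩
        obtain ⟨w, hw, e⟩ := h3
        obtain ⟨k, rfl⟩ := mem_powers_iff_mem_zpowers.2 hw
        exact ⟨k, e.symm⟩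
      have hcm : ∀ k : ℕ, Commute y (((y ^ p) ^ m) ^ k) := fun k =>
        ((Commute.self_pow y p).pow_right m).pow_right k
      refine mem_of_pow_pow (Nat.Coprime.pow_left (r + 1) hm) (hM ▸ mem_sup_right ?_)
        (hM ▸ mem_sup_left ?_)
      · intro t ht
        obtain ⟨k, hk⟩ := h1 t ht
        have h2 := congrArg (· ^ p ^ (r + 1)) hk
        simp only [conj_pow] at h2
        have h3 : (((y ^ p) ^ m) ^ k) ^ p ^ (r + 1) = 1 := by
          rw [← pow_mul, mul_comm k, pow_succ, mul_assoc, pow_mul, ← o2 y hy.1, pow_orderOf_eq_one,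
            one_pow]
        rw [(hcm k).mul_pow, h3, mul_one] at h2
        calc t * y ^ p ^ (r + 1) = (t * y ^ p ^ (r + 1) * t⁻¹) * t := by group
          _ = _ := by rw [h2]
      · have h2 : IsPGroup p (zpowers (y ^ m)) := by
          rw [IsPGroup.iff_card, Nat.card_zpowers]
          have h3 := hy.1
          rw [hX] at h3
          refine ⟨r + 1, ?_⟩
          rw [orderOf_pow_of_dvd hm0 (by rw [h3]; exact Dvd.intro_left _ rfl), h3,
            Nat.mul_div_cancel _ (Nat.pos_of_ne_zero hm0)]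
        have h3 : (P : Subgroup G) ≤ normalizer (zpowers (y ^ m) : Set G) := by
          intro t ht
          apply H1.mem_normalizer_of_conj_mem
          rintro _ ⟨j, rfl⟩
          obtain ⟨k, hk⟩ := h1 t ht
          rw [← conj_zpow, ← conj_pow, hk, (hcm k).mul_pow]
          refine zpow_mem (mul_mem (mem_zpowers _) ?_) _
          rw [← pow_mul, ← pow_mul, ← pow_mul, ← mul_assoc, ← mul_assoc, mul_comm, pow_mul]
          exact pow_mem (mem_zpowers _) _
        have h4 := P.is_maximal' (IsPGroup.to_sup_of_normal_right' P.isPGroup' h2 h3) le_sup_left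
        exact h4 ▸ mem_sup_right (mem_zpowers _)

end Cfsg.Agent.S4003
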