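import Cfsg.Statements.S4005
import Cfsg.Agent.H9.TwoFr
import Cfsg.Agent.H1.Burnside

set_option autoImplicit false
open Cfsg

namespace Cfsg.Agent.S4005

open Cfsg.Agent Cfsg.Agent.H9

/-- A finite group whose set of element orders is exactly {1, 2, 3} has either a normal elementary abelian 3-subgroup of index 2 or a normal elementary abelian 2-subgroup of index 3. -/
theorem result {G : Type*} [Group G] [Finite G] (h : Set.range (orderOf : G → ℕ) = {k : ℕ | 1 ≤ k ∧ k ≤ 3}) :
    (∃ N : Subgroup G, N.Normal ∧ Cfsg.IsElementaryAbelian 3 N ∧ N.index = 2) ∨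
      (∃ N : Subgroup G, N.Normal ∧ Cfsg.IsElementaryAbelian 2 N ∧ N.index = 3) := by
  have ho : ∀ g : G, orderOf g ≤ 3 := fun g => (show orderOf g ∈ {k : ℕ | 1 ≤ k ∧ k ≤ 3} from h ▸ ⟨g, rfl⟩).2
  have hex : ∀ k, 1 ≤ k → k ≤ 3 → ∃ g : G, orderOf g = k := fun k k1 k2 =>
    show k ∈ Set.range (orderOf : G → ℕ) from h ▸ ⟨k1, k2⟩
  have hpr : ∀ r : ℕ, r.Prime → r ∣ Nat.card G → r = 2 ∨ r = 3 := fun r hr hd => by
    haveI := Fact.mk hr
    obtain ⟨g, hg⟩ := exists_prime_orderOf_dvd_card' r hd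
    have := ho g
    have := hr.two_le
    omega
  haveI := H1.isSolvable_of_two_primes Nat.prime_two Nat.prime_three hpr
  haveI : Fact (Nat.Prime 3) := ⟨Nat.prime_three⟩
  have hexp : ∀ {s : ℕ} {P : Subgroup G}, s.Prime → IsPGroup s P → ∀ x ∈ P, x ≠ 1 → orderOf x = s := by
    intro s P hs hP x hx hx1
    haveI := Fact.mk hs
    obtain ⟨k, hk⟩ := IsPGroup.iff_orderOf.mp hP ⟨x, hx⟩
    have hk' : orderOf x = s ^ k := (Subgroup.orderOf_coe (⟨x, hx⟩ : P)).trans hk
    have h1 := ho x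
    rw [hk'] at h1 ⊢
    rcases k with _ | _ | k
    · exact absurd (orderOf_eq_one_iff.mp hk') hx1
    · simp
    · have : 2 ^ 2 ≤ s ^ (k + 1 + 1) := (Nat.pow_le_pow_left hs.two_le 2).trans (Nat.pow_le_pow_right hs.pos (by omega))
      omega
  have hpow : ∀ {s : ℕ} {P : Subgroup G}, s.Prime → IsPGroup s P → ∀ x ∈ P, x ^ s = 1 := by
    intro s P hs hP x hx
    by_cases h1 : x = 1
    · rw [h1, one_pow]
    · rw [← hexp hs hP x hx h1, pow_orderOf_eq_one]
  have h6 : ∀ x y : G, orderOf x = 2 → orderOf y = 3 → x * y ≠ y * x := fun x y hx hy hc => by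
    have := ho (x * y)
    rw [TF.order_mul Nat.prime_two Nat.prime_three (by norm_num) hx hy hc] at this
    omega
  have hcomm : ∀ {P : Subgroup G}, IsPGroup 2 P → IsMulCommutative P := fun {P} hP =>
    L.isMulCommutative_of_forall fun a ha b hb => by
      have e : ∀ x ∈ P, x⁻¹ = x := fun x hx => inv_eq_of_mul_eq_one_right (by rw [← pow_two]; exact hpow Nat.prime_two hP x hx)
      rw [← e _ (P.mul_mem ha hb), mul_inv_rev, e a ha, e b hb]
  have hidx : ∀ (s t : ℕ) [Fact s.Prime] [Fact t.Prime] (P : Sylow s G) (T : Sylow t G), s ≠ t → t ≤ 3 → s ≤ 3 →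
      IsCyclic T → (P : Subgroup G).index = t := by
    intro s t hs ht P T hst t3 s3 hc
    have hT : Nat.card T ∣ t := by
      obtain ⟨g, hg⟩ := IsCyclic.exists_ofOrder_eq_natCard (α := T)
      rw [← hg]
      exact orderOf_dvd_of_pow_eq_one (Subtype.ext (hpow ht.out T.isPGroup' g g.2))
    have e1 := Nat.eq_prime_pow_of_unique_prime_dvd (n := (P : Subgroup G).index) (p := t) Subgroup.index_ne_zero_of_finite
      fun {d} hd hdvd => by
        have h1 := hpr d hd (hdvd.trans (Subgroup.index_dvd_card _))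
        have h2 : d ≠ s := fun e => P.not_dvd_index (e ▸ hdvd)
        have := hs.out.two_le
        have := ht.out.two_le
        omega
    refine Nat.dvd_antisymm ?_ ?_
    · rw [e1]
      exact (T.pow_dvd_card_of_pow_dvd_card (e1 ▸ Subgroup.index_dvd_card _)).trans hT
    · obtain ⟨g, hg⟩ := hex t ht.out.pos t3
      have h1 : t ∣ Nat.card P * (P : Subgroup G).index := by
        rw [Subgroup.card_mul_index, ← hg]; exact orderOf_dvd_natCard g
      obtain ⟨k, hk⟩ := IsPGroup.iff_card.mp P.isPGroup'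
      exact Nat.Coprime.dvd_of_dvd_mul_left (by rw [hk]; exact ((Nat.coprime_primes ht.out hs.out).mpr hst.symm).pow_right k) h1
  obtain ⟨u, hu⟩ := hex 2 (by omega) (by omega)
  haveI : Nontrivial G := ⟨⟨u, 1, TF.ne_one_of_order Nat.prime_two hu⟩⟩
  obtain ⟨V, s, -, hVn, hV, hs, -, -, hVp, -⟩ := L.exists_elementary_normal_le (⊤ : Subgroup G) top_ne_bot
  obtain ⟨v, hv, hv1⟩ := (Subgroup.bot_or_exists_ne_one V).resolve_left hV
  obtain ⟨S⟩ : Nonempty (Sylow 2 G) := inferInstance
  obtain ⟨P⟩ : Nonempty (Sylow 3 G) := inferInstance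
  haveI := hcomm S.isPGroup'
  rcases hpr s hs (hexp hs hVp v hv hv1 ▸ orderOf_dvd_natCard v) with rfl | rfl
  · have hf : L.FPF V P := L.FPF.of_forall fun x hx hx1 k hk hc => by
      by_contra hk1
      exact h6 k x (hexp hs hVp k hk hk1) (hexp Nat.prime_three P.isPGroup' x hx hx1) hc.symm
    have hc := hf.isCyclic_of_odd Subgroup.le_normalizer_of_normal hV (p := 3) (by norm_num) P.isPGroup'
    have hC : IsPGroup 2 (Subgroup.centralizer (V : Set G)) := IsPGroup.iff_orderOf.mpr fun g => by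
      have h1 := ho g.1
      have h2 := orderOf_pos g.1
      have h3 : orderOf g.1 ≠ 3 := fun e => h6 v g.1 (hexp hs hVp v hv hv1) e (g.2 v hv)
      rw [← Subgroup.orderOf_coe]
      rcases (by omega : orderOf g.1 = 1 ∨ orderOf g.1 = 2) with e | e
      exacts [⟨0, e⟩, ⟨1, e⟩]
    have hVS : V ≤ S := hVp.le_sylow_of_normal S
    have hSC : Subgroup.centralizer (V : Set G) = S := S.is_maximal' hC fun x hx w hw =>
      L.mul_comm_of_isMulCommutative (hVS hw) hx
    exact .inr ⟨S, hSC ▸ inferInstance, ⟨inferInstance, hpow Nat.prime_two S.isPGroup'⟩,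
      hidx 2 3 S P (by norm_num) le_rfl (by norm_num) hc⟩
  · have hf : L.FPF V S := L.FPF.of_forall fun x hx hx1 k hk hc => by
      by_contra hk1
      exact h6 x k (hexp Nat.prime_two S.isPGroup' x hx hx1) (hexp hs hVp k hk hk1) hc
    have hc := hf.isCyclic_of_isMulCommutative Subgroup.le_normalizer_of_normal hV
    have hi := hidx 3 2 P S (by norm_num) (by norm_num) le_rfl hc
    haveI := Subgroup.normal_of_index_eq_two hi
    refine .inl ⟨P, inferInstance, ⟨(L.inverts_of_involution (s := u) (by rw [← pow_two, ← hu, pow_orderOf_eq_one])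
      (Subgroup.le_normalizer_of_normal (Subgroup.mem_top u)) ?_).2, hpow Nat.prime_three P.isPGroup'⟩, hi⟩
    rw [eq_bot_iff]
    rintro k ⟨hk, hc⟩
    by_contra hk1
    exact h6 u k hu (hexp Nat.prime_three P.isPGroup' k hk hk1) (Subgroup.mem_centralizer_singleton_iff.mp hc).symm

end Cfsg.Agent.S4005
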