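import Cfsg.Statements.S4198
import Cfsg.Agent.H9.TJ

set_option autoImplicit false
open Cfsg

namespace Cfsg.Agent.S4198

open Cfsg.Agent Cfsg.Agent.H9
open Equiv Equiv.Perm

theorem part {n : ℕ} (hn : 5 ≤ n) (m : Multiset ℕ) (hp : ∀ a ∈ m, 0 < a) (hs : m.sum = n) : ∃ c : Composition (n - 1),
    (if c.blocks = [1, n - 2] then Multiset.replicate n 1 else ((c.blocks.headD 0 + 1) :: c.blocks.tail : List ℕ)) = m := by
  have h1 := Multiset.pairwise_sort m (· ≥ ·)
  have h2 := Multiset.sort_eq m (· ≥ ·)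
  generalize m.sort (· ≥ ·) = l at h1 h2
  subst h2
  rcases l with _ | ⟨a, t⟩
  · simp at hs; omega
  simp only [Multiset.mem_coe, List.mem_cons, forall_eq_or_imp, Multiset.sum_coe, List.sum_cons, List.pairwise_cons] at hp hs h1
  by_cases ha : a = 1
  · refine ⟨⟨[1, n - 2], by simp; omega, by simp; omega⟩, ?_⟩
    rw [if_pos rfl, eq_comm, Multiset.eq_replicate]
    have h3 : ∀ b ∈ t, b = 1 := fun b hb => by have := hp.2 b hb; have := h1.1 b hb; omega
    refine ⟨?_, by simpa [ha] using h3⟩
    rw [List.eq_replicate_iff.mpr ⟨rfl, h3⟩] at hs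
    simp at hs ⊢
    omega
  · refine ⟨⟨(a - 1) :: t, ?_, by simp; omega⟩, ?_⟩
    · intro i hi
      rcases List.mem_cons.mp hi with rfl | hi
      · omega
      · exact hp.2 i hi
    · rw [if_neg]
      · simp only [List.headD_cons, List.tail_cons]
        rw [Nat.sub_add_cancel hp.1]
      · intro e
        simp only [List.cons.injEq] at e
        have := h1.1 (n - 2) (by simp [e.2])
        omega

/-- For n ≥ 5 the alternating group of degree n has strictly fewer conjugacy classes than the symmetric group of degree n, and the symmetric group of degree n (whose classes correspond to the partitions of n) has at most 2^(n−2) conjugacy classes. -/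
theorem result (n : ℕ) (hn : 5 ≤ n) : Nat.card (ConjClasses (alternatingGroup (Fin n))) < Nat.card (ConjClasses (Equiv.Perm (Fin n))) ∧ Nat.card (ConjClasses (Equiv.Perm (Fin n))) ≤ 2 ^ (n - 2) := by
  classical
  constructor
  · have spec : ∀ C : ConjClasses (alternatingGroup (Fin n)), ∃ D : ConjClasses (Perm (Fin n)), ∃ σ : alternatingGroup (Fin n),
        ConjClasses.mk σ = C ∧ ∃ g : Perm (Fin n), g * (ConjClasses.mk σ.1).out * g⁻¹ = σ.1 ∧
        ((sign g = 1 ∧ ConjClasses.mk σ.1 = D) ∨ (sign g = -1 ∧ (∀ c ∈ σ.1.cycleType, Odd c) ∧ n ≤ σ.1.cycleType.sum + 1 ∧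
          ∃ a ∈ σ.1.cycleType, ∃ τ, ConjClasses.mk τ = D ∧ sign τ = -1 ∧ τ.cycleType = (a - 1) ::ₘ σ.1.cycleType.erase a)) := by
      intro C
      obtain ⟨σ, rfl⟩ := ConjClasses.mk_surjective C
      obtain ⟨g, hg⟩ := isConj_iff.mp (ConjClasses.mk_eq_mk_iff_isConj.mp (Quotient.out_eq (ConjClasses.mk σ.1)))
      rcases Int.units_eq_one_or (sign g) with h | h
      · exact ⟨_, σ, rfl, g, hg, Or.inl ⟨h, rfl⟩⟩
      by_cases hc : Subgroup.centralizer {σ.1} ≤ alternatingGroup (Fin n)
      · obtain ⟨h1, h2, -⟩ := centralizer_le_alternating_iff.mp hc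
        rw [Fintype.card_fin] at h2
        obtain ⟨a, ha⟩ := Multiset.exists_mem_of_ne_zero (s := σ.1.cycleType) (fun e => by rw [e] at h2; simp at h2; omega)
        have h3 := Multiset.cons_erase ha
        have h4 : 2 ≤ a - 1 := by
          have := two_le_of_mem_cycleType ha
          obtain ⟨k, hk⟩ := h1 a ha
          omega
        have h5 : σ.1.cycleType.sum = a + (σ.1.cycleType.erase a).sum := by
          conv_lhs => rw [← h3, Multiset.sum_cons]
        obtain ⟨τ, hτ⟩ := (exists_with_cycleType_iff (Fin n) (m := (a - 1) ::ₘ σ.1.cycleType.erase a)).mpr ⟨by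
          have := σ.1.sum_cycleType_le
          rw [Multiset.sum_cons]; omega, fun b hb => by
          rcases Multiset.mem_cons.mp hb with rfl | hb
          · exact h4
          · exact two_le_of_mem_cycleType (Multiset.mem_of_mem_erase hb)⟩
        refine ⟨_, σ, rfl, g, hg, Or.inr ⟨h, h1, h2, a, ha, τ, rfl, ?_, hτ⟩⟩
        have h6 := sign_of_cycleType σ.1
        rw [mem_alternatingGroup.mp σ.2, h5] at h6
        have h7 : Multiset.card σ.1.cycleType = Multiset.card (σ.1.cycleType.erase a) + 1 := by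
          conv_lhs => rw [← h3, Multiset.card_cons]
        rw [sign_of_cycleType, hτ, Multiset.sum_cons, Multiset.card_cons, ← h7]
        rw [show a + (σ.1.cycleType.erase a).sum + Multiset.card σ.1.cycleType =
          (a - 1 + (σ.1.cycleType.erase a).sum + Multiset.card σ.1.cycleType) + 1 by omega, pow_succ, mul_neg_one,
          eq_comm, neg_eq_iff_eq_neg] at h6
        exact h6
      · obtain ⟨c, hc1, hc2⟩ := SetLike.not_le_iff_exists.mp hc
        refine ⟨_, σ, rfl, c * g, ?_, Or.inl ⟨?_, rfl⟩⟩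
        · calc _ = c * (g * (ConjClasses.mk σ.1).out * g⁻¹) * c⁻¹ := by group
            _ = _ := by rw [hg, Subgroup.mem_centralizer_singleton_iff.mp hc1, mul_inv_cancel_right]
        · rw [map_mul, h, (Int.units_eq_one_or (sign c)).resolve_left hc2]; simp
    choose ψ hψ using spec
    have same : ∀ (σ σ' : alternatingGroup (Fin n)) (g g' : Perm (Fin n)), ConjClasses.mk σ.1 = ConjClasses.mk σ'.1 →
        g * (ConjClasses.mk σ.1).out * g⁻¹ = σ.1 → g' * (ConjClasses.mk σ'.1).out * g'⁻¹ = σ'.1 → sign g = sign g' →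
        ConjClasses.mk σ = ConjClasses.mk σ' := fun σ σ' g g' h1 h2 h3 h4 => by
      refine ConjClasses.mk_eq_mk_iff_isConj.mpr (isConj_iff.mpr ⟨⟨g' * g⁻¹, by simp [mem_alternatingGroup, h4]⟩, Subtype.ext ?_⟩)
      show g' * g⁻¹ * σ.1 * (g' * g⁻¹)⁻¹ = σ'.1
      rw [h1] at h2
      generalize (ConjClasses.mk σ'.1).out = r at h2 h3
      rw [← h2, ← h3]; group
    have sg : ∀ {σ τ : Perm (Fin n)}, ConjClasses.mk σ = ConjClasses.mk τ → sign σ = sign τ := fun h =>
      isConj_iff_eq.mp (sign.map_isConj (ConjClasses.mk_eq_mk_iff_isConj.mp h))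
    have ct : ∀ {σ τ : Perm (Fin n)}, ConjClasses.mk σ = ConjClasses.mk τ ↔ σ.cycleType = τ.cycleType :=
      ConjClasses.mk_eq_mk_iff_isConj.trans isConj_iff_cycleType_eq
    have hinj : Function.Injective ψ := fun C C' e => by
      obtain ⟨σ, rfl, g, hg, h⟩ := hψ C
      obtain ⟨σ', rfl, g', hg', h'⟩ := hψ C'
      rcases h with ⟨h1, h2⟩ | ⟨h1, h2, -, a, ha, τ, h3, h4, h5⟩ <;> rcases h' with ⟨h1', h2'⟩ | ⟨h1', h2', -, a', ha', τ', h3', h4', h5'⟩
      · exact same _ _ _ _ (h2.trans (e.trans h2'.symm)) hg hg' (h1.trans h1'.symm)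
      · have := sg (h2.trans (e.trans h3'.symm))
        rw [mem_alternatingGroup.mp σ.2, h4'] at this
        exact absurd this (by decide)
      · have := sg (h2'.trans (e.symm.trans h3.symm))
        rw [mem_alternatingGroup.mp σ'.2, h4] at this
        exact absurd this (by decide)
      · refine same _ _ _ _ (ct.mpr ?_) hg hg' (h1.trans h1'.symm)
        have h6 := ct.mp (h3.trans (e.trans h3'.symm))
        rw [h5, h5'] at h6
        obtain ⟨k, hk⟩ := h2 a ha
        obtain ⟨k', hk'⟩ := h2' a' ha'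
        have h7 : a = a' := by
          rcases Multiset.mem_cons.mp (h6 ▸ Multiset.mem_cons_self _ _) with h8 | h8
          · omega
          · obtain ⟨j, hj⟩ := h2' _ (Multiset.mem_of_mem_erase h8)
            omega
        subst h7
        rw [← Multiset.cons_erase ha, ← Multiset.cons_erase ha', (Multiset.cons_inj_right _).mp h6]
    have hne : (⟨0, by omega⟩ : Fin n) ≠ ⟨1, by omega⟩ := by simp
    haveI := Fintype.ofFinite (ConjClasses (alternatingGroup (Fin n)))
    haveI := Fintype.ofFinite (ConjClasses (Perm (Fin n)))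
    rw [Nat.card_eq_fintype_card, Nat.card_eq_fintype_card]
    refine Fintype.card_lt_of_injective_of_notMem ψ hinj (b := ConjClasses.mk (swap ⟨0, by omega⟩ ⟨1, by omega⟩)) ?_
    rintro ⟨C, e⟩
    obtain ⟨σ, rfl, g, hg, ⟨h1, h2⟩ | ⟨h1, h2, h6, a, ha, τ, h3, h4, h5⟩⟩ := hψ C
    · have := sg (h2.trans e)
      rw [mem_alternatingGroup.mp σ.2, sign_swap hne] at this
      exact absurd this (by decide)
    · have h7 := ct.mp (h3.trans e)
      rw [h5, isSwap_iff_cycleType.mp ⟨_, _, hne, rfl⟩] at h7
      have h8 := congrArg Multiset.sum h7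
      rw [← Multiset.cons_erase ha] at h6
      simp only [Multiset.sum_cons, Multiset.sum_singleton] at h8 h6
      have := two_le_of_mem_cycleType ha
      omega
  · have spec : ∀ C : ConjClasses (Perm (Fin n)), ∃ c : Composition (n - 1), (if c.blocks = [1, n - 2] then Multiset.replicate n 1
        else ((c.blocks.headD 0 + 1) :: c.blocks.tail : List ℕ)) = C.out.partition.parts := fun C =>
      part hn _ (fun a ha => C.out.partition.parts_pos ha) (C.out.partition.parts_sum.trans (Fintype.card_fin n))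
    choose ψ hψ using spec
    refine (Nat.card_le_card_of_injective ψ fun C C' e => ?_).trans (by
      rw [Nat.card_eq_fintype_card, composition_card]; rfl)
    have h1 := (hψ C).symm.trans (e ▸ hψ C')
    rw [← Quotient.out_eq C, ← Quotient.out_eq C']
    exact ConjClasses.mk_eq_mk_iff_isConj.mpr (partition_eq_of_isConj.mpr (Nat.Partition.ext h1))

end Cfsg.Agent.S4198
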