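import Cfsg.Statements.S4200
import Cfsg.Agent.GS.Cls

set_option autoImplicit false
open Cfsg

namespace Cfsg.Agent.S4200

open Cfsg.Agent.H1

/-- Let Y be a subgroup of the finite group X, of index m. Then the numbers of conjugacy classes satisfy k(Y) ≤ m·k(X) and k(X) ≤ m·k(Y), and the second inequality is strict unless Y is normal in X. -/
theorem result {X : Type*} [Group X] [Finite X] (Y : Subgroup X) : Nat.card (ConjClasses Y) ≤ Y.index * Nat.card (ConjClasses X) ∧ Nat.card (ConjClasses X) ≤ Y.index * Nat.card (ConjClasses Y) ∧ (¬ Y.Normal → Nat.card (ConjClasses X) < Y.index * Nat.card (ConjClasses Y)) := by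
  open Subgroup Pointwise commutatorElement Cfsg.Agent.BG Cfsg.Agent.GS in
  open Cfsg.Agent.H2 hiding card_lt_of_lt card_lt_of_ne_top isMulCommutative_of_le isPGroup_zpowers_iff mem_of_pow_mem_of_coprime inf_eq_bot_of_cop exists_maxElem_ge Sec in
  open Cfsg.Agent.H8 (Op Opp Fit SN) in
  open Cfsg.Agent.L (FPF) in focus
    classical
    have := Fintype.ofFinite X
    have hY := Nat.card_pos (α := Y)
    have h1 := card_classes_mul' (G := X)
    have h2 := card_classes_mul_sub Y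
    have h3 := Y.card_mul_index
    have h4 : ∀ x : X, ♯(𝒞₁ x) = Y.relIndex (𝒞₁ x) * ♯(Y ⊓ 𝒞₁ x : Subgroup X) := fun x => by
      rw [mul_comm, card_inf_mul_relIndex]
    have h5 : ∀ x : X, Y.relIndex (𝒞₁ x) ≤ Y.index := fun x =>
      relIndex_top_right Y ▸ relIndex_le_of_le_right le_top (by rw [relIndex_top_right]; exact index_ne_zero_of_finite)
    have h6 : ♯(ConjClasses X) * ♯X ≤ Y.index * ∑ y : X with y ∈ Y, ♯(𝒞₁ y) := by
      have := sum_card_inf_cent1 ⊤ Y
      simp only [mem_top, Finset.filter_true, top_inf_eq] at this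
      rw [h1, ← this, Finset.mul_sum]
      exact Finset.sum_le_sum fun x _ => h4 x ▸ Nat.mul_le_mul_right _ (h5 x)
    have h7 : ∀ y ∈ Finset.univ.filter (· ∈ Y), ♯(𝒞₁ y) ≤ Y.index * ♯(Y ⊓ 𝒞₁ y : Subgroup X) :=
      fun x _ => h4 x ▸ Nat.mul_le_mul_right _ (h5 x)
    refine ⟨Nat.le_of_mul_le_mul_right ?_ hY, Nat.le_of_mul_le_mul_right (h6.trans ?_) (Nat.card_pos (α := X)), fun hn =>
      Nat.lt_of_mul_lt_mul_right (a := ♯X) (h6.trans_lt ?_)⟩
    · rw [h2, mul_assoc, mul_comm (♯(ConjClasses X)), ← mul_assoc, mul_comm Y.index, h3, mul_comm, h1]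
      exact (Finset.sum_le_sum fun x _ => card_le_of_le inf_le_right).trans (Finset.sum_le_sum_of_subset (Finset.subset_univ _))
    · rw [mul_assoc, ← h3, ← mul_assoc (♯(ConjClasses Y)), h2, mul_comm _ Y.index, Finset.mul_sum _ (fun x => ♯(Y ⊓ 𝒞₁ x : Subgroup X))]
      exact Nat.mul_le_mul_left _ (Finset.sum_le_sum h7)
    · rw [mul_assoc, ← h3, ← mul_assoc (♯(ConjClasses Y)), h2, mul_comm _ Y.index, Finset.mul_sum _ (fun x => ♯(Y ⊓ 𝒞₁ x : Subgroup X))]
      refine Nat.mul_lt_mul_of_pos_left (Finset.sum_lt_sum h7 (by_contra fun e => hn ⟨fun y hy g => ?_⟩))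
        (Nat.pos_of_ne_zero index_ne_zero_of_finite)
      have h8 : Y.relIndex (𝒞₁ y) = Y.index := (h5 y).eq_of_not_lt fun c => e ⟨y, by simpa using hy, by
        rw [h4]; exact Nat.mul_lt_mul_of_pos_right c Nat.card_pos⟩
      obtain ⟨a, ha, c, hc, rfl⟩ := forall_mul_symm_top (forall_mul_iff_relIndex_eq_index.2 h8) g
      rw [show a * c * y * (a * c)⁻¹ = a * (c * y * c⁻¹) * a⁻¹ by group, conj_eq_of_mem_cent1 hc]
      exact mul_mem (mul_mem ha hy) (inv_mem ha)

end Cfsg.Agent.S4200
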