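import Cfsg.Statements.S4203
import Cfsg.Agent.H8.Reg
import Cfsg.Agent.H1.Basic
import Cfsg.Agent.H2.Syl
import Cfsg.Agent.H3.Mackey

set_option autoImplicit false
open Cfsg

namespace Cfsg.Agent.S4203

open Subgroup hiding commutator_def
open Function Cfsg.Agent.Hopf Cfsg.Agent.Reg
open scoped commutatorElement Pointwise

universe u in
theorem aux (n : ℕ) : ∀ (G : Type u) [Group G] [Finite G], Nat.card G = n →
    (∀ M : Subgroup G, IsCoatom M → ∃ p : ℕ, p.Prime ∧ (M.index = p ∨ M.index = p ^ 2)) →
    Group.IsSolvable G := by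
  induction n using Nat.strong_induction_on with
  | _ n ih =>
  intro G _ _ hn h
  rcases subsingleton_or_nontrivial G with h0 | h0
  · infer_instance
  obtain ⟨N, hN, hN1, hmin⟩ := H1.exists_minimal_normal (G := G)
  refine H1.isSolvable_of_normal_of_quotient N ?_ (ih _ (hn ▸ H1.card_quotient_lt hN1) _ rfl ?_)
  swap
  · intro M hM
    have := h (M.comap (QuotientGroup.mk' N)) ?_
    · rwa [H1.index_comap_mk'] at this
    · exact Subgroup.isCoatom_comap_of_surjective (QuotientGroup.mk'_surjective N) hM
  have hne : (Nat.card N).primeFactors.Nonempty := by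
    obtain ⟨p, hp, hd⟩ := H1.exists_prime_dvd_card hN1
    exact ⟨p, Nat.mem_primeFactors.2 ⟨hp, hd, Nat.card_pos.ne'⟩⟩
  obtain ⟨p, hp0, hmax⟩ := Finset.exists_max_image _ id hne
  have hp := Nat.prime_of_mem_primeFactors hp0
  haveI := Fact.mk hp
  obtain ⟨P, hP⟩ := H2.exists_sylIn p N
  have hP1 : P ≠ ⊥ := hP.ne_bot (Nat.dvd_of_mem_primeFactors hp0)
  by_cases hT : normalizer (P : Set G) = ⊤
  · have : P.Normal := H1.normal_of_top_le_normalizer hT.ge
    rcases hmin P this hP.le with e | e
    · exact absurd e hP1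
    · rw [← e]; exact H1.isSolvable_of_isPGroup hP.pgrp
  obtain ⟨M, hM, hle⟩ := H1.exists_coatom_ge hT
  obtain ⟨q, hq, hi⟩ := h M hM
  have hF := hP.frattini_sup (H := ⊤) le_top le_normalizer_of_normal
  rw [top_inf_eq] at hF
  have hNM : N ⊔ M = ⊤ := top_le_iff.1 (hF ▸ sup_le_sup_left hle N)
  have hidx : M.relIndex N = M.index := by
    have h1 := H1.card_sup_mul_card_inf (A := M) (K := N) le_normalizer_of_normal
    rw [sup_comm, hNM, card_top, ← card_mul_index M, ← H1.card_inf_mul_relIndex M N] at h1
    have h2 : 0 < Nat.card M * Nat.card ↥(M ⊓ N) := Nat.mul_pos Nat.card_pos Nat.card_pos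
    refine Nat.eq_of_mul_eq_mul_left h2 ?_
    nlinarith [h1]
  -- congruence
  obtain ⟨S, hS⟩ := hP.exists_sylow
  have hPM : P ≤ M := le_normalizer.trans hle
  have hcong : M.relIndex N ≡ 1 [MOD p] := by
    have h1 : normalizer ((S : Subgroup N) : Set N) ≤ M.subgroupOf N := by
      intro x hx
      rw [mem_subgroupOf]
      refine hle (H1.mem_normalizer_of_conj_mem fun y hy => ?_)
      have : (⟨y, hP.le hy⟩ : N) ∈ (S : Subgroup N) := by rw [hS]; exact hy
      have h2 := H1.conj_mem_of_mem_normalizer hx this
      rw [hS] at h2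
      exact h2
    have h2 : (S : Subgroup N) ≤ M.subgroupOf N := le_normalizer.trans h1
    have h3 := card_sylow_modEq_one p N
    have h4 := card_sylow_modEq_one p (M.subgroupOf N)
    rw [S.card_eq_index_normalizer] at h3
    rw [(S.subtype h2).card_eq_index_normalizer] at h4
    change (normalizer (((S : Subgroup N).subgroupOf (M.subgroupOf N) :
      Subgroup (M.subgroupOf N)) : Set (M.subgroupOf N))).index ≡ 1 [MOD p] at h4
    rw [← subgroupOf_normalizer_eq h2] at h4
    change (normalizer ((S : Subgroup N) : Set N)).index ≡ 1 [MOD p] at h3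
    have h5 := relIndex_mul_index h1
    rw [← h5] at h3
    have h6 := h4.mul_right (M.subgroupOf N).index
    rw [one_mul] at h6
    exact h6.symm.trans h3
  have hqN : q ∣ Nat.card N := by
    refine Dvd.dvd.trans ?_ (relIndex_dvd_card M N)
    rw [hidx]
    rcases hi with e | e <;> rw [e]
    exact dvd_pow_self q two_ne_zero
  have hqp : q ≤ p := hmax q (Nat.mem_primeFactors.2 ⟨hq, hqN, Nat.card_pos.ne'⟩)
  have hq2 := hq.two_le
  rw [hidx] at hcong
  have hp3 : p = 3 := by
    rcases hi with e | e <;> rw [e] at hcong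
    · have := (Nat.modEq_iff_dvd' (by omega)).1 hcong.symm
      have := Nat.le_of_dvd (by omega) this
      omega
    · have h1 := (Nat.modEq_iff_dvd' (Nat.one_le_pow _ _ (by omega))).1 hcong.symm
      have e2 : q ^ 2 - 1 = (q + 1) * (q - 1) := by simpa using Nat.sq_sub_sq q 1
      rw [e2] at h1
      rcases (Nat.Prime.dvd_mul hp).1 h1 with h2 | h2
      · have h3 : q ≠ p := by
          rintro rfl
          have := (Nat.dvd_add_right (dvd_refl q)).1 h2
          exact hq.one_lt.ne' (Nat.dvd_one.1 this)
        have h4 := Nat.le_of_dvd (by omega) h2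
        have h5 : p = q + 1 := by omega
        rcases hq.eq_two_or_odd' with h6 | h6
        · omega
        · have := hp.eq_two_or_odd'
          rw [h5] at this
          rcases this with h7 | h7
          · omega
          · exact absurd h7 (by simpa [Nat.odd_add_one] using h6)
      · have := Nat.le_of_dvd (by omega) h2
        omega
  refine H3.burnside_pq Nat.prime_two Nat.prime_three fun r hr hd => ?_
  have h1 : r ≤ p := hmax r (Nat.mem_primeFactors.2 ⟨hr, hd, Nat.card_pos.ne'⟩)
  have := hr.two_le
  omega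

/-- A finite group in which every maximal subgroup has index a prime or the square of a prime is solvable. -/
theorem result {G : Type*} [Group G] [Finite G] (h : ∀ M : Subgroup G, IsCoatom M → ∃ p : ℕ, p.Prime ∧ (M.index = p ∨ M.index = p ^ 2)) : Group.IsSolvable G := by
  exact aux _ G rfl h

end Cfsg.Agent.S4203
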