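import Cfsg.Statements.S4204
import Cfsg.Agent.H8.Reg

set_option autoImplicit false
open Cfsg

namespace Cfsg.Agent.S4204

open Subgroup hiding commutator_def
open Function Cfsg.Agent.Hopf Cfsg.Agent.Reg
open scoped commutatorElement Pointwise

def F {G : Type*} [Group G] (H : Subgroup G) : ℕ → Subgroup G
  | 0 => ⊤
  | i + 1 => H.lowerCentralSeries i

instance {G : Type*} [Group G] (H : Subgroup G) [H.Normal] (i : ℕ) : (F H i).Normal := by
  rcases i with _ | i
  · exact normal_top
  · change (H.lowerCentralSeries i).Normal
    induction i with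
    | zero => exact ‹_›
    | succ i ih => rw [Subgroup.lowerCentralSeries_succ]; infer_instance

theorem F_comm {G : Type*} [Group G] (H : Subgroup G) [H.Normal] (i : ℕ) : ⁅F H i, H⁆ ≤ F H (i + 1) := by
  rcases i with _ | i
  · exact commutator_le_right _ _
  · exact le_rfl

/-- If `H` and `K` are normal subgroups of a finite group with `H` nilpotent of class at most `c` and `K` nilpotent of class at most `d` (the terms with index `c`, respectively `d`, of their lower central series are trivial, indices starting at `0`), then `HK` is nilpotent of class at most `c + d`. -/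
theorem result {G : Type*} [Group G] [Finite G] (H K : Subgroup G) [H.Normal] [K.Normal] (c d : ℕ) (hH : H.lowerCentralSeries c = ⊥) (hK : K.lowerCentralSeries d = ⊥) : (H ⊔ K).lowerCentralSeries (c + d) = ⊥ := by
  have key : ∀ n, (H ⊔ K).lowerCentralSeries n ≤ ⨆ (i : ℕ × ℕ) (_ : i.1 + i.2 = n + 1), F H i.1 ⊓ F K i.2 := fun n => by
    induction n with
    | zero =>
      exact sup_le (le_iSup₂_of_le (1, 0) rfl (le_inf le_rfl le_top)) (le_iSup₂_of_le (0, 1) rfl (le_inf le_top le_rfl))
    | succ n ih =>
      refine (commutator_mono ih le_rfl).trans ?_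
      rw [commutator_comm, iSup_subtype']
      refine H1.commutator_iSup_right_le (fun i => ?_) fun _ => le_normalizer_of_normal
      refine H1.commutator_sup_left_le ?_ ?_ le_normalizer_of_normal le_normalizer_of_normal
      · refine le_iSup₂_of_le (i.1.1 + 1, i.1.2) (by have := i.2; simp only; omega) (le_inf ?_ ?_)
        · rw [commutator_comm]; exact (commutator_mono inf_le_left le_rfl).trans (F_comm H _)
        · exact (commutator_mono le_rfl inf_le_right).trans (commutator_le_right _ _)
      · refine le_iSup₂_of_le (i.1.1, i.1.2 + 1) (by have := i.2; simp only; omega) (le_inf ?_ ?_)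
        · exact (commutator_mono le_rfl inf_le_left).trans (commutator_le_right _ _)
        · rw [commutator_comm]; exact (commutator_mono inf_le_right le_rfl).trans (F_comm K _)
  refine eq_bot_iff.2 ((key _).trans (iSup₂_le fun ⟨i, j⟩ h => ?_))
  simp only at h ⊢
  rcases (by omega : c + 1 ≤ i ∨ d + 1 ≤ j) with h | h
  · obtain ⟨i, rfl⟩ : ∃ k, i = k + 1 := ⟨i - 1, by omega⟩
    exact inf_le_left.trans (hH ▸ H.lowerCentralSeries_antitone (by omega : c ≤ i))
  · obtain ⟨j, rfl⟩ : ∃ k, j = k + 1 := ⟨j - 1, by omega⟩
    exact inf_le_right.trans (hK ▸ K.lowerCentralSeries_antitone (by omega : d ≤ j))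

end Cfsg.Agent.S4204
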