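import Cfsg.Statements.S4205
import Cfsg.Agent.GS.Lem1

set_option autoImplicit false
open Cfsg

namespace Cfsg.Agent.S4205

open Cfsg.Agent.H1

/-- In a finite group whose upper central series reaches the whole group at step `c` (nilpotent of class at most `c`), starting from any subgroup and taking normalizers `c` times reaches the whole group. -/
theorem result {G : Type*} [Group G] [Finite G] (c : ℕ) (hG : Subgroup.upperCentralSeries G c = ⊤) (H : Subgroup G) : (fun K : Subgroup G => Subgroup.normalizer (K : Set G))^[c] H = ⊤ := by
  open Subgroup Pointwise commutatorElement Cfsg.Agent.BG Cfsg.Agent.GS in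
  open Cfsg.Agent.H2 hiding card_lt_of_lt card_lt_of_ne_top isMulCommutative_of_le isPGroup_zpowers_iff mem_of_pow_mem_of_coprime inf_eq_bot_of_cop exists_maxElem_ge Sec in
  open Cfsg.Agent.H8 (Op Opp Fit SN) in
  open Cfsg.Agent.L (FPF) in focus
    have h : ∀ i, Subgroup.upperCentralSeries G i ≤ (fun K : Subgroup G => 𝒩 K)^[i] H := fun i => by
      induction i with
      | zero => simp
      | succ i ih =>
        rw [Function.iterate_succ_apply']
        intro x hx
        refine mem_normalizer_of_conj_mem fun y hy => ?_
        have := mul_mem (ih (Subgroup.mem_upperCentralSeries_succ_iff.1 hx y)) hy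
        rwa [commutatorElement_def, inv_mul_cancel_right] at this
    exact top_le_iff.1 (hG ▸ h c)

end Cfsg.Agent.S4205
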