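import Cfsg.Statements.S4208
import Cfsg.Agent.H8.AutP

set_option autoImplicit false
open Cfsg

namespace Cfsg.Agent.S4208

open Subgroup hiding commutator_def
open Function Cfsg.Agent.Hopf Cfsg.Agent.Reg
open scoped commutatorElement Pointwise


/-- Let `P` be a group of order `p^n` whose Frattini subgroup has index `p^r`. Then the order of the automorphism group of `P` divides `p^(r(n-r)) · (p^r - 1)(p^r - p) ⋯ (p^r - p^(r-1))`. -/
theorem result {P : Type*} [Group P] [Finite P] {p n r : ℕ} [Fact p.Prime] (hP : Nat.card P = p ^ n) (hr : (frattini P).index = p ^ r) : Nat.card (MulAut P) ∣ p ^ (r * (n - r)) * ∏ i ∈ Finset.range r, (p ^ r - p ^ i) := by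
  obtain ⟨t, h1, h2⟩ := exists_li (IsPGroup.of_card hP) hr
  have h3 := card_tuples (frattini P) r t
  rw [h1, card_frat hP hr] at h3
  rw [← h3, ← card_top]
  refine dvd_ncard_of_index (G := (⊤ : Subgroup (MulAut P))) _ (fun a y hy => ?_) fun y hy => ?_
  · rw [Set.mem_setOf_eq, h2] at hy ⊢
    have := congrArg (map (a : MulAut P).toMonoidHom) hy
    rw [MonoidHom.map_closure, ← Set.range_comp, map_top_of_surjective _ (a : MulAut P).surjective] at this
    exact this
  · rw [stab_bot ⊤ ((h2 y).1 hy), index_bot]

end Cfsg.Agent.S4208
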