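import Cfsg.Statements.S4211
import Cfsg.Agent.H9.TJ
import Cfsg.Agent.L.PCyc2
import Cfsg.Agent.L.Frattini
import Cfsg.Agent.L.Cores
import Cfsg.Agent.L.Fitting
import Cfsg.Agent.H1.Products

set_option autoImplicit false
open Cfsg

namespace Cfsg.Agent.S4211

open Cfsg.Agent Cfsg.Agent.H9
open Cfsg.Agent Cfsg.Agent.H9 Subgroup

theorem pw1 {G : Type*} [Group G] {x y c : G} (h : y * x = x * y * c) (hx : Commute c x) (hy : Commute c y) (m : ℕ) :
    y * x ^ m = x ^ m * y * c ^ m := by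
  induction m with
  | zero => simp
  | succ m ih =>
    rw [pow_succ, ← mul_assoc, ih, mul_assoc, (hx.pow_left m).eq, ← mul_assoc, mul_assoc (x ^ m), h, pow_succ' c]
    simp only [mul_assoc]

theorem pw2 {G : Type*} [Group G] {x y c : G} (h : y * x = x * y * c) (hx : Commute c x) (hy : Commute c y) (n : ℕ) :
    (x * y) ^ n = x ^ n * y ^ n * c ^ (n.choose 2) := by
  induction n with
  | zero => simp
  | succ n ih =>
    rw [pow_succ', ih, Nat.choose_succ_succ, Nat.choose_one_right, pow_add c, pow_succ' x n, pow_succ' y n]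
    calc x * y * (x ^ n * y ^ n * c ^ n.choose 2) = x * (y * x ^ n) * y ^ n * c ^ n.choose 2 := by simp only [mul_assoc]
      _ = x * (x ^ n * y * (c ^ n * y ^ n)) * c ^ n.choose 2 := by rw [pw1 h hx hy]; simp only [mul_assoc]
      _ = _ := by rw [(hy.pow_pow n n).eq]; simp only [mul_assoc]

theorem cyc {G : Type*} [Group G] [Finite G] {p n : ℕ} (hp : p.Prime) {y c : G} (hy : orderOf y = p ^ (n + 1))
    (hc : c ∈ zpowers y) (ho : orderOf c = p) : zpowers c = zpowers (y ^ p ^ n) := by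
  obtain ⟨j, rfl⟩ := (mem_powers_iff_mem_zpowers.mpr hc)
  simp only at ho ⊢
  have h1 : p ^ (n + 1) ∣ j * p := by rw [← hy, orderOf_dvd_iff_pow_eq_one, pow_mul, ← ho, pow_orderOf_eq_one]
  rw [pow_succ, Nat.mul_dvd_mul_iff_right hp.pos] at h1
  obtain ⟨k, rfl⟩ := h1
  refine eq_of_le_of_card_ge (zpowers_le.mpr (by rw [pow_mul]; exact pow_mem (mem_zpowers _) k)) ?_
  rw [Nat.card_zpowers, Nat.card_zpowers, ho]
  exact orderOf_le_of_pow_eq_one hp.pos (by rw [← pow_mul, ← pow_succ, ← hy, pow_orderOf_eq_one])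

theorem four {G : Type*} [Group G] (hn : ∀ H : Subgroup G, H.Normal) {x : G} (h4 : x ^ 4 = 1) (g : G) :
    g * x * g⁻¹ = x ∨ g * x * g⁻¹ = x⁻¹ := by
  obtain ⟨k, hk⟩ := (hn (zpowers x)).conj_mem x (mem_zpowers x) g
  simp only at hk
  have h5 : x ^ (4 : ℤ) = 1 := by exact_mod_cast h4
  have h6 : x ^ (k % 4) = g * x * g⁻¹ := by rw [← hk, ← zpow_eq_zpow_emod k h5]
  have : k % 4 = 0 ∨ k % 4 = 1 ∨ k % 4 = 2 ∨ k % 4 = 3 := by omega
  rcases this with e | e | e | e <;> rw [e] at h6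
  · have : x = 1 := by simpa using h6.symm
    simp [this]
  · left; rw [← h6, zpow_one]
  · have h7 : g * x ^ (2 : ℤ) * g⁻¹ = 1 := by rw [← conj_zpow, ← h6, ← zpow_mul]; exact h5
    have h8 : x ^ (2 : ℤ) = 1 := by simpa using h7
    rw [h8] at h6
    have : x = 1 := by simpa using h6.symm
    simp [this]
  · right; rw [← h6, eq_inv_iff_mul_eq_one, ← zpow_add_one]; exact h5

theorem key {G : Type*} [Group G] [Finite G] (hn : ∀ H : Subgroup G, H.Normal) (hna : ¬ IsMulCommutative G) :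
    ∃ a b : G, orderOf a = 4 ∧ b ^ 2 = a ^ 2 ∧ b * a * b⁻¹ = a⁻¹ ∧ b ∉ zpowers a := by
  classical
  have hex : ∃ N, ∃ x y : G, orderOf x + orderOf y = N ∧ x * y ≠ y * x := by
    by_contra h
    push Not at h
    exact hna ⟨⟨fun x y => h _ x y rfl⟩⟩
  obtain ⟨x, y, hxy, hmin, hle⟩ : ∃ x y : G, x * y ≠ y * x ∧
      (∀ u v : G, orderOf u + orderOf v < orderOf x + orderOf y → u * v = v * u) ∧ orderOf y ≤ orderOf x := by
    obtain ⟨x, y, h1, h2⟩ := Nat.find_spec hex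
    have h3 : ∀ u v : G, orderOf u + orderOf v < orderOf x + orderOf y → u * v = v * u := fun u v h => by
      by_contra h4
      exact Nat.find_min hex (h1 ▸ h) ⟨u, v, rfl, h4⟩
    rcases le_total (orderOf y) (orderOf x) with h | h
    · exact ⟨x, y, h2, h3, h⟩
    · exact ⟨y, x, Ne.symm h2, fun u v h => h3 u v (by omega), h⟩
  obtain ⟨c, hc⟩ : ∃ c, c = y⁻¹ * x⁻¹ * y * x := ⟨_, rfl⟩
  have hcx : c ∈ zpowers x := by
    have := mul_mem ((hn _).conj_mem _ (inv_mem (mem_zpowers x)) y⁻¹) (mem_zpowers x)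
    rwa [inv_inv, ← hc] at this
  have hcy : c ∈ zpowers y := by
    have := mul_mem (inv_mem (mem_zpowers y)) ((hn _).conj_mem _ (mem_zpowers y) x⁻¹)
    rwa [inv_inv, ← mul_assoc, ← mul_assoc, ← hc] at this
  have hx : Commute c x := by obtain ⟨k, rfl⟩ := hcx; exact Commute.zpow_self x k
  have hy : Commute c y := by obtain ⟨k, rfl⟩ := hcy; exact Commute.zpow_self y k
  have h : y * x = x * y * c := by rw [hc]; group
  have h' : x * y = y * x * c⁻¹ := by rw [h]; group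
  have hc1 : c ≠ 1 := fun e => hxy (by rw [h, e, mul_one])
  have lt : ∀ (u : G) (q : ℕ), q.Prime → q ∣ orderOf u → orderOf (u ^ q) < orderOf u := fun u q hq hd => by
    rw [orderOf_pow_of_dvd hq.ne_zero hd]; exact Nat.div_lt_self (orderOf_pos u) hq.one_lt
  have hqx : ∀ {q : ℕ}, q.Prime → q ∣ orderOf x → orderOf c = q := fun {q} hq hd => by
    haveI := Fact.mk hq
    have h1 := hmin (x ^ q) y (by have := lt x q hq hd; omega)
    rw [pw1 h hx hy] at h1
    exact orderOf_eq_prime (by simpa using h1) hc1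
  have hqy : ∀ {q : ℕ}, q.Prime → q ∣ orderOf y → orderOf c = q := fun {q} hq hd => by
    haveI := Fact.mk hq
    have h1 := hmin x (y ^ q) (by have := lt y q hq hd; omega)
    rw [pw1 h' hy.inv_left hx.inv_left] at h1
    exact orderOf_eq_prime (by simpa using h1) hc1
  obtain ⟨p, hp, hpx⟩ := Nat.exists_prime_and_dvd (n := orderOf x) (fun e => hxy (by simp [orderOf_eq_one_iff.mp e]))
  have hpc := hqx hp hpx
  obtain ⟨m, hm⟩ : ∃ m, orderOf x = p ^ m :=
    ⟨_, Nat.eq_prime_pow_of_unique_prime_dvd (orderOf_pos x).ne' fun hq hd => (hqx hq hd).symm.trans hpc⟩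
  obtain ⟨n, hn'⟩ : ∃ m, orderOf y = p ^ m :=
    ⟨_, Nat.eq_prime_pow_of_unique_prime_dvd (orderOf_pos y).ne' fun hq hd => (hqy hq hd).symm.trans hpc⟩
  obtain ⟨n, rfl⟩ : ∃ k, n = k + 1 := Nat.exists_eq_succ_of_ne_zero (by
    rintro rfl
    exact hxy (by simp [orderOf_eq_one_iff.mp hn']))
  have hnm : n + 1 ≤ m := (Nat.pow_le_pow_iff_right hp.one_lt).mp (by rw [← hm, ← hn']; exact hle)
  obtain ⟨d, rfl⟩ : ∃ d, m = d + n + 1 := ⟨m - (n + 1), by omega⟩
  have e1 := cyc hp hm hcx hpc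
  have e2 := cyc hp hn' hcy hpc
  obtain ⟨k, hk⟩ := mem_powers_iff_mem_zpowers.mpr (e1 ▸ e2 ▸ inv_mem (mem_zpowers (y ^ p ^ n)) : (y ^ p ^ n)⁻¹ ∈ zpowers (x ^ p ^ (d + n)))
  simp only at hk
  have h1 := pw2 (pw1 h hx hy (k * p ^ d)) (hx.pow_pow _ _) (hy.pow_left _) (p ^ n)
  have e3 : (x ^ (k * p ^ d)) ^ p ^ n = (y ^ p ^ n)⁻¹ := by
    rw [← hk, ← pow_mul, ← pow_mul, pow_add]; congr 1; ring
  rw [e3, inv_mul_cancel, one_mul, ← pow_mul] at h1
  have h2 : ¬ p ∣ k * p ^ d * (p ^ n).choose 2 := fun hd => by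
    have h3 := orderOf_le_of_pow_eq_one (pow_pos hp.pos n) (h1.trans (orderOf_dvd_iff_pow_eq_one.mp (hpc ▸ hd)))
    have h4 := hmin x (x ^ (k * p ^ d) * y) (by
      have := Nat.pow_lt_pow_right hp.one_lt (Nat.lt_add_one n)
      omega)
    rw [← mul_assoc, (Commute.self_pow x _).eq, mul_assoc, mul_assoc] at h4
    exact hxy (mul_left_cancel h4)
  have h3 : p ^ n = 2 := by
    by_contra h4
    exact h2 (Dvd.dvd.mul_left (hp.dvd_choose_pow two_ne_zero (Ne.symm h4)) _)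
  obtain ⟨rfl, rfl⟩ := Nat.prime_two.pow_eq_iff.mp h3
  obtain rfl : d = 0 := by
    by_contra h4
    exact h2 (Dvd.dvd.mul_right (Dvd.dvd.mul_left (dvd_pow_self 2 h4) _) _)
  have inv : ∀ u : G, orderOf u = 4 → zpowers c = zpowers (u ^ 2) → c = u ^ 2 := fun u hu e => by
    have h5 : u ^ 2 ∈ zpowers c := e ▸ mem_zpowers _
    have h6 : u ^ 2 ≠ 1 := pow_ne_one_of_lt_orderOf two_ne_zero (by omega)
    rw [mem_zpowers_iff_mem_range_orderOf, hpc] at h5
    simp [Finset.range_add_one] at h5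
    rcases h5 with h5 | h5
    · exact h5.symm
    · exact absurd h5 h6
  have a1 := inv x hm e1
  have a2 := inv y hn' e2
  refine ⟨x, y, hm, a2.symm.trans a1, ?_, ?_⟩
  · exact (four hn (by rw [← pow_orderOf_eq_one x, hm]; rfl) y).resolve_left fun e => hxy (by
      rw [mul_inv_eq_iff_eq_mul] at e; exact e.symm)
  · rintro ⟨i, rfl⟩
    exact hxy (Commute.self_zpow x i)

/-- A finite non-abelian group in which every subgroup is normal is the internal direct product of a subgroup isomorphic to the quaternion group of order `8`, an elementary abelian `2`-subgroup and an abelian subgroup of odd order. -/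
theorem result {G : Type*} [Group G] [Finite G] (hna : ¬ IsMulCommutative G) (hn : ∀ H : Subgroup G, H.Normal) : ∃ Q E A : Subgroup G, Nonempty (Q ≃* QuaternionGroup 2) ∧ Cfsg.IsElementaryAbelian 2 E ∧ IsMulCommutative A ∧ Odd (Nat.card A) ∧ E ⊓ A = ⊥ ∧ Q ⊓ (E ⊔ A) = ⊥ ∧ Q ⊔ (E ⊔ A) = ⊤ := by
  obtain ⟨a, b, ha, hb, hab, hba⟩ := key hn hna
  have ha4 : a ^ 4 = 1 := ha ▸ pow_orderOf_eq_one a
  have ha2 : a ^ 2 ≠ 1 := pow_ne_one_of_lt_orderOf two_ne_zero (by omega)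
  have hb4 : b ^ 4 = 1 := by rw [show 4 = 2 * 2 from rfl, pow_mul, hb, ← pow_mul]; exact ha4
  have hba' : a * b * a⁻¹ = b⁻¹ := (four hn hb4 a).resolve_left fun e => ha2 (by
    rw [mul_inv_eq_iff_eq_mul] at e
    rw [← e, mul_inv_cancel_right] at hab
    rw [sq]; exact mul_eq_one_iff_eq_inv.mpr hab)
  let Q := zpowers b ⊔ zpowers a
  have haQ : a ∈ Q := mem_sup_right (mem_zpowers a)
  have hbQ : b ∈ Q := mem_sup_left (mem_zpowers b)
  haveI := hn (zpowers a)
  have hQ : Nat.card Q = 4 * 2 := by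
    rw [← L.card_mul_relIndex (le_sup_right : zpowers a ≤ Q), Nat.card_zpowers, ha]
    congr 1
    refine ((Nat.dvd_prime Nat.prime_two).mp (L.relIndex_sup_zpowers_dvd (hb ▸ pow_mem (mem_zpowers a) 2))).resolve_left
      fun e => hba (relIndex_eq_one.mp e hbQ)
  obtain ⟨e⟩ := L.nonempty_equiv_quaternion (G := Q) (a := ⟨a, haQ⟩) (b := ⟨b, hbQ⟩) (n := 2)
    (by rw [← orderOf_coe]; exact ha) (by
      rintro ⟨i, hi⟩
      exact hba ⟨i, by simpa using congrArg Subtype.val hi⟩) (Subtype.ext hb) (Subtype.ext hab) hQ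
  let C := centralizer (Q : Set G)
  have hC : ∀ g, g * a * g⁻¹ = a → g * b * g⁻¹ = b → g ∈ C := fun g h1 h2 => by
    have : Q ≤ centralizer {g} := sup_le (zpowers_le.mpr (mem_centralizer_singleton_iff.mpr (mul_inv_eq_iff_eq_mul.mp h2).symm))
      (zpowers_le.mpr (mem_centralizer_singleton_iff.mpr (mul_inv_eq_iff_eq_mul.mp h1).symm))
    exact fun q hq => mem_centralizer_singleton_iff.mp (this hq)
  have hC4 : ∀ z ∈ C, z ^ 4 = 1 → z ^ 2 = 1 := fun z hz h4 => by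
    have h1 : Commute a z := hz a haQ
    have h2 : b * (a * z) * b⁻¹ = a⁻¹ * z := by
      rw [← hab, mul_assoc (b * a), (show Commute b z from hz b hbQ).inv_left.eq]; simp only [mul_assoc]
    rcases four hn (x := a * z) (by rw [h1.mul_pow, ha4, h4, one_mul]) b with e | e
    · rw [h2] at e
      exact absurd (by rw [sq]; exact mul_eq_one_iff_eq_inv.mpr (mul_right_cancel e).symm) ha2
    · rw [h2, h1.eq, mul_inv_rev] at e
      rw [sq]; exact mul_eq_one_iff_eq_inv.mpr (mul_left_cancel e)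
  have hCc : IsMulCommutative C := by
    by_contra h
    obtain ⟨u, -, hu, -⟩ := key (G := C) (fun H => by
      have := (hn (H.map C.subtype)).comap C.subtype
      rwa [comap_map_eq_self_of_injective C.subtype_injective] at this) h
    rw [← orderOf_coe] at hu
    exact pow_ne_one_of_lt_orderOf two_ne_zero (by omega) (hC4 u.1 u.2 (hu ▸ pow_orderOf_eq_one u.1))
  have hcm : ∀ x ∈ C, ∀ y ∈ C, Commute x y := fun x hx y hy => congrArg Subtype.val (hCc.1.1 ⟨x, hx⟩ ⟨y, hy⟩)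
  let s : C →* G := MonoidHom.mk' (fun x => x.1 ^ 2) fun x y => (hcm _ x.2 _ y.2).mul_pow 2
  let Ω := s.ker.map C.subtype
  have hΩ : ∀ x, x ∈ Ω ↔ x ∈ C ∧ x ^ 2 = 1 := fun x =>
    ⟨by rintro ⟨y, hy, rfl⟩; exact ⟨y.2, hy⟩, fun h => ⟨⟨x, h.1⟩, h.2, rfl⟩⟩
  have hAC : s.range ≤ C := by rintro _ ⟨x, rfl⟩; exact pow_mem x.2 2
  have hA1 : ∀ x ∈ s.range, x ^ 2 = 1 → x = 1 := by
    rintro _ ⟨x, rfl⟩ h
    exact hC4 x.1 x.2 (by rw [show 4 = 2 * 2 from rfl, pow_mul]; exact h)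
  have hΩe : IsElementaryAbelian 2 Ω := ⟨L.isMulCommutative_of_forall fun x hx y hy => hcm x ((hΩ x).mp hx).1 y ((hΩ y).mp hy).1,
    fun x hx => ((hΩ x).mp hx).2⟩
  obtain ⟨E, hE1, hE2⟩ := H1.exists_complement_of_elementary Nat.prime_two hΩe (inf_le_right : Q ⊓ Ω ≤ Ω)
  have hEΩ : E ≤ Ω := hE2 ▸ le_sup_right
  have hd : Ω ⊓ s.range = ⊥ := eq_bot_iff.mpr fun x hx => hA1 x hx.2 ((hΩ x).mp hx.1).2
  haveI := hn s.range
  refine ⟨Q, E, s.range, ⟨e⟩, ⟨L.isMulCommutative_of_forall fun x hx y hy => hcm x ((hΩ x).mp (hEΩ hx)).1 y ((hΩ y).mp (hEΩ hy)).1,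
    fun x hx => ((hΩ x).mp (hEΩ hx)).2⟩, L.isMulCommutative_of_forall fun x hx y hy => hcm x (hAC hx) y (hAC hy), ?_,
    eq_bot_iff.mpr (hd ▸ inf_le_inf_right _ hEΩ), ?_, ?_⟩
  · rw [← Nat.not_even_iff_odd, even_iff_two_dvd]
    intro h
    obtain ⟨x, hx⟩ := exists_prime_orderOf_dvd_card' 2 h
    have h1 : x.1 = 1 := hA1 x.1 x.2 (by rw [← hx, ← orderOf_coe, pow_orderOf_eq_one])
    rw [← orderOf_coe, h1, orderOf_one] at hx
    omega
  · rw [eq_bot_iff]
    rintro q ⟨hq, hq'⟩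
    obtain ⟨x, hx, y, hy, rfl⟩ := mem_sup_of_normal_right.mp hq'
    have hx' := (hΩ x).mp (hEΩ hx)
    have h1 : ∀ r : QuaternionGroup 2, (∀ t, t * r = r * t) → r ^ 2 = 1 := by decide
    have h2 := h1 (e ⟨_, hq⟩) fun t => by
      obtain ⟨t, rfl⟩ := e.surjective t
      rw [← map_mul, ← map_mul]
      exact congrArg e (Subtype.ext (mul_mem hx'.1 (hAC hy) t.1 t.2))
    rw [← map_pow, map_eq_one_iff _ e.injective] at h2
    have h3 : (x * y) ^ 2 = 1 := congrArg Subtype.val h2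
    rw [(hcm x hx'.1 y (hAC hy)).mul_pow, hx'.2, one_mul] at h3
    rw [hA1 y hy h3, mul_one] at hq ⊢
    rw [← hE1]
    exact ⟨⟨hq, hEΩ hx⟩, hx⟩
  · have h1 : Ω ⊔ s.range = C := eq_of_le_of_card_ge (sup_le (map_subtype_le _) hAC) (by
      have := L.card_sup_mul_card_inf (H := Ω) (N := s.range) le_normalizer_of_normal
      rw [hd, card_bot, mul_one] at this
      rw [this, L.card_map_subtype, ← index_ker, card_mul_index])
    have h2 : C ≤ Q ⊔ (E ⊔ s.range) := by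
      refine h1.ge.trans ?_
      rw [← hE2, sup_assoc]
      exact sup_le_sup_right inf_le_left _
    have h3 : ∀ q ∈ Q, ∀ g, q⁻¹ * g ∈ C → g ∈ Q ⊔ (E ⊔ s.range) := fun q hq g hg => by
      have := mul_mem (mem_sup_left hq) (h2 hg)
      rwa [mul_inv_cancel_left] at this
    have h4 : ∀ q g u v : G, q * u * q⁻¹ = v → g * u * g⁻¹ = v → q⁻¹ * g * u * (q⁻¹ * g)⁻¹ = u := fun q g u v e1 e2 => by
      calc _ = q⁻¹ * (g * u * g⁻¹) * q := by group
        _ = _ := by rw [e2, ← e1]; group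
    rw [eq_top_iff]
    intro g _
    rcases four hn ha4 g with e1 | e1 <;> rcases four hn hb4 g with e2 | e2
    · exact h2 (hC g e1 e2)
    · exact h3 a haQ g (hC _ (h4 _ _ _ _ (by group) e1) (h4 _ _ _ _ hba' e2))
    · exact h3 b hbQ g (hC _ (h4 _ _ _ _ hab e1) (h4 _ _ _ _ (by group) e2))
    · refine h3 (a * b) (mul_mem haQ hbQ) g (hC _ (h4 _ _ _ _ ?_ e1) (h4 _ _ _ _ ?_ e2))
      · calc _ = a * (b * a * b⁻¹) * a⁻¹ := by group
          _ = _ := by rw [hab]; group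
      · rw [← hba']; group

end Cfsg.Agent.S4211
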