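import Cfsg.Statements.S4212
import Cfsg.Agent.GS.Cnt

set_option autoImplicit false
open Cfsg

namespace Cfsg.Agent.S4212

open Cfsg.Agent.H1

/-- Let `G` be a finite group of order `g`, `c` an element whose conjugacy class has `h` elements, and `n` a natural number. Then the number of elements `x` of `G` with `x^n` conjugate to `c` is a multiple of `gcd(hn, g)`. -/
theorem result {G : Type*} [Group G] [Finite G] (c : G) (n : ℕ) : Nat.gcd (Nat.card {y : G // IsConj c y} * n) (Nat.card G) ∣ Nat.card {x : G // IsConj c (x ^ n)} := by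
  open Subgroup Pointwise commutatorElement Cfsg.Agent.BG Cfsg.Agent.GS in
  open Cfsg.Agent.H2 hiding card_lt_of_lt card_lt_of_ne_top isMulCommutative_of_le isPGroup_zpowers_iff mem_of_pow_mem_of_coprime inf_eq_bot_of_cop exists_maxElem_ge Sec in
  open Cfsg.Agent.H8 (Op Opp Fit SN) in
  open Cfsg.Agent.L (FPF) in focus
    classical
    have := Fintype.ofFinite G
    have h1 : Nat.card {x : G // IsConj c (x ^ n)} = ∑ y with IsConj c y, {x : G | x ^ n = y}.ncard := by
      rw [Nat.card_eq_fintype_card, Fintype.card_subtype, Finset.card_eq_sum_card_fiberwise (f := (· ^ n))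
        (t := Finset.univ.filter (IsConj c)) (fun x hx => by simpa using hx)]
      refine Finset.sum_congr rfl fun y hy => ?_
      rw [← Set.ncard_coe_finset]; congr 1; ext x; simp only [Finset.coe_filter, Finset.mem_filter, Finset.mem_univ, true_and, Set.mem_ofPred] at hy ⊢
      exact ⟨fun h => h.2, fun h => ⟨h ▸ hy, h⟩⟩
    have h2 : Nat.card {y : G // IsConj c y} = (𝒞₁ c).index := ncard_isConj c
    rw [h1, ← card_cent1_mul c, ← h2, Nat.gcd_mul_left, Nat.card_eq_fintype_card, Fintype.card_subtype, ← smul_eq_mul, ← Finset.sum_const]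
    have h3 : ∀ y ∈ Finset.univ.filter (IsConj c), {x : G | x ^ n = y}.ncard = {x : G | x ^ n = c}.ncard := fun y hy => by
      obtain ⟨g, rfl⟩ := isConj_iff.1 (Finset.mem_filter.1 hy).2
      rw [← Set.ncard_image_of_injective _ (MulAut.conj g⁻¹).injective]; congr 1; ext x
      refine ⟨?_, fun h => ⟨g * x * g⁻¹, by rw [Set.mem_ofPred, conj_pow, h], by simp [mul_assoc]⟩⟩
      rintro ⟨x, hx, rfl⟩
      rw [Set.mem_ofPred, ← map_pow, hx]; simp [mul_assoc]
    rw [Finset.sum_congr rfl h3, Finset.sum_const, Finset.sum_const, smul_eq_mul, smul_eq_mul]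
    exact Nat.mul_dvd_mul_left _ (gcd_dvd_ncard_pow_eq c n)

end Cfsg.Agent.S4212
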