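import Cfsg.Statements.S4213
import Cfsg.Agent.H8.Cls
import Cfsg.Agent.S3993

set_option autoImplicit false
open Cfsg

namespace Cfsg.Agent.S4213

open Subgroup hiding commutator_def
open Function Cfsg.Agent.Hopf Cfsg.Agent.Reg
open scoped commutatorElement Pointwise

theorem card_pre {G : Type*} [Group G] (N : Subgroup G) [N.Normal] (m : ℕ) :
    Nat.card {x : G // x ^ m ∈ N} = Nat.card N * Nat.card {x : G ⧸ N // x ^ m = 1} := by
  refine Eq.trans (Nat.card_congr (Equiv.subtypeEquivRight fun x => ?_)) (QuotientGroup.card_preimage_mk N {x | x ^ m = 1})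
  rw [Set.mem_preimage, Set.mem_setOf_eq, ← QuotientGroup.mk_pow, QuotientGroup.eq_one_iff]

theorem fin {G : Type*} [Group G] [Finite G] {n : ℕ} (hcount : Nat.card {x : G // x ^ n = 1} = n) {H : Subgroup G}
    (h : Nat.card H = n) : H.Normal ∧ (H : Set G) = {x : G | x ^ n = 1} := by
  have : (H : Set G) = {x : G | x ^ n = 1} := Set.eq_of_subset_of_ncard_le
    (fun x hx => h ▸ congrArg Subtype.val (pow_card_eq_one' (x := (⟨x, hx⟩ : H)))) (hcount.trans h.symm).le
  refine ⟨⟨fun x hx g => ?_⟩, this⟩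
  rw [← SetLike.mem_coe, this, Set.mem_setOf_eq] at hx ⊢
  rw [conj_pow, hx]; simp

/-- If `G` is a finite solvable group and `n` divides the order of `G` and exactly `n` elements `x` of `G` satisfy `x^n = 1`, then these elements form a normal subgroup. -/
theorem result {G : Type*} [Group G] [Finite G] [Group.IsSolvable G] (n : ℕ) (hn : n ∣ Nat.card G) (hcount : Nat.card {x : G // x ^ n = 1} = n) : ∃ H : Subgroup G, H.Normal ∧ (H : Set G) = {x : G | x ^ n = 1} := by
  suffices ∃ H : Subgroup G, Nat.card H = n by obtain ⟨H, h⟩ := this; exact ⟨H, fin hcount h⟩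
  induction hc : Nat.card G using Nat.strong_induction_on generalizing G n with | _ k ih => ?_
  rcases subsingleton_or_nontrivial G with h | h
  · exact ⟨⊥, by rw [card_bot, eq_comm, ← Nat.dvd_one, ← Nat.card_unique (α := G)]; exact hn⟩
  obtain ⟨N, p, _, hN, -, hp, hE, -⟩ := H1.exists_minimal_normal_elementary (⊤ : Subgroup G) top_ne_bot inferInstance
  have := Fact.mk hp
  have hn0 : 0 < n := Nat.pos_of_dvd_of_pos hn Nat.card_pos
  have hG := N.card_eq_card_quotient_mul_card_subgroup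
  obtain ⟨k, hk⟩ := IsPGroup.iff_card.1 (H1.IsElementaryAbelian.isPGroup' hE)
  replace ih := fun m h1 h2 => ih _ (hc ▸ H1.card_quotient_lt hN) (G := G ⧸ N) m h1 h2 rfl
  by_cases hpn : p ∣ n
  · obtain ⟨m, rfl⟩ := hpn
    obtain ⟨d, hd⟩ : ∃ d, d = m.gcd (Nat.card (G ⧸ N)) := ⟨_, rfl⟩
    have h1 := S3993.result d (hd ▸ Nat.gcd_dvd_right _ _)
    have h2 : Nat.card N * Nat.card {x : G ⧸ N // x ^ d = 1} ≤ p * m := by
      rw [← card_pre, ← hcount]
      refine Nat.card_le_card_of_injective (Subtype.map id fun x hx => ?_) (Subtype.map_injective _ injective_id)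
      obtain ⟨e, he⟩ : d ∣ m := hd ▸ Nat.gcd_dvd_left _ _
      rw [id, he, show p * (d * e) = d * p * e by ring, pow_mul, pow_mul, hE.2 _ hx, one_pow]
    have h3 : p * m ∣ d * Nat.card N := by
      rw [hd, ← Nat.gcd_mul_right, ← hG]
      refine Nat.dvd_gcd ?_ hn
      rw [mul_comm, hk]
      exact Nat.mul_dvd_mul_left _ (dvd_pow_self p (by rintro rfl; exact hN (card_eq_one.1 hk)))
    have : Nonempty {x : G ⧸ N // x ^ d = 1} := ⟨⟨1, one_pow _⟩⟩
    have h4 := Nat.le_of_dvd Nat.card_pos h1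
    have hd0 : 0 < d := hd ▸ Nat.gcd_pos_of_pos_right _ Nat.card_pos
    have h5 := Nat.le_of_dvd (Nat.mul_pos hd0 Nat.card_pos) h3
    have h6 : Nat.card {x : G ⧸ N // x ^ d = 1} = d :=
      le_antisymm (Nat.le_of_mul_le_mul_left (h2.trans (h5.trans_eq (mul_comm _ _))) Nat.card_pos) h4
    obtain ⟨H, hH⟩ := ih d (hd ▸ Nat.gcd_dvd_right _ _) h6
    rw [h6] at h2
    exact ⟨H.comap (QuotientGroup.mk' N), by rw [H1.card_comap_mk', hH]; exact le_antisymm h2 (h5.trans_eq (mul_comm _ _))⟩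
  · have hc : n.Coprime (Nat.card N) := hk ▸ ((Nat.Prime.coprime_iff_not_dvd hp).2 hpn).symm.pow_right k
    have h0 : n ∣ Nat.card (G ⧸ N) := hc.dvd_of_dvd_mul_right (hG ▸ hn)
    have h1 := S3993.result n h0
    have : Nonempty {x : G ⧸ N // x ^ n = 1} := ⟨⟨1, one_pow _⟩⟩
    have h2 : Nat.card {x : G ⧸ N // x ^ n = 1} ≤ n := by
      refine le_trans (Nat.card_le_card_of_surjective (fun x : {x : G // x ^ n = 1} =>
        (⟨x.1, by rw [← QuotientGroup.mk_pow, x.2]; rfl⟩ : {x : G ⧸ N // x ^ n = 1})) ?_) hcount.le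
      rintro ⟨x, hx⟩
      obtain ⟨x, rfl⟩ := QuotientGroup.mk_surjective x
      obtain ⟨m, hm⟩ := exists_pow_eq_self_of_coprime (x := (x : G ⧸ N)) (n := Nat.card N)
        (hc.symm.coprime_dvd_right (orderOf_dvd_of_pow_eq_one hx))
      refine ⟨⟨(x ^ Nat.card N) ^ m, ?_⟩, Subtype.ext hm⟩
      rw [← QuotientGroup.mk_pow, QuotientGroup.eq_one_iff] at hx
      have := congrArg Subtype.val (pow_card_eq_one' (x := (⟨_, hx⟩ : N)))
      rw [← pow_mul, ← pow_mul, show Nat.card N * (m * n) = n * Nat.card N * m by ring, pow_mul, pow_mul]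
      rw [show (x ^ n) ^ Nat.card N = 1 from this, one_pow]
    obtain ⟨H, hH⟩ := ih n h0 (le_antisymm h2 (Nat.le_of_dvd Nat.card_pos h1))
    obtain ⟨K, hK⟩ : ∃ K, K = H.comap (QuotientGroup.mk' N) := ⟨_, rfl⟩
    have h3 : N ≤ K := hK ▸ QuotientGroup.le_comap_mk' N H
    have h4 : Nat.card K = Nat.card N * n := by rw [hK, H1.card_comap_mk', hH]
    have h5 : Nat.card (N.subgroupOf K) = Nat.card N := Nat.card_congr (subgroupOfEquivOfLe h3).toEquiv
    have h6 : (N.subgroupOf K).index = n := by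
      have := (N.subgroupOf K).card_mul_index
      rwa [h4, h5, mul_right_inj' Nat.card_pos.ne'] at this
    obtain ⟨L, hL⟩ := exists_right_complement'_of_coprime (N := N.subgroupOf K) (by rw [h5, h6]; exact hc.symm)
    exact ⟨L.map K.subtype, by rw [card_map_of_injective K.subtype_injective, ← h6, hL.symm.index_eq_card]⟩

end Cfsg.Agent.S4213
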