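import Cfsg.Statements.S4214
import Cfsg.Agent.H9.TJ
import Cfsg.Agent.L.Frattini
import Cfsg.Agent.L.Cores
import Cfsg.Agent.L.Fitting
import Cfsg.Agent.H2.Syl
import Cfsg.Agent.H1.Hall
import Cfsg.Agent.H1.Coprime
import Cfsg.Agent.H1.Frattini

set_option autoImplicit false
open Cfsg

namespace Cfsg.Agent.S4214

open Cfsg.Agent Cfsg.Agent.H9
open Cfsg.Agent Cfsg.Agent.H9 Subgroup

theorem cent_prod {G : Type*} [Group G] [Finite G] [Group.IsSolvable G] (V : Subgroup G) [V.Normal] (H : Subgroup G)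
    (hc : (Nat.card V).Coprime (Nat.card H)) : (centralizer (H : Set G)).relIndex V ∈
      Submonoid.closure {x : ℕ | x ∣ Nat.card V ∧ ∃ r : ℕ, r.Prime ∧ r ∣ Nat.card H ∧ x ≡ 1 [MOD r]} := by
  induction H using WellFoundedLT.induction with
  | ind H ih =>
  by_cases h0 : H = ⊥
  · subst h0
    rw [relIndex_eq_one.mpr (fun x _ y hy => by rw [mem_bot.mp hy]; simp)]
    exact one_mem _
  haveI : Nontrivial H := (nontrivial_iff_ne_bot H).mpr h0
  obtain ⟨M, hM, hDM⟩ := L.exists_coatom_of_ne_top (Group.IsSolvable.commutator_lt_top_of_nontrivial H).ne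
  haveI := L.normal_of_commutator_le hDM
  have hr := L.index_prime_of_isCoatom_normal hM
  haveI := Fact.mk hr
  obtain ⟨R⟩ : Nonempty (Sylow M.index H) := inferInstance
  have h1 := congrArg (map H.subtype) (L.sylow_sup_eq_top_of_index R (pow_one M.index).symm)
  rw [Subgroup.map_sup, ← MonoidHom.range_eq_map, range_subtype] at h1
  have hlt : M.map H.subtype < H := lt_of_le_of_ne (map_subtype_le _) fun e => hM.1 (map_injective H.subtype_injective (by
    rw [e, ← MonoidHom.range_eq_map, range_subtype]))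
  have hn : H ≤ normalizer ((M.map H.subtype : Subgroup G) : Set G) := by
    intro h hh
    refine L.mem_normalizer_of_forall ?_
    rintro _ ⟨x, hx, rfl⟩
    exact ⟨_, (inferInstance : M.Normal).conj_mem x hx ⟨h, hh⟩, rfl⟩
  have hrH : M.index ∣ Nat.card H := M.index_dvd_card
  have hR := R.isPGroup'.map H.subtype
  have hRH : (R : Subgroup H).map H.subtype ≤ H := map_subtype_le _
  generalize M.map H.subtype = H₀ at *
  generalize (R : Subgroup H).map H.subtype = R' at *
  have h2 := H1.card_modEq_card_centralizer hR (K := V ⊓ centralizer (H₀ : Set G))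
    (L.le_normalizer_inf le_normalizer_of_normal (L.le_normalizer_centralizer (hRH.trans hn)))
  have h3 : centralizer (H : Set G) = centralizer (H₀ : Set G) ⊓ centralizer (R' : Set G) :=
    le_antisymm (le_inf (centralizer_le hlt.le) (centralizer_le hRH))
      (le_centralizer_iff.mp (h1.ge.trans (sup_le (le_centralizer_iff.mp inf_le_right) (le_centralizer_iff.mp inf_le_left))))
  rw [h3, inf_comm, ← relIndex_inf_mul_relIndex, inf_comm]
  refine mul_mem (Submonoid.subset_closure ⟨(relIndex_dvd_card _ _).trans (card_dvd_of_le inf_le_left), _, hr, hrH, ?_⟩)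
    (Submonoid.closure_mono ?_ (ih H₀ hlt (hc.coprime_dvd_right (card_dvd_of_le hlt.le))))
  · rw [← L.card_mul_relIndex (inf_le_left : V ⊓ centralizer (H₀ : Set G) ⊓ centralizer (R' : Set G) ≤ _), inf_relIndex_left] at h2
    refine Nat.ModEq.cancel_left_of_coprime ?_ (h2.trans (by rw [mul_one]))
    exact ((hc.coprime_dvd_right hrH).coprime_dvd_left (card_dvd_of_le (inf_le_left.trans inf_le_left))).symm
  · rintro x ⟨a, r, b, c, d⟩
    exact ⟨a, r, b, c.trans (card_dvd_of_le hlt.le), d⟩

universe u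

theorem main (N : ℕ) : ∀ (G : Type u) [Group G] [Finite G] [Group.IsSolvable G], Nat.card G = N → ∀ H : Subgroup G,
    (Nat.card H).Coprime H.index → (normalizer (H : Set G)).index ∈ Submonoid.closure {x : ℕ |
      (∃ q e : ℕ, q.Prime ∧ x = q ^ e) ∧ (∃ K L : Subgroup G, K.Normal ∧ L.Normal ∧ K < L ∧
      (∀ M : Subgroup G, M.Normal → K ≤ M → M ≤ L → M = K ∨ M = L) ∧ x ∣ K.relIndex L) ∧
      (∃ q : ℕ, q.Prime ∧ q ∣ Nat.card H ∧ x ≡ 1 [MOD q])} := by
  induction N using Nat.strong_induction_on with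
  | _ N ih =>
  intro G _ _ _ hN H hH
  by_cases h0 : (⊤ : Subgroup G) = ⊥
  · rw [index_eq_one.mpr (eq_top_iff.mpr (h0.le.trans bot_le))]
    exact one_mem _
  obtain ⟨V, q, hV, hV0, -, hq, hVe, hmin⟩ := H1.exists_minimal_normal_elementary ⊤ h0 inferInstance
  haveI := Fact.mk hq
  have hVp : IsPGroup q V := fun x => ⟨1, Subtype.ext (by rw [pow_one]; exact hVe.2 x.1 x.2)⟩
  obtain ⟨e, he⟩ := IsPGroup.iff_card.mp hVp
  let f := QuotientGroup.mk' V
  have hf : Function.Surjective f := QuotientGroup.mk'_surjective V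
  have hπ := H1.isPiHall_of_coprime hH
  have h1 := ih _ (hN ▸ H2.card_quot_lt hV0) (G ⧸ V) rfl (H.map f) (H1.IsPiHall.coprime (H1.isPiHall_map hπ hf))
  have hle : normalizer (H : Set G) ≤ (normalizer ((H.map f : Subgroup _) : Set (G ⧸ V))).comap f :=
    map_le_iff_le_comap.mp (le_normalizer_map f)
  have h2 : (normalizer ((H.map f : Subgroup _) : Set (G ⧸ V))).comap f = normalizer ((H ⊔ V : Subgroup G) : Set G) := by
    rw [comap_normalizer_eq_of_surjective _ hf, comap_map_eq, QuotientGroup.ker_mk']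
  have h3 := H1.hallOf_frattini (L := normalizer ((H ⊔ V : Subgroup G) : Set G)) inferInstance
    (H1.isPiHallOf_of_le (H1.isPiHallOf_top.mpr hπ) (le_sup_left : H ≤ H ⊔ V) le_top) le_normalizer le_rfl
  rw [inf_eq_right.mpr (h2 ▸ hle), ← sup_assoc, sup_eq_left.mpr le_normalizer] at h3
  rw [← relIndex_mul_index hle, index_comap_of_surjective _ hf, h2, ← h3,
    ← H1.relIndex_inf_dvd_relIndex_sup le_normalizer_of_normal]
  refine mul_mem ?_ (Submonoid.closure_mono ?_ h1)
  · by_cases hd : q ∣ Nat.card H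
    · rw [relIndex_eq_one.mpr ((H1.le_of_isPiHall_of_normal hπ fun p hp h => by
        rw [he] at h
        rw [(Nat.prime_dvd_prime_iff_eq hp hq).mp (hp.dvd_of_dvd_pow h)]; exact hd).trans le_normalizer)]
      exact one_mem _
    · have hc : (Nat.card V).Coprime (Nat.card H) := he ▸ ((Nat.Prime.coprime_iff_not_dvd hq).mpr hd).pow_left e
      have h4 : normalizer (H : Set G) ⊓ V = centralizer (H : Set G) ⊓ V := by
        refine le_antisymm (le_inf (fun v hv h hh => ?_) inf_le_right) (inf_le_inf_right _ (centralizer_le_normalizer _))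
        have : v * h * v⁻¹ * h⁻¹ ∈ V ⊓ H := ⟨by
          rw [mul_assoc, mul_assoc, ← mul_assoc h]; exact V.mul_mem hv.2 (hV.conj_mem _ (V.inv_mem hv.2) h),
          H.mul_mem (L.conj_mem_of_mem_normalizer hv.1 hh) (H.inv_mem hh)⟩
        rw [disjoint_iff.mp (disjoint_of_coprime_natCard hc), mem_bot, mul_inv_eq_one, mul_inv_eq_iff_eq_mul] at this
        exact this.symm
      rw [← inf_relIndex_right, h4, inf_relIndex_right]
      refine Submonoid.closure_mono ?_ (cent_prod V H hc)
      rintro x ⟨h5, h6⟩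
      refine ⟨?_, ⟨⊥, V, inferInstance, hV, bot_lt_iff_ne_bot.mpr hV0, fun M hM _ h => hmin M hM h, by rwa [relIndex_bot_left]⟩, h6⟩
      rw [he] at h5
      obtain ⟨i, -, rfl⟩ := (Nat.dvd_prime_pow hq).mp h5
      exact ⟨q, i, hq, rfl⟩
  · rintro x ⟨a, ⟨K, L, hK, hL, hKL, hm, hd⟩, r, b, c, d⟩
    refine ⟨a, ⟨K.comap f, L.comap f, hK.comap f, hL.comap f, (comap_lt_comap_of_surjective hf).mpr hKL, fun M hM h4 h5 => ?_, ?_⟩,
      r, b, c.trans (card_map_dvd _ _), d⟩
    · have h6 : (M.map f).comap f = M := comap_map_eq_self ((ker_le_comap f K).trans h4)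
      rcases hm (M.map f) (hM.map f hf) ((map_comap_eq_self_of_surjective hf K).ge.trans (map_mono h4))
        (map_le_iff_le_comap.mpr h5) with h | h
      · left; rw [← h, h6]
      · right; rw [← h, h6]
    · rwa [relIndex_comap, map_comap_eq_self_of_surjective hf]

/-- Let `G` be a finite solvable group of order `mn` with `gcd(m, n) = 1`. Then the number of subgroups of order `m` is a product of natural numbers each of which is a power of a prime, divides the order of some chief factor of `G` (a quotient `L/K` of normal subgroups `K < L` of `G` with no normal subgroup of `G` strictly between them), and is congruent to `1` modulo some prime divisor of `m`. -/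
theorem result {G : Type*} [Group G] [Finite G] [Group.IsSolvable G] (m n : ℕ) (hG : Nat.card G = m * n) (hmn : Nat.Coprime m n) : ∃ (k : ℕ) (f : Fin k → ℕ), Nat.card {H : Subgroup G // Nat.card H = m} = ∏ i, f i ∧ ∀ i, (∃ q e : ℕ, q.Prime ∧ f i = q ^ e) ∧ (∃ K L : Subgroup G, K.Normal ∧ L.Normal ∧ K < L ∧ (∀ M : Subgroup G, M.Normal → K ≤ M → M ≤ L → M = K ∨ M = L) ∧ f i ∣ K.relIndex L) ∧ (∃ q : ℕ, q.Prime ∧ q ∣ m ∧ f i ≡ 1 [MOD q]) := by
  obtain ⟨H, hH⟩ := H1.exists_hall {p | ¬ p ∣ n} (inferInstance : Group.IsSolvable G)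
  have hm := (H1.isPiHall_iff_card_eq hG hmn).mp hH
  obtain ⟨l, hl, e⟩ := Submonoid.exists_list_of_mem_closure (main _ G rfl H (H1.IsPiHall.coprime hH))
  refine ⟨l.length, fun i => l[i], ?_, fun i => hm ▸ hl _ (List.getElem_mem _)⟩
  refine Eq.trans ?_ ((Fin.prod_univ_getElem l).trans e).symm
  letI : MulAction G (Subgroup G) := { smul := H2.cj, one_smul := H2.cj_one, mul_smul := H2.cj_mul }
  have h1 : MulAction.stabilizer G H = normalizer (H : Set G) := by
    ext g; exact H2.mem_normalizer_iff_cj.symm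
  rw [← h1, MulAction.index_stabilizer, ← Nat.card_coe_set_eq]
  refine Nat.card_congr (Equiv.subtypeEquivRight fun K => ⟨fun h => ?_, ?_⟩)
  · exact H1.hall_conj inferInstance hH ((H1.isPiHall_iff_card_eq hG hmn).mpr h)
  · rintro ⟨g, rfl⟩
    exact (H2.card_cj g H).trans hm

end Cfsg.Agent.S4214
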