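import Cfsg.Statements.S4215
import Mathlib
import Cfsg.Agent.H2.PTransfer

set_option autoImplicit false
open Cfsg

namespace Cfsg.Agent.S4215

open Cfsg.Agent.H2 Subgroup

/-- Let `P` be a Sylow `p`-subgroup of the finite group `G`, `Q` a subgroup of `P` weakly closed in `P` with respect to `G`, and `H` the normalizer of `Q`. Suppose that for all `u ∈ P` and `z ∈ Q` the iterated commutator `[u, z, …, z]` with `p - 1` entries `z` is trivial, where `[x, z] = x⁻¹z⁻¹xz` and `[x, z, z] = [[x, z], z]`. Then `O^p(H) = O^p(G) ∩ H`, where `O^p` denotes the subgroup generated by the elements of order prime to `p`; so the largest `p`-factor groups of `G` and of `H` are isomorphic. -/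
theorem result {G : Type*} [Group G] [Finite G] {p : ℕ} [Fact p.Prime] (P : Sylow p G) (Q : Subgroup G) (hQ : Cfsg.IsWeaklyClosed Q (P : Subgroup G)) (h : ∀ u ∈ (P : Subgroup G), ∀ z ∈ Q, (fun y : G => y⁻¹ * z⁻¹ * y * z)^[p - 1] u = 1) : Cfsg.pResidualOf p (Subgroup.normalizer (Q : Set G)) = Cfsg.pResidual p G ⊓ Subgroup.normalizer (Q : Set G) := by
  have hP := sylIn_top P
  have hPH : (P : Subgroup G) ≤ normalizer (Q : Set G) := fun x hx =>
    mem_normalizer_iff_cj.2 (hQ.2 x (cj_le_of_le hQ.1 hx))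
  have h1 := tate hP hPH fun W _ h2 _ _ => by
    by_contra hc
    obtain ⟨u, hu, z, hz, M, K, -, -, -, -, -, -, -, h3, -⟩ := hw hP hQ le_rfl h2 fun e => hc
      (le_trans (le_inf inf_le_left (by
        rw [_root_.commutator_def]
        refine le_trans ?_ (inf_le_right (a := (P : Subgroup G)))
        rw [hP.inf_commutator_eq, resOf_top]
        exact le_sup_left)) e)
    exact h3 (by rw [show itc z (p - 1) u = 1 from h u hu z hz]; exact K.one_mem)
  rw [pResidualOf, pResidual_map_subtype]
  refine le_antisymm (le_inf (resOf_top (G := G) p ▸ resOf_mono le_top) (resOf_le _ _)) ?_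
  rintro x ⟨hx1, hx2⟩
  obtain ⟨k, hk, u, hu, rfl⟩ := (hP.mono hPH le_top).exists_resOf_mul hx2
  have hk' : k ∈ pResidual p G := (resOf_top (G := G) p ▸ resOf_mono le_top : resOf p _ ≤ _) hk
  have : u ∈ (P : Subgroup G) ⊓ pResidual p G := ⟨hu, (Subgroup.mul_mem_cancel_left _ hk').1 hx1⟩
  rw [h1] at this
  exact mul_mem hk this.2

end Cfsg.Agent.S4215
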