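import Cfsg.Statements.S4216
import Mathlib
import Cfsg.Agent.H2.PTransfer

set_option autoImplicit false
open Cfsg

namespace Cfsg.Agent.S4216

open Cfsg.Agent.H2 Subgroup

/-- Grün's first Theorem: if `P` is a Sylow `p`-subgroup of the finite group `G`, then `P ∩ G'` is the subgroup generated by `P ∩ N_G(P)'` together with the subgroups `P ∩ z P' z⁻¹` for all `z ∈ G`, where `'` denotes the derived subgroup and `N_G(P)` the normalizer of `P`. -/
theorem result {G : Type*} [Group G] [Finite G] {p : ℕ} [Fact p.Prime] (P : Sylow p G) : (P : Subgroup G) ⊓ commutator G = ((P : Subgroup G) ⊓ ⁅Subgroup.normalizer ((P : Subgroup G) : Set G), Subgroup.normalizer ((P : Subgroup G) : Set G)⁆) ⊔ ⨆ z : G, (P : Subgroup G) ⊓ (⁅(P : Subgroup G), (P : Subgroup G)⁆).map (MulAut.conj z).toMonoidHom := by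
  have hP := sylIn_top P
  set D := ((P : Subgroup G) ⊓ ⁅normalizer ((P : Subgroup G) : Set G), normalizer ((P : Subgroup G) : Set G)⁆) ⊔ ⨆ z : G, (P : Subgroup G) ⊓ (⁅(P : Subgroup G), (P : Subgroup G)⁆).map (MulAut.conj z).toMonoidHom with hD
  refine le_antisymm ?_ (sup_le (inf_le_inf_left _ (commutator_mono le_top le_top))
    (iSup_le fun z => inf_le_inf_left _ ?_))
  swap
  · rw [← cj_eq_of_normal z (_root_.commutator G)]
    exact cj_mono z (commutator_mono le_top le_top)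
  have hPH : (P : Subgroup G) ≤ normalizer ((P : Subgroup G) : Set G) := le_normalizer
  obtain ⟨W, -, -, h1, -, h2⟩ := exists_transfer_ker_in (D := D) hPH
    (le_sup_of_le_left (le_inf (commutator_le_self _) (commutator_mono hPH hPH)))
  have h3 : ∀ g ∈ (P : Subgroup G), g ∈ W ↔ g ∈ D := fun g hg => by
    rw [h2 g hg fun k a ha h => mem_sup_left ⟨Subgroup.mul_mem _ h (Subgroup.inv_mem _ (pow_mem hg k)), ?_⟩]
    · exact ⟨(hP.mono hPH le_top).mem_of_pow_relIndex_mem hg, fun h => pow_mem h _⟩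
    · exact commutator_mem_commutator ha (hPH (pow_mem hg k))
  by_contra hc
  obtain ⟨u, hu, z, hz, M, K, h4, h5, -, h6, -, -, -, h7, h8, -⟩ := hw hP
    (isWeaklyClosed_self _) le_rfl h1
    fun e => hc fun x hx => (h3 x hx.1).1 (e hx)
  refine h7 (h8 _ (itc_mem (h5 (mem_sup_left hz)) h6 _) fun g k hm => ?_)
  have h9 : itc z (p - 1) u ∈ ⁅(P : Subgroup G), (P : Subgroup G)⁆ :=
    (P : Subgroup G).lowerCentralSeries_antitone (show 1 ≤ p - 1 by
      have := (Fact.out : p.Prime).two_le; omega) (itc_mem_lowerCentralSeries hz hu _)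
  have h10 : g⁻¹ * itc z (p - 1) u ^ k * g ∈ cj g⁻¹ ⁅(P : Subgroup G), (P : Subgroup G)⁆ := by
    simpa using conj_mem_cj g⁻¹ (pow_mem h9 k)
  obtain ⟨j, hj⟩ := isPGroup_iff_forall.1
    (isPGroup_cj g⁻¹ (P.isPGroup'.to_le (commutator_le_self _))) _ h10
  have h11 := hP.mem_of_mem_normalizer (mem_top _) hj hm
  exact (h3 _ h11).2 (mem_sup_right (le_iSup (fun z : G => (P : Subgroup G) ⊓
    (⁅(P : Subgroup G), (P : Subgroup G)⁆).map (MulAut.conj z).toMonoidHom) g⁻¹ ⟨h11, h10⟩))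

end Cfsg.Agent.S4216
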