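import Cfsg.Statements.S4217
import Cfsg.Agent.H8.Cls
import Cfsg.Agent.H8.Radical
import Cfsg.Agent.H1.Products

set_option autoImplicit false
open Cfsg

namespace Cfsg.Agent.S4217

open Subgroup hiding commutator_def
open Function Cfsg.Agent.Hopf Cfsg.Agent.Reg
open scoped commutatorElement Pointwise

theorem aux {G : Type*} [Group G] [Finite G] (A : Subgroup G) [A.Normal] (hA : IsMulCommutative A)
    (h : ∀ p : ℕ, p.Prime → ∃ U K : Subgroup G, ¬ p ∣ U.index ∧ K ⊓ A = ⊥ ∧ K ⊔ A = U) :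
    ∃ K : Subgroup G, K.IsComplement' A := by
  have n1 : ∀ p, (H8.Op p A).Normal := fun p => H1.normal_of_top_le_normalizer (H8.le_normalizer_Op_of p le_normalizer_of_normal)
  have n2 : ∀ p, (H8.Opp p A).Normal := fun p => H1.normal_of_top_le_normalizer (H8.le_normalizer_Opp_of p le_normalizer_of_normal)
  have h1 : ∀ p : ℕ, p.Prime → ∃ H, IsComplement' (H8.Op p A) H := fun p hp => by
    have := Fact.mk hp
    obtain ⟨U, K, h1, h2, h3⟩ := h p hp
    have := H1.isMulCommutative_of_le (H8.Op_le p A)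
    obtain ⟨k, hk⟩ := IsPGroup.iff_card.1 (H8.Op_isPGroup p A)
    refine H1.gaschutz_exists (U := U) (A := K ⊔ H8.Opp p A) ((H8.Op_le p A).trans (h3 ▸ le_sup_right))
      (hk ▸ ((Nat.Prime.coprime_iff_not_dvd hp).2 h1).pow_left k) ?_ ?_
    · rw [← inf_eq_right.2 (H8.Op_le p A), ← inf_assoc, H1.sup_inf_assoc_norm' le_normalizer_of_normal (H8.Opp_le p A), h2,
        bot_sup_eq, inf_comm]
      exact H1.disjoint_of_isPGroup_of_coprime (H8.Op_isPGroup p A) (H8.Opp_coprime p A)
    · rw [sup_left_comm, H8.Op_sup_Opp_of_nilpotent (H1.isNilpotent_of_isMulCommutative hA), h3]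
  have h2 : ∀ s : Finset ℕ, (∀ p ∈ s, p.Prime) → ∃ H : Subgroup G, H ⊔ A = ⊤ ∧ (∀ p ∈ s, H ⊓ H8.Op p A = ⊥) ∧
      ∀ q : ℕ, q.Prime → q ∉ s → H8.Op q A ≤ H := fun s => by
    induction s using Finset.induction_on with
    | empty => exact fun _ => ⟨⊤, top_sup_eq _, by simp, fun _ _ _ => le_top⟩
    | insert p s hps ih =>
      intro hs
      have hp := hs p (Finset.mem_insert_self _ _)
      obtain ⟨H, h2, h3, h4⟩ := ih fun q hq => hs q (Finset.mem_insert_of_mem hq)
      obtain ⟨K, hK⟩ := h1 p hp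
      refine ⟨K ⊓ H, ?_, fun q hq => ?_, fun q hq hq' => le_inf ?_ (h4 q hq fun h => hq' (Finset.mem_insert_of_mem h))⟩
      · have := H1.sup_inf_assoc_norm' (A := K) le_normalizer_of_normal (h4 p hp hps)
        rw [hK.symm.sup_eq_top, top_inf_eq] at this
        rw [← sup_eq_right.2 (H8.Op_le p A), ← sup_assoc, ← this, h2]
      · rcases Finset.mem_insert.1 hq with rfl | hq
        · rw [inf_right_comm, disjoint_iff.1 hK.symm.disjoint, bot_inf_eq]
        · rw [inf_assoc, h3 q hq, inf_bot_eq]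
      · have := Fact.mk hq
        have := Fact.mk hp
        obtain ⟨Q, hQ⟩ := H1.exists_isSylowIn q K
        refine (H1.IsSylowIn.le_of_normal (P := Q) (K := ⊤) ⟨le_top, hQ.2.1, ?_⟩ le_top (H8.Op_isPGroup q A)
          le_normalizer_of_normal).trans hQ.1
        obtain ⟨k, hk⟩ := IsPGroup.iff_card.1 (H8.Op_isPGroup p A)
        rw [relIndex_top_right, ← relIndex_mul_index hQ.1, hq.dvd_mul, hK.index_eq_card, hk]
        rintro (h | h)
        · exact hQ.2.2 h
        · exact hq' ((Nat.prime_dvd_prime_iff_eq hq hp).1 (hq.dvd_of_dvd_pow h) ▸ Finset.mem_insert_self _ _)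
  obtain ⟨H, h3, h4, -⟩ := h2 (Nat.card G).primeFactors fun p hp => Nat.prime_of_mem_primeFactors hp
  refine ⟨H, (H1.isComplement'_of_inf_eq_bot_of_sup_eq_top ?_ (by rwa [sup_comm])).symm⟩
  refine eq_bot_iff.2 (H1.le_of_forall_isPGroup_le fun p hp P hP h5 => ?_)
  have := Fact.mk hp
  by_contra h6
  refine h6 (h4 p (hp.mem_primeFactors (dvd_card_of_ne_bot h5 fun e => h6 e.le) Nat.card_pos.ne') ▸
    le_inf (hP.trans inf_le_right) ?_)
  exact H8.le_Op (hP.trans inf_le_left) (H1.le_normalizer_of_isMulCommutative (hP.trans inf_le_left)) h5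

/-- Let `A` be an abelian normal subgroup of the finite group `G`. Then `A` has a complement in `G` if and only if, for every prime `p` dividing the index of `A`, there are a Sylow `p`-subgroup `S` of `G/A` and a subgroup `K` of `G` with `K ∩ A = 1` and `KA` equal to the preimage of `S` (that is, `A` has a complement in the preimage of a Sylow `p`-subgroup of `G/A`). -/
theorem result {G : Type*} [Group G] [Finite G] (A : Subgroup G) [A.Normal] (hA : IsMulCommutative A) : (∃ K : Subgroup G, K.IsComplement' A) ↔ ∀ p : ℕ, p.Prime → p ∣ A.index → ∃ (S : Sylow p (G ⧸ A)) (K : Subgroup G), K ⊓ A = ⊥ ∧ K ⊔ A = (S : Subgroup (G ⧸ A)).comap (QuotientGroup.mk' A) := by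
  constructor
  · rintro ⟨K, hK⟩ p hp -
    obtain ⟨S⟩ : Nonempty (Sylow p (G ⧸ A)) := inferInstance
    refine ⟨S, K ⊓ (S : Subgroup (G ⧸ A)).comap (QuotientGroup.mk' A), ?_, ?_⟩
    · rw [inf_right_comm, disjoint_iff.1 hK.disjoint, bot_inf_eq]
    · rw [← H1.sup_inf_assoc_norm' le_normalizer_of_normal (H1.le_comap_mk'' A _), hK.sup_eq_top, top_inf_eq]
  · refine fun h => aux A hA fun p hp => ?_
    have := Fact.mk hp
    by_cases hd : p ∣ A.index
    · obtain ⟨S, K, h1, h2⟩ := h p hp hd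
      exact ⟨_, K, by rw [H1.index_comap_mk']; exact S.not_dvd_index, h1, h2⟩
    · exact ⟨A, ⊥, hd, bot_inf_eq _, bot_sup_eq _⟩

end Cfsg.Agent.S4217
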