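import Cfsg.Statements.S4218
import Cfsg.Agent.H8.PLen

set_option autoImplicit false
open Cfsg

namespace Cfsg.Agent.S4218

open Subgroup hiding commutator_def
open Function Cfsg.Agent.Hopf Cfsg.Agent.Reg
open scoped commutatorElement Pointwise


/-- Let `G` be a finite `p`-solvable group, `N₀ = O_{p'}(G)`, `P₁ = O_{p',p}(G)`, and let `F ≤ P₁` be the preimage of the Frattini subgroup of `P₁/N₀`. Then an element `g` of `G` induces the identity on `P₁/F` by conjugation (that is, `g x g⁻¹ x⁻¹ ∈ F` for all `x ∈ P₁`) if and only if `g ∈ P₁`: the group `G/P₁` acts faithfully on `P₁/F`. -/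
theorem result {G : Type*} [Group G] [Finite G] {p : ℕ} [Fact p.Prime] (hG : Cfsg.IsPSolvable p G) (g : G) : (∀ x ∈ Cfsg.pPrimePCore p G, g * x * g⁻¹ * x⁻¹ ∈ ((frattini (↥(Cfsg.pPrimePCore p G) ⧸ (Cfsg.pPrimeCore p G).subgroupOf (Cfsg.pPrimePCore p G))).comap (QuotientGroup.mk' ((Cfsg.pPrimeCore p G).subgroupOf (Cfsg.pPrimePCore p G)))).map (Cfsg.pPrimePCore p G).subtype) ↔ g ∈ Cfsg.pPrimePCore p G := by
  let f : pPrimePCore p G →* pCore p (G ⧸ pPrimeCore p G) := (QuotientGroup.mk' (pPrimeCore p G)).subgroupComap _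
  have hk : ∀ x, f x = 1 ↔ x ∈ (pPrimeCore p G).subgroupOf (pPrimePCore p G) := fun x => by
    rw [Subtype.ext_iff]; exact QuotientGroup.eq_one_iff _
  let φ := QuotientGroup.lift ((pPrimeCore p G).subgroupOf (pPrimePCore p G)) f fun x hx => (hk x).2 hx
  constructor
  · intro h
    refine mem_pCore_of_frattini (H9.pSolv_map _ (QuotientGroup.mk'_surjective _) hG)
      (H1.pPrimeCore_quotient_eq_bot _ rfl) fun x hx => ?_
    obtain ⟨x, rfl⟩ := QuotientGroup.mk'_surjective _ x
    obtain ⟨r, hr, e⟩ := h x hx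
    have hs : Surjective φ := by
      rintro ⟨y, hy⟩
      obtain ⟨y, rfl⟩ := QuotientGroup.mk'_surjective _ y
      exact ⟨(⟨y, hy⟩ : pPrimePCore p G), rfl⟩
    refine ⟨_, H1.map_frattini_le hs (mem_map_of_mem φ hr), ?_⟩
    rw [← map_commutatorElement, commutatorElement_def, ← e]; rfl
  · intro h x hx
    have hi : Injective φ := (injective_iff_map_eq_one φ).2 fun y hy => by
      obtain ⟨y, rfl⟩ := QuotientGroup.mk_surjective y
      exact (QuotientGroup.eq_one_iff _).2 ((hk y).1 hy)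
    refine ⟨⁅(⟨g, h⟩ : pPrimePCore p G), ⟨x, hx⟩⁆, ?_, rfl⟩
    rw [SetLike.mem_coe, mem_comap, map_commutatorElement]
    exact H1.commutator_le_frattini ((H1.isPGroup_pCore p _).of_injective φ hi)
      (commutator_mem_commutator (mem_top _) (mem_top _))

end Cfsg.Agent.S4218
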