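import Cfsg.Statements.S4219
import Cfsg.Agent.GS.Lem1

set_option autoImplicit false
open Cfsg

namespace Cfsg.Agent.S4219

open Cfsg.Agent.H1

/-- Let a finite group `G` act `t`-fold transitively on a finite set, let `H` be the stabilizer of `t` distinct points and `P` a Sylow `p`-subgroup of `H`. Then the normalizer of `P` in `G` is `t`-fold transitive on the fixed points of `P`: any `t` distinct fixed points of `P` can be carried to any other `t` distinct fixed points of `P` by an element normalizing `P`. -/
theorem result {G : Type*} [Group G] [Finite G] {α : Type*} [Fintype α] [MulAction G α] {t : ℕ} (hG : MulAction.IsMultiplyPretransitive G α t) (x : Fin t ↪ α) {p : ℕ} [Fact p.Prime] (P : Sylow p (MulAction.stabilizer G x)) (a b : Fin t ↪ α) (ha : ∀ i, a i ∈ MulAction.fixedPoints ((P : Subgroup (MulAction.stabilizer G x)).map (MulAction.stabilizer G x).subtype) α) (hb : ∀ i, b i ∈ MulAction.fixedPoints ((P : Subgroup (MulAction.stabilizer G x)).map (MulAction.stabilizer G x).subtype) α) : ∃ g ∈ Subgroup.normalizer ((((P : Subgroup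 (MulAction.stabilizer G x)).map (MulAction.stabilizer G x).subtype) : Subgroup G) : Set G), g • a = b := by
  open Subgroup Pointwise commutatorElement Cfsg.Agent.BG Cfsg.Agent.GS in
  open Cfsg.Agent.H2 hiding card_lt_of_lt card_lt_of_ne_top isMulCommutative_of_le isPGroup_zpowers_iff mem_of_pow_mem_of_coprime inf_eq_bot_of_cop exists_maxElem_ge Sec in
  open Cfsg.Agent.H8 (Op Opp Fit SN) in
  open Cfsg.Agent.L (FPF) in focus
    have hS : SylIn p _ _ := sylIn_map_subtype P
    generalize (P : Subgroup (MulAction.stabilizer G x)).map (MulAction.stabilizer G x).subtype = S at *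
    have h1 : ∀ (g : G) (c : Fin t ↪ α), MulAction.stabilizer G (g • c) = g ⋆ MulAction.stabilizer G c :=
      fun g c => MulAction.stabilizer_smul_eq_stabilizer_map_conj g c
    have h2 : ∀ c : Fin t ↪ α, (∀ i, c i ∈ MulAction.fixedPoints S α) → SylIn p S (MulAction.stabilizer G c) := fun c hc => by
      obtain ⟨g, rfl⟩ := hG.exists_smul_eq x c
      exact (h1 g x ▸ hS.cj g).of_card_le hS.pgrp (fun s hs => Function.Embedding.ext fun i => hc i ⟨s, hs⟩) (card_cj g S).le
    obtain ⟨g, rfl⟩ := hG.exists_smul_eq a b
    obtain ⟨s, hs, h3⟩ := (h1 g a ▸ (h2 a ha).cj g).exists_cj_eq (h2 _ hb)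
    exact ⟨s * g, mem_normalizer_iff_cj.2 (by rw [cj_mul, h3]), by rw [mul_smul]; exact hs⟩

end Cfsg.Agent.S4219
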