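import Cfsg.Statements.S4222
import Cfsg.Agent.GS.Lem1

set_option autoImplicit false
open Cfsg

namespace Cfsg.Agent.S4222

open Cfsg.Agent.H1

/-- If a normal subgroup `N` of a finite group is complete (its centre is trivial and every automorphism of `N` is inner), then the group is the internal direct product of `N` and the centralizer of `N`: the centralizer is a complement to `N`. -/
theorem result {T : Type*} [Group T] [Finite T] (N : Subgroup T) [N.Normal] (hz : Subgroup.center ↥N = ⊥) (ha : Function.Surjective (MulAut.conj : ↥N →* MulAut ↥N)) : (Subgroup.centralizer (N : Set T)).IsComplement' N := by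
  open Subgroup Pointwise commutatorElement Cfsg.Agent.BG Cfsg.Agent.GS in
  open Cfsg.Agent.H2 hiding card_lt_of_lt card_lt_of_ne_top isMulCommutative_of_le isPGroup_zpowers_iff mem_of_pow_mem_of_coprime inf_eq_bot_of_cop exists_maxElem_ge Sec in
  open Cfsg.Agent.H8 (Op Opp Fit SN) in
  open Cfsg.Agent.L (FPF) in focus
    refine isComplement'_of_inf_eq_bot_of_sup_eq_top ?_ (eq_top_iff.2 fun g _ => ?_)
    · rw [inf_comm, ← map_subtype_center, hz, Subgroup.map_bot]
    obtain ⟨n, hn⟩ := ha (MulAut.conjNormal g)
    have h1 : g * (n : T)⁻¹ ∈ 𝒞 N := mem_centralizer_iff.2 fun x hx => by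
      have := congrArg (fun φ : MulAut N => ((φ (n⁻¹ * ⟨x, hx⟩ * n) : N) : T)) hn
      simp only [MulAut.conj_apply, MulAut.conjNormal_apply, coe_mul, coe_inv] at this
      calc x * (g * (n : T)⁻¹) = n * ((n : T)⁻¹ * x * n) * (n : T)⁻¹ * (g * (n : T)⁻¹) := by group
        _ = _ := by rw [this]; group
    exact (inv_mul_cancel_right g (n : T)) ▸ mul_mem_sup h1 n.2

end Cfsg.Agent.S4222
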