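import Cfsg.Statements.S4223
import Cfsg.Agent.H9.TJ

set_option autoImplicit false
open Cfsg

namespace Cfsg.Agent.S4223

open Cfsg.Agent Cfsg.Agent.H9
open Cfsg.Agent Subgroup

/-- indecomposable -/
def Ind (A : Type*) [Group A] : Prop :=
  ∀ H K : Subgroup A, H.Normal → K.Normal → H ⊓ K = ⊥ → H ⊔ K = ⊤ → H = ⊥ ∨ K = ⊥

/-- normal endomorphism -/
def Nrm {A : Type*} [Group A] (f : A →* A) : Prop := ∀ a x, f (a * x * a⁻¹) = a * f x * a⁻¹

theorem card_sup' {A : Type*} [Group A] [Finite A] (H K : Subgroup A) [H.Normal] [K.Normal] (h : H ⊓ K = ⊥)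
    (hc : Nat.card H * Nat.card K = Nat.card A) : H ⊔ K = ⊤ :=
  (isComplement'_of_card_mul_and_disjoint hc (disjoint_iff.mpr h)).sup_eq_top

theorem fitting {A : Type*} [Group A] [Finite A] (hA : Ind A) (f : Monoid.End A) (hf : Nrm (f : A →* A))
    (hi : ¬ Function.Injective f) : ∃ N : ℕ, ∀ x, (f ^ N) x = 1 := by
  have hmono : Monotone fun n : ℕ => MonoidHom.ker (f ^ n : Monoid.End A) := monotone_nat_of_le_succ fun n x hx => by
    show (f ^ (n + 1)) x = 1
    have hx' : (f ^ n) x = 1 := hx
    rw [pow_succ', Monoid.End.coe_mul, Function.comp_apply, hx', map_one]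
  obtain ⟨N, hN⟩ := WellFoundedGT.monotone_chain_condition ⟨_, hmono⟩
  have hn : ∀ n : ℕ, ∀ a x, (f ^ n) (a * x * a⁻¹) = a * (f ^ n) x * a⁻¹ := fun n => by
    induction n with
    | zero => intro a x; rfl
    | succ n ih =>
      intro a x
      rw [pow_succ', Monoid.End.coe_mul, Function.comp_apply, Function.comp_apply, ih]
      exact hf _ _
  haveI : (MonoidHom.range (f ^ (N + 1) : Monoid.End A)).Normal := ⟨by
    rintro _ ⟨x, rfl⟩ a
    exact ⟨_, hn _ a x⟩⟩
  have h1 : MonoidHom.ker (f ^ (N + 1) : Monoid.End A) ⊓ MonoidHom.range (f ^ (N + 1) : Monoid.End A) = ⊥ := by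
    rw [eq_bot_iff]
    rintro _ ⟨h2, x, rfl⟩
    have h3 : x ∈ MonoidHom.ker (f ^ (N + 1 + (N + 1)) : Monoid.End A) := by
      show (f ^ (N + 1 + (N + 1))) x = 1
      rw [pow_add]; exact h2
    have e1 := hN (N + 1 + (N + 1)) (by omega)
    have e2 := hN (N + 1) (by omega)
    simp only [OrderHom.coe_mk] at e1 e2
    rw [← e1, e2] at h3
    exact h3
  rcases hA _ _ inferInstance inferInstance h1 (card_sup' _ _ h1
    ((congrArg _ (index_ker _).symm).trans (card_mul_index _))) with h | h
  · exfalso
    refine hi ((MonoidHom.ker_eq_bot_iff _).mp (eq_bot_iff.mpr ?_))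
    rw [← h]
    have := hmono (show 1 ≤ N + 1 by omega)
    simpa using this
  · exact ⟨N + 1, fun x => (eq_bot_iff.mp h) ⟨x, rfl⟩⟩

theorem loc {A : Type*} [Group A] [Finite A] [Nontrivial A] (hA : Ind A) (f g h : A →* A) (hf : Nrm f) (hg : Nrm g)
    (hh : Nrm h) (e : ∀ x, h x = f x * g x) (hb : Function.Injective h) : Function.Injective f ∨ Function.Injective g := by
  by_contra hc
  push Not at hc
  let u := (MulEquiv.ofBijective h (Finite.injective_iff_bijective.mp hb)).symm
  have hu : ∀ x, h (u x) = x := fun x => (MulEquiv.ofBijective h (Finite.injective_iff_bijective.mp hb)).apply_symm_apply x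
  have hun : ∀ a x, u (a * x * a⁻¹) = a * u x * a⁻¹ := fun a x => hb (by rw [hh, hu, hu])
  let f' : Monoid.End A := u.toMonoidHom.comp f
  let g' : Monoid.End A := u.toMonoidHom.comp g
  have e' : ∀ x, x = f' x * g' x := fun x => hb (by
    rw [map_mul, e]; exact congrArg₂ _ (hu _).symm (hu _).symm)
  have hcm : ∀ x, f' (g' x) = g' (f' x) := fun x => by
    have h1 := congrArg f' (e' x)
    rw [map_mul] at h1
    exact mul_left_cancel (h1.symm.trans (e' (f' x)))
  obtain ⟨N, hN⟩ := fitting hA g' (fun a x => by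
    show u (g _) = a * u (g x) * a⁻¹
    rw [hg, hun]) (fun h1 => hc.2 (Function.Injective.of_comp (f := u) h1))
  have h1 : ¬ Function.Injective f' := fun h1 => hc.1 (Function.Injective.of_comp (f := u) h1)
  rw [injective_iff_map_eq_one] at h1
  push Not at h1
  obtain ⟨x, hx, hx1⟩ := h1
  have h2 : ∀ n : ℕ, (g' ^ n) x = x := fun n => by
    induction n with
    | zero => rfl
    | succ n ih =>
      rw [pow_succ', Monoid.End.coe_mul, Function.comp_apply, ih]
      conv_rhs => rw [e' x, hx, one_mul]
  exact hx1 ((h2 N).symm.trans (hN x))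

theorem ks : ∀ (m n : ℕ) (A : Fin m → Type*) (B : Fin n → Type*) [∀ i, Group (A i)] [∀ j, Group (B j)] [∀ i, Finite (A i)]
    [∀ j, Finite (B j)] (_ : ∀ i, Nontrivial (A i) ∧ Ind (A i)) (_ : ∀ j, Nontrivial (B j) ∧ Ind (B j))
    (_ : ((i : Fin m) → A i) ≃* ((j : Fin n) → B j)), ∃ σ : Fin m ≃ Fin n, ∀ i, Nonempty (A i ≃* B (σ i)) := by
  intro m
  induction m with
  | zero =>
    intro n A B _ _ _ _ hA hB e
    rcases n with _ | n
    · exact ⟨Equiv.refl _, fun i => i.elim0⟩
    · haveI := (hB 0).1
      obtain ⟨b, hb⟩ := exists_ne (1 : B 0)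
      have := e.symm.injective (Subsingleton.elim (e.symm (Pi.mulSingle 0 b)) (e.symm 1))
      exact absurd (by simpa using congrFun this 0) hb
  | succ m ih =>
    intro n A B _ _ _ _ hA hB e
    classical
    haveI := (hA 0).1
    let p : Finset (Fin n) → ((j : Fin n) → B j) →* ((j : Fin n) → B j) := fun s =>
      { toFun := fun x j => if j ∈ s then x j else 1
        map_one' := by funext j; simp
        map_mul' := fun x y => by funext j; by_cases h : j ∈ s <;> simp [h] }
    have hp : ∀ s x j, p s x j = if j ∈ s then x j else 1 := fun _ _ _ => rfl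
    have hpn : ∀ s, Nrm (p s) := fun s a x => by funext j; by_cases h : j ∈ s <;> simp [hp, h]
    let i0 : A 0 →* ((j : Fin n) → B j) := e.toMonoidHom.comp (MonoidHom.mulSingle A 0)
    let π0 : ((j : Fin n) → B j) →* A 0 := (Pi.evalMonoidHom A 0).comp e.symm.toMonoidHom
    have hπi : ∀ a, π0 (i0 a) = a := fun a => by simp [π0, i0]
    let f : Finset (Fin n) → A 0 →* A 0 := fun s => π0.comp ((p s).comp i0)
    have hfn : ∀ s, Nrm (f s) := fun s a x => by
      show π0 (p s (i0 _)) = a * π0 (p s (i0 x)) * a⁻¹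
      rw [map_mul i0, map_mul i0, map_inv i0, hpn, map_mul, map_mul, map_inv, hπi]
    have hex : ∀ s, Function.Injective (f s) → ∃ j, Function.Injective (f {j}) := fun s => by
      induction s using Finset.induction_on with
      | empty =>
        intro h
        obtain ⟨a, ha⟩ := exists_ne (1 : A 0)
        exact absurd (h (show π0 (p ∅ (i0 a)) = π0 (p ∅ (i0 1)) from rfl)) ha
      | insert j s hj ih' =>
        intro h
        refine (loc (hA 0).2 (f {j}) (f s) _ (hfn _) (hfn _) (hfn _) (fun x => ?_) h).elim (fun h => ⟨j, h⟩) ih'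
        show π0 (p _ (i0 x)) = π0 (p _ (i0 x)) * π0 (p _ (i0 x))
        rw [← map_mul]
        congr 1
        funext k
        by_cases h1 : k = j
        · subst h1; simp [hp, hj]
        · simp [hp, h1]
    obtain ⟨j, hj⟩ := hex Finset.univ (fun a b h => by
      have h1 : ∀ x, p Finset.univ x = x := fun x => by funext j; simp [hp]
      have h2 : π0 (p _ (i0 a)) = π0 (p _ (i0 b)) := h
      rwa [h1, h1, hπi, hπi] at h2)
    let α : A 0 →* B j := (Pi.evalMonoidHom B j).comp i0
    let β : B j →* A 0 := π0.comp (MonoidHom.mulSingle B j)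
    have hβα : ∀ a, β (α a) = f {j} a := fun a => by
      show π0 _ = π0 _
      congr 1
      funext k
      by_cases h1 : k = j
      · subst h1; simp [hp, α]
      · simp [hp, h1]
    have hα : Function.Injective α := fun a b h => hj (by rw [← hβα, ← hβα, h])
    have hβs : Function.Surjective β := fun a => by
      obtain ⟨b, rfl⟩ := Finite.injective_iff_surjective.mp hj a
      exact ⟨_, hβα b⟩
    haveI : α.range.Normal := ⟨by
      rintro _ ⟨a, rfl⟩ b
      refine ⟨β b * a * (β b)⁻¹, ?_⟩
      have h1 : i0 (β b * a * (β b)⁻¹) = Pi.mulSingle j b * i0 a * (Pi.mulSingle j b)⁻¹ := by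
        apply e.symm.injective
        funext k
        by_cases h2 : k = 0
        · subst h2; simp [i0, β, π0]
        · simp [i0, h2]
      show i0 _ j = b * i0 a j * b⁻¹
      rw [h1]; simp⟩
    have hd : β.ker ⊓ α.range = ⊥ := by
      rw [eq_bot_iff]
      rintro _ ⟨h1, a, rfl⟩
      have h2 : a = 1 := hj (by rw [← hβα, map_one]; exact h1)
      rw [h2, map_one]; exact one_mem _
    have hβ : Function.Injective β := by
      rcases (hB j).2 _ _ inferInstance inferInstance hd (card_sup' _ _ hd (by
        rw [← Nat.card_congr (MonoidHom.ofInjective hα).toEquiv, ← card_mul_index β.ker, index_ker,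
          MonoidHom.range_eq_top.mpr hβs, card_top])) with h | h
      · exact (MonoidHom.ker_eq_bot_iff _).mp h
      · obtain ⟨a, ha⟩ := exists_ne (1 : A 0)
        exact absurd (hα (((eq_bot_iff.mp h) ⟨a, rfl⟩).trans (map_one α).symm)) ha
    let e0 := MulEquiv.ofBijective β ⟨hβ, hβs⟩
    obtain ⟨n, rfl⟩ : ∃ n', n = n' + 1 := ⟨n - 1, by have := j.pos; omega⟩
    let φ : ((i : Fin m) → A i.succ) →* ((k : Fin n) → B (j.succAbove k)) :=
      { toFun := fun x k => e (Fin.cons 1 x) (j.succAbove k)
        map_one' := by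
          funext k
          have : (Fin.cons 1 (1 : (i : Fin m) → A i.succ) : (i : Fin (m + 1)) → A i) = 1 := by
            funext i; refine Fin.cases ?_ (fun i => ?_) i <;> rfl
          rw [this, map_one]; rfl
        map_mul' := fun x y => by
          funext k
          have : (Fin.cons 1 (x * y) : (i : Fin (m + 1)) → A i) = Fin.cons 1 x * Fin.cons 1 y := by
            funext i; refine Fin.cases ?_ (fun i => ?_) i <;> simp
          rw [this, map_mul]; rfl }
    have hφ : Function.Injective φ := (injective_iff_map_eq_one _).mpr fun x hx => by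
      have h1 : e (Fin.cons 1 x) = Pi.mulSingle j (e (Fin.cons 1 x) j) := by
        funext k
        by_cases h : k = j
        · subst h; simp
        · obtain ⟨k, rfl⟩ := Fin.exists_succAbove_eq h
          rw [Pi.mulSingle_eq_of_ne h]
          exact congrFun hx k
      have h2 : e (Fin.cons 1 x) j = 1 := hβ (by
        show e.symm (Pi.mulSingle j _) 0 = _
        rw [← h1, map_one]; simp)
      rw [h2, Pi.mulSingle_one, map_eq_one_iff _ e.injective] at h1
      funext i
      exact congrFun h1 i.succ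
    have hc : Nat.card ((i : Fin m) → A i.succ) = Nat.card ((k : Fin n) → B (j.succAbove k)) := by
      have h1 := Nat.card_congr e.toEquiv
      rw [Nat.card_pi, Nat.card_pi, Fin.prod_univ_succ, Fin.prod_univ_succAbove _ j, Nat.card_congr e0.toEquiv] at h1
      rw [Nat.card_pi, Nat.card_pi]
      exact Nat.eq_of_mul_eq_mul_left Nat.card_pos h1
    obtain ⟨σ, hσ⟩ := ih n (fun i => A i.succ) (fun k => B (j.succAbove k)) (fun i => hA _) (fun k => hB _)
      (MulEquiv.ofBijective φ ((Nat.bijective_iff_injective_and_card φ).mpr ⟨hφ, hc⟩))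
    refine ⟨(finSuccEquiv m).trans ((Equiv.optionCongr σ).trans (finSuccEquiv' j).symm), fun i => ?_⟩
    refine Fin.cases ?_ (fun i => ?_) i
    · exact ⟨e0.symm⟩
    · have : ((finSuccEquiv m).trans ((Equiv.optionCongr σ).trans (finSuccEquiv' j).symm)) i.succ = j.succAbove (σ i) := by simp
      rw [this]; exact hσ i

/-- If a finite group is isomorphic both to a direct product of `m` directly indecomposable nontrivial groups and to a direct product of `n` such groups (a group is directly indecomposable when it is not the internal direct product of two nontrivial normal subgroups), then `m = n` and the factors are isomorphic in pairs after a suitable matching. -/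
theorem result {m n : ℕ} {A : Fin m → Type*} {B : Fin n → Type*} [∀ i, Group (A i)] [∀ j, Group (B j)] [∀ i, Finite (A i)] [∀ j, Finite (B j)] (hA : ∀ i, Nontrivial (A i) ∧ ∀ H K : Subgroup (A i), H.Normal → K.Normal → H ⊓ K = ⊥ → H ⊔ K = ⊤ → H = ⊥ ∨ K = ⊥) (hB : ∀ j, Nontrivial (B j) ∧ ∀ H K : Subgroup (B j), H.Normal → K.Normal → H ⊓ K = ⊥ → H ⊔ K = ⊤ → H = ⊥ ∨ K = ⊥) (e : ((i : Fin m) → A i) ≃* ((j : Fin n) → B j)) : ∃ σ : Fin m ≃ Fin n, ∀ i, Nonempty (A i ≃* B (σ i)) := by
  exact ks m n A B hA hB e

end Cfsg.Agent.S4223
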