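import Cfsg.Statements.S4227
import Mathlib
import Cfsg.Agent.H2.HHG
import Cfsg.Agent.H1.Burnside
import Cfsg.Agent.H9.GT

set_option autoImplicit false
open Cfsg

namespace Cfsg.Agent.S4227

open Cfsg.Agent.H2 Cfsg.Agent.BG Subgroup

/-- A finite group in which every element has order dividing `6` has `2`-length at most `1` and `3`-length at most `1`. -/
theorem result {G : Type*} [Group G] [Finite G] (h : ∀ x : G, x ^ 6 = 1) : Cfsg.PLengthLE 2 1 G ∧ Cfsg.PLengthLE 3 1 G := by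
  have hs : Group.IsSolvable G := H1.isSolvable_of_two_primes Nat.prime_two Nat.prime_three fun r hr hd => by
    have := Fact.mk hr
    obtain ⟨x, rfl⟩ := exists_prime_orderOf_dvd_card' r hd
    exact ((Nat.Prime.dvd_mul hr).1 (orderOf_dvd_of_pow_eq_one (h x) : _ ∣ 2 * 3)).imp
      (Nat.prime_dvd_prime_iff_eq hr Nat.prime_two).1 (Nat.prime_dvd_prime_iff_eq hr Nat.prime_three).1
  have h1 : ∀ p k : ℕ, p.Coprime k → p * k = 6 → ∀ Q : Subgroup G, IsPGroup p Q → ∀ x ∈ Q, x ^ p = 1 :=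
    fun p k h1 h2 Q hQ x hx => by
      obtain ⟨n, hn⟩ := hQ ⟨x, hx⟩
      exact orderOf_dvd_iff_pow_eq_one.1 (((h1.pow_left n).coprime_dvd_left
        (orderOf_dvd_of_pow_eq_one (congrArg Subtype.val hn))).dvd_of_dvd_mul_right
        (h2 ▸ orderOf_dvd_of_pow_eq_one (h x)))
  have := Fact.mk Nat.prime_three
  refine ⟨plen_of_sylExp 1 G (H9.pSolv_of_solvable hs) (fun n₀ q m a b c d e => ?_)
    fun P => h1 2 3 (by decide) rfl _ P.2, plen_of_sylExp 1 G (H9.pSolv_of_solvable hs) (fun n₀ q m a b c d e Q hQ => ?_)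
    fun P => h1 3 2 (by decide) rfl _ P.2⟩
  · obtain rfl : n₀ = 1 := le_antisymm b a
    exact absurd e (Nat.one_lt_pow (by omega) c.one_lt).ne
  · obtain rfl : n₀ = 1 := le_antisymm b a
    obtain rfl : q = 2 := (Nat.prime_dvd_prime_iff_eq c Nat.prime_two).1 ((dvd_pow_self q (by omega)).trans e.symm.dvd)
    have h2 := h1 2 3 (by decide) rfl Q hQ
    exact commutator_eq_bot_iff_le_centralizer.2 fun x hx => mem_centralizer_iff.2 fun y hy => by
      have h3 : ∀ z ∈ Q, z⁻¹ = z := fun z hz => inv_eq_of_mul_eq_one_right (by rw [← sq, h2 z hz])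
      rw [← h3 _ (mul_mem hy hx), mul_inv_rev, h3 x hx, h3 y hy]

end Cfsg.Agent.S4227
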