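import Cfsg.Statements.S4278
import Cfsg.Agent.H5.Re2

set_option autoImplicit false
open Cfsg

namespace Cfsg.Agent.S4278

/-- In the Chevalley group of type G₂ over a finite field of odd order, any two involutions are conjugate. -/
theorem result {F : Type*} [Field F] [Fintype F] (hF : Odd (Fintype.card F)) (s t : ↥(Cfsg.Lie.chevG2.group F)) (hs : orderOf s = 2) (ht : orderOf t = 2) : IsConj s t := by
  obtain ⟨p, hp⟩ := CharP.exists F
  obtain ⟨n, h1, h2⟩ := FiniteField.card F p
  haveI := Fact.mk h1
  let L := H5.algAd (AlgebraicClosure F) H5.goodG2 H5.kerG2.ker_eq_bot h2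
  have h : L.SC := fun g _ e => H5.rsG2.adj_inj _ (by rw [map_one]; exact congrArg Subtype.val e)
  refine h.isConj_invol (fun e => ?_) hs ht
  rw [h2, e] at hF
  exact absurd hF (by simp [Nat.odd_pow_iff n.ne_zero])

end Cfsg.Agent.S4278
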