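import Cfsg.Statements.S4279
import Cfsg.Agent.H5.Ic
import Cfsg.Agent.H5.Re3
import Cfsg.Agent.L.Cores

set_option autoImplicit false
open Cfsg

namespace Cfsg.Agent.S4279

open H5 H5.StN H5.StG H5.RS Subgroup Lie in
theorem sl {F : Type*} [Field F] (r : Φ chevG2) (hp : rsG2.Pos r) (h : ∀ j, ((1 : ℕ).testBit j.1).toNat % 2 = rsG2.cvec r j % 2)
    (h1 : (rsG2.adj F).hp (sgN chevG2 F 1) ≠ 1) : ∃ φ : Matrix.SpecialLinearGroup (Fin 2) F →* chevG2.group F,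
      Function.Injective φ ∧ φ (-1) = (rsG2.adj F).hp (sgN chevG2 F 1) ∧ φ.range ≤ (rsG2.adj F).U {r, rsG2.neg r} := by
  obtain ⟨φ, a, b⟩ := (rsG2.adj F).exists_sl2 r (hr_mul (rsG2.adj_inj F) _)
  have e : φ (-1) = (rsG2.adj F).hp (sgN chevG2 F 1) := by
    rw [← slD_neg, show φ (slD (-1)) = (rsG2.adj F).hr r (-1) by simp [slD, a, b, hr, nr], hr_eq_hp (rel3_of_inj (rsG2.adj_inj F))]
    refine congrArg _ (funext fun j => ?_)
    rw [sgN, ← mul_inv_eq_one, ← zpow_sub]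
    exact Even.neg_one_zpow (Int.even_iff.2 (by have := h j; omega))
  refine ⟨φ, (injective_iff_map_eq_one φ).2 fun g hg => ?_, e, sl_range φ (fun t => a t ▸ x_mem (by simp) t)
    fun t => b t ▸ x_mem (by simp) t⟩
  refine (H4.mem_center_SL2.1 (sl_central φ (B := (rsG2.adj F).B) (fun t => a t ▸ (rsG2.adj F).U_le_B (x_mem hp t))
    (fun t ht => x_not_mem_B (by rwa [pos_neg_iff, not_not]) (b t ▸ ht)) fun x => by simp [hg])).resolve_right ?_
  rintro rfl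
  exact h1 (e ▸ hg)

/-- In the Chevalley group G of type G₂ over a finite field F of odd order q, the centralizer of an involution t has order q²(q² − 1)² and contains two elementwise commuting subgroups, each isomorphic to SL(2, F), which meet exactly in the subgroup generated by t and whose join has index 2 in the centralizer. -/
theorem result {F : Type*} [Field F] [Fintype F] (hF : Odd (Fintype.card F)) (t : ↥(Cfsg.Lie.chevG2.group F)) (ht : orderOf t = 2) : Nat.card (Subgroup.centralizer ({t} : Set ↥(Cfsg.Lie.chevG2.group F))) = Fintype.card F ^ 2 * (Fintype.card F ^ 2 - 1) ^ 2 ∧ ∃ L₁ L₂ : Subgroup ↥(Cfsg.Lie.chevG2.group F), Nonempty (L₁ ≃* Matrix.SpecialLinearGroup (Fin 2) F) ∧ Nonempty (L₂ ≃* Matrix.SpecialLinearGroup (Fin 2) F) ∧ (∀ x ∈ L₁, ∀ y ∈ L₂, x * y = y * x) ∧ L₁ ⊓ L₂ = Subgroup.zpowers t ∧ L₁ ⊔ L₂ ≤ Subgroup.centralizer ({t} : Set ↥(Cfsg.Lie.chevG2.group F)) ∧ (L₁ ⊔ L₂).relIndex (Subgroup.centralizer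 ({t} : Set ↥(Cfsg.Lie.chevG2.group F))) = 2 := by
  obtain ⟨a1, -, a3⟩ := H5.rsG2.inv_chk hF H5.kerG2.ker_eq_bot (x := 1) (A := 0x891) (m := 2)
    (t := [(0x90, 7, 0x801, [1, 1]), (0x801, 11, 0x0, [1, 1])]) (by decide +kernel)
  obtain ⟨g, rfl⟩ := isConj_iff.1 ((or_self_iff.1 (H5.rsG2.invol_conj hF H5.goodG2 H5.kerG2.ker_eq_bot (x₁ := 1) (x₂ := 1)
    (t := [(0, 0, 0), (0, 0, 0), (0, 3, 2), (1, 1, 1)]) (by decide +kernel) ht)).symm)
  have h0 : (H5.rsG2.adj F).hp (H5.sgN _ F 1) ≠ 1 := fun e => by simp [e] at a1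
  obtain ⟨φ, b1, b2, b3⟩ := sl ⟨7, by decide⟩ ((H5.rsG2.pos_iff_le _).2 (by decide)) (by decide +kernel) h0
  obtain ⟨ψ, c1, c2, c3⟩ := sl ⟨11, by decide⟩ ((H5.rsG2.pos_iff_le _).2 (by decide)) (by decide +kernel) h0
  have h1 : ∀ a b, Commute (φ a) (ψ b) := fun a b =>
    H5.StN.Orth.comm (by decide +kernel) (b3 ⟨a, rfl⟩) (c3 ⟨b, rfl⟩)
  have hq := Fintype.one_lt_card (α := F)
  have h2 : Nat.card (Subgroup.centralizer {g * (H5.rsG2.adj F).hp (H5.sgN _ F 1) * g⁻¹}) =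
      Fintype.card F ^ 2 * (Fintype.card F ^ 2 - 1) ^ 2 := by
    rw [← Nat.card_congr ((MulAut.conj g).toEquiv.subtypeEquiv (p := (· ∈ Subgroup.centralizer {(H5.rsG2.adj F).hp (H5.sgN _ F 1)}))
      fun a => by
        simp only [Subgroup.mem_centralizer_singleton_iff]
        exact (MulAut.conj g).injective.eq_iff.symm.trans (by rw [map_mul, map_mul]; rfl)), a3]
    simp only [List.map_cons, List.map_nil, List.prod_cons, List.prod_nil, H5.horner, show Cfsg.Lie.chevG2.rank = 2 from rfl]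
    zify [hq.le, Nat.one_le_pow 2 _ (by omega : 0 < Fintype.card F)]
    ring
  generalize (H5.rsG2.adj F).hp (H5.sgN _ F 1) = s at *
  clear b3 c3
  replace b1 := (MulAut.conj g).injective.comp b1
  replace c1 := (MulAut.conj g).injective.comp c1
  let φ' := (MulAut.conj g).toMonoidHom.comp φ
  let ψ' := (MulAut.conj g).toMonoidHom.comp ψ
  have d1 : φ' (-1) = g * s * g⁻¹ := congrArg (g * · * g⁻¹) b2
  have d2 : ψ' (-1) = g * s * g⁻¹ := congrArg (g * · * g⁻¹) c2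
  have d3 : ∀ x ∈ φ'.range, ∀ y ∈ ψ'.range, x * y = y * x := by
    rintro _ ⟨a, rfl⟩ _ ⟨b, rfl⟩; exact (h1 a b).map (MulAut.conj g)
  have d4 : φ'.range ⊓ ψ'.range = Subgroup.zpowers (g * s * g⁻¹) := by
    refine le_antisymm ?_ (Subgroup.zpowers_le.2 ⟨⟨_, d1⟩, ⟨_, d2⟩⟩)
    rintro _ ⟨⟨a, rfl⟩, h⟩
    rcases H4.mem_center_SL2.1 (Subgroup.mem_center_iff.2 fun b => b1 ((map_mul φ' b a).trans
      ((d3 _ ⟨b, rfl⟩ _ h).trans (map_mul φ' a b).symm))) with rfl | rfl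
    · simp
    · exact d1 ▸ Subgroup.mem_zpowers _
  have d5 : φ'.range ⊔ ψ'.range ≤ Subgroup.centralizer {g * s * g⁻¹} := sup_le
    (fun x hx => Subgroup.mem_centralizer_singleton_iff.2 (d3 x hx _ ⟨_, d2⟩))
    fun x hx => Subgroup.mem_centralizer_singleton_iff.2 (d3 _ ⟨_, d1⟩ x hx).symm
  refine ⟨h2, φ'.range, ψ'.range, ⟨(MonoidHom.ofInjective b1).symm⟩, ⟨(MonoidHom.ofInjective c1).symm⟩, d3, d4, d5, ?_⟩
  have e1 := L.card_sup_mul_card_inf (H := φ'.range) (N := ψ'.range) (H5.StG.le_normalizer_of_conj fun x hx y hy => by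
    rwa [d3 x hx y hy, mul_inv_cancel_right])
  rw [d4, Nat.card_zpowers, ht, ← Nat.card_congr (MonoidHom.ofInjective (f := φ') b1).toEquiv,
    ← Nat.card_congr (MonoidHom.ofInjective (f := ψ') c1).toEquiv, H4.card_SL_two] at e1
  have e2 := H1.card_mul_relIndex d5
  rw [h2] at e2
  exact Nat.eq_of_mul_eq_mul_left (Nat.card_pos (α := ↥(φ'.range ⊔ ψ'.range))) (e2.trans (e1.trans (by ring)).symm)

end Cfsg.Agent.S4279
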