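import Cfsg.Statements.S4280
import Cfsg.Agent.H5.Ic

set_option autoImplicit false
open Cfsg

namespace Cfsg.Agent.S4280

/-- In the Chevalley group of type F₄ over a finite field of odd order q there are exactly two conjugacy classes of involutions; the centralizer of an involution in one class has order q¹⁶(q² − 1)(q⁴ − 1)(q⁶ − 1)(q⁸ − 1), and in the other class q¹⁰(q² − 1)²(q⁴ − 1)(q⁶ − 1). -/
theorem result {F : Type*} [Field F] [Fintype F] (hF : Odd (Fintype.card F)) : ∃ s t : ↥(Cfsg.Lie.chevF4.group F), orderOf s = 2 ∧ orderOf t = 2 ∧ ¬ IsConj s t ∧ (∀ u : ↥(Cfsg.Lie.chevF4.group F), orderOf u = 2 → IsConj u s ∨ IsConj u t) ∧ Nat.card (Subgroup.centralizer ({s} : Set ↥(Cfsg.Lie.chevF4.group F))) = Fintype.card F ^ 16 * (Fintype.card F ^ 2 - 1) * (Fintype.card F ^ 4 - 1) * (Fintype.card F ^ 6 - 1) * (Fintype.card F ^ 8 - 1) ∧ Nat.card (Subgroup.centralizer ({t} : Set ↥(Cfsg.Lie.chevF4.group F))) = Fintype.card F ^ 10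 * (Fintype.card F ^ 2 - 1) ^ 2 * (Fintype.card F ^ 4 - 1) * (Fintype.card F ^ 6 - 1) := by
  have hk := H5.kerF4.ker_eq_bot (K := F)
  obtain ⟨a1, a2, a3⟩ := H5.rsF4.inv_chk hF hk (x := 1) (A := 0xeee3c7e3c777) (m := 16)
    (t := [(0xe200004700, 39, 0x2662c1834664, [1, 1, 1, 1, 1, 1, 1, 1]), (0x6200004600, 38, 0x22240024440, [1, 1, 1, 1, 1, 1]), (0x2200004400, 37, 0x200004000, [1, 1, 1, 1]), (0x200004000, 33, 0x0, [1, 1])]) (by decide +kernel)
  obtain ⟨b1, b2, b3⟩ := H5.rsF4.inv_chk hF hk (x := 4) (A := 0x933262464cc9) (m := 10)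
    (t := [(0x2400000, 25, 0x933260064cc9, [1, 1]), (0x820040020041, 47, 0x22240024440, [1, 1, 1, 1, 1, 1]), (0x2200004400, 37, 0x200004000, [1, 1, 1, 1]), (0x200004000, 33, 0x0, [1, 1])]) (by decide +kernel)
  have h := fun n => Nat.one_le_pow n _ (Fintype.card_pos (α := F))
  have h1 := Fintype.card_pos (α := F)
  refine ⟨_, _, a1, b1, fun e => by have := H5.RS.ncard_of_isConj hk e; omega, fun u => H5.rsF4.invol_conj hF H5.goodF4
    H5.kerF4.ker_eq_bot (t := [(0, 0, 0), (0, 0, 0), (0, 3, 2), (1, 1, 1), (0, 0, 0), (3, 13, 7), (1, 4, 1), (0, 6, 2), (2, 12, 2), (1, 11, 5), (2, 14, 3), (2, 15, 4), (3, 4, 1), (2, 9, 6), (3, 6, 2), (3, 7, 3)]) (by decide +kernel), a3.trans ?_, b3.trans ?_⟩ <;>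
  · simp only [List.map_cons, List.map_nil, List.prod_cons, List.prod_nil, H5.horner, show Cfsg.Lie.chevF4.rank = 4 from rfl,
      show Finset.Icc 1 7 = {1, 2, 3, 4, 5, 6, 7} from rfl]
    zify [h, h1]
    try simp only [Finset.mem_insert, Finset.mem_singleton, Nat.reduceEqDiff, or_self, not_false_eq_true, Finset.prod_insert,
      Finset.prod_singleton, OfNat.one_ne_ofNat]
    ring

end Cfsg.Agent.S4280
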