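import Cfsg.Statements.S4282
import Mathlib
import Cfsg.Agent.H2.HHB2

set_option autoImplicit false
open Cfsg

namespace Cfsg.Agent.S4282

open Cfsg.Agent.H2 Cfsg.Agent.BG Subgroup

/-- A critical case behind the Hall–Higman theorem. Let p ≠ q be primes and G a finite group generated by a normal q-subgroup Q and a cyclic p-subgroup generated by x, such that the centralizer of every non-identity element of that cyclic subgroup is its product with the centre of G. Let K be an algebraically closed field of characteristic p and ρ a faithful representation of G on a nonzero finite-dimensional K-space whose restriction to Q is irreducible. If s is the least exponent with (ρ(x) − 1)^s = 0, then |⟨x⟩| − 1 ≤ s ≤ |⟨x⟩|; and if s = |⟨x⟩| − 1 then |⟨x⟩| − 1 is a power of q and Q is non-abelian. -/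
theorem result {G : Type*} [Group G] [Finite G] (p q : ℕ) [Fact p.Prime] [Fact q.Prime] (hpq : p ≠ q) (Q : Subgroup G) [Q.Normal] (hQ : IsPGroup q Q) (x : G) (hx : IsPGroup p (Subgroup.zpowers x)) (hgen : Q ⊔ Subgroup.zpowers x = ⊤) (hC : ∀ y ∈ Subgroup.zpowers x, y ≠ 1 → Subgroup.centralizer ({y} : Set G) = Subgroup.zpowers x ⊔ Subgroup.center G) {K : Type*} [Field K] [IsAlgClosed K] [CharP K p] {V : Type*} [AddCommGroup V] [Module K V] [FiniteDimensional K V] [Nontrivial V] (ρ : Representation K G V) (hfaith : Function.Injective ρ) (hirr : ∀ W : Submodule K V, (∀ g ∈ Q, Submodule.map (ρ g) W ≤ W) → W = ⊥ ∨ W = ⊤) (s : ℕ) (hs : (ρ x - 1) ^ s = 0) (hmin : ∀ k < s, (ρ x - 1) ^ k ≠ 0) : Nat.card (Subgroup.zpowers x) - 1 ≤ s ∧ s ≤ Nat.card (Subgroup.zpowers x) ∧ (s = Nat.card (Subgroup.zpowers x) - 1 → (∃ b : ℕ, Nat.card (Subgroup.zpowers x) - 1 = q ^ b) ∧ ¬ IsMulCommutative Q) := by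
  have hp : p.Prime := Fact.out
  obtain ⟨n, hn⟩ := hx.exists_card_eq
  rw [hn]
  rw [Nat.card_zpowers] at hn
  have h0 : ∀ (z : G) k, z ^ p ^ k = 1 → (ρ z - 1) ^ p ^ k = 0 := fun z k h => by
    rw [sub_one_pow_char, ← map_pow, h, map_one, sub_self]
  have h1 : s ≤ p ^ n := not_lt.1 fun h => hmin _ h (h0 x n (hn ▸ pow_orderOf_eq_one x))
  have h2 := pow_pos hp.pos n
  rcases h1.eq_or_lt with e | h3
  · exact ⟨by omega, h1, by omega⟩
  cases n with
  | zero =>
    obtain rfl : s = 0 := by simpa using h3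
    exact absurd hs (by simp)
  | succ n =>
  have h4 : x ^ p ^ n ≠ 1 := pow_ne_one_of_lt_orderOf (pow_pos hp.pos n).ne'
    (hn ▸ Nat.pow_lt_pow_right hp.one_lt n.lt_succ_self)
  have h5 : x ^ p ^ n ∈ zpowers x := pow_mem (mem_zpowers x) _
  have h6 : zpowers x ≤ 𝒞 (zpowers x) := le_centralizer _
  have h7 : ¬ zpowers (x ^ p ^ n) ≤ 𝒞 Q := fun e => h4 (hfaith (by
    rw [map_one, ← sub_eq_zero, ← LinearMap.ker_eq_top]
    refine (hirr _ ?_).resolve_left fun h => ?_
    · rintro g hg _ ⟨v, hv, rfl⟩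
      rw [LinearMap.mem_ker, LinearMap.sub_apply, ← rep_mul_apply, ← mem_centralizer_iff.1 (e (mem_zpowers _)) g hg,
        rep_mul_apply, sub_eq_zero.1 hv]
      exact sub_self _
    · have := ((LinearMap.isUnit_iff_ker_eq_bot _).2 h).pow (p ^ 1)
      rw [h0 _ 1 (by rw [← pow_mul, ← pow_add, ← hn, pow_orderOf_eq_one])] at this
      exact not_isUnit_zero this))
  obtain ⟨U, hU, h⟩ := GS.exists_minAct hQ (B := zpowers x) le_normalizer_of_normal (zpowers_le.2 h5)
    (h6.trans ((centralizer_le (SetLike.coe_subset_coe.2 (zpowers_le.2 h5))).trans (cent_le_norm _)))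
    (coprime_primes_pgroup (hx.to_le (zpowers_le.2 h5)) hpq) h7
  · obtain ⟨a, -, μ, W, hμ, -, -, -, k1, k2, k3, k4, -, k5⟩ := hh_rep ρ (h.norm (mem_zpowers x))
      (natCast_card_ne_zero (coprime_primes_pgroup h.pgrp hpq.symm)) hn h.comm.ge (h.phi_eq ▸ h.phi_le_cent)
      (h.phi_eq ▸ h.le_cent_phi (mem_zpowers _)) (fun e => h.ne_bot (eq_bot_iff.2 fun g hg =>
        hfaith ((MonoidHom.mem_ker.1 (e hg)).trans (map_one ρ).symm))) hs h3
    obtain rfl := k5 (le_centralizer_iff.1 (fun g hg => (sup_le h6 (center_le_centralizer _) : _ ≤ 𝒞 (zpowers x))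
      ((hC _ h5 h4).le (mem_centralizer_singleton_iff.2 (mem_centralizer_iff.1
        (h.phi_eq ▸ h.le_cent_phi (mem_zpowers _)) g hg)))) (mem_zpowers x))
    obtain ⟨k, hk⟩ := h.pgrp.exists_card_eq
    obtain ⟨m, -, hm⟩ := (Nat.dvd_prime_pow Fact.out).1 (((dvd_pow_self _ two_ne_zero).trans k3).trans hk.dvd)
    simp only [Nat.sub_zero, pow_zero, one_mul] at k1 k4
    refine ⟨by omega, h1, fun _ => ⟨⟨m, by omega⟩, fun hc => hμ (MonoidHom.ext fun b => ?_)⟩⟩
    rw [show b = 1 from Subtype.ext (mem_bot.1 (((Subgroup.commutator_mono hU hU).trans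
      (commutator_eq_bot_iff_le_centralizer.2 (le_centralizer Q)).le) b.2)), map_one, map_one]

end Cfsg.Agent.S4282
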