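import Cfsg.Statements.S4283
import Cfsg.Agent.GS.Lem2

set_option autoImplicit false
open Cfsg

namespace Cfsg.Agent.S4283

open Cfsg.Agent.H1

/-- Let G be a finite group with centre Z and let K, H be abelian subgroups of G containing Z such that G/Z is a Frobenius group with complement H/Z and kernel K/Z. Then the conjugacy class sizes of G are exactly 1, [G : K] and [G : H], and these two indices are coprime. (This is the converse half of the characterization of finite groups whose conjugacy class sizes are exactly 1, m and n with m and n coprime.) -/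
theorem result {G : Type*} [Group G] [Finite G] (K H : Subgroup G) (hZK : Subgroup.center G ≤ K) (hZH : Subgroup.center G ≤ H) (hK : IsMulCommutative K) (hH : IsMulCommutative H) (hFrob : Cfsg.IsFrobeniusComplement (H.map (QuotientGroup.mk' (Subgroup.center G)))) (hker : Cfsg.frobeniusKernel (H.map (QuotientGroup.mk' (Subgroup.center G))) = (K.map (QuotientGroup.mk' (Subgroup.center G)) : Set (G ⧸ Subgroup.center G))) : Set.range (fun x : G => (Subgroup.centralizer ({x} : Set G)).index) = ({1, K.index, H.index} : Set ℕ) ∧ K.index.Coprime H.index := by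
  open Subgroup Pointwise commutatorElement Cfsg.Agent.BG Cfsg.Agent.GS in
  open Cfsg.Agent.H2 hiding card_lt_of_lt card_lt_of_ne_top isMulCommutative_of_le isPGroup_zpowers_iff mem_of_pow_mem_of_coprime inf_eq_bot_of_cop exists_maxElem_ge Sec in
  open Cfsg.Agent.H8 (Op Opp Fit SN) in
  open Cfsg.Agent.L (FPF) in focus
    obtain ⟨K', _, k1, k2, k3, k4, -, k5⟩ := exists_frobKernel hFrob
    obtain rfl : K' = K.map (QuotientGroup.mk' (center G)) := SetLike.coe_injective (k4.symm.trans hker)
    have h0 : ∀ {X : Subgroup G} {x : G}, center G ≤ X → (QuotientGroup.mk' (center G) x ∈ X.map (QuotientGroup.mk' (center G)) ↔ x ∈ X) :=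
      fun {X x} h => by rw [← mem_comap, comap_map_mk', sup_eq_left.2 h]
    have h1 : ∀ {x : G}, x ∉ center G → QuotientGroup.mk' (center G) x ≠ 1 := fun h e => h ((QuotientGroup.eq_one_iff _).1 e)
    have h2 : ∀ {x y : G}, y ∈ 𝒞₁ x → QuotientGroup.mk' (center G) y ∈ 𝒞₁ (QuotientGroup.mk' (center G) x) :=
      fun h => mem_cent1.2 (by rw [← map_mul, ← map_mul, mem_cent1.1 h])
    have h3 : ∀ x ∈ K, x ∉ center G → 𝒞₁ x = K := fun x a b => le_antisymm
      (fun y hy => (h0 hZK).1 (cent1_le_of_fpf k1 k3 ((h0 hZK).2 a) (h1 b) (h2 hy))) (le_cent1_of_comm hK a)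
    have h4 : ∀ x ∈ H, x ∉ center G → 𝒞₁ x = H := fun x a b => le_antisymm
      (fun y hy => (h0 hZH).1 (L.mem_of_conj_mem_of_frobenius hFrob ((h0 hZH).2 a) (h1 b)
        (by rw [conj_eq_of_mem_cent1 (h2 hy)]; exact (h0 hZH).2 a))) (le_cent1_of_comm hH a)
    have h5 : ∀ {X : Subgroup G}, center G ≤ X → (X.map (QuotientGroup.mk' (center G))).index = X.index :=
      fun {X} h => by rw [← index_comap_mk', comap_map_mk', sup_eq_left.2 h]
    refine ⟨Set.ext fun n => ⟨?_, ?_⟩, ?_⟩
    · rintro ⟨x, rfl⟩
      by_cases a : x ∈ center G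
      · exact Or.inl (by simp [mem_center_iff_cent1.1 a])
      by_cases b : x ∈ K
      · exact Or.inr (Or.inl (by simp [h3 x b a]))
      obtain ⟨k, -, hk⟩ := k3.exists_conj_mem (le_norm_of_normal _ _) (x := QuotientGroup.mk' _ x) (k1 ▸ mem_top _)
        fun e => b ((h0 hZK).1 e)
      obtain ⟨k, rfl⟩ := QuotientGroup.mk'_surjective _ k
      rw [← map_inv, ← map_mul, ← map_mul, h0 hZH] at hk
      refine Or.inr (Or.inr ?_)
      have := index_cent1_conj k⁻¹ x
      rw [inv_inv, h4 _ hk fun e => a (by simpa [mul_assoc] using (inferInstance : (center G).Normal).conj_mem _ e k)] at this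
      exact this.symm
    · rintro (rfl | rfl | rfl)
      · exact ⟨1, by simp [mem_center_iff_cent1.1 (one_mem _)]⟩
      · obtain ⟨x, a, b⟩ := exists_of_not_le (mt map_mk'_eq_bot_iff.2 k2)
        exact ⟨x, by simp [h3 x a b]⟩
      · obtain ⟨x, a, b⟩ := exists_of_not_le (mt map_mk'_eq_bot_iff.2 hFrob.1)
        exact ⟨x, by simp [h4 x a b]⟩
    · rw [← h5 hZK, ← h5 hZH, ← k5, (isComplement'_of_inf_eq_bot_of_sup_eq_top k3.inf_eq_bot k1).symm.index_eq_card]
      exact k3.coprime (le_norm_of_normal _ _)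

end Cfsg.Agent.S4283
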