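import Cfsg.Statements.S4290
import Cfsg.Agent.GS.Basic

set_option autoImplicit false
open Cfsg

namespace Cfsg.Agent.S4290

open Cfsg.Agent.H1

section
open Subgroup Pointwise commutatorElement Cfsg.Agent.BG Cfsg.Agent.GS
open Cfsg.Agent.H2 hiding card_lt_of_lt card_lt_of_ne_top isMulCommutative_of_le isPGroup_zpowers_iff mem_of_pow_mem_of_coprime inf_eq_bot_of_cop exists_maxElem_ge Sec
open Cfsg.Agent.H8 (Op Opp Fit SN)
open Cfsg.Agent.L (FPF)
universe u

open Matrix

theorem num {k n N l x y : ℤ} {j : ℕ} (hn : 1 < n) (hk : 0 < k) (hkn : k ≤ n) (hc : IsCoprime k n) (h1 : N + l * n = k ^ 2) (h2 : N + l = k)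
    (h3 : 0 ≤ l) (h4 : x ^ 2 = N ^ (2 * j + 1)) (h5 : x + y * n = k ^ (2 * j + 1)) : k = 1 ∨ k = n - 1 := by
  have c1 : IsCoprime n N := by
    rw [show N = k ^ 2 + n * (-l) by linear_combination h1]
    exact (hc.symm.pow_right).add_mul_left_right _
  have N0 : N ≠ 0 := by rintro rfl; have := Int.isUnit_iff.1 (isCoprime_zero_right.1 c1); omega
  obtain ⟨s, rfl⟩ : N ^ j ∣ x := (Int.pow_dvd_pow_iff two_ne_zero).1 ⟨N, by rw [h4]; ring⟩
  have h6 : s ^ 2 = N := mul_left_cancel₀ (pow_ne_zero (2 * j) N0) (by linear_combination h4)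
  obtain ⟨c, h7⟩ : n ∣ (k ^ 2) ^ j - N ^ j := Dvd.dvd.trans ⟨l, by linear_combination -h1⟩ (sub_dvd_pow_sub_pow _ _ j)
  obtain ⟨d, h8⟩ : n ∣ k - s := c1.pow_right.dvd_of_dvd_mul_left (y := N ^ j) ⟨y - k * c, by linear_combination -h5 - k * h7⟩
  refine or_iff_not_imp_left.2 fun h => ?_
  have h9' : s ^ 2 < k ^ 2 := by
    have : 2 ≤ k := by omega
    nlinarith
  obtain ⟨h10, h9⟩ := abs_lt.1 (abs_lt_of_sq_lt_sq h9' hk.le)
  obtain rfl : d = 1 := by
    have : 0 < d := by nlinarith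
    have : d < 2 := by nlinarith
    omega
  have h11 : l = k + s := mul_right_cancel₀ (show n ≠ 0 by omega) (by linear_combination h1 + h6 + (k + s) * h8)
  have h12 : s * (s + 1) = 0 := by linear_combination h6 + h2 - h11
  rcases mul_eq_zero.1 h12 with e | e
  · exact absurd (by rw [← h6, e]; rfl) N0
  · omega

variable {G Ω : Type*} [Group G] [MulAction G Ω] [Fintype Ω] [DecidableEq Ω]

/-- Intertwining matrices. -/
def Inv (G : Type*) [Group G] [MulAction G Ω] (β : MulAut G) (B : Matrix Ω Ω ℤ) : Prop := ∀ (g : G) x y, B (g • x) (β g • y) = B x y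

theorem Inv.mul {β γ : MulAut G} {B C : Matrix Ω Ω ℤ} (h : Inv G β B) (h' : Inv G γ C) : Inv G (γ * β) (B * C) := fun g x y => by
  rw [mul_apply, mul_apply, ← Equiv.sum_comp (MulAction.toPerm (β g))]
  exact Finset.sum_congr rfl fun z _ => congrArg₂ _ (h g x z) (h' (β g) z y)

theorem Inv.pow {β : MulAut G} {B : Matrix Ω Ω ℤ} (h : Inv G β B) (n : ℕ) : Inv G (β ^ n) (B ^ n) := by
  induction n with
  | zero => exact fun g x y => by simp [one_apply]
  | succ n ih => rw [pow_succ', pow_succ]; exact ih.mul h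

theorem Inv.eq (h2 : MulAction.IsMultiplyPretransitive G Ω 2) {a b : Ω} (hab : a ≠ b) {B : Matrix Ω Ω ℤ} (h : Inv G 1 B) :
    ∃ x y : ℤ, B = x • 1 + y • of fun _ _ => 1 := by
  refine ⟨B a a - B a b, B a b, Matrix.ext fun x y => ?_⟩
  rw [Matrix.add_apply, Matrix.smul_apply, Matrix.smul_apply]
  by_cases e : x = y
  · obtain ⟨g, rfl⟩ := (MulAction.isPretransitive_of_is_two_pretransitive (G := G)).exists_smul_eq a x
    subst e
    simpa using h g a a
  · obtain ⟨g, rfl, rfl⟩ := MulAction.is_two_pretransitive_iff.1 h2 hab e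
    simpa [one_apply_ne e] using h g a b

theorem exists_fix (h2 : MulAction.IsMultiplyPretransitive G Ω 2) (o : Ω)
    (hHall : (Nat.card (MulAction.stabilizer G o)).Coprime (MulAction.stabilizer G o).index) (α : MulAut G) (hα : Odd (orderOf α)) :
    ∃ o' : Ω, ∀ g : G, g • o = o → α g • o' = o' := by
  classical
  by_cases hn : ∀ b, o = b
  · exact ⟨o, fun _ _ => (hn _).symm⟩
  obtain ⟨b, hb⟩ := not_forall.1 hn
  haveI := MulAction.isPretransitive_of_is_two_pretransitive (G := G) (α := Ω)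
  let A : Matrix Ω Ω ℤ := of fun x y => if ∃ g : G, g • o = x ∧ α g • o = y then 1 else 0
  let J : Matrix Ω Ω ℤ := of fun _ _ => 1
  have hA : Inv G α A := fun g x y => if_congr ⟨fun ⟨h, a, b⟩ => ⟨g⁻¹ * h, by simp [mul_smul, a], by simp [mul_smul, b]⟩,
    fun ⟨h, a, b⟩ => ⟨g * h, by simp [mul_smul, a], by simp [mul_smul, b]⟩⟩ rfl rfl
  have hT : Inv G α⁻¹ Aᵀ := fun g x y => by simpa using hA (α⁻¹ g) y x
  let T := Finset.univ.filter fun y => ∃ g : G, g • o = o ∧ α g • o = y
  have a1 : A * J = (T.card : ℤ) • J := by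
    ext x y
    obtain ⟨g, rfl⟩ := MulAction.exists_smul_eq G o x
    rw [mul_apply, ← Equiv.sum_comp (MulAction.toPerm (α g))]
    simp only [MulAction.toPerm_apply, hA g]
    simp [A, J, T]
  obtain ⟨k', a2⟩ : ∃ k' : ℤ, Aᵀ * J = k' • J := ⟨∑ z, A z o, by
    ext x y
    obtain ⟨g, rfl⟩ := MulAction.exists_smul_eq G o x
    rw [mul_apply, ← Equiv.sum_comp (MulAction.toPerm (α⁻¹ g))]
    simp only [MulAction.toPerm_apply, hT g]
    simp [J]⟩
  have j1 : J * J = (Fintype.card Ω : ℤ) • J := by ext; simp [J, mul_apply]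
  have j2 : Jᵀ = J := rfl
  have n1 : 1 < Fintype.card Ω := Fintype.one_lt_card_iff.2 ⟨o, b, hb⟩
  obtain rfl : (T.card : ℤ) = k' := by
    have h1 := congrArg (fun M => (J * M) o o) a1
    have h2 := congrArg (fun M => (Mᵀ * J) o o) a2
    simp only [transpose_mul, transpose_transpose, transpose_smul, j2, Matrix.mul_assoc, Matrix.mul_smul, Matrix.smul_mul, j1] at h1 h2
    simpa [J, (show Fintype.card Ω ≠ 0 by omega)] using h1.symm.trans h2
  obtain ⟨N, l, a3⟩ := Inv.eq h2 hb (inv_mul_cancel α ▸ hA.mul hT)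
  obtain ⟨j, hj⟩ := hα
  obtain ⟨x, y, a4⟩ := Inv.eq h2 hb (pow_orderOf_eq_one α ▸ hA.pow (orderOf α))
  change _ = _ + _ • J at a3 a4
  have a5 : ∀ i : ℕ, A ^ i * J = (T.card : ℤ) ^ i • J := fun i => by
    induction i with
    | zero => simp
    | succ i ih => rw [pow_succ, Matrix.mul_assoc, a1, Matrix.mul_smul, ih, smul_smul, pow_succ']
  have a6 : ∀ i : ℕ, ∃ c : ℤ, A ^ i * (A ^ i)ᵀ = N ^ i • 1 + c • J := fun i => by
    induction i with
    | zero => exact ⟨0, by simp⟩
    | succ i ih =>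
      obtain ⟨c, ih⟩ := ih
      have : J * Aᵀ = (T.card : ℤ) • J := by simpa only [j2, transpose_mul, transpose_smul] using congrArg transpose a1
      refine ⟨N ^ i * l + c * T.card * T.card, ?_⟩
      rw [pow_succ', transpose_mul, Matrix.mul_assoc, ← Matrix.mul_assoc (A ^ i), ih, Matrix.add_mul, Matrix.smul_mul, Matrix.smul_mul, this,
        Matrix.one_mul, Matrix.mul_add, Matrix.mul_smul, Matrix.mul_smul, Matrix.mul_smul, a1, a3]
      module
  have ev : ∀ {u v : ℤ} {M : Matrix Ω Ω ℤ}, M = u • 1 + v • J → M o o = u + v ∧ M o b = v ∧ (M * J) o o = u + v * Fintype.card Ω := by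
    rintro u v _ rfl
    simp only [Matrix.add_mul, Matrix.smul_mul, j1, Matrix.add_apply, Matrix.smul_apply]
    simp [J, one_apply_ne hb]
  obtain ⟨c, a7⟩ := a6 (orderOf α)
  have a8 : A ^ orderOf α * (A ^ orderOf α)ᵀ = x ^ 2 • 1 + (2 * x * y + y * y * Fintype.card Ω) • J := by
    rw [a4]
    simp only [transpose_add, transpose_smul, transpose_one, j2, Matrix.mul_add, Matrix.add_mul, Matrix.smul_mul, Matrix.mul_smul,
      Matrix.one_mul, Matrix.mul_one, j1]
    module
  have t1 : T.card ∣ Nat.card (MulAction.stabilizer G o) := by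
    have : T = MulAction.orbit ((MulAction.stabilizer G o).map α.toMonoidHom) o := Set.ext fun y => by
      simp only [T, Finset.coe_filter, Finset.mem_univ, true_and]
      exact ⟨fun ⟨g, a, b⟩ => ⟨⟨α g, g, a, rfl⟩, b⟩, fun ⟨⟨_, g, a, rfl⟩, b⟩ => ⟨g, a, b⟩⟩
    rw [← Set.ncard_coe_finset, this, ← MulAction.index_stabilizer, ← Subgroup.card_map_of_injective (f := α.toMonoidHom) α.injective]
    exact Subgroup.index_dvd_card _
  rw [MulAction.index_stabilizer_of_transitive, Nat.card_eq_fintype_card (α := Ω)] at hHall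
  have oT : o ∈ T := by simpa [T] using ⟨1, by simp⟩
  have hinv : ∀ g : G, g • o = o → ∀ y ∈ T, α g • y ∈ T := fun g hg y hy => by
    simp only [T, Finset.mem_filter, Finset.mem_univ, true_and] at hy ⊢
    obtain ⟨h, a, b⟩ := hy
    exact ⟨g * h, by rw [mul_smul, a, hg], by rw [map_mul, mul_smul, b]⟩
  rcases num (k := T.card) (n := Fintype.card Ω) (N := N) (l := l) (x := x) (y := y) (j := j) (by omega)
    (Int.natCast_pos.2 (Finset.card_pos.2 ⟨o, oT⟩)) (Int.ofNat_le.2 T.card_le_univ)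
    (Nat.isCoprime_iff_coprime.2 (hHall.coprime_dvd_left t1))
    (by rw [← (ev a3).2.2, Matrix.mul_assoc, a2, Matrix.mul_smul, a1]; simp [J, pow_two])
    (by rw [← (ev a3).1, mul_apply]; simp [A, T, ← ite_and])
    (by rw [← (ev a3).2.1, mul_apply]; exact Finset.sum_nonneg fun z _ => by simp only [A, transpose_apply, of_apply]; positivity)
    (by rw [← hj]; linear_combination (ev a7).1 - (ev a8).1 - (ev a7).2.1 + (ev a8).2.1)
    (by rw [← (ev a4).2.2, a5, hj]; simp [J]) with e | e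
  · exact ⟨o, fun g hg => Finset.card_le_one.1 (by omega) _ (hinv g hg o oT) _ oT⟩
  obtain ⟨o', ho'⟩ := Finset.card_eq_one.1 (show Tᶜ.card = 1 by rw [Finset.card_compl]; omega)
  refine ⟨o', fun g hg => Finset.mem_singleton.1 (ho' ▸ Finset.mem_compl.2 fun h => ?_)⟩
  exact Finset.mem_compl.1 (ho'.ge (Finset.mem_singleton_self o')) (by simpa using hinv g⁻¹ (inv_smul_eq_iff.2 hg.symm) _ h)

end

/-- Let G be a doubly transitive group of permutations of a finite set Ω in which a point stabilizer is a Hall subgroup of G (its order is coprime to its index). Then every automorphism of G of odd order is induced by conjugation by a permutation of Ω normalizing G. -/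
theorem result {Ω : Type*} [Fintype Ω] (G : Subgroup (Equiv.Perm Ω)) (h2 : MulAction.IsMultiplyPretransitive G Ω 2) (o : Ω) (hHall : (Nat.card (MulAction.stabilizer G o)).Coprime (MulAction.stabilizer G o).index) (α : MulAut G) (hα : Odd (orderOf α)) : ∃ σ : Equiv.Perm Ω, σ ∈ Subgroup.normalizer (G : Set (Equiv.Perm Ω)) ∧ ∀ g : G, ((α g : G) : Equiv.Perm Ω) = σ * (g : Equiv.Perm Ω) * σ⁻¹ := by
  open Subgroup Pointwise commutatorElement Cfsg.Agent.BG Cfsg.Agent.GS in
  open Cfsg.Agent.H2 hiding card_lt_of_lt card_lt_of_ne_top isMulCommutative_of_le isPGroup_zpowers_iff mem_of_pow_mem_of_coprime inf_eq_bot_of_cop exists_maxElem_ge Sec in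
  open Cfsg.Agent.H8 (Op Opp Fit SN) in
  open Cfsg.Agent.L (FPF) in focus
    classical
    obtain ⟨o', h⟩ := exists_fix h2 o hHall α hα
    choose τ hτ using (MulAction.isPretransitive_of_is_two_pretransitive (G := G) (α := Ω)).exists_smul_eq o
    have k : ∀ g x, α (τ (g • x)) • o' = α g • α (τ x) • o' := fun g x => by
      have := h ((τ (g • x))⁻¹ * (g * τ x)) (by rw [mul_smul, mul_smul, hτ, inv_smul_eq_iff, hτ])
      rwa [map_mul, map_mul, map_inv, mul_smul, mul_smul, inv_smul_eq_iff, eq_comm] at this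
    let σ := Equiv.ofBijective (fun x => α (τ x) • o') (Finite.surjective_iff_bijective.1 fun y =>
      ⟨α.symm (τ y * (τ o')⁻¹) • o, by
        beta_reduce
        rw [k, h _ (hτ o), MulEquiv.apply_symm_apply, mul_smul, show (τ o')⁻¹ • o' = o from inv_smul_eq_iff.2 (hτ o').symm, hτ]⟩)
    have k2 : ∀ g : G, ((α g : G) : Equiv.Perm Ω) = σ * (g : Equiv.Perm Ω) * σ⁻¹ := fun g =>
      eq_mul_inv_of_mul_eq (Equiv.ext fun x => (k g x).symm)
    exact ⟨σ, H2.mem_normalizer_of_cj_le (H2.cj_le_iff_forall.2 fun x hx => k2 ⟨x, hx⟩ ▸ (α _).2), k2⟩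

end Cfsg.Agent.S4290
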