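import Cfsg.Statements.S4291
import Cfsg.Agent.GS.Zas5

set_option autoImplicit false
open Cfsg

namespace Cfsg.Agent.S4291

open Cfsg.Agent.H1

/-- Let G be a finite group that occurs as a Frobenius complement. Then G has exactly one normal subgroup N such that every Sylow subgroup of N is cyclic and the quotient of G by N is trivial or isomorphic to one of the following five groups: the Klein four-group, the alternating group of degree 4, the symmetric group of degree 4, the alternating group of degree 5, the symmetric group of degree 5. (The quotient is described by a surjective homomorphism with kernel N; the Klein four-group is written as the dihedral group of order 4.) -/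
theorem result {G : Type*} [Group G] [Finite G]
    (hFC : (∃ (L : Type) (_ : Group L) (_ : Finite L) (H : Subgroup L), Cfsg.IsFrobeniusComplement H ∧ Nonempty (G ≃* H))) :
    ∃! N : Subgroup G, N.Normal ∧ (∀ (p : ℕ) [Fact p.Prime] (P : Sylow p N), IsCyclic P) ∧
      (N = ⊤ ∨
        (∃ f : G →* DihedralGroup 2, Function.Surjective f ∧ f.ker = N) ∨
        (∃ f : G →* alternatingGroup (Fin 4), Function.Surjective f ∧ f.ker = N) ∨
        (∃ f : G →* Equiv.Perm (Fin 4), Function.Surjective f ∧ f.ker = N) ∨
        (∃ f : G →* alternatingGroup (Fin 5), Function.Surjective f ∧ f.ker = N) ∨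
        (∃ f : G →* Equiv.Perm (Fin 5), Function.Surjective f ∧ f.ker = N)) := by
  open Subgroup Pointwise commutatorElement Cfsg.Agent.BG Cfsg.Agent.GS in
  open Cfsg.Agent.H2 hiding card_lt_of_lt card_lt_of_ne_top isMulCommutative_of_le isPGroup_zpowers_iff mem_of_pow_mem_of_coprime inf_eq_bot_of_cop exists_maxElem_ge Sec in
  open Cfsg.Agent.H8 (Op Opp Fit SN) in
  open Cfsg.Agent.L (FPF) in focus
    have h := IsFC.fc hFC
    have z1 : ∀ {N : Subgroup G}, (∀ (p : ℕ) [Fact p.Prime] (P : Sylow p N), IsCyclic P) → IsZGroup N := fun h =>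
      ⟨fun p hp P => by haveI := Fact.mk hp; exact h p P⟩
    obtain ⟨N, hN, hZ, h6⟩ : ∃ N : Subgroup G, N.Normal ∧ IsZGroup N ∧ Quo6 N := by
      by_cases hs : Group.IsSolvable G
      · obtain ⟨N, a, b, c⟩ := h.exists_quo_solv hs
        exact ⟨N, a, b, c.imp id (Or.imp id (Or.imp id Or.inl))⟩
      · obtain ⟨N, a, b, c⟩ := h.exists_quo_ns hs
        exact ⟨N, a, b, Or.inr (Or.inr (Or.inr (Or.inr c)))⟩
    exact ⟨N, ⟨hN, fun p _ P => inferInstance, h6⟩, fun M ⟨a, b, c⟩ => h.quo6_unique (z1 b) hZ c h6⟩

end Cfsg.Agent.S4291
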