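import Cfsg.Statements.S4292
import Cfsg.Agent.GS.Zas4

set_option autoImplicit false
open Cfsg

namespace Cfsg.Agent.S4292

open Cfsg.Agent.H1

/-- Let A and B be nontrivial finite groups. Then the direct product A × B occurs as a Frobenius complement if and only if A and B both occur as Frobenius complements and the orders of A and B are coprime. -/
theorem result {A B : Type*} [Group A] [Finite A] [Nontrivial A] [Group B] [Finite B] [Nontrivial B] :
    (∃ (L : Type) (_ : Group L) (_ : Finite L) (H : Subgroup L), Cfsg.IsFrobeniusComplement H ∧ Nonempty ((A × B) ≃* H)) ↔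
    ((∃ (L : Type) (_ : Group L) (_ : Finite L) (H : Subgroup L), Cfsg.IsFrobeniusComplement H ∧ Nonempty (A ≃* H)) ∧
     (∃ (L : Type) (_ : Group L) (_ : Finite L) (H : Subgroup L), Cfsg.IsFrobeniusComplement H ∧ Nonempty (B ≃* H)) ∧
     (Nat.card A).Coprime (Nat.card B)) := by
  open Subgroup Pointwise commutatorElement Cfsg.Agent.BG Cfsg.Agent.GS in
  open Cfsg.Agent.H2 hiding card_lt_of_lt card_lt_of_ne_top isMulCommutative_of_le isPGroup_zpowers_iff mem_of_pow_mem_of_coprime inf_eq_bot_of_cop exists_maxElem_ge Sec in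
  open Cfsg.Agent.H8 (Op Opp Fit SN) in
  open Cfsg.Agent.L (FPF) in focus
    refine ⟨fun h => ?_, fun ⟨hA, hB, hc⟩ => ((IsFC.fc hA).prod (IsFC.fc hB) hc).isFC⟩
    have h' := IsFC.fc h
    refine ⟨(h'.of_injective (MonoidHom.inl A B) (Prod.mk_left_injective 1)).isFC,
      (h'.of_injective (MonoidHom.inr A B) (Prod.mk_right_injective 1)).isFC, ?_⟩
    refine Nat.coprime_of_dvd fun p hp h1 h2 => ?_
    haveI := Fact.mk hp
    obtain ⟨a, ha⟩ := exists_prime_orderOf_dvd_card' p h1
    obtain ⟨b, hb⟩ := exists_prime_orderOf_dvd_card' p h2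
    obtain ⟨i, hi⟩ := h'.mem_zpowers_of_commute (x := (a, 1)) (y := (1, b)) (Prod.ext (by simp) (by simp))
      (by rw [Prod.orderOf_mk, Prod.orderOf_mk]; simp [ha, hb])
    have : a = 1 := by simpa using (congrArg Prod.fst hi).symm
    rw [this, orderOf_one] at ha
    exact hp.one_lt.ne ha

end Cfsg.Agent.S4292
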