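import Cfsg.Statements.S4295
import Cfsg.Agent.GS.Fk

set_option autoImplicit false
open Cfsg

namespace Cfsg.Agent.S4295

open Cfsg.Agent.H1

/-- For a natural number m the following are equivalent: (a) some finite group has a Frobenius complement isomorphic to the quaternion group of order 8 whose Frobenius kernel (the identity together with the elements lying in no conjugate of the complement) has exactly m elements; (b) m is an odd perfect square greater than 1. -/
theorem result (m : ℕ) :
    (∃ (L : Type) (_ : Group L) (_ : Finite L) (H : Subgroup L), Cfsg.IsFrobeniusComplement H ∧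
        Nonempty (H ≃* QuaternionGroup 2) ∧ Nat.card (Cfsg.frobeniusKernel H) = m) ↔
    (Odd m ∧ IsSquare m ∧ 1 < m) := by
  open Subgroup Pointwise commutatorElement Cfsg.Agent.BG Cfsg.Agent.GS in
  open Cfsg.Agent.H2 hiding card_lt_of_lt card_lt_of_ne_top isMulCommutative_of_le isPGroup_zpowers_iff mem_of_pow_mem_of_coprime inf_eq_bot_of_cop exists_maxElem_ge Sec in
  open Cfsg.Agent.H8 (Op Opp Fit SN) in
  open Cfsg.Agent.L (FPF) in focus
    refine ⟨fun ⟨L, _, _, H, h, ⟨e⟩, hm⟩ => hm ▸ frob_quat h le_rfl one_pos e, fun ⟨h1, ⟨k, h2⟩, h3⟩ => ?_⟩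
    obtain ⟨V, _, _, ψ, c, h⟩ := exists_Q8_act k (Nat.odd_mul.1 (h2 ▸ h1)).1
    haveI : Nontrivial V := Finite.one_lt_card_iff_nontrivial.1 (by rw [c, ← h2]; exact h3)
    have hf := fpf_sd (autOfEnd ψ) fun g hg v hv => h g hg v.toAdd hv
    refine ⟨_, inferInstance, inferInstance, _, L.frobenius_of_fpf sl_sup_sr (by rw [Ne, sl_eq_bot]; exact top_ne_bot)
      (by rw [Ne, sr_eq_bot]; exact top_ne_bot) hf, ⟨(srTopEquiv _).symm⟩, ?_⟩
    rw [frobKernel_eq sl_sup_sr hf, h2, ← c]
    exact card_sl_top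

end Cfsg.Agent.S4295
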