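import Cfsg.Statements.S4296
import Cfsg.Agent.GS.Fk

set_option autoImplicit false
open Cfsg

namespace Cfsg.Agent.S4296

open Cfsg.Agent.H1

/-- Let H be a Frobenius complement in a finite group, and suppose some Sylow subgroup of H is not cyclic. Then the number of elements of the Frobenius kernel (the identity together with the elements lying in no conjugate of H) is an odd perfect square. -/
theorem result {L : Type*} [Group L] [Finite L] (H : Subgroup L) (hF : Cfsg.IsFrobeniusComplement H)
    (hZ : ∃ (p : ℕ) (_ : Fact p.Prime) (P : Sylow p H), ¬ IsCyclic P) :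
    Odd (Nat.card (Cfsg.frobeniusKernel H)) ∧ IsSquare (Nat.card (Cfsg.frobeniusKernel H)) := by
  open Subgroup Pointwise commutatorElement Cfsg.Agent.BG Cfsg.Agent.GS in
  open Cfsg.Agent.H2 hiding card_lt_of_lt card_lt_of_ne_top isMulCommutative_of_le isPGroup_zpowers_iff mem_of_pow_mem_of_coprime inf_eq_bot_of_cop exists_maxElem_ge Sec in
  open Cfsg.Agent.H8 (Op Opp Fit SN) in
  open Cfsg.Agent.L (FPF) in focus
    obtain ⟨p, _, P, hP⟩ := hZ
    obtain ⟨K, hK, -, h1, h2, -⟩ := exists_frobKernel hF
    obtain ⟨e⟩ : Nonempty (P ≃* (P : Subgroup H).map H.subtype) := ⟨equivMapOfInjective _ _ H.subtype_injective⟩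
    rcases (h2.mono le_rfl (map_subtype_le (P : Subgroup H))).isCyclic_or_quaternion le_normalizer_of_normal h1 (P.2.map _) with h | ⟨-, n, hn, ⟨f⟩⟩
    · exact absurd (isCyclic_of_surjective e.symm e.symm.surjective) hP
    obtain ⟨n, rfl⟩ : ∃ m, n = m + 1 := ⟨n - 1, by omega⟩
    rw [pow_succ'] at f
    have := frob_quat hF (map_subtype_le _) (by positivity) f
    exact ⟨this.1, this.2.1⟩

end Cfsg.Agent.S4296
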