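import Cfsg.Statements.S4297
import Cfsg.Agent.GS.ZasE
import Cfsg.Agent.H4.Dick3

set_option autoImplicit false
open Cfsg

namespace Cfsg.Agent.S4297

open Cfsg.Agent.H1

/-- For every n ≥ 2 the dicyclic group of order 4n (generated by an element a of order 2n and an element x with x² = aⁿ and x a x⁻¹ = a⁻¹) occurs as a Frobenius complement of some finite Frobenius group. -/
theorem result (n : ℕ) (hn : 2 ≤ n) :
    ∃ (L : Type) (_ : Group L) (_ : Finite L) (H : Subgroup L), Cfsg.IsFrobeniusComplement H ∧ Nonempty (H ≃* QuaternionGroup n) := by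
  open Subgroup Pointwise commutatorElement Cfsg.Agent.BG Cfsg.Agent.GS in
  open Cfsg.Agent.H2 hiding card_lt_of_lt card_lt_of_ne_top isMulCommutative_of_le isPGroup_zpowers_iff mem_of_pow_mem_of_coprime inf_eq_bot_of_cop exists_maxElem_ge Sec in
  open Cfsg.Agent.H8 (Op Opp Fit SN) in
  open Cfsg.Agent.L (FPF) in focus
    obtain h := Complex.isPrimitiveRoot_exp (2 * n) (by omega)
    generalize Complex.exp _ = ζ at h
    have hz : ζ * star ζ = 1 := by
      rw [Complex.star_def, Complex.mul_conj, Complex.normSq_eq_norm_sq, h.norm'_eq_one (by omega)]; simp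
    let φ : ℂ →+* Quaternion ℝ := (Quaternion.ofComplex : ℂ →ₐ[ℝ] Quaternion ℝ)
    have hφ : Function.Injective φ := φ.injective
    let a : (Quaternion ℝ)ˣ := Units.map φ.toMonoidHom (h.isUnit (by omega)).unit
    obtain ⟨j, j1, j2, j3, j4⟩ : ∃ j : Quaternion ℝ, j.re = 0 ∧ j.imI = 0 ∧ j.imJ = 1 ∧ j.imK = 0 :=
      ⟨⟨0, 0, 1, 0⟩, rfl, rfl, rfl, rfl⟩
    have hj : j * j = -1 := by ext <;> simp [*] <;> rfl
    have hφ1 : ∀ z : ℂ, (φ z).re = z.re ∧ (φ z).imI = z.im ∧ (φ z).imJ = 0 ∧ (φ z).imK = 0 := fun z => ⟨rfl, rfl, rfl, rfl⟩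
    have hjz : ∀ z : ℂ, j * φ z = φ (star z) * j := fun z => by ext <;> simp [j1, j2, j3, j4, hφ1]
    let b : (Quaternion ℝ)ˣ := ⟨j, -j, by rw [mul_neg, hj, neg_neg], by rw [neg_mul, hj, neg_neg]⟩
    have ha : orderOf a = 2 * n := by
      rw [orderOf_injective _ (Units.map_injective hφ), ← orderOf_units]
      exact h.eq_orderOf.symm
    have hn' : ζ ^ n = -1 := (h.pow (by omega) (mul_comm 2 n)).eq_neg_one_of_two_right
    obtain ⟨f, hf, -⟩ := H4.exists_quat_hom (a := a) (b := b) (by omega) ha (by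
      rintro ⟨i, hi⟩
      have : (j : Quaternion ℝ) = φ (ζ ^ i) := by
        have := congrArg Units.val hi
        simpa [a, b] using this.symm
      have := congrArg (fun q : Quaternion ℝ => q.imJ) this
      simp only [j3, hφ1] at this
      exact one_ne_zero this)
      (Units.ext (by
        change j ^ 2 = φ ζ ^ n
        rw [pow_two, hj, ← map_pow, hn', map_neg, map_one]))
      (by
        rw [mul_inv_eq_iff_eq_mul, eq_inv_mul_iff_mul_eq]
        refine Units.ext ?_
        change φ ζ * (j * φ ζ) = j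
        rw [hjz, ← mul_assoc, ← map_mul, hz, map_one, one_mul])
    haveI : NeZero n := ⟨by omega⟩
    obtain ⟨L, _, _, H, h1, ⟨e⟩⟩ := (FC.of_div ((Units.coeHom _).comp f) (Units.val_injective.comp hf)).isFC
    exact ⟨L, _, ‹_›, H, h1, ⟨e.symm⟩⟩

end Cfsg.Agent.S4297
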