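import Cfsg.Statements.S4301


set_option autoImplicit false
open Cfsg

namespace Cfsg.Agent.S4301

open Subgroup Equiv
open scoped Pointwise commutatorElement

/-- One-point extension of a multiply transitive group. Let X be a set and G a group of permutations of Option X (the set X with one extra point ∗ = none) all of whose elements fix ∗, such that G is k-transitive on the points of X for some k ≥ 2, X having at least k points. Suppose a permutation h of Option X and an element g of G satisfy: h interchanges ∗ with a point x of X and fixes a point y of X; g interchanges x and y; (g h)³ and h² lie in G; and for every f in G fixing x, the product h f h lies in G and fixes x. Then an element of the group generated by G and h fixes ∗ exactly when it lies in G, and that group acts (k+1)-transitively on Option X. -/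
theorem result {X : Type*} (G : Subgroup (Equiv.Perm (Option X))) (hfix : ∀ f ∈ G, f none = none)
    (k : ℕ) (hk : 2 ≤ k) (hkX : Nonempty (Fin k ↪ X))
    (htrans : ∀ a b : Fin k ↪ X, ∃ f ∈ G, ∀ i, f (some (a i)) = some (b i))
    (h g : Equiv.Perm (Option X)) (hg : g ∈ G) (x y : X)
    (h1 : h none = some x) (h2 : h (some x) = none) (h3 : h (some y) = some y)
    (h4 : g (some x) = some y) (h5 : g (some y) = some x)
    (h6 : (g * h) ^ 3 ∈ G) (h7 : h ^ 2 ∈ G)
    (h8 : ∀ f ∈ G, f (some x) = some x → h * f * h ∈ G ∧ (h * f * h) (some x) = some x) :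
    (∀ f ∈ Subgroup.closure ((G : Set (Equiv.Perm (Option X))) ∪ {h}), f none = none ↔ f ∈ G) ∧
      MulAction.IsMultiplyPretransitive (Subgroup.closure ((G : Set (Equiv.Perm (Option X))) ∪ {h})) (Option X) (k + 1) := by
  classical
  obtain ⟨k, rfl⟩ : ∃ j, k = j + 2 := ⟨k - 2, by omega⟩
  obtain ⟨e⟩ := hkX
  have t2 : ∀ a b c d : X, a ≠ b → c ≠ d → ∃ f ∈ G, f (some a) = some c ∧ f (some b) = some d := fun a b c d ab cd => by
    obtain ⟨f, hf, t⟩ := htrans ((e.setValue 0 a).setValue 1 b) ((e.setValue 0 c).setValue 1 d)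
    have t0 := t 0
    have t1 := t 1
    rw [Function.Embedding.setValue_eq_of_ne (by simp) (by simpa), Function.Embedding.setValue_eq_of_ne (b := d) (by simp) (by simpa)] at t0
    simp only [Function.Embedding.setValue_eq] at t0 t1
    exact ⟨f, hf, t0, t1⟩
  have xy : x ≠ y := by rintro rfl; simp [h2] at h3
  have sm : ∀ f ∈ G, ∀ z, ∃ u, f (some z) = some u := fun f hf z => Option.ne_none_iff_exists'.1 fun a => by
    simpa using f.injective (a.trans (hfix f hf).symm)
  have hi : h⁻¹ = h * (h ^ 2)⁻¹ := by group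
  have key : ∀ f ∈ G, h * f * h ∈ G ∨ ∃ a ∈ G, ∃ b ∈ G, h * f * h = a * h * b := fun f hf => by
    obtain ⟨z, hz⟩ := sm f hf x
    by_cases a : z = x
    · exact .inl (h8 f hf (a ▸ hz)).1
    obtain ⟨u, hu, b, c⟩ := t2 x y x z xy (Ne.symm a)
    have d := (h8 _ (mul_mem (inv_mem (mul_mem hu hg)) hf) (by rw [Perm.mul_apply, hz, Perm.inv_eq_iff_eq, Perm.mul_apply, h4, c])).1
    exact .inr ⟨_, mul_mem (mul_mem (mul_mem (mul_mem (h8 u hu b).1 (inv_mem h7)) (inv_mem hg)) h6) (inv_mem h7), _,
      mul_mem (mul_mem (inv_mem hg) (inv_mem h7)) d, by simp only [pow_succ, pow_zero, one_mul]; group⟩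
  have st : ∀ f ∈ closure ((G : Set (Perm (Option X))) ∪ {h}), f ∈ G ∨ ∃ a ∈ G, ∃ b ∈ G, f = a * h * b := fun f hf => by
    induction hf using closure_induction with
    | mem f hf => exact hf.imp_right fun a => ⟨1, one_mem _, 1, one_mem _, by simpa using a⟩
    | one => exact .inl (one_mem _)
    | mul u v _ _ a b =>
      rcases a with a | ⟨a, ha, c, hc, rfl⟩ <;> rcases b with b | ⟨b, hb, d, hd, rfl⟩
      · exact .inl (mul_mem a b)
      · exact .inr ⟨_, mul_mem a hb, d, hd, by group⟩
      · exact .inr ⟨a, ha, _, mul_mem hc b, by group⟩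
      rw [show a * h * c * (b * h * d) = a * (h * (c * b) * h) * d by group]
      rcases key _ (mul_mem hc hb) with e | ⟨s, hs, t, ht, e⟩
      · exact .inl (mul_mem (mul_mem ha e) hd)
      exact .inr ⟨_, mul_mem ha hs, _, mul_mem ht hd, by rw [e]; group⟩
    | inv u _ a =>
      rcases a with a | ⟨a, ha, c, hc, rfl⟩
      · exact .inl (inv_mem a)
      exact .inr ⟨_, inv_mem hc, _, mul_mem (inv_mem h7) (inv_mem ha), by group⟩
  refine ⟨fun f hf => ⟨fun a => (st f hf).resolve_right ?_, hfix f⟩, MulAction.isMultiplyPretransitive_iff.2 fun a b => ?_⟩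
  · rintro ⟨u, hu, v, hv, rfl⟩
    obtain ⟨z, hz⟩ := sm u hu x
    simp [hfix v hv, h1, hz] at a
  have gl : G ≤ closure ((G : Set (Perm (Option X))) ∪ {h}) := fun f hf => subset_closure (.inl hf)
  have mv : ∀ a : Fin (k + 2 + 1) ↪ Option X, ∃ u ∈ closure ((G : Set (Perm (Option X))) ∪ {h}), u (a 0) = none ∧
      ∃ a' : Fin (k + 2) ↪ X, ∀ i, u (a i.succ) = some (a' i) := fun a => by
    obtain ⟨u, hu, b⟩ : ∃ u ∈ closure ((G : Set (Perm (Option X))) ∪ {h}), u (a 0) = none := by
      rcases c : a 0 with _ | z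
      · exact ⟨1, one_mem _, rfl⟩
      by_cases d : z = x
      · exact ⟨h, subset_closure (.inr rfl), d ▸ h2⟩
      obtain ⟨f, hf, i, -⟩ := t2 z x x y d xy
      exact ⟨h * f, mul_mem (subset_closure (.inr rfl)) (gl hf), by rw [Perm.mul_apply, i, h2]⟩
    choose a' ha' using fun i : Fin (k + 2) => Option.ne_none_iff_exists'.1 fun c : u (a i.succ) = none =>
      i.succ_ne_zero (a.injective (u.injective (c.trans b.symm)))
    exact ⟨u, hu, b, ⟨a', fun i j c => Fin.succ_injective _ (a.injective (u.injective (by rw [ha', ha', c])))⟩, ha'⟩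
  obtain ⟨u, hu, u0, a', ua⟩ := mv a
  obtain ⟨v, hv, v0, b', vb⟩ := mv b
  obtain ⟨f, hf, t⟩ := htrans a' b'
  refine ⟨⟨v⁻¹ * f * u, mul_mem (mul_mem (inv_mem hv) (gl hf)) hu⟩, Function.Embedding.ext fun i => ?_⟩
  change v⁻¹ (f (u (a i))) = b i
  rw [Perm.inv_eq_iff_eq]
  refine i.cases ?_ fun i => ?_
  · rw [u0, v0, hfix f hf]
  rw [ua, vb, t]

end Cfsg.Agent.S4301
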