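import Cfsg.Statements.S4304
import Mathlib
import Cfsg.Agent.H7.SylN

set_option autoImplicit false
open Cfsg

namespace Cfsg.Agent.S4304

/-- No finite group has exactly 15 Sylow 7-subgroups. -/
theorem result {G : Type*} [Group G] [Finite G] : Nat.card (Sylow 7 G) ≠ 15 := by
  intro hn
  haveI : Fact (Nat.Prime 7) := ⟨by norm_num⟩
  obtain ⟨S, _, _, _, h1, h2, h3⟩ := H7.exists_simple_sylow hn (by norm_num) (by decide +kernel)
    fun m hm h => by
      have := Nat.le_of_dvd (by norm_num) hm
      interval_cases m <;> simp_all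
  have h4 := H7.brc_of_simple h1 h2 (n := 2) h3 (by norm_num) (by norm_num)
  obtain ⟨P⟩ : Nonempty (Sylow 7 S) := inferInstance
  have h5 := P.card_dvd_index.trans (Subgroup.index_dvd_card _)
  rw [h3] at h5
  rcases h4.card with e | e
  · omega
  · exact H7.Sv.card_ne 30 (by norm_num) (by decide +kernel) (show Nat.card S = 210 from e)

end Cfsg.Agent.S4304
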