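import Cfsg.Statements.S4305
import Cfsg.Agent.C3.FP4

set_option autoImplicit false
open Cfsg

namespace Cfsg.Agent.S4305

open H2 in

/-- Let the symmetric group of degree 3 act by automorphisms on a finite solvable group `G` of order prime to 6, so that only the identity of `G` is fixed by all of it. Then the derived subgroup of `G` is nilpotent. -/
theorem result {G : Type*} [Group G] [Finite G] [Group.IsSolvable G]
    [MulDistribMulAction (Equiv.Perm (Fin 3)) G] (hcop : (Nat.card G).Coprime 6)
    (hfpf : ∀ g : G, (∀ a : Equiv.Perm (Fin 3), a • g = g) → g = 1) :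
    Group.IsNilpotent ↥(commutator G) := by
  let φ := MulDistribMulAction.toMulAut (Equiv.Perm (Fin 3)) G
  refine C3.FP.nil_of_inl φ ?_
  rw [MonoidHom.range_eq_map]
  refine C3.FP.s3_nil (sl φ ⊤) SemidirectProduct.inr (isSolvable_sl_top inferInstance) ?_ (by rwa [card_sl_top]) ?_
  · rw [MonoidHom.range_eq_map]; exact sl_sup_sr
  · rw [MonoidHom.range_eq_map, eq_bot_iff]
    rintro _ ⟨⟨g, -, rfl⟩, h⟩
    rw [hfpf g fun a => inl_mem_centralizer_sr.1 h a trivial, map_one]; exact one_mem _

end Cfsg.Agent.S4305
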