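import Cfsg.Statements.S4314
import Cfsg.Agent.H8.Ito
import Cfsg.Agent.H1.Products
import Cfsg.Agent.H1.Carter

set_option autoImplicit false
open Cfsg

namespace Cfsg.Agent.S4314

open Subgroup hiding commutator_def
open Function Cfsg.Agent.Hopf Cfsg.Agent.Reg
open scoped commutatorElement Pointwise

theorem two {G : Type*} [Group G] [Finite G]
    (h : ∀ x : G, (centralizer ({x} : Set G)).index = 1 ∨ ((centralizer ({x} : Set G)).index).Prime)
    {x y : G} (hx : ((centralizer ({x} : Set G)).index).Prime)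
    (hy : ((centralizer ({y} : Set G)).index).Prime)
    (hlt : (centralizer ({x} : Set G)).index < (centralizer ({y} : Set G)).index) :
    Nat.card (closure {c | ∃ g : G, c = g * x * g⁻¹ * x⁻¹}) = (centralizer ({y} : Set G)).index ∧
    ∀ g : G, g * y * g⁻¹ * y⁻¹ ∈ closure {c | ∃ g : G, c = g * x * g⁻¹ * x⁻¹} := by
  obtain ⟨cl, hcl⟩ : ∃ cl : G → Set G, cl = fun u => {v | ∃ t ∈ (⊤ : Subgroup G), t * u * t⁻¹ = v} :=
    ⟨_, rfl⟩
  have hcl1 : ∀ u, (cl u).ncard = (centralizer ({u} : Set G)).index := fun u => by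
    rw [hcl, ← relIndex_top_right, ← ncard_cj]
  have hcop : (centralizer ({x} : Set G)).index.Coprime (centralizer ({y} : Set G)).index :=
    (Nat.coprime_primes hx hy).2 hlt.ne
  have hfac : ∀ g : G, ∃ a ∈ centralizer ({x} : Set G), ∃ b ∈ centralizer ({y} : Set G), g = a * b :=
    fun g => H1.forall_mul_of_coprime_index hcop g
  have hfac' : ∀ g : G, ∃ a ∈ centralizer ({y} : Set G), ∃ b ∈ centralizer ({x} : Set G), g = a * b :=
    fun g => H1.forall_mul_of_coprime_index hcop.symm g
  -- any product lies in the class of x y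
  have hprod : ∀ g s : G, g * x * g⁻¹ * (s * y * s⁻¹) ∈ cl (x * y) := by
    intro g s
    obtain ⟨a, ha, b, hb, e⟩ := hfac (g⁻¹ * s)
    have ha' : a * x = x * a := mem_centralizer_singleton_iff.1 ha
    have hb' : b * y = y * b := mem_centralizer_singleton_iff.1 hb
    rw [hcl]
    refine ⟨g * a, mem_top _, ?_⟩
    have e2 : s = g * (a * b) := by rw [← e]; group
    calc g * a * (x * y) * (g * a)⁻¹ = g * (a * x) * a⁻¹ * g⁻¹ * (g * a * (y * b) * b⁻¹ * a⁻¹ * g⁻¹) := by
          group
      _ = _ := by rw [ha', ← hb', e2]; group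
  have hsub : ∀ g : G, (fun v => g * x * g⁻¹ * v) '' cl y ⊆ cl (x * y) := by
    rintro g _ ⟨v, hv, rfl⟩
    rw [hcl] at hv
    obtain ⟨s, -, rfl⟩ := hv
    exact hprod g s
  have hcard : ∀ g : G, ((fun v => g * x * g⁻¹ * v) '' cl y).ncard = (centralizer ({y} : Set G)).index :=
    fun g => by rw [Set.ncard_image_of_injective _ (mul_right_injective _), hcl1]
  have hxy : (centralizer ({x * y} : Set G)).index = (centralizer ({y} : Set G)).index := by
    have h1 := Set.ncard_le_ncard (hsub 1) (Set.toFinite _)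
    rw [hcard, hcl1] at h1
    have h2 : (centralizer ({x * y} : Set G)).index ∣
        (centralizer ({x} : Set G)).index * (centralizer ({y} : Set G)).index := by
      rw [← H1.index_inf_of_coprime hcop]
      apply index_dvd_of_le
      intro u hu
      exact mem_centralizer_singleton_iff.2 (Commute.mul_right
        (mem_centralizer_singleton_iff.1 hu.1 : Commute u x) (mem_centralizer_singleton_iff.1 hu.2))
    have h3 := (h (x * y)).resolve_left (by have := hy.one_lt; omega)
    rcases (Nat.Prime.dvd_mul h3).1 h2 with h4 | h4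
    · have := Nat.le_of_dvd hx.pos h4; omega
    · exact (Nat.prime_dvd_prime_iff_eq h3 hy).1 h4
  have heq : ∀ g : G, (fun v => g * x * g⁻¹ * v) '' cl y = cl (x * y) := fun g =>
    Set.eq_of_subset_of_ncard_le (hsub g) (by rw [hcard, hcl1, hxy]) (Set.toFinite _)
  obtain ⟨K, hK⟩ : ∃ K, K = closure {c | ∃ g : G, c = g * x * g⁻¹ * x⁻¹} := ⟨_, rfl⟩
  rw [← hK]
  have hclc : ∀ t v, v ∈ cl y → t * v * t⁻¹ ∈ cl y := by
    rw [hcl]; rintro t _ ⟨s, -, rfl⟩; exact ⟨t * s, mem_top _, by group⟩
  have hKy : ∀ k ∈ K, ∀ v ∈ cl y, k * v ∈ cl y := by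
    intro k hk
    rw [hK] at hk
    induction hk using closure_induction'' with
    | mem c hc =>
      obtain ⟨g, rfl⟩ := hc
      intro v hv
      have h1 : g * x * g⁻¹ * (x⁻¹ * v * x⁻¹⁻¹) ∈ cl (x * y) := hsub g ⟨_, hclc _ _ hv, rfl⟩
      rw [← heq 1] at h1
      obtain ⟨w, hw, e⟩ := h1
      have e' : g * x * g⁻¹ * x⁻¹ * v = x * w * x⁻¹ := by
        have e2 : x * w = g * x * g⁻¹ * (x⁻¹ * v * x⁻¹⁻¹) := by simpa using e
        rw [e2]; group
      rw [e']; exact hclc _ _ hw
    | inv_mem c hc =>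
      obtain ⟨g, rfl⟩ := hc
      intro v hv
      have h1 : 1 * x * 1⁻¹ * ((g * x * g⁻¹)⁻¹ * v * (g * x * g⁻¹)⁻¹⁻¹) ∈ cl (x * y) :=
        hsub 1 ⟨_, hclc _ _ hv, rfl⟩
      rw [← heq g] at h1
      obtain ⟨w, hw, e⟩ := h1
      have e' : (g * x * g⁻¹ * x⁻¹)⁻¹ * v = (g * x * g⁻¹) * w * (g * x * g⁻¹)⁻¹ := by
        have e2 : g * x * g⁻¹ * w = 1 * x * 1⁻¹ * ((g * x * g⁻¹)⁻¹ * v * (g * x * g⁻¹)⁻¹⁻¹) := e
        rw [e2]; group
      rw [e']; exact hclc _ _ hw
    | one => intro v hv; simpa using hv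
    | mul a b _ _ iha ihb => intro v hv; rw [mul_assoc]; exact iha _ (ihb v hv)
  -- K acts freely on the class of y
  have hdvd : Nat.card K ∣ (cl y).ncard := by
    have e1 : cl y = (fun v => v⁻¹) '' ((QuotientGroup.mk : G → G ⧸ K) ⁻¹'
        (QuotientGroup.mk '' ((fun v => v⁻¹) '' cl y))) := by
      ext u
      constructor
      · intro hu; exact ⟨u⁻¹, ⟨u⁻¹, ⟨u, hu, rfl⟩, rfl⟩, inv_inv u⟩
      · rintro ⟨v, ⟨_, ⟨w, hw, rfl⟩, e⟩, rfl⟩
        have := hKy _ (inv_mem (QuotientGroup.eq.1 e)) w hw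
        simpa using this
    rw [e1, Set.ncard_image_of_injective _ inv_injective, ← Nat.card_coe_set_eq,
      Nat.card_congr (QuotientGroup.preimageMkEquivSubgroupProdSet K _), Nat.card_prod]
    exact Dvd.intro _ rfl
  rw [hcl1] at hdvd
  have hK1 : Nat.card K = (centralizer ({y} : Set G)).index := by
    refine ((Nat.dvd_prime hy).1 hdvd).resolve_left fun h1 => hx.one_lt.ne' (idx_one_iff.2 ?_)
    rw [card_eq_one] at h1
    rw [mem_center_iff]
    intro g
    have : g * x * g⁻¹ * x⁻¹ ∈ K := hK ▸ subset_closure ⟨g, rfl⟩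
    rw [h1, mem_bot] at this
    calc g * x = (g * x * g⁻¹ * x⁻¹) * (x * g) := by group
      _ = _ := by rw [this, one_mul]
  refine ⟨hK1, fun g => ?_⟩
  have hy1 : y ∈ cl y := hcl ▸ ⟨1, mem_top _, by group⟩
  have e2 : (fun k => k * y) '' (K : Set G) = cl y := by
    apply Set.eq_of_subset_of_ncard_le _ _ (Set.toFinite _)
    · rintro _ ⟨k, hk, rfl⟩; exact hKy k hk y hy1
    · rw [Set.ncard_image_of_injective _ (mul_left_injective y), hcl1, ← hK1]
      exact le_of_eq (Nat.card_coe_set_eq _)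
  have := hclc g y hy1
  rw [← e2] at this
  obtain ⟨k, hk, e⟩ := this
  have e' : g * y * g⁻¹ * y⁻¹ = k := by
    have e3 : k * y = g * y * g⁻¹ := e
    rw [← e3]; group
  rw [e']; exact hk

/-- Let `G` be a finite group every conjugacy class of which has size 1 or a prime. Then either `G` is nilpotent of class at most 2, or `G/Z(G)` is a non-abelian group of order `pq` for distinct primes `p, q` (a Frobenius group of order `pq`). -/
theorem result {G : Type*} [Group G] [Finite G]
    (h : ∀ x : G, (Subgroup.centralizer ({x} : Set G)).index = 1 ∨ ((Subgroup.centralizer ({x} : Set G)).index).Prime) :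
    Subgroup.upperCentralSeries G 2 = ⊤ ∨
      ∃ p q : ℕ, p.Prime ∧ q.Prime ∧ p ≠ q ∧ Nat.card (G ⧸ Subgroup.center G) = p * q ∧ ¬ IsMulCommutative (G ⧸ Subgroup.center G) := by
  have hl : (∀ a b : G, a * b * a⁻¹ * b⁻¹ ∈ center G) → Subgroup.upperCentralSeries G 2 = ⊤ := by
    intro h
    rw [eq_top_iff]
    intro a _
    rw [Subgroup.mem_upperCentralSeries_succ_iff, Subgroup.upperCentralSeries_one]
    exact h a
  have hpr : ∀ {K : Subgroup G}, (Nat.card K).Prime → ∀ k ∈ K, k ≠ 1 → zpowers k = K := by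
    intro K hK k hk h1
    refine eq_of_le_of_card_ge (zpowers_le.2 hk) (le_of_eq ?_)
    refine (((Nat.dvd_prime hK).1 (card_dvd_of_le (zpowers_le.2 hk))).resolve_left ?_).symm
    rw [card_eq_one, zpowers_eq_bot]; exact h1
  by_cases hex : ∃ x y : G, ((centralizer ({x} : Set G)).index).Prime ∧
    ((centralizer ({y} : Set G)).index).Prime ∧
      (centralizer ({x} : Set G)).index < (centralizer ({y} : Set G)).index
  swap
  · left
    push Not at hex
    obtain ⟨n, hn⟩ : ∃ n, ∀ x : G, (centralizer ({x} : Set G)).index = 1 ∨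
        (centralizer ({x} : Set G)).index = n := by
      by_cases h0 : ∃ x : G, ((centralizer ({x} : Set G)).index).Prime
      · obtain ⟨x, hx⟩ := h0
        exact ⟨_, fun y => (h y).imp_right fun hy => le_antisymm (hex x y hx hy) (hex y x hy hx)⟩
      · exact ⟨1, fun y => Or.inl ((h y).resolve_right fun hy => h0 ⟨y, hy⟩)⟩
    obtain ⟨p, hp, hQ⟩ := ito n hn
    haveI := Fact.mk hp
    haveI : Group.IsNilpotent G := of_quotient_center_nilpotent hQ.isNilpotent
    apply hl
    intro a b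
    rw [mem_center_iff]
    intro w
    refine (mem_centralizer_singleton_iff.1 ?_).symm
    rcases h w with hw | hw
    · rw [index_eq_one.1 hw]; exact mem_top _
    · haveI := NormalizerCondition.normal_of_coatom _ normalizerCondition_of_isNilpotent
        (H1.isCoatom_of_index_prime hw)
      haveI := Fact.mk hw
      haveI := isCyclic_of_prime_card (α := G ⧸ centralizer ({w} : Set G)) (p := (centralizer ({w} : Set G)).index) rfl
      rw [← QuotientGroup.eq_one_iff]
      have := IsCyclic.isMulCommutative.is_comm.comm (a : G ⧸ centralizer ({w} : Set G)) b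
      simp only [QuotientGroup.mk_mul, QuotientGroup.mk_inv, this]
      group
  obtain ⟨x, y, hx, hy, hlt⟩ := hex
  obtain ⟨hK1, hK2⟩ := two h hx hy hlt
  obtain ⟨K, hK⟩ : ∃ K, K = closure {c | ∃ g : G, c = g * x * g⁻¹ * x⁻¹} := ⟨_, rfl⟩
  rw [← hK] at hK1 hK2
  have hne : ∀ u : G, ((centralizer ({u} : Set G)).index).Prime → ∃ g, g * u * g⁻¹ * u⁻¹ ≠ 1 := by
    intro u hu
    by_contra h0
    push Not at h0
    refine hu.one_lt.ne' (idx_one_iff.2 (mem_center_iff.2 fun g => ?_))
    calc g * u = (g * u * g⁻¹ * u⁻¹) * (u * g) := by group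
      _ = _ := by rw [h0, one_mul]
  have hall : ∀ u : G, ((centralizer ({u} : Set G)).index = 1 ∨
      (centralizer ({u} : Set G)).index = (centralizer ({x} : Set G)).index ∨
      (centralizer ({u} : Set G)).index = (centralizer ({y} : Set G)).index) ∧
      ∀ g, g * u * g⁻¹ * u⁻¹ ∈ K := by
    intro u
    rcases h u with hu | hu
    · refine ⟨Or.inl hu, fun g => ?_⟩
      rw [mem_center_iff.1 (idx_one_iff.1 hu) g]; simp
    rcases Nat.lt_trichotomy (centralizer ({u} : Set G)).index (centralizer ({x} : Set G)).index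
      with h1 | h1 | h1
    · have a1 := (two h hu hx h1).1
      have a2 := (two h hu hy (h1.trans hlt)).1
      omega
    · refine ⟨Or.inr (Or.inl h1), fun g => ?_⟩
      obtain ⟨a1, a2⟩ := two h hu hy (h1 ▸ hlt)
      obtain ⟨s, hs⟩ := hne y hy
      rw [← hpr (hK1 ▸ hy) _ (hK2 s) hs, hpr (a1 ▸ hy) _ (a2 s) hs]
      exact subset_closure ⟨g, rfl⟩
    · obtain ⟨a1, a2⟩ := two h hx hu h1
      rw [← hK] at a1 a2
      exact ⟨Or.inr (Or.inr (a1.symm.trans hK1)), a2⟩
  haveI hKn : K.Normal := ⟨fun k hk g => by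
    simpa using K.mul_mem ((hall k).2 g) hk⟩
  by_cases hKZ : K ≤ center G
  · exact Or.inl (hl fun a b => hKZ ((hall b).2 a))
  right
  have hKp : (Nat.card K).Prime := hK1 ▸ hy
  obtain ⟨k, hk, hkZ⟩ := SetLike.not_le_iff_exists.1 hKZ
  have hk1 : k ≠ 1 := fun e => hkZ (e ▸ one_mem _)
  have hzk := hpr hKp k hk hk1
  have hik : (centralizer ({k} : Set G)).index = (centralizer ({x} : Set G)).index := by
    rcases (hall k).1 with h1 | h1 | h1
    · exact absurd (idx_one_iff.1 h1) hkZ
    · exact h1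
    · exfalso
      rw [← relIndex_top_right, ← ncard_cj] at h1
      have h2 : insert 1 {v | ∃ t ∈ (⊤ : Subgroup G), t * k * t⁻¹ = v} ⊆ (K : Set G) := by
        rintro v (rfl | ⟨t, -, rfl⟩)
        · exact K.one_mem
        · exact hKn.conj_mem k hk t
      have h3 := Set.ncard_le_ncard h2 (Set.toFinite _)
      rw [Set.ncard_insert_of_notMem, h1, ← hK1, ← Nat.card_coe_set_eq] at h3
      · exact absurd h3 (Nat.not_succ_le_self _)
      · rintro ⟨t, -, e⟩
        apply hk1
        calc k = t⁻¹ * (t * k * t⁻¹) * t := by group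
          _ = 1 := by rw [e]; group
  obtain ⟨g, hg⟩ : ∃ g, g * k ≠ k * g := by
    by_contra h0
    push Not at h0
    exact hkZ (mem_center_iff.2 h0)
  have hKg : ¬ K ≤ centralizer ({g} : Set G) := fun h0 =>
    hg (mem_centralizer_singleton_iff.1 (h0 hk)).symm
  have hig : (centralizer ({g} : Set G)).index = (centralizer ({y} : Set G)).index := by
    have h1 : (centralizer ({g} : Set G)).relIndex K = Nat.card K :=
      ((Nat.dvd_prime hKp).1 (relIndex_dvd_card _ _)).resolve_left fun h => hKg (relIndex_eq_one.1 h)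
    have h2 := H1.relIndex_dvd_index_of_normal_right (centralizer ({g} : Set G)) K
    rw [h1, hK1] at h2
    rcases h g with h3 | h3
    · rw [h3] at h2; exact absurd (Nat.dvd_one.1 h2) hy.one_lt.ne'
    · exact ((Nat.prime_dvd_prime_iff_eq hy h3).1 h2).symm
  have hinf : ∀ w ∈ K, w ∈ centralizer ({g} : Set G) → w = 1 := by
    intro w hw hw'
    by_contra h1
    exact hKg (hpr hKp w hw h1 ▸ zpowers_le.2 hw')
  have hsup : centralizer ({g} : Set G) ⊔ K = ⊤ :=
    (H1.isCoatom_of_index_prime (hig ▸ hy)).2 _ (left_lt_sup.2 hKg)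
  have hZ : center G = centralizer ({k} : Set G) ⊓ centralizer ({g} : Set G) := by
    refine le_antisymm (le_inf (center_le_centralizer _) (center_le_centralizer _)) ?_
    rintro w ⟨h1, h2⟩
    rw [← idx_one_iff, index_eq_one, eq_top_iff, ← hsup, sup_le_iff, ← hzk, zpowers_le]
    refine ⟨fun a ha => ?_, mem_centralizer_singleton_iff.2 (mem_centralizer_singleton_iff.1 h1).symm⟩
    have := hinf _ ((hall w).2 a) (mul_mem (mul_mem (mul_mem ha h2) (inv_mem ha)) (inv_mem h2))
    rw [mem_centralizer_singleton_iff]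
    calc a * w = (a * w * a⁻¹ * w⁻¹) * (w * a) := by group
      _ = _ := by rw [this, one_mul]
  refine ⟨_, _, hx, hy, hlt.ne, ?_, fun hc => hKZ ?_⟩
  · show (center G).index = _
    rw [hZ, H1.index_inf_of_coprime (by rw [hik, hig]; exact (Nat.coprime_primes hx hy).2 hlt.ne),
      hik, hig]
  · have h1 : g * k * g⁻¹ * k⁻¹ ≠ 1 := fun e => hg (by
      calc g * k = (g * k * g⁻¹ * k⁻¹) * (k * g) := by group
        _ = _ := by rw [e, one_mul])
    rw [← hpr hKp _ ((hall k).2 g) h1, zpowers_le, ← QuotientGroup.eq_one_iff]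
    have := hc.is_comm.comm (g : G ⧸ center G) k
    simp only [QuotientGroup.mk_mul, QuotientGroup.mk_inv, this]
    group

end Cfsg.Agent.S4314
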