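import Cfsg.Statements.S4320
import Cfsg.Agent.H9.TJ

set_option autoImplicit false
open Cfsg

namespace Cfsg.Agent.S4320

open Cfsg.Agent Cfsg.Agent.H9
open Module

theorem kill0 {G Γ R M : Type*} [Group G] [Fintype G] [CommGroup Γ] [Finite Γ] [CommRing R] [AddCommGroup M] [Module R M]
    (π : G →* Γ) (hπ : Function.Surjective π) (hk : π.ker ≤ commutator G) (ε : R →+* ℤ) (u : G → R) (hu : ∀ x, ε (u x) = 1)
    (d : G → M) (hd : ∀ x y, d (x * y) = d x + u x • d y) : ∃ μ : R, (ε μ).natAbs = Nat.card Γ ∧ ∀ g, μ • d g = 0 := by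
  classical
  let W : Submodule R M := (Submodule.pi Set.univ fun _ : G => RingHom.ker ε).map (Fintype.linearCombination R d)
  let ψ : G →* Multiplicative (M ⧸ W) := MonoidHom.mk' (fun x => Multiplicative.ofAdd (W.mkQ (d x))) fun x y => by
    rw [← ofAdd_add, ← map_add]
    congr 1
    refine (Submodule.Quotient.eq W).mpr ⟨Pi.single y (u x - 1), fun j _ => ?_, ?_⟩
    · by_cases h : j = y
      · subst h; simp [RingHom.mem_ker, hu]
      · simp [h]
    · rw [Fintype.linearCombination_apply_single, hd, sub_smul, one_smul]; abel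
  let φ : Γ →* Multiplicative (M ⧸ W) := π.liftOfSurjective hπ ⟨ψ, hk.trans (Abelianization.commutator_subset_ker ψ)⟩
  have hφ : ∀ x, φ (π x) = ψ x := fun x => MonoidHom.liftOfRightInverse_comp_apply _ _ _ _ x
  let e : (G → ℤ) →ₗ[ℤ] Additive Γ := Fintype.linearCombination ℤ fun j => Additive.ofMul (π j)
  have he : Function.Surjective e := fun γ => by
    obtain ⟨x, hx⟩ := hπ γ.toMul
    exact ⟨Pi.single x 1, by rw [Fintype.linearCombination_apply_single, one_smul, hx]; rfl⟩
  have hc : Nat.card ((G → ℤ) ⧸ LinearMap.ker e) = Nat.card Γ := Nat.card_congr (e.quotKerEquivOfSurjective he).toEquiv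
  have hr := (Submodule.finiteQuotient_iff (LinearMap.ker e)).mp (Nat.finite_of_card_ne_zero (hc ▸ Nat.card_pos.ne'))
  rw [finrank_fintype_fun_eq_card] at hr
  let b : Basis G ℤ (LinearMap.ker e) := (finBasisOfFinrankEq ℤ _ hr).reindex (Fintype.equivFin G).symm
  have hb := Submodule.natAbs_det_basis_change (Pi.basisFun ℤ G) _ b
  have hW : ∀ i, ∃ r : G → R, (∀ j, ε (r j) = 0) ∧ ∑ j, r j • d j = ∑ j, (((b i).1 j : ℤ) : R) • d j := fun i => by
    have h1 := congrArg (MonoidHom.toAdditiveLeft φ) (LinearMap.mem_ker.mp (b i).2)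
    rw [map_zero, Fintype.linearCombination_apply, map_sum] at h1
    have h2 : W.mkQ (∑ j, (((b i).1 j : ℤ) : R) • d j) = 0 := by
      rw [← h1, map_sum]
      refine Finset.sum_congr rfl fun j _ => ?_
      rw [map_zsmul, Int.cast_smul_eq_zsmul, map_zsmul]
      congr 1
      exact (congrArg Multiplicative.toAdd (hφ j)).symm
    obtain ⟨r, hr1, hr2⟩ := (Submodule.Quotient.mk_eq_zero W).mp h2
    exact ⟨r, fun j => hr1 j trivial, by rw [← hr2, Fintype.linearCombination_apply]⟩
  choose r hr1 hr2 using hW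
  let μ : Matrix G G R := Matrix.of fun i j => (((b i).1 j : ℤ) : R) - r i j
  have h3 : ∀ i, ∑ j, μ i j • d j = 0 := fun i => by
    simp only [μ, Matrix.of_apply, sub_smul, Finset.sum_sub_distrib, hr2, sub_self]
  refine ⟨μ.det, ?_, fun g => ?_⟩
  · rw [RingHom.map_det, ← hc, ← hb, Basis.det_apply, ← Matrix.det_transpose]
    congr 2
    ext i j
    simp [μ, hr1, Basis.toMatrix_apply]
  · calc μ.det • d g = ∑ j, (μ.adjugate * μ) g j • d j := by
          rw [Matrix.adjugate_mul, Finset.sum_eq_single g] <;> simp +contextual [Matrix.one_apply, eq_comm]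
      _ = ∑ i, μ.adjugate g i • ∑ j, μ i j • d j := by
          simp only [Matrix.mul_apply, Finset.sum_smul, Finset.smul_sum, mul_smul]
          exact Finset.sum_comm
      _ = 0 := by simp [h3]

theorem kill {G Γ M : Type*} [Group G] [Fintype G] [CommGroup Γ] [Fintype Γ] [AddCommGroup M] (ρ : Representation ℤ Γ M)
    (π : G →* Γ) (hπ : Function.Surjective π) (hk : π.ker ≤ commutator G)
    (d : G → M) (hd : ∀ x y, d (x * y) = d x + ρ (π x) (d y)) (g : G) : ∑ γ, ρ γ (d g) = 0 := by
  classical
  letI : Module (MonoidAlgebra ℤ Γ) M := Module.compHom M ρ.asAlgebraHom.toRingHom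
  have hs : ∀ (a : MonoidAlgebra ℤ Γ) (m : M), a • m = ρ.asAlgebraHom a m := fun _ _ => rfl
  obtain ⟨μ, h1, h2⟩ := kill0 (M := M × MonoidAlgebra ℤ Γ) π hπ hk (MonoidAlgebra.lift ℤ ℤ Γ 1).toRingHom
    (fun x => MonoidAlgebra.single (π x) 1) (fun x => by simp) (fun x => (d x, MonoidAlgebra.single (π x) 1 - 1)) fun x y => by
      refine Prod.ext ?_ ?_
      · show d (x * y) = d x + MonoidAlgebra.single (π x) (1 : ℤ) • d y
        rw [hs, hd]; simp
      · simp [mul_sub, MonoidAlgebra.single_mul_single]
  have h3 : ∀ γ, μ.coeff γ = μ.coeff 1 := fun γ => by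
    obtain ⟨x, rfl⟩ := hπ γ
    have h4 : μ * (MonoidAlgebra.single (π x) 1 - 1) = 0 := congrArg Prod.snd (h2 x)
    rw [mul_sub, mul_one, sub_eq_zero] at h4
    conv_lhs => rw [← h4]
    simp
  have h5 : μ = μ.coeff 1 • ∑ γ, MonoidAlgebra.single γ (1 : ℤ) := by
    ext γ
    rw [MonoidAlgebra.coeff_smul, h3 γ]
    simp [Finsupp.single_apply]
  generalize μ.coeff 1 = t at h5
  subst h5
  have h6 : t.natAbs = 1 := by
    simp only [AlgHom.toRingHom_eq_coe, RingHom.coe_coe, map_smul, map_sum, MonoidAlgebra.lift_single, MonoidHom.one_apply,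
      smul_eq_mul, mul_one, Finset.sum_const, Finset.card_univ, nsmul_eq_mul, Int.natAbs_mul, Int.natAbs_natCast,
      Nat.card_eq_fintype_card] at h1
    exact Nat.eq_of_mul_eq_mul_right Fintype.card_pos (h1.trans (one_mul _).symm)
  have h7 : (t • ∑ γ, MonoidAlgebra.single γ (1 : ℤ)) • d g = 0 := congrArg Prod.fst (h2 g)
  rw [hs, map_smul, map_sum] at h7
  simp only [Representation.asAlgebraHom_single_one, LinearMap.smul_apply, LinearMap.sum_apply] at h7
  rcases Int.natAbs_eq_iff.mp h6 with rfl | rfl <;> simpa using h7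

/-- The Principal Ideal Theorem of class field theory in its group-theoretic form: for every finite group `G`, the transfer homomorphism from `G` into the abelianization `G'/G''` of its derived subgroup `G'` is the trivial homomorphism. -/
theorem result {G : Type*} [Group G] [Finite G] :
    MonoidHom.transfer (Abelianization.of : ↥(commutator G) →* Abelianization ↥(commutator G)) =
      (1 : G →* Abelianization ↥(commutator G)) := by
  classical
  haveI := Fintype.ofFinite G
  letI : Fintype (G ⧸ commutator G) := (commutator G).fintypeQuotientOfFiniteIndex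
  letI : CommGroup (G ⧸ commutator G) := inferInstanceAs (CommGroup (Abelianization G))
  ext g
  let T : (commutator G).LeftTransversal := default
  let s := T.2.leftQuotientEquiv
  have hs : ∀ q, ((s q : G) : G ⧸ commutator G) = q := fun q => T.2.quotientGroupMk_leftQuotientEquiv q
  have hm : ∀ (x : G) (q : G ⧸ commutator G), (s q : G)⁻¹ * (x * s ((x : G ⧸ commutator G)⁻¹ * q)) ∈ commutator G := fun x q => by
    rw [← QuotientGroup.eq, QuotientGroup.mk_mul, hs, hs, mul_inv_cancel_left]
  let ρ : Representation ℤ (G ⧸ commutator G) (G ⧸ commutator G → Additive (Abelianization (commutator G))) :=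
    { toFun := fun γ => LinearMap.funLeft ℤ _ fun q => γ⁻¹ * q
      map_one' := by ext; simp
      map_mul' := fun a b => by ext; simp [mul_assoc] }
  have h1 := kill ρ (QuotientGroup.mk' (commutator G)) (QuotientGroup.mk'_surjective _) (QuotientGroup.ker_mk' _).le
    (fun x q => Additive.ofMul (Abelianization.of ⟨_, hm x q⟩)) (fun x y => by
      funext q
      show Additive.ofMul (Abelianization.of _) = Additive.ofMul (Abelianization.of _) + Additive.ofMul (Abelianization.of _)
      rw [← ofMul_mul, ← map_mul]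
      congr 2
      apply Subtype.ext
      simp [mul_assoc]) g
  have h2 := congrFun h1 1
  rw [Finset.sum_apply] at h2
  rw [MonoidHom.transfer_def _ T, MonoidHom.one_apply]
  apply Additive.ofMul.injective
  refine Eq.trans ?_ h2
  rw [Subgroup.leftTransversals.diff, ofMul_prod]
  refine Fintype.sum_equiv (Equiv.inv _) _ _ fun q => ?_
  show Additive.ofMul (Abelianization.of _) = Additive.ofMul (Abelianization.of _)
  congr 2
  apply Subtype.ext
  simp only [Subgroup.smul_apply_eq_smul_apply_inv_smul, smul_eq_mul, Equiv.inv_apply, inv_inv, mul_one]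
  rfl

end Cfsg.Agent.S4320
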