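import Cfsg.Statements.S4416
import Mathlib
import Cfsg.Agent.H2.ES2

set_option autoImplicit false
open Cfsg

namespace Cfsg.Agent.S4416

open Cfsg.Agent.H2 Subgroup

/-- Classification of extraspecial 2-groups in intrinsic form. An extraspecial 2-group has order 2^(2m+1) for some m ≥ 1, and the number of its elements squaring to the identity is either 2^(2m) + 2^m or 2^(2m) − 2^m; two extraspecial 2-groups of the same order with the same number of such elements are isomorphic. (The two cases are the central products of m dihedral groups of order 8, and of m − 1 dihedral groups with one quaternion group.) -/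
theorem result (E : Type*) [Group E] [Finite E] (hE : Cfsg.IsExtraspecial 2 E) :
    (∃ m : ℕ, 1 ≤ m ∧ Nat.card E = 2 ^ (2 * m + 1) ∧
      (Nat.card {x : E // x ^ 2 = 1} = 2 ^ (2 * m) + 2 ^ m ∨ Nat.card {x : E // x ^ 2 = 1} = 2 ^ (2 * m) - 2 ^ m)) ∧
    ∀ (E' : Type*) [Group E'] [Finite E'], Cfsg.IsExtraspecial 2 E' → Nat.card E' = Nat.card E →
      Nat.card {x : E' // x ^ 2 = 1} = Nat.card {x : E // x ^ 2 = 1} → Nonempty (E ≃* E') := by
  obtain ⟨n, hn1, hn⟩ := H1.IsExtraspecial.exists_card hE
  obtain ⟨V, _, _, _, c, a, b⟩ := es_exists hE hn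
  refine ⟨⟨n, hn1, hn, ?_⟩, fun E' _ _ hE' hc hk => ?_⟩
  · rcases c.wi_cases a b with h | h
    · exact .inl (c.card_sq_plus a b h)
    · exact .inr (by have := c.card_sq_minus a b h; omega)
  · obtain ⟨V', _, _, _, c', a', b'⟩ := es_exists hE' (hc.trans hn)
    refine c.exists_equiv_of_wi c' a a' hc.symm ?_
    have h0 : 0 < 2 ^ n := by positivity
    rcases c.wi_cases a b with h | h <;> rcases c'.wi_cases a' b' with h' | h'
    · omega
    · have := c.card_sq_plus a b h
      have := c'.card_sq_minus a' b' h'
      omega
    · have := c.card_sq_minus a b h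
      have := c'.card_sq_plus a' b' h'
      omega
    · omega

end Cfsg.Agent.S4416
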