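import Cfsg.Statements.S4421
import Cfsg.Agent.GS.Lem1

set_option autoImplicit false
open Cfsg

namespace Cfsg.Agent.S4421

open Cfsg.Agent.H1

/-- A factorization of a normalizer from two-step control of fusion. Let `G` be a finite group and `A ≤ S ≤ H` subgroups of `G` such that: (i) `S` controls the `G`-fusion of `A` in the sense that every `G`-conjugate of `A` lying in `S` is an `S`-conjugate of `A`; (ii) `H` controls the `G`-fusion of `S` in the same sense; (iii) every conjugate of `S` by an element of the normalizer of `A` lies in `H`. Then `N_G(A) = N_H(A) · (N_G(S) ∩ N_G(A))`: every element of the normalizer of `A` is a product of an element of `H` normalizing `A` and an element normalizing both `S` and `A`. -/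
theorem result {G : Type*} [Group G] [Finite G] (A S H : Subgroup G)
    (hAS : A ≤ S) (hSH : S ≤ H)
    (h1 : ∀ g : G, A.map (MulAut.conj g).toMonoidHom ≤ S → ∃ s ∈ S, A.map (MulAut.conj g).toMonoidHom = A.map (MulAut.conj s).toMonoidHom)
    (h2 : ∀ g : G, S.map (MulAut.conj g).toMonoidHom ≤ H → ∃ y ∈ H, S.map (MulAut.conj g).toMonoidHom = S.map (MulAut.conj y).toMonoidHom)
    (h3 : ∀ x ∈ Subgroup.normalizer (A : Set G), S.map (MulAut.conj x).toMonoidHom ≤ H) :
    ∀ x ∈ Subgroup.normalizer (A : Set G), ∃ y ∈ H ⊓ Subgroup.normalizer (A : Set G),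
      ∃ z ∈ Subgroup.normalizer (S : Set G) ⊓ Subgroup.normalizer (A : Set G), x = y * z := by
  open Subgroup Pointwise commutatorElement Cfsg.Agent.BG Cfsg.Agent.GS in
  open Cfsg.Agent.H2 hiding card_lt_of_lt card_lt_of_ne_top isMulCommutative_of_le isPGroup_zpowers_iff mem_of_pow_mem_of_coprime inf_eq_bot_of_cop exists_maxElem_ge Sec in
  open Cfsg.Agent.H8 (Op Opp Fit SN) in
  open Cfsg.Agent.L (FPF) in focus
    intro x hx
    obtain ⟨y, hy, e1⟩ := h2 x (h3 x hx)
    have e2 : (y⁻¹ * x) ⋆ S = S := by rw [cj_mul]; exact cj_eq_iff.2 (by rw [inv_inv]; exact e1)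
    obtain ⟨s, hs, e3⟩ := h1 (y⁻¹ * x) (e2 ▸ cj_mono _ hAS)
    have e4 : y * s ∈ 𝒩 A := mem_normalizer_iff_cj.2 (by
      rw [cj_mul, ← show (y⁻¹ * x) ⋆ A = s ⋆ A from e3, ← cj_mul, mul_inv_cancel_left, cj_eq_of_mem_normalizer hx])
    refine ⟨y * s, ⟨H.mul_mem hy (hSH hs), e4⟩, (y * s)⁻¹ * x, mem_inf.2 ⟨?_, mul_mem (inv_mem e4) hx⟩, by group⟩
    rw [mul_inv_rev, mul_assoc]
    exact mul_mem (le_normalizer (inv_mem hs)) (mem_normalizer_iff_cj.2 e2)

end Cfsg.Agent.S4421
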