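import Cfsg.Statements.S4422
import Cfsg.Agent.GS.Lem1

set_option autoImplicit false
open Cfsg

namespace Cfsg.Agent.S4422

open Cfsg.Agent.H1

/-- Primitive divisors of `q^e - 1` are congruent to 1 modulo `e`. Let `q ≥ 2` and `e ≥ 1` be natural numbers and let `m` be a divisor of `q^e - 1` that is coprime to `q^i - 1` for every `1 ≤ i < e` (so `m` divides the primitive part of `q^e - 1`, the largest such divisor). Then `m ≡ 1 (mod e)`. -/
theorem result (q e m : ℕ) (hq : 2 ≤ q) (he : 1 ≤ e)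
    (hm : m ∣ q ^ e - 1) (hcop : ∀ i : ℕ, 1 ≤ i → i < e → Nat.Coprime m (q ^ i - 1)) :
    m % e = 1 % e := by
  open Subgroup Pointwise commutatorElement Cfsg.Agent.BG Cfsg.Agent.GS in
  open Cfsg.Agent.H2 hiding card_lt_of_lt card_lt_of_ne_top isMulCommutative_of_le isPGroup_zpowers_iff mem_of_pow_mem_of_coprime inf_eq_bot_of_cop exists_maxElem_ge Sec in
  open Cfsg.Agent.H8 (Op Opp Fit SN) in
  open Cfsg.Agent.L (FPF) in focus
    have h0 : ∀ i, ∀ r : ℕ, r ∣ q ^ i - 1 ↔ (q : ZMod r) ^ i = 1 := fun i r => by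
      rw [← Nat.modEq_iff_dvd' (Nat.one_le_pow _ _ (by omega)), ← ZMod.natCast_eq_natCast_iff]; simp [eq_comm]
    have h1 : ∀ r : ℕ, r.Prime → r ∣ m → r ≡ 1 [MOD e] := fun r hr hd => by
      have := Fact.mk hr
      have h2 := (h0 e r).1 (hd.trans hm)
      have h3 : orderOf (q : ZMod r) = e := (orderOf_eq_iff he).2 ⟨h2, fun i a b c =>
        hr.one_lt.ne' (Nat.eq_one_of_dvd_coprimes (hcop i b a) hd ((h0 i r).2 c))⟩
      refine ((Nat.modEq_iff_dvd' hr.one_le).2 (h3 ▸ ZMod.orderOf_dvd_card_sub_one fun c => ?_)).symm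
      rw [c, zero_pow (by omega)] at h2; exact zero_ne_one h2
    have h2 : m ≠ 0 := fun c => by
      have := Nat.one_lt_pow (n := e) (a := q) (by omega) (by omega)
      rw [c, zero_dvd_iff] at hm; omega
    clear hm hcop
    induction m using induction_on_primes with
    | zero => exact absurd rfl h2
    | one => rfl
    | prime_mul r a hr ih =>
      exact (h1 r hr (dvd_mul_right _ _)).mul (ih (fun s hs hd => h1 s hs (hd.mul_left r)) (right_ne_zero_of_mul h2))

end Cfsg.Agent.S4422
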