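import Cfsg.Statements.S4424
import Cfsg.Agent.B.Contr

set_option autoImplicit false
open Cfsg

namespace Cfsg.Agent.S4424

open Cfsg.Agent Cfsg.Agent.B Cfsg.Agent.H2 Cfsg.Agent.H3 Cfsg.Agent.L Subgroup MonoidAlgebra
open scoped Pointwise commutatorElement

/-- Let χ be an irreducible character of the finite group G lying in the p-block B (relative to a maximal ideal M of the algebraic integers containing p), and let p^a be the p-part of the order of G. Then the class function that equals p^a · χ on the p-regular elements and vanishes on the p-singular elements is an integer combination of the irreducible characters in B: there are integers a_ψ, zero for ψ outside B, with that function equal to Σ a_ψ ψ. -/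
theorem result {G : Type*} [Group G] [Finite G] (p : ℕ) [Fact p.Prime] (M : Ideal Cfsg.AlgInt) (hM : Cfsg.IsPModular p M) (B : Set (Cfsg.IrrCharacter G)) (hB : Cfsg.IsPBlock M B) (χ : Cfsg.IrrCharacter G) (hχ : χ ∈ B) : ∃ a : Cfsg.IrrCharacter G → ℤ, (∀ ψ, ψ ∉ B → a ψ = 0) ∧ (fun x : G => if p ∣ orderOf x then (0 : ℂ) else ((p ^ (Nat.card G).factorization p : ℕ) : ℂ) * (χ : G → ℂ) x) = fun x => ∑ᶠ ψ : Cfsg.IrrCharacter G, (a ψ : ℂ) * (ψ : G → ℂ) x := by
  have : PMod p M := ⟨hM⟩
  have := Fintype.ofFinite G
  obtain ⟨a, h1, h2⟩ := (isGen_smul_reg (p := p) dvd_rfl χ.2.isGen).exists_int_coeffs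
  refine ⟨a, fun ψ hψ => ?_, ?_⟩
  · apply Int.cast_injective (α := ℂ)
    rw [← h1, classInner_smul_left, hB.closed.classInner_reg_eq_zero hχ hψ]; simp
  · ext x
    have := congrFun h2 x
    rw [finsum_eq_sum_of_fintype]
    simpa [reg, Finset.sum_apply] using this

end Cfsg.Agent.S4424
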