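import Cfsg.Statements.S4425
import Cfsg.Agent.B.Contr

set_option autoImplicit false
open Cfsg

namespace Cfsg.Agent.S4425

open Cfsg.Agent Cfsg.Agent.B Cfsg.Agent.H2 Cfsg.Agent.H3 Cfsg.Agent.L Subgroup MonoidAlgebra
open scoped Pointwise commutatorElement

/-- Let χ be an irreducible character of the finite group G, p a prime, p^a the p-part of the order of G and p^b the p-part of the degree χ(1). Let χ̃ be the class function equal to p^a · χ on p-regular elements and zero on p-singular elements. Then p^(−b) · χ̃ is a generalized character of G, while p^(−(b+1)) · χ̃ is not. -/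
theorem result {G : Type*} [Group G] [Finite G] (p : ℕ) [Fact p.Prime] (χ : Cfsg.IrrCharacter G) : Cfsg.IsGeneralizedCharacter G (fun x : G => if p ∣ orderOf x then (0 : ℂ) else ((p ^ ((Nat.card G).factorization p - (Cfsg.charDegree (χ : G → ℂ)).factorization p) : ℕ) : ℂ) * (χ : G → ℂ) x) ∧ ¬ Cfsg.IsGeneralizedCharacter G (fun x : G => if p ∣ orderOf x then (0 : ℂ) else ((p ^ (Nat.card G).factorization p : ℕ) : ℂ) / ((p ^ ((Cfsg.charDegree (χ : G → ℂ)).factorization p + 1) : ℕ) : ℂ) * (χ : G → ℂ) x) := by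
  have := Fintype.ofFinite G
  obtain ⟨M, hM⟩ := exists_pMod p
  have hc := isClassFunction_reg (p := p) χ.2.isClassFunction
  have h0 : ∀ c : ℂ, (fun x : G => if p ∣ orderOf x then (0 : ℂ) else c * (χ : G → ℂ) x) =
      c • reg p χ := fun c => by ext x; simp [reg]
  rw [h0, h0]
  refine ⟨(hc.smul _).isGen_of_inner fun ψ hψ => ?_, fun h => ?_⟩
  · rw [classInner_smul_left, classInner_reg_symm χ.2.isGen hψ.isGen]
    push_cast
    exact exists_int_reg' (M := M) hψ.isGen χ (by have := nu_le_card (p := p) χ; unfold nu at *; omega)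
  · have hB := isPBlock_blockOf (M := M) χ
    obtain ⟨τ, hτ, h1⟩ := exists_height_zero p hB.nonempty
    obtain ⟨a, h2, h3, -, -, -, h4⟩ := hB.exists_contr
    have hχ := self_mem_blockOf (M := M) χ
    obtain ⟨n, hn⟩ := h.exists_int_inner τ.2.isGen
    refine (h4 τ hτ χ hχ).1 ⟨n, ?_⟩ h1
    apply Int.cast_injective (α := ℂ)
    have h5 := congrArg (fun k => (p : ℂ) ^ k) (nu_add_blockDefect (p := p) hχ)
    have h6 : (p : ℂ) ≠ 0 := Nat.cast_ne_zero.2 (Fact.out : p.Prime).ne_zero
    rw [h3 τ hτ χ hχ, ← h2 χ hχ]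
    push_cast
    rw [← hn, classInner_smul_left]
    push_cast
    simp only [pow_add, nu] at h5
    field_simp
    linear_combination p * (classInner (reg p (χ : G → ℂ)) (τ : G → ℂ)) * h5

end Cfsg.Agent.S4425
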