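import Cfsg.Statements.S4426
import Cfsg.Agent.B.Contr

set_option autoImplicit false
open Cfsg

namespace Cfsg.Agent.S4426

open Cfsg.Agent Cfsg.Agent.B Cfsg.Agent.H2 Cfsg.Agent.H3 Cfsg.Agent.L Subgroup MonoidAlgebra
open scoped Pointwise commutatorElement

/-- Let χ be an irreducible character in the p-block B of the finite group G (relative to a maximal ideal M of the algebraic integers containing p), let p^a be the p-part of the order of G, and let χ̃ be the class function equal to p^a · χ on p-regular elements and zero elsewhere. For ξ ∈ B the inner product [χ̃, ξ] is an integer. The following are equivalent: (a) χ has height zero in B; (b) for some ξ ∈ B the integer [χ̃, ξ] is nonzero and the exact power of p dividing it equals the exact power of p dividing ξ(1); (c) the same holds for every ξ ∈ B. -/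
theorem result {G : Type*} [Group G] [Fintype G] (p : ℕ) [Fact p.Prime] (M : Ideal Cfsg.AlgInt) (hM : Cfsg.IsPModular p M) (B : Set (Cfsg.IrrCharacter G)) (hB : Cfsg.IsPBlock M B) (χ : Cfsg.IrrCharacter G) (hχ : χ ∈ B) : (Cfsg.blockHeight p B (χ : G → ℂ) = 0 ↔ ∃ ξ ∈ B, ∃ n : ℤ, Cfsg.classInner (fun x : G => if p ∣ orderOf x then (0 : ℂ) else ((p ^ (Nat.card G).factorization p : ℕ) : ℂ) * (χ : G → ℂ) x) (ξ : G → ℂ) = (n : ℂ) ∧ n ≠ 0 ∧ padicValInt p n = (Cfsg.charDegree (ξ : G → ℂ)).factorization p) ∧ (Cfsg.blockHeight p B (χ : G → ℂ) = 0 ↔ ∀ ξ ∈ B, ∃ n : ℤ, Cfsg.classInner (fun x : G => if p ∣ orderOf x then (0 : ℂ) else ((p ^ (Nat.card G).factorization p : ℕ) : ℂ) * (χ : G → ℂ) x) (ξ : G → ℂ) = (n : ℂ) ∧ n ≠ 0 ∧ padicValInt p n = (Cfsg.charDegree (ξ : G → ℂ)).factorization p) := by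
  have : PMod p M := ⟨hM⟩
  obtain ⟨a, h2, h3, -, -, h4, h5⟩ := hB.exists_contr
  have h0 : (fun x : G => if p ∣ orderOf x then (0 : ℂ) else
      ((p ^ (Nat.card G).factorization p : ℕ) : ℂ) * (χ : G → ℂ) x) =
      ((p ^ (Nat.card G).factorization p : ℕ) : ℂ) • reg p χ := by ext x; simp [reg]
  have hp := (Fact.out : p.Prime)
  have hp0 : (p : ℤ) ≠ 0 := Nat.cast_ne_zero.2 hp.ne_zero
  have h6 : ∀ ξ ∈ B, blockHeight p B (χ : G → ℂ) = 0 ↔ ∃ n : ℤ, classInner
      (((p ^ (Nat.card G).factorization p : ℕ) : ℂ) • reg p χ) (ξ : G → ℂ) = (n : ℂ) ∧ n ≠ 0 ∧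
      padicValInt p n = (charDegree (ξ : G → ℂ)).factorization p := fun ξ hξ => by
    obtain ⟨k, hk⟩ := Nat.exists_eq_add_of_le (blockDefect_le (p := p) B)
    have h7 := nu_add_blockDefect (p := p) hξ
    have h8 : classInner (((p ^ (Nat.card G).factorization p : ℕ) : ℂ) • reg p χ) (ξ : G → ℂ) =
        ((p ^ k * a χ ξ : ℤ) : ℂ) := by
      rw [classInner_smul_left, hk]; push_cast; rw [← h2 χ hχ]; ring
    have h9 : (charDegree (ξ : G → ℂ)).factorization p = k + blockHeight p B (ξ : G → ℂ) := by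
      unfold nu at h7; omega
    simp only [h8, Int.cast_inj, exists_eq_left', h9]
    rw [← not_iff_not, ← ne_eq, ← h5 χ hχ ξ hξ, ← mul_dvd_mul_iff_left (pow_ne_zero k hp0), ← pow_add,
      padicValInt_dvd_iff]
    have h10 := (padicValInt_dvd_iff _ _).1 (pow_add (p : ℤ) k _ ▸
      mul_dvd_mul_left ((p : ℤ) ^ k) (h4 χ hχ ξ hξ))
    by_cases h11 : (p : ℤ) ^ k * a χ ξ = 0
    · simp [h11]
    · simp only [h11, false_or, ne_eq, not_false_eq_true, true_and] at h10 ⊢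
      omega
  rw [h0]
  exact ⟨⟨fun h => ⟨χ, hχ, (h6 χ hχ).1 h⟩, fun ⟨ξ, hξ, h⟩ => (h6 ξ hξ).2 h⟩,
    ⟨fun h ξ hξ => (h6 ξ hξ).1 h, fun h => (h6 χ hχ).2 (h χ hχ)⟩⟩

end Cfsg.Agent.S4426
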