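import Cfsg.Statements.S4430
import Cfsg.Agent.B.Fong

set_option autoImplicit false
open Cfsg

namespace Cfsg.Agent.S4430

open Cfsg.Agent Cfsg.Agent.B Cfsg.Agent.H2 Cfsg.Agent.H3 Cfsg.Agent.L Subgroup MonoidAlgebra
open scoped Pointwise commutatorElement

/-- Let H be a subgroup of the finite group G, b a block of H whose induced block B₀ in G is defined (relative to a maximal ideal M of the algebraic integers containing p), and ξ ∈ b. For a block B of G let n_B be the value at 1 of the B-part of the induced character ξ^G (a natural number: the sum over χ ∈ B of the multiplicity of χ in ξ^G times χ(1)). Then for B = B₀ the exact power of p dividing n_B equals the exact power of p dividing ξ^G(1), while for every other block B either n_B = 0 or n_B is divisible by a strictly higher power of p than ξ^G(1). -/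
theorem result {G : Type*} [Group G] [Fintype G] (p : ℕ) [Fact p.Prime] (M : Ideal Cfsg.AlgInt) (hM : Cfsg.IsPModular p M) (H : Subgroup G) [Fintype H] (b : Set (Cfsg.IrrCharacter H)) (B₀ : Set (Cfsg.IrrCharacter G)) (hind : Cfsg.IsInducedBlock M H b B₀) (ξ : Cfsg.IrrCharacter H) (hξ : ξ ∈ b) : (∃ n : ℕ, Cfsg.blockPart B₀ (Cfsg.indFun H (ξ : H → ℂ)) 1 = (n : ℂ) ∧ n ≠ 0 ∧ n.factorization p = (Cfsg.charDegree (Cfsg.indFun H (ξ : H → ℂ))).factorization p) ∧ ∀ B : Set (Cfsg.IrrCharacter G), Cfsg.IsPBlock M B → B ≠ B₀ → ∃ n : ℕ, Cfsg.blockPart B (Cfsg.indFun H (ξ : H → ℂ)) 1 = (n : ℂ) ∧ (n = 0 ∨ (Cfsg.charDegree (Cfsg.indFun H (ξ : H → ℂ))).factorization p < n.factorization p) := by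
  have : PMod p M := ⟨hM⟩
  classical
  have key : ∀ B : Set (IrrCharacter G), Closed M B → ∃ n : ℕ, blockPart B (indFun H (ξ : H → ℂ)) 1 = n ∧
      (n : ℂ) / (charDegree (indFun H (ξ : H → ℂ)) : ℕ) ∈ O M ∧
      red M ((n : ℂ) / (charDegree (indFun H (ξ : H → ℂ)) : ℕ)) = lam M (ξ : H → ℂ) (resA H (eB M B)) := by
    intro B hB
    have hc : IsCharacter G (blockPart B (indFun H (ξ : H → ℂ))) := by
      refine (isClassFunction_blockPart _ _).isCharacter_of_inner fun χ hχ => ?_
      have := classInner_blockPart B (indFun H (ξ : H → ℂ)) ⟨χ, hχ⟩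
      change classInner _ χ = _ at this
      rw [this]
      split_ifs
      · exact ξ.2.isCharacter.ind.exists_nat_inner hχ.isCharacter
      · exact ⟨0, by simp⟩
    obtain ⟨n, hn⟩ := hc.exists_nat_degree
    have h1 : (n : ℂ) / (charDegree (indFun H (ξ : H → ℂ)) : ℕ) = om (ξ : H → ℂ) (up M (resA H (fO M B))) := by
      rw [mapA_resA, show mapRingHom G (O M).subtype (fO M B) = up M (fO M B) from rfl, hB.up_fO, om_resA_fC,
        ξ.2.isCharacter.ind.cast_charDegree, indFun_one, ← hn, blockPart_eq, div_eq_inv_mul]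
      congr 1
      refine Finset.sum_congr rfl fun χ _ => ?_
      split_ifs
      · rw [mul_comm, ξ.2.isGen.ind.inner_comm χ.2.isGen, classInner_indFun_right _ χ.2.isClassFunction]
      · rfl
    have h2 : resA H (fO M B) ∈ cent (O M) H := resA_mem_cent le_top (fO_mem B)
    refine ⟨n, hn, h1 ▸ om_up_mem ξ.2 h2, ?_⟩
    rw [h1, ← lam_dn ξ.2 h2, mapA_resA]
    rfl
  have hd : charDegree (indFun H (ξ : H → ℂ)) ≠ 0 := by
    intro h
    have := ξ.2.isCharacter.ind (G := G).cast_charDegree
    rw [h, indFun_one] at this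
    exact mul_ne_zero (Nat.cast_ne_zero.2 H.index_ne_zero_of_finite) ξ.2.apply_one_ne_zero (by simpa using this.symm)
  constructor
  · obtain ⟨n, h1, -, h3⟩ := key B₀ (IsPBlock.closed hind.2.1)
    rw [IsInducedBlock.lam_eB hind hξ] at h3
    refine ⟨n, h1, ?_, factorization_eq_of_red_natDiv (M := M) hd (by rw [h3]; exact one_ne_zero)⟩
    rintro rfl
    simp at h3
  · intro B hB hne
    obtain ⟨n, h1, h2, h3⟩ := key B (IsPBlock.closed hB)
    rw [IsInducedBlock.lam_eB_eq_zero hind hB hne.symm hξ] at h3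
    refine ⟨n, h1, ?_⟩
    by_cases h0 : n = 0
    · exact Or.inl h0
    · exact Or.inr (factorization_lt_of_red_natDiv h0 hd h2 h3)

end Cfsg.Agent.S4430
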