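import Cfsg.Statements.S4431
import Cfsg.Agent.B.Fong

set_option autoImplicit false
open Cfsg

namespace Cfsg.Agent.S4431

open Cfsg.Agent Cfsg.Agent.B Cfsg.Agent.H2 Cfsg.Agent.H3 Cfsg.Agent.L Subgroup MonoidAlgebra
open scoped Pointwise commutatorElement

/-- Let H be a subgroup of the finite group G and b a block of H whose induced block B₀ in G is defined (relative to a maximal ideal M of the algebraic integers containing p). Let χ be an irreducible character of G, ψ ∈ b, and let η be the class function on H equal to p^a · χ on the p-regular elements of H and zero elsewhere, p^a being the p-part of the order of H. Then (a) if χ ∉ B₀, the number [η, ψ]/ψ(1) lies in the local ideal at M; (b) if χ ∈ B₀ has height zero, it does not. -/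
theorem result {G : Type*} [Group G] [Fintype G] (p : ℕ) [Fact p.Prime] (M : Ideal Cfsg.AlgInt) (hM : Cfsg.IsPModular p M) (H : Subgroup G) [Fintype H] (b : Set (Cfsg.IrrCharacter H)) (B₀ : Set (Cfsg.IrrCharacter G)) (hind : Cfsg.IsInducedBlock M H b B₀) (χ : Cfsg.IrrCharacter G) (ψ : Cfsg.IrrCharacter H) (hψ : ψ ∈ b) : (χ ∉ B₀ → Cfsg.MemLocalIdeal M (Cfsg.classInner (fun h : H => if p ∣ orderOf h then (0 : ℂ) else ((p ^ (Nat.card H).factorization p : ℕ) : ℂ) * (χ : G → ℂ) h) (ψ : H → ℂ) / (ψ : H → ℂ) 1)) ∧ (χ ∈ B₀ → Cfsg.blockHeight p B₀ (χ : G → ℂ) = 0 → ¬ Cfsg.MemLocalIdeal M (Cfsg.classInner (fun h : H => if p ∣ orderOf h then (0 : ℂ) else ((p ^ (Nat.card H).factorization p : ℕ) : ℂ) * (χ : G → ℂ) h) (ψ : H → ℂ) / (ψ : H → ℂ) 1)) := by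
  have : PMod p M := ⟨hM⟩
  classical
  set χH : H → ℂ := fun h : H => (χ : G → ℂ) h
  obtain ⟨h1, h2⟩ := lam_zF (M := M) (χ := χH) (χ.2.isClassFunction.res H) (fun g => irr_mem_O χ g) ψ
  obtain ⟨χ₀, h0⟩ := IsPBlock.nonempty hind.2.1
  have h3 : lam M (ψ : H → ℂ) (zF M χH) = lam M (χ₀ : G → ℂ) (zF M (χ : G → ℂ)) := by
    rw [← resA_zF]
    exact IsInducedBlock.lam_eq hind hψ h0 (zF_mem χ.2.isClassFunction)
  set m := Nat.card H / p ^ (Nat.card H).factorization p with hm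
  have hm1 : ¬ p ∣ m := Nat.not_dvd_ordCompl Fact.out Nat.card_pos.ne'
  have hm2 : (Nat.card H : ℂ) = (p ^ (Nat.card H).factorization p : ℕ) * m := by
    rw [← Nat.cast_mul, hm, Nat.ordProj_mul_ordCompl_eq_self]
  have hm3 : (m : ℂ) ≠ 0 := by
    rw [Nat.cast_ne_zero]
    rintro h
    exact hm1 (h ▸ dvd_zero p)
  have h4 : classInner (fun h : H => if p ∣ orderOf h then (0 : ℂ) else ((p ^ (Nat.card H).factorization p : ℕ) : ℂ) * (χ : G → ℂ) h) (ψ : H → ℂ) / (ψ : H → ℂ) 1 = (Nat.card H * classInner (reg p χH) ψ / (ψ : H → ℂ) 1) * (m : ℂ)⁻¹ := by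
    have : (fun h : H => if p ∣ orderOf h then (0 : ℂ) else ((p ^ (Nat.card H).factorization p : ℕ) : ℂ) * (χ : G → ℂ) h) = ((p ^ (Nat.card H).factorization p : ℕ) : ℂ) • reg p χH := by
      funext h
      by_cases hh : p ∣ orderOf h
      · rw [if_pos hh, Pi.smul_apply, reg_of_dvd _ hh, smul_zero]
      · rw [if_neg hh, Pi.smul_apply, reg_of_not_dvd _ hh, smul_eq_mul]
    rw [this, classInner_smul_left]
    conv_rhs => rw [hm2]
    field_simp
  have h5 := inv_natCast_mem_O (M := M) hm1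
  rw [h4, Cfsg.Agent.B.memLocalIdeal_iff, red_mul h1 h5, ← h2, h3, red_inv (red_natCast_ne_zero hm1)]
  have h6 := IsPBlock.lam_zF_ne_zero_iff (χ := χ) hind.2.1 h0
  constructor
  · intro h
    refine ⟨mul_mem h1 h5, ?_⟩
    rw [not_not.1 (fun h' => h (h6.1 h').1), zero_mul]
  · intro h h' h''
    exact mul_ne_zero (h6.2 ⟨h, h'⟩) (inv_ne_zero (red_natCast_ne_zero hm1)) h''.2

end Cfsg.Agent.S4431
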