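import Cfsg.Statements.S4437
import Cfsg.Agent.B.Pair2

set_option autoImplicit false
open Cfsg

namespace Cfsg.Agent.S4437

open Cfsg.Agent Cfsg.Agent.B Cfsg.Agent.H2 Cfsg.Agent.H3 Cfsg.Agent.L Subgroup MonoidAlgebra
open scoped Pointwise commutatorElement

/-- Let P be a p-subgroup of the finite group G, H = P·C_G(P), and b a block of H (relative to a maximal ideal M of the algebraic integers containing p) having P as a defect group; let B be the block of G induced by b. Let T be the stabilizer of b in N_G(P): the elements g of N_G(P) such that the g-conjugate of every member of b is again a member of b. Then B has defect group P if and only if p does not divide the index of H in T. -/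
theorem result {G : Type*} [Group G] [Fintype G] (p : ℕ) [Fact p.Prime] (M : Ideal Cfsg.AlgInt) (hM : Cfsg.IsPModular p M) (P : Subgroup G) (hP : IsPGroup p P) (H : Subgroup G) [Fintype H] (hH : H = P ⊔ Subgroup.centralizer (P : Set G)) (b : Set (Cfsg.IrrCharacter H)) (hb : Cfsg.IsPBlock M b) (hbP : Cfsg.IsDefectGroup p M b (P.subgroupOf H)) (B : Set (Cfsg.IrrCharacter G)) (hind : Cfsg.IsInducedBlock M H b B) (T : Subgroup G) (hT : ∀ g : G, g ∈ T ↔ (g ∈ Subgroup.normalizer (P : Set G) ∧ ∀ θ ∈ b, ∀ θ' : Cfsg.IrrCharacter H, (∀ h h' : H, (h' : G) = g * h * g⁻¹ → (θ' : H → ℂ) h' = (θ : H → ℂ) h) → θ' ∈ b)) : Cfsg.IsDefectGroup p M B P ↔ ¬ p ∣ H.relIndex T := by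
  have : PMod p M := ⟨hM⟩
  subst hH
  have h1 : centralizer (P : Set G) ≤ P ⊔ centralizer (P : Set G) := le_sup_right
  have h2 : P ⊔ centralizer (P : Set G) ≤ normalizer (P : Set G) :=
    sup_le le_normalizer (centralizer_le_normalizer _)
  have h3 := (isInducedBlock_iff_br hP le_sup_left h1 h2 hb hind.2.1).1 hind
  have h4 : BP p ⊤ P (iB M _ b) := by
    refine ⟨le_top, hP, ?_⟩
    have h5 := SA_mono inf_le_right (ZA.mem_SA_centralizer hP le_sup_left h2 hb.isBI.mem hb.isBI.idem)
    rw [CH_top]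
    refine ⟨mem_ZA.2 ⟨h5, fix_anti h1 hb.isBI.fx⟩, hb.isBI.idem, hb.isBI.ne, fun c hc hc2 =>
      hb.isBI.prim c (mem_ZA.2 ⟨SA_mono h1 (ZA.sa hc),
        fix_sup (SA_le_fix le_rfl (ZA.sa hc)) (ZA.fx hc)⟩) hc2⟩
  have h5 := h4.mp_iff hind.2.1.isBI_top h3
  have h6 : T = NS ⊤ P (iB M _ b) := by
    ext g
    rw [hT, NS_top, mem_inf]
    refine and_congr_right fun hg => ?_
    have h7 : g ∈ normalizer ((P ⊔ centralizer (P : Set G) : Subgroup G) : Set G) :=
      le_normalizer_sup' le_rfl (normalizer_le_nc P) hg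
    rw [← and_iff_right (b := g ∈ stab _) h7, ← hb.closed.stabilizesBlock_iff]
    constructor
    · intro h
      refine ⟨h7, fun θ hθ => ?_⟩
      have h8 : IsConjCharOf (P ⊔ centralizer (P : Set G)) g
          (θ : ↥(P ⊔ centralizer (P : Set G)) → ℂ)
          (cmp (cjE g (cj_eq_of_mem_normalizer h7)).symm θ :
            ↥(P ⊔ centralizer (P : Set G)) → ℂ) := fun k k' e => by
        rw [cmp_apply, show k' = cjE g (cj_eq_of_mem_normalizer h7) k from Subtype.ext e,
          MulEquiv.symm_apply_apply]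
      exact ⟨_, h θ hθ _ h8, h8⟩
    · rintro ⟨-, h⟩ θ hθ θ' h8
      obtain ⟨θ'', h9, h10⟩ := h θ hθ
      have : θ' = θ'' := Subtype.ext (funext fun k' => by
        obtain ⟨k, rfl⟩ := (cjE g (cj_eq_of_mem_normalizer h7)).surjective k'
        rw [h8 k _ rfl, h10 k _ rfl])
      rwa [this]
  rw [CH_top] at h5
  rw [hind.2.1.isDefectGroup_iff_top, h6]
  exact ⟨fun h => (h5.1 ⟨hind.2.1.isBI_top, h4, h, h3⟩).2,
    fun h => (h5.2 ⟨(hb.isDefectGroup_iff le_sup_left).1 hbP, h⟩).dg⟩

end Cfsg.Agent.S4437
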