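import Cfsg.Statements.S4640
import Cfsg.Agent.B.Sub2
import Cfsg.Agent.B.Cov4

set_option autoImplicit false
open Cfsg

namespace Cfsg.Agent.S4640

open Cfsg.Agent Cfsg.Agent.B Cfsg.Agent.H2 Cfsg.Agent.H3 Cfsg.Agent.L Subgroup MonoidAlgebra
open scoped Pointwise commutatorElement

/-- Let N be a normal subgroup of the finite group G of index a power of the prime p, M a maximal ideal of the algebraic integers containing p, b a block of N stabilized by every element of G, and B a block of G covering b (some member of B has a member of b as a constituent of its restriction to N). Suppose that B has a commutative defect group P. Then G = NP and P ∩ N is a defect group of b; every member of B restricts to a member of b; every member of b is the restriction of exactly [G : N] members of B; B contains exactly [G : N] times as many irreducible characters as b; and B and b have the same p-regular rank. -/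
theorem result {G : Type*} [Group G] [Fintype G] (p : ℕ) [Fact p.Prime] (M : Ideal Cfsg.AlgInt) (hM : Cfsg.IsPModular p M) (N : Subgroup G) [N.Normal] [Fintype N] (hNi : ∃ k : ℕ, N.index = p ^ k) (b : Set (Cfsg.IrrCharacter N)) (hb : Cfsg.IsPBlock M b) (hstab : ∀ g : G, Cfsg.StabilizesBlock N b g) (B : Set (Cfsg.IrrCharacter G)) (hB : Cfsg.IsPBlock M B) (hcov : ∃ χ ∈ B, ∃ θ ∈ b, Cfsg.classInner (fun n : N => (χ : G → ℂ) n) (θ : N → ℂ) ≠ 0) (P : Subgroup G) (hPD : Cfsg.IsDefectGroup p M B P) (hPab : ∀ x ∈ P, ∀ y ∈ P, x * y = y * x) : N ⊔ P = ⊤ ∧ Cfsg.IsDefectGroup p M b ((P ⊓ N).subgroupOf N) ∧ (∀ χ ∈ B, ∃ θ ∈ b, ∀ n : N, (χ : G → ℂ) n = (θ : N → ℂ) n) ∧ (∀ θ ∈ b, Nat.card {χ : Cfsg.IrrCharacter G // χ ∈ B ∧ ∀ n : N, (χ : G → ℂ) n = (θ : N → ℂ) n} = N.index) ∧ Nat.card B = N.index * Nat.card b ∧ Cfsg.blockRank p B = Cfsg.blockRank p b := by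
  have : PMod p M := ⟨hM⟩
  classical
  obtain ⟨k, hk⟩ := hNi
  have hp : p.Prime := Fact.out
  have h1 : iB M N b ∈ cent (F M) G := mem_fix_iff_le.2 fun g _ => (hb.closed.stabilizesBlock_iff.1 (hstab g)).2
  have h2 := (covers_iff hB hb).1 hcov
  have hres := pResidual_le_of_index hk
  have hreg : ∀ g : G, ¬ p ∣ orderOf g → g ∈ N := fun g hg => reg_mem_of_index hk hg
  obtain ⟨h3, h4⟩ := hb.isBI.pindex (K := ⊤) le_top (normalizer_eq_top N).ge (resOf_le_iff.2 fun g _ hg =>
    hreg g (reg_iff_coprime.2 hg)) h1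
  have h5 := hB.isBI_top.eq_of_mul h3 h2
  have hP := hB.isDefectGroup_iff_top.1 hPD
  obtain ⟨h6, h7⟩ := h4 P (h5 ▸ hP)
  obtain ⟨e, he⟩ := hP.exists_mp hB.isBI_top
  have hab : commutator G ≤ N := by
    rw [← QuotientGroup.ker_mk' N, _root_.commutator_def, commutator_le]
    intro x _ y _
    obtain ⟨a, ha, c, hc, rfl⟩ := mem_sup_of_normal_left.1 (h6.ge (mem_top x))
    obtain ⟨a', ha', c', hc', rfl⟩ := mem_sup_of_normal_left.1 (h6.ge (mem_top y))
    rw [MonoidHom.mem_ker, map_commutatorElement, commutatorElement_eq_one_iff_mul_comm]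
    simp only [map_mul, QuotientGroup.mk'_apply, (QuotientGroup.eq_one_iff _).2 ha, (QuotientGroup.eq_one_iff _).2 ha',
      one_mul]
    rw [← QuotientGroup.mk_mul, hPab c hc c' hc', QuotientGroup.mk_mul]
  have h8 : ∀ χ ∈ B, ∀ lam : G →* ℂˣ, N ≤ lam.ker → (fun g => χ.1 g * lam g) = χ.1 → lam = 1 := fun χ hχ lam h8 h9 => by
    have h10 : P ≤ lam.ker := fun u hu => by_contra fun h10 => by
      have hu' := pElt_of_mem hPD.isPGroup hu
      refine IsInducedBlock.ctr_self_ne_zero hu' (he.induced_sb hB hu) (he.defect_sb hB hu fun x hx =>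
        mem_centralizer_singleton_iff.2 (hPab x hx u hu)) hχ ?_
      have := Fintype.ofFinite (centralizer ({u} : Set G))
      rw [ctr_congr (φ' := 0) (he.bp.isPBlock_sb hu).closed (reg_congr fun c hc => ?_), ctr_def,
        show sh u (0 : G → ℂ) = 0 from rfl, blockPart_zero, reg_zero, classInner_zero_left]
      have h11 := congrFun h9 (u * c)
      rw [map_mul, h8 (hreg c (by rwa [orderOf_coe])), mul_one, mul_right_eq_self₀, Units.val_eq_one] at h11
      exact h11.resolve_left h10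
    exact MonoidHom.ker_eq_top_iff.1 (top_le_iff.1 (h6 ▸ sup_le h8 h10))
  have h9 : ∀ χ ∈ B, IsIrrCharacter N fun n : N => χ.1 n := fun χ hχ => by
    refine (χ.2.isCharacter.res N).irr_of_inner_self ?_
    rw [← avg_mul_conj_one, show avg N (fun g => χ.1 g * starRingEnd ℂ (χ.1 g)) = fun _ => 1 from
      ((χ.2.isClassFunction.mul χ.2.isCharacter.conj.isClassFunction).avg).ext_inner (isClassFunction_const 1) fun ψ hψ => ?_]
    rw [classInner_avg_irr _ hψ]
    split_ifs with h9
    · obtain ⟨lam, rfl⟩ := hψ.isCharacter.exists_linear (hψ.degree_eq_one_iff.2 (hab.trans h9))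
      rw [charKer_linear] at h9
      refine (classInner_mul_right χ.1 _ χ.1).symm.trans ?_
      rw [show ((fun g => (lam g : ℂ)) * χ.1) = fun g => χ.1 g * lam g from mul_comm _ _,
        χ.2.inner_eq_ite (χ.2.mul_linear lam), isIrrCharacter_one.inner_eq_ite hψ]
      refine if_congr ⟨fun h => ?_, fun h => ?_⟩ rfl rfl
      · rw [h8 χ hχ lam h9 h.symm]; rfl
      · ext g; rw [← congrFun h g, mul_one]
    · exact (isIrrCharacter_one.inner_of_ne hψ fun h => h9 (h ▸ fun n _ =>
        isIrrCharacter_one.mem_charKer_iff.2 rfl)).symm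
  have h10 : ∀ χ ∈ B, ∃ θ ∈ b, ∀ n : N, χ.1 n = θ.1 n := fun χ hχ => ⟨⟨_, h9 χ hχ⟩, mem_of_under_of_stable hB hb h1 h2 hχ
    (by rw [(h9 χ hχ).inner_self]; exact one_ne_zero), fun _ => rfl⟩
  have h11 : ∀ θ ∈ b, ∀ χ : IrrCharacter G, classInner (fun n : N => χ.1 n) θ.1 ≠ 0 → χ ∈ B ∧ ∀ n : N, χ.1 n = θ.1 n :=
    fun θ hθ χ h => by
      have h11 : χ ∈ B := by
        have h11 := (covers_iff (isPBlock_blockOf χ) hb).1 ⟨χ, self_mem_blockOf χ, θ, hθ, h⟩
        rw [← h5] at h11
        rw [← (isPBlock_blockOf χ).closed.eB_inj hB.closed ((isPBlock_blockOf χ).isBI_top.eq_of_mul hB.isBI_top h11)]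
        exact self_mem_blockOf χ
      exact ⟨h11, congrFun ((h9 χ h11).eq_of_inner_ne_zero θ.2 h)⟩
  have h12 : ∀ θ ∈ b, Nat.card {χ : IrrCharacter G // χ ∈ B ∧ ∀ n : N, χ.1 n = θ.1 n} = N.index := fun θ hθ => by
    have h12 : indFun N θ.1 = ∑ χ ∈ Finset.univ.filter fun χ : IrrCharacter G => χ ∈ B ∧ ∀ n : N, χ.1 n = θ.1 n, χ.1 := by
      refine (isClassFunction_indFun _ _).ext_inner (isClassFunction_sum _ _ fun χ _ => χ.2.isClassFunction) fun ψ hψ => ?_
      lift ψ to IrrCharacter G using hψ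
      rw [classInner_sum_left, Finset.sum_congr rfl (g := fun χ => if χ = ψ then 1 else 0) (fun χ _ => by
        rw [χ.2.inner_eq_ite ψ.2]; exact if_congr Subtype.ext_iff.symm rfl rfl), Finset.sum_ite_eq',
        classInner_indFun_left _ ψ.2.isClassFunction]
      split_ifs with h
      · rw [funext (Finset.mem_filter.1 h).2.2, θ.2.inner_self]
      · exact by_contra fun h' => h (Finset.mem_filter.2 ⟨Finset.mem_univ _, h11 θ hθ ψ
          (mt classInner_eq_zero_comm.1 h')⟩)
    have h13 := congrFun h12 1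
    rw [indFun_one, Finset.sum_apply, Finset.sum_congr rfl (g := fun _ => θ.1 1) (fun χ hχ =>
      (Finset.mem_filter.1 hχ).2.2 1), Finset.sum_const, nsmul_eq_mul, mul_left_inj' θ.2.apply_one_ne_zero] at h13
    rw [Nat.card_eq_fintype_card, Fintype.card_subtype]
    exact_mod_cast h13.symm
  refine ⟨h6, (hb.isDefectGroup_iff inf_le_right).2 h7, h10, h12, ?_, le_antisymm ?_ ?_⟩
  · choose r hr hr' using h10
    rw [← Nat.card_congr (Equiv.sigmaFiberEquiv fun χ : B => (⟨r χ.1 χ.2, hr _ _⟩ : b)), Nat.card_sigma,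
      Finset.sum_congr rfl (g := fun _ => N.index) fun θ _ => ?_, Finset.sum_const, Finset.card_univ, smul_eq_mul,
      mul_comm, Nat.card_eq_fintype_card]
    rw [← h12 θ.1 θ.2]
    exact Nat.card_congr ⟨fun χ => ⟨χ.1.1, χ.1.2, fun n => (hr' _ _ n).trans (by rw [← congrArg Subtype.val χ.2])⟩, fun χ => ⟨⟨χ.1, χ.2.1⟩,
      Subtype.ext (Subtype.ext (funext fun n => (hr' _ _ n).symm.trans (χ.2.2 n)))⟩, fun _ => rfl, fun _ => rfl⟩
  · refine blockRank_eq_of_map (LinearMap.funLeft ℂ ℂ N.subtype) (fun φ h => funext fun g => ?_) fun χ hχ => ?_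
    · by_cases hg : p ∣ orderOf g
      · exact reg_of_dvd _ hg
      · exact congrFun h ⟨g, hreg g hg⟩
    · obtain ⟨θ, hθ, h⟩ := h10 χ hχ
      refine Submodule.subset_span ⟨θ, hθ, funext fun n => ?_⟩
      simp only [LinearMap.funLeft_apply, reg, coe_subtype, orderOf_coe, h]
  · refine blockRank_eq_of_map ⟨⟨extendByZero N, extendByZero_add⟩, extendByZero_smul⟩
      (fun φ h => funext fun n => (extendByZero_coe _ n).symm.trans (congrFun h n)) fun θ hθ => ?_
    obtain ⟨χ, h⟩ := exists_over (G := G) θ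
    obtain ⟨h13, h14⟩ := h11 θ hθ χ h
    refine Submodule.subset_span ⟨χ, h13, funext fun g => ?_⟩
    change reg p χ.1 g = extendByZero N _ g
    by_cases hg : g ∈ N
    · rw [extendByZero_of_mem _ hg]
      simp only [reg, ← h14, ← orderOf_coe (⟨g, hg⟩ : N)]
    · rw [extendByZero_of_not_mem _ hg, reg_of_dvd _ (by_contra fun h => hg (hreg g h))]

end Cfsg.Agent.S4640
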