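import Cfsg.Statements.S4439
import Cfsg.Agent.B.Fong
import Cfsg.Agent.S4640
import Cfsg.Agent.H9.PSolv

set_option autoImplicit false
open Cfsg

namespace Cfsg.Agent.S4439

open Cfsg.Agent Cfsg.Agent.B Cfsg.Agent.H2 Cfsg.Agent.H3 Cfsg.Agent.L Subgroup MonoidAlgebra
open scoped Pointwise commutatorElement
theorem deg {G : Type*} [Group G] [Finite G] {p : ℕ} [hp : Fact p.Prime] {M : Ideal AlgInt} [hM : PMod p M]
    {N A Z : Subgroup G} (hN : ¬ p ∣ Nat.card N) (hA : A = N ⊔ Z) [N.Normal] (hZ : IsPGroup p Z)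
    (hZ' : Z ≤ centralizer (Z : Set G)) {θ : IrrCharacter N} (h : iB M N {θ} ∈ cent (F M) G) {b : Set (IrrCharacter A)}
    (hb : IsPBlock M b) (h1 : iB M A b = iB M N {θ}) {η : IrrCharacter A} (hη : η ∈ b) : nu p η.1 = 0 := by
  have := Fintype.ofFinite A
  have := Fintype.ofFinite (N.subgroupOf A)
  have hNA : N ≤ A := hA ▸ le_sup_left
  have hZA : Z ≤ A := hA ▸ le_sup_right
  have h2 := isPBlock_singleton (M := M) hN θ
  have h3 := h2.preimage_cmp (subgroupOfEquivOfLe hNA).symm
  have h4 : iB M _ (cmp (subgroupOfEquivOfLe hNA).symm ⁻¹' {θ}) = eB M b :=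
    incA_injective A ((iB_subgroupOf hNA _).trans h1.symm)
  have h5 : SylIn p Z A := ⟨hZA, hZ, fun S h4 h5 h6 => le_antisymm (fun x hx => by
    obtain ⟨y, hy, z, hz, rfl⟩ := mem_sup_of_normal_left.1 (hA ▸ h4 hx)
    rwa [(pElt_of_mem h5 ((mul_mem_cancel_right (h6 hz)).1 hx)).eq_one (reg_of_mem hN hy), one_mul]) h6⟩
  obtain ⟨ψ, -, h6⟩ := (S4640.result p M hM.1 (N.subgroupOf A) (by
      obtain ⟨n, hn⟩ := hZ.exists_card_eq
      have h6 : N.relIndex A ∣ p ^ n := by rw [hA, relIndex_sup_left, ← hn]; exact relIndex_dvd_card _ _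
      exact ((Nat.dvd_prime_pow hp.out).1 h6).imp fun _ h => h.2)
    _ h3 (fun g => h3.closed.stabilizesBlock_iff.2 ⟨(normalizer_eq_top _).ge trivial, h4 ▸ cA_of_cent (eB_mem b) g⟩) b hb
    ((covers_iff hb h3).2 (by rw [h4, hb.isBI_top.idem]; exact hb.isBI_top.ne)) (Z.subgroupOf A)
    ((hb.isDefectGroup_iff hZA).2 (h1 ▸ (isDG_of_coeff (h2.isBI.coeff_one_ne hN)).2 h5))
    fun x hx y hy => Subtype.ext (hZ' hy x hx)).2.2.1 η hη
  refine Nat.factorization_eq_zero_of_not_dvd fun h7 => hN (h7.trans ?_)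
  rw [← L.card_subgroupOf hNA, show charDegree η.1 = charDegree ψ.1 from Nat.cast_injective (R := ℂ) (by
    rw [η.2.cast_charDegree, ψ.2.cast_charDegree]; exact h6 1)]
  exact ψ.2.degree_dvd_card

theorem idx {A B : Type*} [Group A] [Group B] [Finite A] (e : A ≃* B) : (center A).index = (center B).index := by
  have h1 := (center A).index_mul_card
  have h2 := (center B).index_mul_card
  rw [← Nat.card_congr e.toEquiv, ← Nat.card_congr (centerCongr e).toEquiv, ← h1] at h2
  exact (Nat.eq_of_mul_eq_mul_right Nat.card_pos h2).symm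

/-- Let G be a finite p-solvable group and B a p-block of G with defect group P (relative to a maximal ideal M of the algebraic integers containing p). Then the height of every irreducible character in B is at most the exponent of p in the index of the centre of P in P. -/
theorem result {G : Type*} [Group G] [Finite G] (p : ℕ) [Fact p.Prime] (M : Ideal Cfsg.AlgInt) (hM : Cfsg.IsPModular p M) (hsolv : Cfsg.IsPSolvable p G) (B : Set (Cfsg.IrrCharacter G)) (hB : Cfsg.IsPBlock M B) (P : Subgroup G) (hP : Cfsg.IsDefectGroup p M B P) (χ : Cfsg.IrrCharacter G) (hχ : χ ∈ B) : Cfsg.blockHeight p B (χ : G → ℂ) ≤ ((Subgroup.center P).index).factorization p := by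
  have : PMod p M := ⟨hM⟩
  induction hn : Nat.card G using Nat.strong_induction_on generalizing G with | _ n ih => ?_
  have hp : p.Prime := Fact.out
  have := Fintype.ofFinite G
  have := Fintype.ofFinite (pPrimeCore p G)
  obtain ⟨θ, hθ⟩ := exists_under χ (pPrimeCore p G)
  have h1 : ¬ p ∣ Nat.card (pPrimeCore p G) := hp.coprime_iff_not_dvd.1 (L.pPrimeCore_coprime p).symm
  have h2 := isPBlock_singleton (M := M) h1 θ
  have h3 := (covers_iff hB h2).1 ⟨χ, hχ, θ, rfl, hθ⟩
  by_cases h4 : stab (iB M _ {θ}) = ⊤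
  · have h5 : iB M _ {θ} ∈ cent (F M) G := mem_fix_iff_le.2 h4.ge
    have h6 := H8.PLay_top_eq_bot_of_isPSolvable hsolv
    obtain ⟨h7, -, h8, -⟩ := fong_block (M := M) rfl h6 (θ := θ) (fun g => congrArg Subtype.val
      ((h2.cjI_mem_iff rfl).2 (h4.ge (mem_top g)))) (B := {χ | _}) fun _ => Iff.rfl
    rw [← hB.eq_of_mem h7 hχ hθ] at h8
    have hP' := (h8 P).1 hP
    have hQ := hP'.inf_normal' (le_normalizer_OppP p ⊤) le_top
    generalize hQd : P ⊓ OppP p ⊤ = Q at hQ
    have h9 : (pPrimeCore p G ⊔ Q ⊓ centralizer (Q : Set G)).Normal := by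
      rw [← normalizer_eq_top_iff, eq_top_iff, ← hQ.frattini_sup le_top (le_normalizer_OppP p ⊤), OppP_eq_sup hQ, H8.Opp_top,
        top_inf_eq, sup_assoc, sup_eq_right.2 (le_normalizer (H := Q))]
      exact sup_le (le_sup_left.trans le_normalizer) (le_normalizer_sup' le_normalizer_of_normal
        (le_normalizer_CH le_rfl le_rfl))
    have h10 := hQ.pgrp.to_le (inf_le_left (b := centralizer (Q : Set G)))
    obtain ⟨b, hb, h11⟩ := (h2.isBI.pindex le_sup_left le_normalizer_of_normal (resOf_le_of_sup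
      le_normalizer_of_normal h10 le_sup_right le_rfl) (cent_le_fix _ h5)).1.exists_iB
    have := Fintype.ofFinite ↥(pPrimeCore p G ⊔ Q ⊓ centralizer (Q : Set G))
    obtain ⟨η, hη⟩ := exists_under χ (pPrimeCore p G ⊔ Q ⊓ centralizer (Q : Set G))
    have h12 := nu_le_of_under (p := p) hη
    rw [deg h1 rfl h10 (inf_le_right.trans (centralizer_anti inf_le_left)) h5 hb h11.symm
      (mem_of_under_of_stable hB hb (h11 ▸ h5) (h11 ▸ h3) hχ hη)] at h12
    have h13 : (center P).map P.subtype ≤ pPrimeCore p G ⊔ Q ⊓ centralizer (Q : Set G) := by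
      rintro _ ⟨z, hz, rfl⟩
      have h13 : (z : G) ∈ centralizer (Q : Set G) := fun y hy =>
        congrArg Subtype.val (mem_center_iff.1 hz ⟨y, (hQd.ge hy).1⟩)
      exact mem_sup_right ⟨hQd.le ⟨z.2, le_OppP_of_PLay h6 hQ ⟨trivial, h13⟩⟩, h13⟩
    have h14 := factorization_card_mono (p := p) h13
    have h15 := factorization_index_add (p := p) (pPrimeCore p G ⊔ Q ⊓ centralizer (Q : Set G))
    have h16 := factorization_index_add (p := p) (center P)
    rw [card_map_of_injective P.subtype_injective] at h14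
    rw [hP'.card_eq_pow, Nat.Prime.factorization_pow hp, Finsupp.single_eq_same, card_top] at h16
    exact (Nat.sub_le _ _).trans (h12.trans (by omega))
  · have := Fintype.ofFinite (stab (iB M _ {θ}))
    obtain ⟨B', h5, h6⟩ := fr_surj h2 rfl h2.le_stab hB h3
    obtain ⟨ψ, hψ, h7⟩ := fr_exists h2 rfl h2.le_stab h6 h5 hχ
    obtain ⟨D, hD⟩ := h5.1.exists_defectGroup
    obtain ⟨x, rfl⟩ := (fr_defect h2 rfl h2.le_stab h6 h5 hD).exists_cj_eq hB.closed hP
    rw [height_ind (fr_blockDefect h2 rfl h2.le_stab h6 h5) hψ hχ h7, ← idx (cjE x rfl),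
      ← idx (D.equivMapOfInjective _ (subtype_injective _))]
    exact ih _ (hn ▸ L.card_lt_of_ne_top h4) (H9.pSolv_sub _ hsolv) B' h5.1 D hD ψ hψ rfl

end Cfsg.Agent.S4439
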