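import Cfsg.Statements.S4442
import Cfsg.Agent.B.Cyc4

set_option autoImplicit false
open Cfsg

namespace Cfsg.Agent.S4442

open Cfsg.Agent Cfsg.Agent.B Cfsg.Agent.H2 Cfsg.Agent.H3 Cfsg.Agent.L Subgroup MonoidAlgebra
open scoped Pointwise commutatorElement
theorem aux {G : Type*} [Group G] [Finite G] {p : ℕ} [Fact p.Prime] {M : Ideal AlgInt} [PMod p M] {z : G}
    (hz : orderOf z = p) {K : Subgroup G} (hK : K = centralizer {z}) {B : Set (IrrCharacter G)} (hB : IsPBlock M B)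
    (hBP : IsDefectGroup p M B (zpowers z)) {b : Set (IrrCharacter K)} (hind : IsInducedBlock M K b B)
    {θ : IrrCharacter K} (hθ : θ ∈ b) (hθP : ∀ x : K, (x : G) ∈ zpowers z → θ.1 x = θ.1 1) {T : Subgroup G}
    (hT : ∀ g : G, g ∈ T ↔ g ∈ normalizer (zpowers z : Set G) ∧ ∀ c c' : K, (c' : G) = g * c * g⁻¹ → θ.1 c' = θ.1 c)
    {e f : ℕ} (he : K.relIndex T = e) (hf : K.relIndex (normalizer (zpowers z : Set G)) = f) :
    e ∣ p - 1 ∧ Nat.card B = e + (p - 1) / e ∧ ∃ X Y : Set (IrrCharacter G), B = X ∪ Y ∧ Disjoint X Y ∧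
      Nat.card X = e ∧ Nat.card Y = (p - 1) / e ∧ (∀ χ ∈ X, (charDegree χ.1 : ℤ) ≡ ((f / e * charDegree θ.1 : ℕ) : ℤ) [ZMOD p]
      ∨ (charDegree χ.1 : ℤ) ≡ -((f / e * charDegree θ.1 : ℕ) : ℤ) [ZMOD p]) ∧ (∃ ε : ℤ, (ε = 1 ∨ ε = -1) ∧
      ∀ ψ ∈ Y, (charDegree ψ.1 : ℤ) ≡ ε * ((f * charDegree θ.1 : ℕ) : ℤ) [ZMOD p]) ∧
      ∀ ψ ∈ Y, ∀ ψ' ∈ Y, ∀ g : G, ¬ p ∣ orderOf g → ψ.1 g = ψ'.1 g := by
  subst hK
  have := Fintype.ofFinite G
  obtain ⟨h1, g, ε, h⟩ := exists_CS_single hB hBP hz hind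
  rw [← h1] at hθ
  have h2 : T = NS ⊤ (zpowers z) (iB M _ (sb p (zpowers z) (iB M _ b) z)) := by
    ext n
    rw [h.fixed_iff hθ hθP, hT]
    refine and_congr_right fun hn => ?_
    rw [cjc_eq (CS.NC hn)]
    exact ⟨fun h => funext fun c => h c _ rfl, fun h c c' hc => by
      rw [← congrFun h c]; exact congrArg _ (Subtype.ext hc)⟩
  rw [h2, h.idx] at he
  subst he
  obtain ⟨X, y, δ, δ₀, h3⟩ := h.exists_EX hθ fun n hn => ((h.fixed_iff hθ hθP).1 hn).2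
  have h4 := h3.cardY'
  have h5 : Nat.card (zpowers z) = p := by rw [Nat.card_zpowers, hz]
  rw [h5] at h4
  refine ⟨h.dvd, h4 ▸ h3.cardB, X, _, h3.eq_union, h3.disj, by simpa using h3.card, h4, fun χ hχ => ?_,
    ⟨δ₀, h3.sgn₀, ?_⟩, ?_⟩
  · have h6 := h3.deg_X hχ hθP
    rw [hf] at h6
    rcases h3.sgn χ hχ with h7 | h7 <;> rw [h7] at h6
    · exact Or.inr (by simpa using h6)
    · exact Or.inl (by simpa using h6)
  · rintro _ ⟨ξ, hξ, rfl⟩
    obtain ⟨χ, hχ⟩ := h3.exists_memX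
    have h6 := h3.cong_Y hBP.isPGroup hξ hχ
    have h7 := h3.deg_X hχ hθP
    have h8 : ε ∣ f := by
      rw [← hf, ← relIndex_mul_relIndex _ _ _ h.CT (NS_le_normalizer _ _ _), h.idx]; exact dvd_mul_right _ _
    rw [h5] at h6
    rw [hf] at h7
    refine h6.trans ((h7.mul_left _).neg.trans ?_)
    obtain ⟨k, rfl⟩ := h8
    rw [Nat.mul_div_cancel_left _ (Nat.pos_of_ne_zero h.ne)]
    have h9 := h3.sq hχ
    push_cast
    rw [show -(ε * δ₀ * δ χ * (-δ χ * (k * charDegree θ.1)) : ℤ) = δ χ * δ χ * (δ₀ * (ε * k * charDegree θ.1)) by ring,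
      h9, one_mul]
  · rintro _ ⟨ξ, hξ, rfl⟩ _ ⟨ξ', hξ', rfl⟩ x hx
    exact h3.Y_eq hξ hξ' hx

/-- Blocks of defect one. Let p be an odd prime and G a finite group whose Sylow p-subgroup P has order p; let C = C_G(P) and N = N_G(P), and fix a maximal ideal M of the algebraic integers containing p. Let B be a block of G with defect group P, b a block of C inducing B, and θ the member of b having P in its kernel (there is exactly one). Let T be the stabilizer of θ in N (the elements g ∈ N with θ(g c g⁻¹) = θ(c) for all c ∈ C) and e the index of C in T. Then e divides p − 1 and B contains exactly e + (p − 1)/e irreducible characters. Moreover B is the disjoint union of a set X of e characters and a set Y of (p − 1)/e characters such that, with f the index of C in N: every χ ∈ X has χ(1) ≡ ±(f/e)·θ(1) (mod p), there is one sign ε with ψ(1) ≡ ε f θ(1) (mod p) for all ψ ∈ Y, and all members of Y agree on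 the p-regular elements of G. -/
theorem result {G : Type*} [Group G] [Finite G] (p : ℕ) [Fact p.Prime] (M : Ideal Cfsg.AlgInt) (hM : Cfsg.IsPModular p M) (hodd : p ≠ 2) (P : Sylow p G) (hP : Nat.card P = p) (B : Set (Cfsg.IrrCharacter G)) (hB : Cfsg.IsPBlock M B) (hBP : Cfsg.IsDefectGroup p M B P) (b : Set (Cfsg.IrrCharacter (Subgroup.centralizer ((P : Subgroup G) : Set G)))) (hind : Cfsg.IsInducedBlock M (Subgroup.centralizer ((P : Subgroup G) : Set G)) b B) (θ : Cfsg.IrrCharacter (Subgroup.centralizer ((P : Subgroup G) : Set G))) (hθ : θ ∈ b) (hθP : ∀ x : Subgroup.centralizer ((P : Subgroup G) : Set G), (x : G) ∈ (P : Subgroup G) → (θ : Subgroup.centralizer ((P : Subgroup G) : Set G) → ℂ) x = (θ : Subgroup.centralizer ((P : Subgroup G) : Set G) → ℂ) 1) (T : Subgroup G) (hT : ∀ g : G, g ∈ T ↔ (g ∈ Subgroup.normalizer ((P : Subgroup G) : Set G) ∧ ∀ c c' : Subgroup.centralizer ((P : Subgroup G) : Set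 G), (c' : G) = g * c * g⁻¹ → (θ : Subgroup.centralizer ((P : Subgroup G) : Set G) → ℂ) c' = (θ : Subgroup.centralizer ((P : Subgroup G) : Set G) → ℂ) c)) (e f : ℕ) (he : (Subgroup.centralizer ((P : Subgroup G) : Set G)).relIndex T = e) (hf : (Subgroup.centralizer ((P : Subgroup G) : Set G)).relIndex (Subgroup.normalizer ((P : Subgroup G) : Set G)) = f) : e ∣ p - 1 ∧ Nat.card B = e + (p - 1) / e ∧ ∃ X Y : Set (Cfsg.IrrCharacter G), B = X ∪ Y ∧ Disjoint X Y ∧ Nat.card X = e ∧ Nat.card Y = (p - 1) / e ∧ (∀ χ ∈ X, (Cfsg.charDegree (χ : G → ℂ) : ℤ) ≡ ((f / e * Cfsg.charDegree (θ : Subgroup.centralizer ((P : Subgroup G) : Set G) → ℂ) : ℕ) : ℤ) [ZMOD p] ∨ (Cfsg.charDegree (χ : G → ℂ) : ℤ) ≡ -((f / e * Cfsg.charDegree (θ : Subgroup.centralizer ((P : Subgroup G) : Set G) → ℂ) : ℕ) : ℤ) [ZMOD p]) ∧ (∃ ε : ℤ, (ε = 1 ∨ ε = -1) ∧ ∀ ψ ∈ Y, (Cfsg.charDegree (ψ : G → ℂ) : ℤ) ≡ ε * ((f * Cfsg.charDegree (θ : Subgroup.centralizer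 ((P : Subgroup G) : Set G) → ℂ) : ℕ) : ℤ) [ZMOD p]) ∧ ∀ ψ ∈ Y, ∀ ψ' ∈ Y, ∀ g : G, ¬ p ∣ orderOf g → (ψ : G → ℂ) g = (ψ' : G → ℂ) g := by
  have : PMod p M := ⟨hM⟩
  generalize (P : Subgroup G) = Q at *
  obtain ⟨⟨z, hz'⟩, hz⟩ := exists_prime_orderOf_dvd_card' (G := Q) p hP.symm.dvd
  rw [← orderOf_coe] at hz
  obtain rfl : Q = zpowers z := (eq_of_le_of_card_ge (zpowers_le.2 hz') (by
    rw [Nat.card_zpowers, hP]; exact hz.ge)).symm
  exact aux hz (Cfsg.Agent.B.centralizer_zpowers _) hB hBP hind hθ hθP hT he hf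

end Cfsg.Agent.S4442
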