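import Cfsg.Statements.S4443
import Cfsg.Agent.B.Rob

set_option autoImplicit false
open Cfsg

namespace Cfsg.Agent.S4443

open Cfsg.Agent Cfsg.Agent.B Cfsg.Agent.H2 Cfsg.Agent.H3 Cfsg.Agent.L Subgroup MonoidAlgebra
open scoped Pointwise commutatorElement

/-- Let D be a normal p-subgroup of the finite group G, of order p^d, let p^a be the p-part of the order of G, and fix a Sylow p-subgroup S and a maximal ideal M of the algebraic integers containing p. Index by a finite type ι (via an injective map K) exactly the conjugacy classes of p-regular elements x of G for which D is a Sylow p-subgroup of C_G(x). For classes K_i, K_j let ω(i, j) be the number of pairs (y, z) ∈ K_i × K_j with z y⁻¹ ∈ S; this number is divisible by p^(a−d). Then the number of p-blocks of G having D as a defect group equals the rank over ℤ/pℤ of the matrix with (i, j) entry ω(i, j)/p^(a−d) reduced modulo p. -/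
theorem result {G : Type*} [Group G] [Finite G] (p : ℕ) [Fact p.Prime] (M : Ideal Cfsg.AlgInt) (hM : Cfsg.IsPModular p M) (D : Subgroup G) [D.Normal] (hD : IsPGroup p D) (S : Sylow p G) {ι : Type*} [Fintype ι] [DecidableEq ι] (K : ι → ConjClasses G) (hKinj : Function.Injective K) (hK : ∀ C : ConjClasses G, (∃ i, K i = C) ↔ ∃ x ∈ C.carrier, ¬ p ∣ orderOf x ∧ ∃ Q : Sylow p (Subgroup.centralizer ({x} : Set G)), (Q : Subgroup (Subgroup.centralizer ({x} : Set G))).map (Subgroup.centralizer ({x} : Set G)).subtype = D) : Nat.card {B : Set (Cfsg.IrrCharacter G) // Cfsg.IsPBlock M B ∧ Cfsg.IsDefectGroup p M B D} = (Matrix.of fun i j : ι => ((Nat.card {yz : G × G // yz.1 ∈ (K i).carrier ∧ yz.2 ∈ (K j).carrier ∧ yz.2 * yz.1⁻¹ ∈ (S : Subgroup G)} / p ^ ((Nat.card G).factorization p - (Nat.card D).factorization p) : ℕ) : ZMod p)).rank := by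
  have : PMod p M := ⟨hM⟩
  classical
  have := Fintype.ofFinite G
  have : Algebra (ZMod p) (F M) := ZMod.algebra _ _
  have h0 : ∀ i, ¬ p ∣ orderOf (K i).out ∧ SylIn p D (centralizer {(K i).out}) := fun i => by
    obtain ⟨x, hx, h1, Q, h2⟩ := (hK _).1 ⟨i, rfl⟩
    have h3 : IsConj x (K i).out := (isConj_out_iff.2 (ConjClasses.mem_carrier_iff_mk_eq.1 hx).symm).symm
    obtain ⟨c, hc⟩ := isConj_iff.1 h3
    have h4 := (h2 ▸ sylIn_map_subtype Q).cj c
    rw [cj_eq_of_normal, cj_centralizer_singleton, hc] at h4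
    exact ⟨orderOf_eq_of_isConj h3 ▸ h1, h4⟩
  have h1 := blk_mul_eq_one (M := M) (fun B => IsDefectGroup p M B.1 D) K hKinj
    fun B C hB hC g h1 h2 => (hK _).2 ⟨g, ConjClasses.mem_carrier_iff_mk_eq.2 rfl,
      B.2.closed.reg_of_coeff_eB h1, (hB.sylIn_of_coeff B.2.closed h1
        (B.2.closed.mem_centralizer_of_coeff_eB hD h1)).exists_sylow'⟩
  choose m hm hm' using fun i => exists_card_eq_mul (h0 i).2
  have h2 : ((S : Subgroup G).index : F M) ≠ 0 := by
    rw [Ne, natCast_F_eq_zero_iff]; exact S.not_dvd_index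
  have h3 : ∀ i, (m i : F M) ≠ 0 := fun i => by rw [Ne, natCast_F_eq_zero_iff]; exact hm i
  rw [card_blk_eq, Nat.card_eq_fintype_card, ← rank_mul_eq_card _ _ h1, ← Matrix.rank_transpose,
    ← rank_map_field (algebraMap (ZMod p) (F M)), ← Matrix.rank_mul_eq_right_of_det_ne_zero
      (Matrix.diagonal fun i => ((S : Subgroup G).index : F M) / m i) _ (by
        rw [Matrix.det_diagonal]; exact Finset.prod_ne_zero_iff.2 fun i _ => div_ne_zero h2 (h3 i))]
  congr 1
  ext i j
  obtain ⟨n, h4, h5⟩ := exists_count (S : Subgroup G) (K i).out (K j).out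
  have h6 := congrArg (red M) h4
  rw [red_natCast, red_count, robinson_ind (cls_mem _) S.isPGroup' (isPPart_one (h0 i).1)] at h6
  obtain ⟨d, hd⟩ := IsPGroup.iff_card.1 hD
  have h7 : Nat.card (S : Subgroup G) = p ^ d * p ^ ((Nat.card G).factorization p - d) := by
    rw [← pow_add, Nat.add_sub_cancel', S.card_eq_multiplicity]
    exact ((Nat.Prime.pow_dvd_iff_le_factorization Fact.out Nat.card_pos.ne').1 (hd ▸ card_subgroup_dvd_card D))
  rw [hm', h7, hd, mul_assoc, mul_assoc, Nat.mul_right_inj (pow_pos (Fact.out : p.Prime).pos _).ne'] at h5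
  obtain ⟨a, ha⟩ := (Nat.Coprime.pow_left _ ((Nat.Prime.coprime_iff_not_dvd Fact.out).2
    (hm i))).dvd_of_dvd_mul_left ⟨n, h5.symm⟩
  rw [ha, mul_left_comm, Nat.mul_right_inj (pow_pos (Fact.out : p.Prime).pos _).ne'] at h5
  rw [Matrix.diagonal_mul]
  simp only [ConjClasses.mem_carrier_iff_mk_eq, eq_comm (b := K _), ← isConj_out_iff, Matrix.map_apply,
    Matrix.of_apply, Matrix.transpose_apply, Matrix.mul_apply, map_natCast]
  rw [ha, hd, Nat.factorization_pow_self Fact.out, Nat.mul_div_cancel_left _ (pow_pos (Fact.out : p.Prime).pos _),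
    div_mul_eq_mul_div, div_eq_iff (h3 i), mul_comm (a : F M), ← Nat.cast_mul, ← h5, h6, inv_one, one_mul]
  congr 1
  rw [← Finset.sum_subtype (Finset.univ.filter fun B : Blk G M => IsDefectGroup p M B.1 D) (by simp)
    (fun B => lam M (B.rep : G → ℂ) (cls (F M) (K j).out) * (eB M B.1).coeff (K i).out), Finset.sum_filter_of_ne]
  · intro B _ h8
    exact B.2.isDefectGroup_of_lam B.rep_mem (left_ne_zero_of_mul h8) (right_ne_zero_of_mul h8) (h0 j).2
      (h0 i).2.le

end Cfsg.Agent.S4443
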