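import Cfsg.Statements.S4444
import Cfsg.Agent.C3.Glaub3

set_option autoImplicit false
open Cfsg

namespace Cfsg.Agent.S4444

open Subgroup H3 C3

/-- The Glauberman correspondence for a p-group of operators. Inside a finite group Γ let S normalise G with the orders of G and S coprime, S a p-group, and let C = G ⊓ C(S) be the fixed points. Call an irreducible character χ of G S-invariant when χ(s g s⁻¹) = χ(g) for s ∈ S, g ∈ G. Then: (i) for every S-invariant χ there is exactly one irreducible character β of C whose multiplicity [χ_C, β] in the restriction of χ is not divisible by p; (ii) that multiplicity is ≡ 1 or ≡ −1 (mod p); (iii) distinct S-invariant χ give distinct β; (iv) every irreducible character of C arises in this way. So χ ↦ β is a bijection from the S-invariant irreducible characters of G onto the irreducible characters of C.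 -/
theorem result {Γ : Type*} [Group Γ] [Fintype Γ] (G S : Subgroup Γ) [Fintype G] (hnorm : ∀ s ∈ S, ∀ g ∈ G, s * g * s⁻¹ ∈ G) (hcop : (Nat.card G).Coprime (Nat.card S)) (p : ℕ) (hp : p.Prime) (hS : IsPGroup p S) (C : Subgroup Γ) [Fintype C] (hC : C = G ⊓ Subgroup.centralizer (S : Set Γ)) (hCG : C ≤ G) : (∀ χ : Cfsg.IrrCharacter G, (∀ s ∈ S, ∀ g g' : G, (g' : Γ) = s * g * s⁻¹ → (χ : G → ℂ) g' = (χ : G → ℂ) g) → ∃! β : Cfsg.IrrCharacter C, ∃ m : ℕ, Cfsg.classInner (fun c : C => (χ : G → ℂ) ⟨c, hCG c.2⟩) (β : C → ℂ) = (m : ℂ) ∧ ¬ p ∣ m) ∧ (∀ χ : Cfsg.IrrCharacter G, (∀ s ∈ S, ∀ g g' : G, (g' : Γ) = s * g * s⁻¹ → (χ : G → ℂ) g' = (χ : G → ℂ) g) → ∀ β : Cfsg.IrrCharacter C, ∀ m : ℕ, Cfsg.classInner (fun c : C => (χ : G → ℂ) ⟨c, hCG c.2⟩) (β : C → ℂ) = (m : ℂ) → ¬ p ∣ m → ((m : ℤ) ≡ 1 [ZMOD p] ∨ (m : ℤ) ≡ -1 [ZMOD p])) ∧ (∀ χ χ' : Cfsg.IrrCharacter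 G, (∀ s ∈ S, ∀ g g' : G, (g' : Γ) = s * g * s⁻¹ → (χ : G → ℂ) g' = (χ : G → ℂ) g) → (∀ s ∈ S, ∀ g g' : G, (g' : Γ) = s * g * s⁻¹ → (χ' : G → ℂ) g' = (χ' : G → ℂ) g) → ∀ β : Cfsg.IrrCharacter C, ∀ m m' : ℕ, Cfsg.classInner (fun c : C => (χ : G → ℂ) ⟨c, hCG c.2⟩) (β : C → ℂ) = (m : ℂ) → ¬ p ∣ m → Cfsg.classInner (fun c : C => (χ' : G → ℂ) ⟨c, hCG c.2⟩) (β : C → ℂ) = (m' : ℂ) → ¬ p ∣ m' → χ = χ') ∧ (∀ β : Cfsg.IrrCharacter C, ∃ χ : Cfsg.IrrCharacter G, (∀ s ∈ S, ∀ g g' : G, (g' : Γ) = s * g * s⁻¹ → (χ : G → ℂ) g' = (χ : G → ℂ) g) ∧ ∃ m : ℕ, Cfsg.classInner (fun c : C => (χ : G → ℂ) ⟨c, hCG c.2⟩) (β : C → ℂ) = (m : ℂ) ∧ ¬ p ∣ m) := by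
  subst hC
  have h := (act_bot (norm_of hnorm)).corr' hp hS (by simpa using hcop)
  have e := fun β : IrrCharacter ↥(G ⊓ centralizer (S : Set Γ)) =>
    (⟨β.2, sInv_of_cent inf_le_right _⟩ : IrrI S β.1)
  have c := fun (χ : IrrCharacter G) (β : IrrCharacter ↥(G ⊓ centralizer (S : Set Γ))) =>
    (cast_mlt (χ.2.isCharacter.resLe hCG) β.2.isCharacter).symm
  refine ⟨fun χ a => ?_, fun χ a β m b d => ?_, fun χ χ' a a' β m m' b d b' d' => ?_, fun β => ?_⟩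
  · obtain ⟨β, b, d⟩ := h.ex ⟨χ.2, a⟩
    exact ⟨⟨β, b.irr⟩, ⟨_, c χ ⟨β, b.irr⟩, d⟩, fun γ ⟨m, f, g⟩ =>
      Subtype.ext (h.uniq ⟨χ.2, a⟩ (e γ) b (mlt_eq f ▸ g) d)⟩
  · have := pm_one_of_sq hp (h.sq ⟨χ.2, a⟩ (e β) (mlt_eq b ▸ d))
    rw [mlt_eq b] at this
    exact this.imp (fun u => (ZMod.intCast_eq_intCast_iff _ _ _).1 (by simpa using u))
      fun u => (ZMod.intCast_eq_intCast_iff _ _ _).1 (by simpa using u)
  · exact Subtype.ext (h.uniq' ⟨χ.2, a⟩ ⟨χ'.2, a'⟩ (e β) (mlt_eq b ▸ d) (mlt_eq b' ▸ d'))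
  · obtain ⟨χ, b, d⟩ := h.ex' (e β)
    exact ⟨⟨χ, b.irr⟩, b.inv, _, c ⟨χ, b.irr⟩ β, d⟩

end Cfsg.Agent.S4444
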