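import Cfsg.Statements.S4446
import Cfsg.Agent.C3.Glaub5

set_option autoImplicit false
open Cfsg

namespace Cfsg.Agent.S4446

open Subgroup H3 C3 BG

/-- Let the finite group Γ be generated by a normal subgroup G and a cyclic subgroup S of coprime orders, C = G ⊓ C(S), and let χ be an S-invariant irreducible character of G with canonical extension χ̂ to Γ (the extension whose determinantal order is coprime to the order of S). Then there are exactly one irreducible character β of C and one sign ε such that χ̂(c s) = ε β(c) for every c ∈ C and every generator s of S; this β is a constituent of the restriction of χ to C; distinct S-invariant χ give distinct β; and every irreducible character of C arises in this way. -/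
theorem result {Γ : Type*} [Group Γ] [Fintype Γ] (G S : Subgroup Γ) [Fintype G] (hnorm : ∀ s ∈ S, ∀ g ∈ G, s * g * s⁻¹ ∈ G) (hcop : (Nat.card G).Coprime (Nat.card S)) (htop : G ⊔ S = ⊤) (hcyc : IsCyclic S) (C : Subgroup Γ) [Fintype C] (hC : C = G ⊓ Subgroup.centralizer (S : Set Γ)) (hCG : C ≤ G) : (∀ (χ : Cfsg.IrrCharacter G) (χh : Cfsg.IrrCharacter Γ), (∀ s ∈ S, ∀ g g' : G, (g' : Γ) = s * g * s⁻¹ → (χ : G → ℂ) g' = (χ : G → ℂ) g) → (∀ g : G, (χh : Γ → ℂ) g = (χ : G → ℂ) g) → (Cfsg.detOrder (χh : Γ → ℂ)).Coprime (Nat.card S) → (∃! βε : Cfsg.IrrCharacter C × ℤ, (βε.2 = 1 ∨ βε.2 = -1) ∧ ∀ c : C, ∀ s : Γ, Subgroup.zpowers s = S → (χh : Γ → ℂ) ((c : Γ) * s) = (βε.2 : ℂ) * (βε.1 : C → ℂ) c) ∧ ∀ β : Cfsg.IrrCharacter C, ∀ ε : ℤ, (ε = 1 ∨ ε = -1) → (∀ c : C, ∀ s : Γ, Subgroup.zpowers s = S → (χh : Γ → ℂ) ((c : Γ) * s) = (ε : ℂ) * (β : C → ℂ) c) → Cfsg.classInner (fun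 c : C => (χ : G → ℂ) ⟨c, hCG c.2⟩) (β : C → ℂ) ≠ 0) ∧ (∀ (χ χ' : Cfsg.IrrCharacter G) (χh χh' : Cfsg.IrrCharacter Γ), (∀ s ∈ S, ∀ g g' : G, (g' : Γ) = s * g * s⁻¹ → (χ : G → ℂ) g' = (χ : G → ℂ) g) → (∀ s ∈ S, ∀ g g' : G, (g' : Γ) = s * g * s⁻¹ → (χ' : G → ℂ) g' = (χ' : G → ℂ) g) → (∀ g : G, (χh : Γ → ℂ) g = (χ : G → ℂ) g) → (∀ g : G, (χh' : Γ → ℂ) g = (χ' : G → ℂ) g) → (Cfsg.detOrder (χh : Γ → ℂ)).Coprime (Nat.card S) → (Cfsg.detOrder (χh' : Γ → ℂ)).Coprime (Nat.card S) → ∀ β : Cfsg.IrrCharacter C, ∀ ε ε' : ℤ, (ε = 1 ∨ ε = -1) → (ε' = 1 ∨ ε' = -1) → (∀ c : C, ∀ s : Γ, Subgroup.zpowers s = S → (χh : Γ → ℂ) ((c : Γ) * s) = (ε : ℂ) * (β : C → ℂ) c) → (∀ c : C, ∀ s : Γ, Subgroup.zpowers s = S → (χh' : Γ → ℂ) ((c : Γ) * s) = (ε' : ℂ) * (β : C → ℂ) c) → χ = χ') ∧ (∀ β : Cfsg.IrrCharacter C, ∃ (χ : Cfsg.IrrCharacter G) (χh : Cfsg.IrrCharacter Γ) (ε : ℤ), (∀ s ∈ S, ∀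 g g' : G, (g' : Γ) = s * g * s⁻¹ → (χ : G → ℂ) g' = (χ : G → ℂ) g) ∧ (∀ g : G, (χh : Γ → ℂ) g = (χ : G → ℂ) g) ∧ (Cfsg.detOrder (χh : Γ → ℂ)).Coprime (Nat.card S) ∧ (ε = 1 ∨ ε = -1) ∧ ∀ c : C, ∀ s : Γ, Subgroup.zpowers s = S → (χh : Γ → ℂ) ((c : Γ) * s) = (ε : ℂ) * (β : C → ℂ) c) := by
  subst hC
  have := Fintype.ofFinite S
  have h1 := norm_of hnorm
  obtain ⟨s, hs⟩ := S.isCyclic_iff_exists_zpowers_eq_top.1 hcyc
  have h2 : s ∈ S := hs ▸ mem_zpowers s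
  have e : ∀ (χ : IrrCharacter G) (F : IrrCharacter Γ), (∀ g : G, F.1 g = χ.1 g) →
      (detOrder F.1).Coprime (♯S) → Can G S F.1 := fun χ F a b =>
    ⟨h1, hcop, htop, F.2, by rw [show rs G F.1 = χ.1 from funext a]; exact χ.2, b⟩
  have e' : ∀ {F F'} {β : ↥(G ⊓ 𝒞 S) → ℂ} {ε ε' : ℤ}, Can G S F → Can G S F' → IsIrrCharacter _ β →
      (ε = 1 ∨ ε = -1) → (ε' = 1 ∨ ε' = -1) → (∀ c : ↥(G ⊓ 𝒞 S), F (c * s) = ε * β c) →
      (∀ c : ↥(G ⊓ 𝒞 S), F' (c * s) = ε' * β c) → rs G F = rs G F' := fun a b c d e f g =>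
    (a.one hs).eq_of_inner (ext_of_char a.irr.isCharacter a.res) (ext_of_char b.irr.isCharacter b.res)
      (by unfold trl; rw [funext f, funext g]; exact inner_sign_ne_zero c (sign_ne_zero d) (sign_ne_zero e))
  refine ⟨fun χ F _ a b => ⟨?_, fun β ε c d f => ?_⟩, fun χ χ' F F' _ _ a a' b b' β ε ε' c c' d d' =>
    Subtype.ext ((funext a).symm.trans ((e' (e χ F a b) (e χ' F' a' b') β.2 c c' (d · s hs)
      (d' · s hs)).trans (funext a'))), ?_⟩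
  · obtain ⟨β, ε, c, d, f⟩ := (e χ F a b).exists_irr hs
    refine ⟨(⟨β, c⟩, ε), ⟨d, f⟩, fun ⟨γ, η⟩ ⟨g, i⟩ => ?_⟩
    obtain ⟨j, k⟩ := eq_of_smul_eq γ.2 c (sign_ne_zero g) fun x => (i x s hs).symm.trans (f x s hs)
    exact Prod.ext (Subtype.ext j) (Int.cast_injective k)
  · have g := congrFun ((isCharacter_slice (char_mulHom (C := G ⊓ 𝒞 S) inf_le_right F.2.isCharacter)
      β.2.isCharacter).eq_zero_of_apply_one (by
        rw [← f]; exact congrArg (classInner · _) (funext fun c => by simpa using a ⟨c, c.2.1⟩))) ⟨s, h2⟩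
    refine inner_sign_ne_zero β.2 (sign_ne_zero c) one_ne_zero ?_
    simpa [d _ s hs] using g
  choose F a _ using fun χ : {χ : IrrCharacter G // SInv S χ.1} => exists_can h1 hcop htop ⟨χ.1.2, χ.2⟩
  choose β ε b c d using fun χ => (a χ).1.exists_irr hs
  intro γ
  obtain ⟨χ, rfl⟩ := (Function.Injective.bijective_of_nat_card_le (f := fun χ => (⟨β χ, b χ⟩ : IrrCharacter _))
    (fun χ χ' f => Subtype.ext (Subtype.ext ((a χ).2.symm.trans ((e' (a χ).1 (a χ').1 (b χ) (c χ) (c χ')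
      (d χ · s hs) fun x => (d χ' x s hs).trans (by rw [show β χ = β χ' from congrArg Subtype.val f])).trans
      (a χ').2)))) (card_irr_inv h1 hcop inferInstance).ge).2 γ
  exact ⟨χ.1, ⟨F χ, (a χ).1.irr⟩, ε χ, χ.2, congrFun (a χ).2, (a χ).1.det, c χ, d χ⟩

end Cfsg.Agent.S4446
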