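import Cfsg.Statements.S4450
import Cfsg.Agent.C3.Glaub3

set_option autoImplicit false
open Cfsg

namespace Cfsg.Agent.S4450

open Subgroup H3 C3

/-- Let N ≤ G be normal subgroups of the finite group Γ with the index of G in Γ coprime to the index of N in G, and Γ/G or G/N solvable. Then for every irreducible character ϑ of N invariant under conjugation by Γ, the induced character ϑ^G has an irreducible constituent invariant under conjugation by Γ. -/
theorem result {Γ : Type*} [Group Γ] [Fintype Γ] (G N : Subgroup Γ) [hG : G.Normal] [hN : N.Normal] [Fintype G] [Fintype N] (hNG : N ≤ G) (hcop : (G.index).Coprime (N.relIndex G)) (hsolv : Group.IsSolvable (Γ ⧸ G) ∨ Group.IsSolvable (G ⧸ N.subgroupOf G)) (θ : Cfsg.IrrCharacter N) (hinv : ∀ (x : Γ) (n : N), (θ : N → ℂ) ⟨x * n * x⁻¹, hN.conj_mem n n.2 x⟩ = (θ : N → ℂ) n) : ∃ χ : Cfsg.IrrCharacter G, Cfsg.classInner (fun n : N => (χ : G → ℂ) ⟨n, hNG n.2⟩) (θ : N → ℂ) ≠ 0 ∧ ∀ (x : Γ) (g : G), (χ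 : G → ℂ) ⟨x * g * x⁻¹, hG.conj_mem g g.2 x⟩ = (χ : G → ℂ) g := by
  obtain ⟨S, h1, h2, h3⟩ := exists_compl_mod hNG hcop
  have h4 : IrrI S θ.1 := ⟨θ.2, fun s _ g g' e => (congrArg θ.1 (Subtype.ext e)).trans (hinv s g)⟩
  obtain ⟨χ, a, b⟩ : ∃ χ, IrrI S χ ∧ classInner (resLe hNG χ) θ.1 ≠ 0 := by
    rcases hsolv with h | h
    · refine exists_irrI_over' hNG le_normalizer_of_normal le_normalizer_of_normal
        le_normalizer_of_normal (isSolvable_quotient_of_le ?_
        (isSolvable_quotient_comap S.subtype h)) (h3 ▸ hcop) h4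
      exact fun x hx => h1.le ⟨x.2, hx⟩
    · exact exists_irrI_over_solv hNG le_normalizer_of_normal le_normalizer_of_normal
        le_normalizer_of_normal h (h3 ▸ hcop) h4
  have h5 : ⊤ ≤ stab χ := h2 ▸ sup_le (le_stab.2 ⟨le_normalizer_of_normal, a.inv⟩)
    (self_le_stab a.irr.isClassFunction)
  exact ⟨⟨χ, a.irr⟩, b, fun x g => (h5 (mem_top x)).2 _ _ rfl⟩

end Cfsg.Agent.S4450
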