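import Cfsg.Statements.S4451
import Cfsg.Agent.C3.Glaub5

set_option autoImplicit false
open Cfsg

namespace Cfsg.Agent.S4451

open Subgroup H3 C3 BG

/-- Let the finite group Γ be generated by a normal subgroup G and a cyclic subgroup S of coprime orders such that every non-identity element of S has the same centraliser C = G ⊓ C(S) in G. Let χ be an S-invariant irreducible character of G, χ̂ its canonical extension to Γ (determinantal order coprime to the order of S), and β the irreducible character of C with χ̂(c s) = ε₀ β(c) for c ∈ C and generators s of S (ε₀ = ±1). Then there are a sign ε = ±1, which may differ from ε₀, and a linear character μ of S with μ² = 1, such that: (a) χ̂(c x) = ε β(c) μ(x) for all c ∈ C and all x ∈ S other than 1; (b) the restriction of χ to C equals |S|·ϑ + ε β for some character ϑ of C or ϑ = 0; (c) |S| divides χ(1) − ε β(1). -/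
theorem result {Γ : Type*} [Group Γ] [Fintype Γ] (G S : Subgroup Γ) [Fintype G] (hnorm : ∀ s ∈ S, ∀ g ∈ G, s * g * s⁻¹ ∈ G) (hcop : (Nat.card G).Coprime (Nat.card S)) (htop : G ⊔ S = ⊤) (hcyc : IsCyclic S) (C : Subgroup Γ) [Fintype C] (hC : C = G ⊓ Subgroup.centralizer (S : Set Γ)) (hCG : C ≤ G) (hfpf : ∀ x ∈ S, x ≠ 1 → G ⊓ Subgroup.centralizer ({x} : Set Γ) = C) (χ : Cfsg.IrrCharacter G) (hinv : (∀ s ∈ S, ∀ g g' : G, (g' : Γ) = s * g * s⁻¹ → (χ : G → ℂ) g' = (χ : G → ℂ) g)) (χh : Cfsg.IrrCharacter Γ) (hext : (∀ g : G, (χh : Γ → ℂ) g = (χ : G → ℂ) g)) (hdet : (Cfsg.detOrder (χh : Γ → ℂ)).Coprime (Nat.card S)) (β : Cfsg.IrrCharacter C) (ε₀ : ℤ) (hε₀ : ε₀ = 1 ∨ ε₀ = -1) (hβ : ∀ c : C, ∀ s : Γ, Subgroup.zpowers s = S → (χh : Γ → ℂ) ((c : Γ) * s) = (ε₀ : ℂ) * (β : C → ℂ) c) : ∃ ε : ℤ, (ε = 1 ∨ ε = -1) ∧ (∃ μ : S → ℂ, Cfsg.IsCharacter S μ ∧ μ 1 = 1 ∧ (∀ x : S, μ x * μ x = 1) ∧ ∀ c : C, ∀ x : S, x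 ≠ 1 → (χh : Γ → ℂ) ((c : Γ) * x) = (ε : ℂ) * (β : C → ℂ) c * μ x) ∧ (∃ ϑ : C → ℂ, Cfsg.IsCharacter C ϑ ∧ (fun c : C => (χ : G → ℂ) ⟨c, hCG c.2⟩) = fun c => (Nat.card S : ℂ) * ϑ c + (ε : ℂ) * (β : C → ℂ) c) ∧ (Nat.card S : ℤ) ∣ (Cfsg.charDegree (χ : G → ℂ) : ℤ) - ε * (Cfsg.charDegree (β : C → ℂ) : ℤ) := by
  have := Fintype.ofFinite S
  have h1 := norm_of hnorm
  obtain ⟨s, hs⟩ := S.isCyclic_iff_exists_zpowers_eq_top.1 hcyc
  have h2 : s ∈ S := hs ▸ mem_zpowers s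
  have e : ∀ (ε : ℤ) (ϑ : C → ℂ), IsCharacter C ϑ → ((fun c : C => χ.1 ⟨c, hCG c.2⟩) =
      fun c => (♯S : ℂ) * ϑ c + ε * β.1 c) → (♯S : ℤ) ∣ charDegree χ.1 - ε * charDegree β.1 :=
    fun ε ϑ a b => ⟨charDegree ϑ, Int.cast_injective (α := ℂ) (by
      push_cast
      rw [χ.2.cast_charDegree, β.2.cast_charDegree, a.cast_charDegree, sub_eq_iff_eq_add]
      exact congrFun b 1)⟩
  rcases subsingleton_or_nontrivial S with h | h
  · obtain rfl : s = 1 := congrArg Subtype.val (h.elim ⟨s, h2⟩ 1)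
    have a : (fun c : C => χ.1 ⟨c, hCG c.2⟩) = fun c => (♯S : ℂ) * (0 : C → ℂ) c + ε₀ * β.1 c :=
      funext fun c => by simpa [← hext] using hβ c 1 hs
    exact ⟨ε₀, hε₀, ⟨fun _ => 1, isCharacter_one, rfl, by simp, fun c x b => (b (h.elim _ _)).elim⟩,
      ⟨0, isCharacter_zero, a⟩, e _ _ isCharacter_zero a⟩
  obtain ⟨ε, γ, μ, ϑ, a, b, c, d, f⟩ := exists_of_slices (char_mulHom (C := C) (S := S)
    (hC.le.trans inf_le_right) χh.2.isCharacter) fun x hx => by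
      have g := one_of_cent (h1 x.2) (hcop.symm.coprime_dvd_left (S.orderOf_dvd_natCard x.2))
      rw [zpowers_eq_closure, centralizer_closure, hfpf x x.2 (by simpa using hx)] at g
      have i := g.inner_self (ext_of_char χh.2.isCharacter
        (by rw [show rs G χh.1 = χ.1 from funext hext]; exact χ.2)) rfl
      exact nrm_eq_one i
  have h3 : (⟨s, h2⟩ : S) ≠ 1 := fun g => by
    rw [show s = 1 from congrArg Subtype.val g, zpowers_one_eq_bot] at hs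
    exact (nontrivial_iff_ne_bot S).1 h hs.symm
  obtain ⟨g, i⟩ := eq_of_smul_eq β.2 b (b := ε * μ ⟨s, h2⟩) (sign_ne_zero hε₀) fun x =>
    (hβ x s hs).symm.trans ((d x _ h3).trans (by ring))
  subst g
  have j : (fun c : C => χ.1 ⟨c, hCG c.2⟩) = fun c => (♯S : ℂ) * ϑ c + ε * β.1 c :=
    funext fun x => by simpa [← hext] using f x
  refine ⟨ε, a, ⟨fun x => μ x, isCharacter_linear μ, by simp, fun x => ?_, d⟩, ⟨ϑ, c, j⟩, e _ _ c j⟩
  obtain ⟨n, hn⟩ := hs.ge x.2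
  have k : (μ ⟨s, h2⟩ : ℂ) * μ ⟨s, h2⟩ = 1 := by
    have := congrArg (· ^ 2) i
    rcases a with rfl | rfl <;> rcases hε₀ with rfl | rfl <;> simpa [sq] using this.symm
  simp only [show x = ⟨s, h2⟩ ^ n from Subtype.ext hn.symm, map_zpow, Units.val_zpow_eq_zpow_val,
    ← mul_zpow, k, one_zpow]

end Cfsg.Agent.S4451
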