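import Cfsg.Statements.S4452
import Cfsg.Agent.C3.Glaub5

set_option autoImplicit false
open Cfsg

namespace Cfsg.Agent.S4452

open Subgroup H3 C3 BG

/-- Let the finite group G be the product of a normal subgroup K and a solvable subgroup H of coprime orders, and let N = N_G(H). Then the number of irreducible characters of G of degree coprime to the order of H equals the number of irreducible characters of N of degree coprime to the order of H. (The two sets are in fact in a canonical bijection; only the equality of their sizes is stated here.) -/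
theorem result {G : Type*} [Group G] [Finite G] (K H : Subgroup G) [K.Normal] (hKH : K ⊔ H = ⊤) (hcop : (Nat.card K).Coprime (Nat.card H)) (hsolv : Group.IsSolvable H) : Nat.card {χ : Cfsg.IrrCharacter G // (Cfsg.charDegree (χ : G → ℂ)).Coprime (Nat.card H)} = Nat.card {η : Cfsg.IrrCharacter (Subgroup.normalizer (H : Set G)) // (Cfsg.charDegree (η : Subgroup.normalizer (H : Set G) → ℂ)).Coprime (Nat.card H)} := by
  have h1 : H ≤ 𝒩 H := le_normalizer
  have h2 := H1.card_subgroupOf h1
  have h3 : (♯(K.subgroupOf (𝒩 H))).Coprime (♯(H.subgroupOf (𝒩 H))) :=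
    h2 ▸ hcop.coprime_dvd_left (H1.card_subgroupOf' K _ ▸ card_dvd_of_le inf_le_left)
  have h4 := Group.isSolvable_of_surjective (f := (subgroupOfEquivOfLe h1).symm.toMonoidHom)
    (subgroupOfEquivOfLe h1).symm.surjective
  have h5 : K ⊓ 𝒞 H ≤ 𝒩 H := inf_le_right.trans (centralizer_le_normalizer _)
  have h6 : K.subgroupOf (𝒩 H) ⊓ 𝒞 (H.subgroupOf (𝒩 H)) = (K ⊓ 𝒞 H).subgroupOf (𝒩 H) :=
    Subgroup.ext fun x => and_congr_right' ⟨fun a h b => congrArg Subtype.val (a ⟨h, h1 b⟩ b),
      fun a h b => Subtype.ext (a h b)⟩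
  rw [card_irr_coprime hKH hcop, card_irr_inv le_normalizer_of_normal hcop hsolv, ← h2,
    card_irr_coprime (K := K.subgroupOf (𝒩 H)) ?_ h3, card_irr_inv le_normalizer_of_normal h3 h4, h6,
    card_irr_eq_card_conjClasses, card_irr_eq_card_conjClasses,
    card_conjClasses_congr (subgroupOfEquivOfLe h5),
    Nat.card_congr (subgroupOfEquivOfLe h1).monoidHomCongrLeftEquiv]
  refine top_le_iff.1 fun x _ => ?_
  obtain ⟨k, a, h, b, e⟩ := (H1.mem_sup_right_norm le_normalizer_of_normal).1 (hKH.ge (mem_top x.1))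
  have : k ∈ 𝒩 H := by rw [eq_mul_inv_of_mul_eq e.symm]; exact mul_mem x.2 (inv_mem (h1 b))
  rw [show x = ⟨k, this⟩ * ⟨h, h1 b⟩ from Subtype.ext e]
  exact mul_mem_sup a b

end Cfsg.Agent.S4452
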