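import Cfsg.Statements.S4454
import Cfsg.Agent.C3.Glaub5

set_option autoImplicit false
open Cfsg

namespace Cfsg.Agent.S4454

open Subgroup H3 C3 BG
open scoped ComplexConjugate

/-- Let N ≤ G be normal subgroups of the finite group Γ with Γ/G cyclic and Γ/N a Frobenius group with kernel G/N: G ≠ Γ, N ≠ G, and no element of Γ outside G fixes a non-identity coset of N in G under conjugation. Let ϑ be an irreducible character of N invariant under conjugation by Γ and suppose ϑ is fully ramified in G: the character of G induced from ϑ equals e·χ for an irreducible character χ of G and a natural number e. Then the index of G in Γ divides e − 1 or e + 1. -/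
theorem result {Γ : Type*} [Group Γ] [Fintype Γ] (G N : Subgroup Γ) [hG : G.Normal] [hN : N.Normal] [Fintype G] [Fintype N] (hNG : N ≤ G) (hGlt : G ≠ ⊤) (hNlt : N ≠ G) (hcyc : IsCyclic (Γ ⧸ G)) (hfrob : ∀ x : Γ, x ∉ G → ∀ g : Γ, g ∈ G → x * g * x⁻¹ * g⁻¹ ∈ N → g ∈ N) (θ : Cfsg.IrrCharacter N) (hinv : ∀ (x : Γ) (n : N), (θ : N → ℂ) ⟨x * n * x⁻¹, hN.conj_mem n n.2 x⟩ = (θ : N → ℂ) n) (χ : Cfsg.IrrCharacter G) (e : ℕ) (hram : Cfsg.indFun (N.subgroupOf G) (fun n : N.subgroupOf G => (θ : N → ℂ) ⟨(n : G), n.2⟩) = fun g => (e : ℂ) * (χ : G → ℂ) g) : (G.index : ℤ) ∣ (e : ℤ) - 1 ∨ (G.index : ℤ) ∣ (e : ℤ) + 1 := by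
  have := Fintype.ofFinite (N.subgroupOf G)
  obtain ⟨⟨s⟩, hs⟩ := hcyc.exists_generator
  have h1 : G ⊔ zpowers s = ⊤ := top_le_iff.1 fun x _ => by
    obtain ⟨n, hn⟩ := hs x
    rw [← mul_inv_cancel_left (s ^ n) x]
    exact mul_mem (mem_sup_right ⟨n, rfl⟩) (mem_sup_left (QuotientGroup.eq.1 hn))
  have h2 : s ∉ G := fun h => hGlt (by rwa [sup_eq_left.2 (zpowers_le.2 h)] at h1)
  have h3 : (N ⊔ zpowers s) ⊓ G = N := le_antisymm (fun x hx => by
    obtain ⟨n, a, _, ⟨k, rfl⟩, rfl⟩ := (H1.mem_sup_right_norm le_normalizer_of_normal).1 hx.1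
    exact mul_mem a (hfrob s h2 _ ((mul_mem_cancel_left (hNG a)).1 hx.2) (by group; exact one_mem _)))
    (le_inf le_sup_left hNG)
  have h4 : N.relIndex (N ⊔ zpowers s) = G.index := by
    refine (congrArg (relIndex · _) h3).symm.trans ?_
    rw [inf_relIndex_left, ← relIndex_sup_left, ← sup_assoc, sup_eq_left.2 hNG, h1, relIndex_top_right]
  have h5 : ∀ ψ, IsIrrCharacter G ψ → classInner (resLe hNG ψ) θ.1 = e * classInner ψ χ.1 := fun ψ a => by
    rw [← classInner_indLe_right hNG _ a.isClassFunction]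
    exact (congrArg _ hram).trans ((classInner_smul_right (e : ℂ) ψ χ.1).trans (by simp))
  have h6 : (e : ℂ) ≠ 0 := fun h => (θ.2.toSubOf hNG).indFun_ne_zero (hram.trans (by simp [h]; rfl))
  have h7 := h5 _ χ.2
  rw [χ.2.inner_self, mul_one] at h7
  have h8 : ∀ g : Γ, cjf g θ.1 = θ.1 := fun g => funext (hinv g)
  obtain ⟨F, a, b⟩ := exists_ext_of_cyclic χ.2 (fun g => (χ.2.cjf g).eq_of_inner_ne_zero χ.2
    (right_ne_zero_of_mul ((h5 _ (χ.2.cjf g)).symm.trans_ne (by
      rwa [← h7, ← classInner_cjf g, h8] at h6)))) hcyc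
  obtain ⟨E, c, d⟩ := exists_ext (le_normalizer_of_normal (K := ⊤) (mem_top s)) θ.2
    ((cInv_iff (le_normalizer_of_normal (K := ⊤) (mem_top s))).2 (h8 s))
  have h9 : N ≤ N ⊔ zpowers s := le_sup_left
  have h10 := isCyclic_quot (sup_subgroupOf N s (mem_sup_self N s))
  generalize N ⊔ zpowers s = S at *
  have f := χ.2.resLe_eq_smul hNG θ.2 (fun g _ => h8 g) (h7 ▸ h6)
  rw [h7] at f
  obtain ⟨ψ, g, i, j⟩ := exists_factor (N := N.subgroupOf S) (a.isCharacter.res S) c
    ((d ▸ θ.2).toSubOf h9) e (funext fun n =>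
      (b ⟨_, hNG n.2⟩).trans ((congrFun f ⟨_, n.2⟩).trans (by rw [← d]; rfl)))
  obtain ⟨φ, k, l⟩ := g.exists_quotient _ i
  have := Fintype.ofFinite (S ⧸ N.subgroupOf S)
  have : Nontrivial (S ⧸ N.subgroupOf S) := Finite.one_lt_card_iff_nontrivial.1
    (h4.ge.trans_lt' (one_lt_index_of_ne_top hGlt))
  obtain ⟨ε, γ, μ, ϑ, m, n, o, -, q⟩ := exists_of_slices (C := PUnit) (k.comp (MonoidHom.snd _ _))
    (by
      intro x hx
      obtain ⟨x, rfl⟩ := QuotientGroup.mk_surjective x
      have r : (x : Γ) ∉ G := fun r => hx ((QuotientGroup.eq_one_iff x).2 (h3.le ⟨x.2, r⟩))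
      have t := (inner_trl_eq_of (F := F) (F' := F) hNG le_top (mem_top (x : Γ))
        (le_normalizer_of_normal (K := ⊤) trivial) (fun z hz c hc c' hc' u =>
          inv_mem_iff.1 (hfrob x r _ (inv_mem hz) (by
          obtain rfl := eq_mul_inv_of_mul_eq u.symm
          convert mul_mem (inv_mem hc) (hN.conj_mem _ hc' z⁻¹) using 1; group))) (a.isClassFunction.res _) (a.isClassFunction.res _)).symm.trans
        (inner_trl_self le_top le_normalizer_of_normal (a.isCharacter.res ⊤)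
          (by rw [show rs G F = χ.1 from funext b]; exact χ.2) trivial)
      have u : trl N x F = ψ x • trl N x E := funext fun n =>
        (congrFun j (⟨n, h9 n.2⟩ * x)).trans (congrArg (· * _)
          (g.isClassFunction.mul_left_of_mem_charKer (i n.2) x))
      have v := nrm_eq_one t
      rw [u, nrm_smul, nrm_eq_one (inner_trl_self h9 le_normalizer_of_normal c (d ▸ θ.2) x.2), mul_one,
        ← l] at v
      rw [nrm_eq_sum]; simp only [Finset.univ_unique, Finset.sum_singleton]; simpa using v)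
  have r := (congrFun f 1).symm.trans ((b 1).symm.trans (congrFun j 1))
  have t : (e : ℂ) = G.index * charDegree ϑ + ε := by
    have := q 1
    rw [n.degree_eq_one_of_comm, mul_one, ← o.cast_charDegree] at this
    rw [← h4]
    exact (mul_right_cancel₀ θ.2.apply_one_ne_zero (r.trans (congrArg (ψ 1 * ·) (congrFun d 1)))).trans
      ((l 1).symm.trans this)
  replace t : (e : ℤ) = G.index * charDegree ϑ + ε := by exact_mod_cast t
  exact m.imp (fun u => ⟨charDegree ϑ, by rw [t, u]; ring⟩) fun u => ⟨charDegree ϑ, by rw [t, u]; ring⟩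

end Cfsg.Agent.S4454
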