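import Cfsg.Statements.S4455
import Mathlib
import Cfsg.Agent.H3.Brauer2
import Cfsg.Agent.H3.Cover
import Cfsg.Agent.H2.PNil

set_option autoImplicit false
open Cfsg

namespace Cfsg.Agent.S4455

open Cfsg H3 Finset

/-- Fix a prime p and a finite group G. Let s be the sum of χ(1)² over the irreducible characters χ of G whose degree is not divisible by p and whose determinantal order o(χ) is not divisible by p. Then the order of O^p(G), the subgroup generated by the elements of order prime to p, is congruent to s modulo p. -/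
theorem result {G : Type*} [Group G] [Finite G] (p : ℕ) (hp : p.Prime) : (Nat.card (Cfsg.pResidual p G) : ℤ) ≡ (∑ᶠ χ ∈ {χ : Cfsg.IrrCharacter G | ¬ p ∣ Cfsg.charDegree (χ : G → ℂ) ∧ ¬ p ∣ Cfsg.detOrder (χ : G → ℂ)}, (Cfsg.charDegree (χ : G → ℂ) : ℤ) ^ 2) [ZMOD p] := by
  classical
  haveI := Fact.mk hp
  letI := Fintype.ofFinite G
  set N := pResidual p G with hN
  letI := Fintype.ofFinite N
  obtain ⟨k, hk⟩ := H2.index_pResidual p G
  let f : (N → ℂ) → ℕ := fun φ => if (∀ g : G, cjf g φ = φ) ∧ ¬ p ∣ charDegree φ then 0 else charDegree φ ^ 2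
  have h1 : p ∣ ∑ φ : IrrCharacter N, f φ := by
    by_contra h
    obtain ⟨φ, -, h2, h3⟩ := exists_invariant_not_dvd hp hk f (fun g φ => by
      have : charDegree (cjf g φ) = charDegree φ := by rw [charDegree, cjf_apply_one, charDegree]
      simp only [f, this]
      refine if_congr (and_congr_left fun _ => ⟨fun h x => ?_, fun h x => by rw [h g, h x]⟩) rfl rfl
      have e : cjf g φ = φ := (h g⁻¹).symm.trans (cjf_inv_cjf g φ)
      rw [e] at h; exact h x) h
    by_cases h4 : p ∣ charDegree φ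
    · exact h3 (by simp only [f, h4]; simpa using h4.pow two_ne_zero)
    · exact h3 (by simp [f, h2, h4])
  have c1 : ∀ {d : ℕ}, ¬ p ∣ d → N.index.Coprime d := fun h =>
    hk ▸ (hp.coprime_iff_not_dvd.2 h).pow_left k
  have res : ∀ χ : IrrCharacter G, ¬ p ∣ charDegree (χ : G → ℂ) → IsIrrCharacter N fun n : N => (χ : G → ℂ) n := by
    intro χ h
    obtain ⟨θ, hθ, h0⟩ := χ.2.exists_under N
    obtain ⟨e, h2, h3⟩ := χ.2.exists_degree_eq hθ h0
    obtain rfl : e = 1 := Nat.eq_one_of_dvd_coprimes (c1 h) h3 (by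
      rw [← χ.2.cast_charDegree, ← hθ.cast_charDegree] at h2
      exact Dvd.intro _ (by exact_mod_cast h2.symm))
    rwa [(χ.2.isCharacter.res N).eq_of_inner_ne_zero_of_degree hθ h0 (by simpa using h2)]
  have det : ∀ θ, IsIrrCharacter N θ → ¬ p ∣ detOrder θ := fun θ hθ h => by
    obtain ⟨δ, hδ⟩ := hθ.isCharacter.exists_det
    rw [detOrder, hδ, orderOf_linear] at h
    refine (Nat.not_dvd_ordCompl hp (Nat.card_pos (α := G)).ne') (h.trans (orderOf_dvd_of_pow_eq_one ?_))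
    ext ⟨g, hg⟩
    rw [MonoidHom.pow_apply, MonoidHom.one_apply, Units.val_inj]
    induction hg using Subgroup.closure_induction with
    | mem x hx =>
      refine (map_pow δ _ _).symm.trans ((congrArg δ (Subtype.ext
        (orderOf_dvd_iff_pow_eq_one.1 (?_ : orderOf x ∣ _)))).trans (map_one δ))
      exact (Nat.Coprime.pow_right _ hx).dvd_of_dvd_mul_left
        ((orderOf_dvd_natCard x).trans (Nat.ordProj_mul_ordCompl_eq_self _ p).symm.dvd)
    | one => exact (congrArg (· ^ _) (map_one δ)).trans (one_pow _)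
    | mul x y hx hy h1 h2 =>
      rw [show (⟨x * y, _⟩ : N) = ⟨x, hx⟩ * ⟨y, hy⟩ from rfl, map_mul, mul_pow, h1, h2, one_mul]
    | inv x hx h1 => rw [show (⟨x⁻¹, _⟩ : N) = ⟨x, hx⟩⁻¹ from rfl, map_inv, inv_pow, h1, inv_one]
  rw [← coe_filter_univ, finsum_mem_coe_finset, ← sum_irr_charDegree_sq,
    sum_bij (t := univ.filter fun φ : IrrCharacter N => (∀ g : G, cjf g (φ : N → ℂ) = φ) ∧
      ¬ p ∣ charDegree (φ : N → ℂ)) (g := fun φ => (charDegree (φ : N → ℂ) : ℤ) ^ 2)
      (fun χ hχ => ⟨_, res χ (mem_filter.1 hχ).2.1⟩)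
      (fun χ hχ => mem_filter.2 ⟨mem_univ _, χ.2.isClassFunction.cjf_res, (mem_filter.1 hχ).2.1⟩)
      (fun χ hχ ψ hψ e => ?_) (fun θ hθ => ?_) fun _ _ => rfl, sum_filter]
  · refine Int.modEq_iff_dvd.2 (dvd_neg.1 ?_)
    refine (Int.natCast_dvd_natCast.2 h1).trans (dvd_of_eq (Eq.symm ?_))
    push_cast [f]
    rw [neg_sub, ← sum_sub_distrib]
    exact sum_congr rfl fun φ _ => by split_ifs <;> simp
  · have h := res χ (mem_filter.1 hχ).2.1
    obtain ⟨η, -, h2⟩ := exists_canonical_ext h χ.2.isClassFunction.cjf_res (c1 (mem_filter.1 hχ).2.1)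
      (c1 (det _ h))
    exact Subtype.ext ((h2 _ χ.2 (fun _ => rfl) (c1 (mem_filter.1 hχ).2.2)).trans
      (h2 _ ψ.2 (fun n => (congr_fun (congrArg Subtype.val e) n).symm) (c1 (mem_filter.1 hψ).2.2)).symm)
  · obtain ⟨-, h1, h2⟩ := mem_filter.1 hθ
    obtain ⟨η, ⟨h3, h4, h5⟩, -⟩ := exists_canonical_ext θ.2 h1 (c1 h2) (c1 (det _ θ.2))
    refine ⟨⟨η, h3⟩, mem_filter.2 ⟨mem_univ _, ?_, h5 ▸ det _ θ.2⟩, Subtype.ext (funext h4)⟩
    rwa [show charDegree η = charDegree (θ : N → ℂ) from congrArg (fun z : ℂ => ⌊z.re⌋₊) (h4 1)]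

end Cfsg.Agent.S4455
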