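import Cfsg.Statements.S4461
import Mathlib
import Cfsg.Agent.H3.Prim
import Cfsg.Agent.L.Frattini

set_option autoImplicit false
open Cfsg

namespace Cfsg.Agent.S4461

open Cfsg H3 L Finset

/-- Let χ be an irreducible character of the finite group G and K its kernel (the elements where χ takes the value χ(1)). Suppose either that K is not contained in the Fitting subgroup F(G), or that K = F(G) with G/K solvable and K ≠ G. Then there is an irreducible character ψ of G with ψ(1) > χ(1) whose kernel is properly contained in K. -/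
theorem result {G : Type*} [Group G] [Finite G] (χ : Cfsg.IrrCharacter G) (K : Subgroup G) [K.Normal] (hK : (∀ g : G, g ∈ K ↔ (χ : G → ℂ) g = (χ : G → ℂ) 1)) (h : ¬ K ≤ Cfsg.fittingSubgroup G ∨ (K = Cfsg.fittingSubgroup G ∧ Group.IsSolvable (G ⧸ K) ∧ K ≠ ⊤)) : ∃ ψ : Cfsg.IrrCharacter G, Cfsg.charDegree (χ : G → ℂ) < Cfsg.charDegree (ψ : G → ℂ) ∧ ∃ L : Subgroup G, (∀ g : G, g ∈ L ↔ (ψ : G → ℂ) g = (ψ : G → ℂ) 1) ∧ L < K := by
  classical
  letI := Fintype.ofFinite G
  obtain rfl : K = charKer (χ : G → ℂ) := Subgroup.ext fun g => (hK g).trans χ.2.mem_charKer_iff.symm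
  set K := charKer (χ : G → ℂ)
  by_contra hc
  have key : ∀ (L : Subgroup G) [L.Normal] (p : ℕ) [Fact p.Prime] (P : Sylow p L),
      ¬ ((P : Subgroup L).map L.subtype).Normal → L ≤ (P : Subgroup L).map L.subtype ⊔ K →
      ∃ H D : Subgroup G, (P : Subgroup L).map L.subtype ≤ H ∧ D.Normal ∧ D ≤ H ∧
        ¬ (P : Subgroup L).map L.subtype ≤ D ∧ ∀ h ∈ H, (χ : G → ℂ) h ≠ 0 → h ∈ D := by
    intro L _ p _ P hn hL
    obtain ⟨H, hH, hle⟩ := exists_coatom_of_ne_top (mt Subgroup.normalizer_eq_top_iff.1 hn)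
    letI := Fintype.ofFinite H
    have hKH : K ⊔ H = ⊤ := top_le_iff.1 (P.normalizer_sup_eq_top.ge.trans (sup_le (hle.trans le_sup_right)
      (hL.trans (sup_le ((Subgroup.le_normalizer.trans hle).trans le_sup_right) le_sup_left))))
    have hθ := irr_res_of_sup hKH χ.2 le_rfl
    have h1 : ∀ ψ : IrrCharacter G, classInner (fun h : H => (ψ : G → ℂ) h) (fun h : H => (χ : G → ℂ) h) ≠ 0 →
        (fun h : H => (ψ : G → ℂ) h) = fun h : H => (χ : G → ℂ) h := fun ψ h0 => by_contra fun hne => by
      haveI := ψ.2.isClassFunction.charKer_normal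
      have h2 : charKer (ψ : G → ℂ) ≤ H := by_contra fun h2 => hne ((irr_res_of_sup (hH.2 _
        (lt_of_le_of_ne le_sup_right fun e => h2 (le_sup_left.trans e.ge))) ψ.2 le_rfl).eq_of_inner_ne_zero hθ h0)
      refine hc ⟨ψ, lt_of_le_of_ne ((ψ.2.isCharacter.res H).degree_le_of_inner_ne_zero hθ h0) fun e => hne
        ((ψ.2.isCharacter.res H).eq_of_inner_ne_zero_of_degree hθ h0 (by
          simp only [OneMemClass.coe_one]; rw [← ψ.2.cast_charDegree, ← e, χ.2.cast_charDegree])), _,
        fun g => ψ.2.mem_charKer_iff, lt_of_le_of_ne (fun g hg => χ.2.mem_charKer_iff.2 ?_) fun e => hH.1 ?_⟩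
      · exact hθ.mem_charKer_iff.1 ((ψ.2.isCharacter.res H).charKer_le_of_inner hθ h0 (x := ⟨g, h2 hg⟩)
          ((ψ.2.isCharacter.res H).mem_charKer_iff.2 (ψ.2.mem_charKer_iff.1 hg)))
      · rw [← hKH, eq_comm, sup_eq_right]; exact e ▸ h2
    have h2 : ∀ h : H, indFun H (fun h : H => (χ : G → ℂ) h) h = (∑ ψ : IrrCharacter G,
        classInner (indFun H fun h : H => (χ : G → ℂ) h) ψ) * (χ : G → ℂ) h := fun h => by
      rw [(isClassFunction_indFun _ _).apply_eq_sum_irr, sum_mul]
      refine sum_congr rfl fun ψ _ => ?_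
      by_cases h0 : classInner (indFun H fun h : H => (χ : G → ℂ) h) ψ = 0
      · simp [h0]
      · rw [classInner_indFun_left _ ψ.2.isClassFunction, classInner_eq_zero_comm] at h0
        rw [congr_fun (h1 ψ h0) h]
    have h3 : indFun H (fun h : H => (χ : G → ℂ) h) = (χ : G → ℂ) * indFun H fun _ => 1 := by
      simpa using indFun_res_mul (H := H) (fun _ => 1) χ.2.isClassFunction
    have hπ := (isCharacter_one (G := H)).ind
    haveI := hπ.isClassFunction.charKer_normal
    refine ⟨H, charKer (indFun H fun _ => 1), Subgroup.le_normalizer.trans hle, this,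
      charKer_indFun_le isCharacter_one one_ne_zero, fun h4 => hH.1 ?_,
      fun h hh h0 => hπ.mem_charKer_iff.2 ?_⟩
    · have := congrArg (Subgroup.map L.subtype) (P.normalizer_sup_eq_top'
        (N := (charKer (indFun H fun _ => 1)).subgroupOf L) (Subgroup.map_le_iff_le_comap.1 h4))
      rw [Subgroup.map_sup, ← MonoidHom.range_eq_map, Subgroup.range_subtype] at this
      exact top_le_iff.1 (P.normalizer_sup_eq_top.ge.trans (sup_le hle (this.ge.trans (sup_le
        ((Subgroup.le_normalizer_map _).trans hle) ((Subgroup.map_comap_le _ _).trans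
          (charKer_indFun_le isCharacter_one one_ne_zero))))))
    · have e1 := h2 ⟨h, hh⟩
      have e2 := h2 1
      rw [h3, Pi.mul_apply, mul_comm] at e1 e2
      exact (mul_right_cancel₀ h0 e1).trans (mul_right_cancel₀ χ.2.apply_one_ne_zero e2).symm
  have nz : ∀ k ∈ K, (χ : G → ℂ) k ≠ 0 := fun k hk => apply_of_mem_charKer hk ▸ χ.2.apply_one_ne_zero
  rcases h with h | ⟨h1, h2, h3⟩
  · obtain ⟨p, hp, P, hP⟩ : ∃ p : ℕ, p.Prime ∧ ∃ P : Sylow p K, ¬ (P : Subgroup K).Normal := by
      by_contra! H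
      exact h (le_fitting (isNilpotent_of_sylow_normal H))
    haveI := Fact.mk hp
    obtain ⟨H, D, h1, -, -, h2, h3⟩ := key K p P (fun hn => hP (by
      simpa [Subgroup.comap_map_eq_self_of_injective K.subtype_injective] using hn.comap K.subtype)) le_sup_right
    exact h2 fun x hx => h3 x (h1 hx) (nz x (Subgroup.map_subtype_le _ hx))
  · obtain ⟨L, hL, h4, -, h5, -, p, hp, h6⟩ := exists_chief_above (X := ⊤) (fun h => h3 (top_le_iff.1 h)) le_top h2
    haveI := Fact.mk hp
    let P : Sylow p L := default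
    obtain ⟨k, hk⟩ := exists_pow_relIndex hp h6
    have h7 : L ≤ (P : Subgroup L).map L.subtype ⊔ K := by
      have := congrArg (Subgroup.map L.subtype) (sylow_sup_eq_top_of_index P hk)
      rw [Subgroup.map_sup, ← MonoidHom.range_eq_map, Subgroup.range_subtype] at this
      exact this.ge.trans (sup_le_sup_left (Subgroup.map_comap_le _ _) _)
    obtain ⟨H, D, h8, hD, h11, h9, h10⟩ := key L p P (fun hn => by
      haveI := (P.isPGroup'.map L.subtype).isNilpotent
      haveI : Group.IsNilpotent K := isNilpotent_of_le h1.le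
      exact h4.not_ge (h7.trans ((le_fitting (isNilpotent_sup_of_normal _ _)).trans h1.ge))) h7
    rcases h5 (L ⊓ D ⊔ K) inferInstance le_sup_right (sup_le inf_le_left h4.le) with e | e
    · letI := Fintype.ofFinite L
      refine h4.not_ge (χ.2.le_charKer_iff.2 fun h0 => ?_)
      have := card_mul_classInner (fun n : L => (χ : G → ℂ) n) fun _ => 1
      rw [h0, mul_zero, sum_congr rfl fun (l : L) _ => show _ = if (l : G) ∈ K then (χ : G → ℂ) 1 else 0 from by
        split_ifs with hl
        · simp [apply_of_mem_charKer hl]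
        · obtain ⟨x, hx, y, hy, e'⟩ := Subgroup.mem_sup_of_normal_right.1 (h7 l.2)
          rw [← e'] at hl ⊢
          rw [hy x, by_contra fun h0 => hl (K.mul_mem (e.le (Subgroup.mem_sup_left
            ⟨Subgroup.map_subtype_le _ hx, h10 x (h8 hx) h0⟩)) hy), zero_mul],
        ← sum_filter, sum_const, eq_comm, nsmul_eq_mul, mul_eq_zero, Nat.cast_eq_zero, card_eq_zero] at this
      exact this.elim (ne_empty_of_mem (a := 1) (by simp)) χ.2.apply_one_ne_zero
    · refine h9 fun x hx => ?_
      obtain ⟨d, hd, y, hy, rfl⟩ := Subgroup.mem_sup_of_normal_right.1 (e.ge (Subgroup.map_subtype_le _ hx))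
      exact D.mul_mem hd.2 (h10 y ((H.mul_mem_cancel_left (h11 hd.2)).1 (h8 hx)) (nz y hy))

end Cfsg.Agent.S4461
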