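import Cfsg.Statements.S4462
import Mathlib
import Cfsg.Agent.S4461

set_option autoImplicit false
open Cfsg

namespace Cfsg.Agent.S4462

open Cfsg H3 L

theorem aux.{u} (n : ℕ) : ∀ (G : Type u) [Group G] [Finite G] [Group.IsSolvable G],
    (Set.range fun χ : IrrCharacter G => charDegree (χ : G → ℂ)).ncard ≤ n → ∃ N : ℕ → Subgroup G,
      N 0 = ⊥ ∧ N n = ⊤ ∧ Monotone N ∧ (∀ i, (N i).Normal) ∧ ∀ i, ∀ _ : ((N i).subgroupOf (N (i + 1))).Normal,
        Group.IsNilpotent (↥(N (i + 1)) ⧸ (N i).subgroupOf (N (i + 1))) := by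
  induction n with
  | zero =>
    intro G _ _ _ h
    exact absurd h (not_le.2 ((Set.ncard_pos (Set.finite_range _)).2 (Set.range_nonempty _)))
  | succ n ih =>
    intro G _ _ _ h
    by_cases hF : fittingSubgroup G = ⊤
    · haveI := fitting_eq_top_iff.1 hF
      exact ⟨fun i => i.casesOn ⊥ fun _ => ⊤, rfl, rfl, monotone_nat_of_le_succ fun _ => le_top,
        fun i => i.casesOn Subgroup.normal_bot fun _ => Subgroup.normal_top, fun _ _ => inferInstance⟩
    obtain ⟨N, h0, h1, h2, h3, h4⟩ := ih (G ⧸ fittingSubgroup G) (Nat.le_of_lt_succ (lt_of_lt_of_le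
      (Set.ncard_lt_ncard (Set.ssubset_iff_subset_ne.2 ⟨by rintro _ ⟨χ, rfl⟩; exact ⟨⟨_, χ.2.inflate⟩, rfl⟩,
        fun e => by
          obtain ⟨χ, hχ⟩ := Finite.exists_max fun χ : IrrCharacter (G ⧸ fittingSubgroup G) =>
            charDegree χ.1
          haveI := χ.2.inflate.isClassFunction.charKer_normal
          obtain ⟨ψ, h1, -⟩ := S4461.result ⟨_, χ.2.inflate⟩ _ (fun _ => χ.2.inflate.mem_charKer_iff)
            (or_iff_not_imp_left.2 fun h => have e := le_antisymm (not_not.1 h) (le_charKer_inflate _)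
              ⟨e, inferInstance, e.trans_ne hF⟩)
          obtain ⟨φ, h2⟩ := e.ge ⟨ψ, rfl⟩
          exact (hχ φ).not_gt (h1.trans_eq h2.symm)⟩) (Set.finite_range _)) h))
    refine ⟨fun i => i.casesOn ⊥ fun i => (N i).comap (QuotientGroup.mk' _), rfl, by simp [h1],
      monotone_nat_of_le_succ fun i => i.casesOn bot_le fun i => Subgroup.comap_mono (h2 i.le_succ),
      fun i => i.casesOn Subgroup.normal_bot fun i => (h3 i).comap _, fun i hi => ?_⟩
    rcases i with _ | i
    · haveI : Group.IsNilpotent ((N 0).comap (QuotientGroup.mk' _)) := isNilpotent_of_le (K := fittingSubgroup G)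
        (by simp [h0])
      exact nilpotent_quotient_of_nilpotent _
    · haveI := (h3 i).subgroupOf (N (i + 1))
      haveI := h4 i this
      exact nilpotent_of_mulEquiv (MonoidHom.ofInjective (f := QuotientGroup.map _ ((N i).subgroupOf (N (i + 1)))
        ((QuotientGroup.mk' _).subgroupComap (N (i + 1))) fun _ h => h) ((MonoidHom.ker_eq_bot_iff _).1 (by
          rw [QuotientGroup.ker_map, Subgroup.map_eq_bot_iff, QuotientGroup.ker_mk']))).symm

/-- Let G be a finite solvable group with exactly n distinct irreducible character degrees. Then G has normal subgroups 1 = N₀ ≤ N₁ ≤ ⋯ ≤ Nₙ = G with every quotient N_{i+1}/N_i nilpotent (the nilpotent length of G is at most n). -/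
theorem result {G : Type*} [Group G] [Finite G] (hsolv : Group.IsSolvable G) (n : ℕ) (hcd : Nat.card {d : ℕ // ∃ χ : Cfsg.IrrCharacter G, Cfsg.charDegree (χ : G → ℂ) = d} = n) : ∃ N : Fin (n + 1) → Subgroup G, N 0 = ⊥ ∧ N (Fin.last n) = ⊤ ∧ Monotone N ∧ (∀ i, (N i).Normal) ∧ ∀ i : Fin n, ∀ h : (N i.castSucc).subgroupOf (N i.succ) |>.Normal, Group.IsNilpotent (↥(N i.succ) ⧸ (N i.castSucc).subgroupOf (N i.succ)) := by
  obtain ⟨N, h0, h1, h2, h3, h4⟩ := aux n G (Eq.le hcd)
  exact ⟨fun i => N i, h0, h1, fun _ _ h => h2 h, fun _ => h3 _, fun i => h4 i⟩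

end Cfsg.Agent.S4462
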