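import Cfsg.Statements.S4468
import Mathlib
import Cfsg.Agent.H2.Ito
import Cfsg.Agent.H3.Rep

set_option autoImplicit false
open Cfsg

namespace Cfsg.Agent.S4468

open Cfsg.Agent.H2 Cfsg.Agent.BG Subgroup

/-- Let the finite p-solvable group G have a faithful character χ of degree n ≤ p − 1 and suppose that a Sylow p-subgroup of G is not normal. Then n = p − 1, n is a power of 2, and χ is irreducible. -/
theorem result {G : Type*} [Group G] [Finite G] (χ : G → ℂ) (hχ : Cfsg.IsCharacter G χ) (hfaith : ∀ g : G, χ g = χ 1 → g = 1) (n : ℕ) (hn : Cfsg.charDegree χ = n) (p : ℕ) (hp : p.Prime) (hsolv : Cfsg.IsPSolvable p G) (hnp : n + 1 ≤ p) (P : Sylow p G) (hP : ¬ (P : Subgroup G).Normal) : n + 1 = p ∧ (∃ k : ℕ, n = 2 ^ k) ∧ Cfsg.IsIrrCharacter G χ := by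
  have := Fact.mk hp
  obtain ⟨m, ρ, rfl⟩ := hχ
  obtain rfl : m = n := by simpa [charDegree, Representation.char_one] using hn
  obtain ⟨h1, ⟨q, k, hq, h2⟩, h3⟩ := ito_lt ρ (eq_bot_iff.2 fun g hg => hfaith g (by
    simp only [Representation.character, MonoidHom.mem_ker.1 hg, map_one])) (Nat.cast_ne_zero.2 Nat.card_pos.ne') hsolv
    (by rwa [Module.finrank_fin_fun]) P hP
  rw [Module.finrank_fin_fun] at h1 h2
  have h4 := pow_pos hq.pos k
  refine ⟨h1, ?_, m, ρ, (H3.isIrreducible_iff ρ).2 ⟨Module.nontrivial_of_finrank_pos (R := ℂ) (by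
    rw [Module.finrank_fin_fun]; omega), fun U h => h3 U fun g _ => h g⟩, rfl⟩
  by_cases e : q = 2
  · exact ⟨k, e ▸ h2⟩
  · have := hp.even_iff.1 (h1 ▸ h2 ▸ (hq.odd_of_ne_two e).pow.add_one)
    exact ⟨0, by omega⟩

end Cfsg.Agent.S4468
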