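import Cfsg.Statements.S4474
import Mathlib
import Cfsg.Agent.H7.FS2

set_option autoImplicit false
open Cfsg

namespace Cfsg.Agent.S4474

open Cfsg H3 H7 Finset Matrix
open scoped ComplexConjugate ComplexOrder

/-- Let χ be an irreducible character of the finite group G. Then the Frobenius–Schur indicator of χ (the average over s ∈ G of χ(s²)) equals 1 if and only if χ is afforded by a real representation: there is a representation of G on a real coordinate space whose trace function, viewed in ℂ, is χ. -/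
theorem result {G : Type*} [Group G] [Fintype G] (χ : Cfsg.IrrCharacter G) : ((Nat.card G : ℂ)⁻¹ * ∑ s : G, (χ : G → ℂ) (s * s)) = 1 ↔ ∃ (n : ℕ) (ρ : Representation ℝ G (Fin n → ℝ)), ∀ g : G, ((LinearMap.trace ℝ (Fin n → ℝ) (ρ g) : ℝ) : ℂ) = (χ : G → ℂ) g := by
  obtain ⟨χ, h⟩ := χ
  refine ⟨fun hf => ?_, fun ⟨n, ρ, hρ⟩ => ?_⟩
  · obtain ⟨n, A, rfl⟩ := exists_mat h.isCharacter
    obtain ⟨B, h1, h2, h3⟩ := exists_form h (one_mul 1) hf
    obtain ⟨S, h4, h5, -⟩ := exists_herm (A := A)
    rw [one_smul] at h2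
    let c := (starRingEnd ℂ).mapMatrix (m := Fin n)
    have cc : ∀ M, c (c M) = M := fun M => by ext; simp [c]
    have cs : ∀ (z : ℂ) M, c (z • M) = conj z • c M := fun z M => by ext; simp [c]
    have u := h4.transpose.isUnit
    obtain ⟨K, hK⟩ : ∃ K, Sᵀ * K = B := ⟨Sᵀ⁻¹ * B, mul_nonsing_inv_cancel_left _ _ ((isUnit_iff_isUnit_det _).1 u)⟩
    have uK : IsUnit K := isUnit_of_mul_isUnit_right (hK ▸ (isUnit_iff_isUnit_det _).2 (Ne.isUnit h1))
    have k1 : ∀ g, K * A g = c (A g) * K := fun g => by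
      have := congrArg transpose (h5 g)
      rw [transpose_mul, transpose_mul, show (A g)ᴴᵀ = c (A g) from rfl] at this
      refine u.mul_left_cancel (((isUnit_transpose _).2 ((Group.isUnit g).map A)).mul_left_cancel ?_)
      rw [← mul_assoc Sᵀ, ← mul_assoc Sᵀ, ← mul_assoc _ _ K, this, hK, ← mul_assoc, h3]
    obtain ⟨z, hz⟩ := mat_schur h (M := c K * K) fun g => by
      rw [mul_assoc, k1, ← mul_assoc, ← map_mul, k1, map_mul, cc, mul_assoc]
    obtain ⟨i⟩ : Nonempty (Fin n) := by
      by_contra H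
      rw [not_nonempty_iff] at H
      exact h.apply_one_ne_zero (by simp [trace])
    have hz' : K * c K = conj z • 1 := by rw [← map_one c, ← cs, ← hz, map_mul, cc]
    have z0 : 0 < conj z := by
      have := (h4.transpose.conjTranspose_mul_mul_same (mulVec_injective_iff_isUnit.2 uK)).diag_pos (i := i)
      rw [mul_assoc, hK, ← h2, ← hK, transpose_mul, ← mul_assoc, show Kᴴ = (c K)ᵀ from rfl, ← transpose_mul, hz']
        at this
      simp only [transpose_smul, transpose_one, smul_mul_assoc, one_mul, transpose_transpose, Matrix.smul_apply,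
        smul_eq_mul] at this
      exact (mul_pos_iff_of_pos_right h4.diag_pos).1 this
    obtain ⟨r, hr, e⟩ : ∃ r : ℝ, 0 < r ∧ conj z = r * r := ⟨√(conj z).re, Real.sqrt_pos.2 (Complex.pos_iff.1 z0).1, by
      rw [← Complex.ofReal_mul, Real.mul_self_sqrt (Complex.pos_iff.1 z0).1.le]
      exact Complex.ext rfl (Complex.pos_iff.1 z0).2.symm⟩
    obtain ⟨t, ht⟩ : ∃ t : ℝ, -(r * (t + Complex.I) / (t - Complex.I)) ∉ spectrum ℂ (c K) := by
      by_contra! H
      have n0 : ∀ t : ℝ, (t : ℂ) - Complex.I ≠ 0 := fun t h => by simpa using congrArg Complex.im h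
      refine Set.infinite_of_injective_forall_mem (fun a b e => ?_) H (c K).finite_spectrum
      rw [neg_inj, div_eq_div_iff (n0 a) (n0 b)] at e
      have : (r : ℂ) * Complex.I * (a - b) = 0 := by linear_combination -e / 2
      simpa [hr.ne', sub_eq_zero] using this
    have n0 : (t : ℂ) - Complex.I ≠ 0 := fun h => by simpa using congrArg Complex.im h
    let P : Matrix (Fin n) (Fin n) ℂ := (r * (t + Complex.I) : ℂ) • 1 + (t - Complex.I : ℂ) • c K
    have uP : IsUnit P := by
      convert (spectrum.notMem_iff.1 ht).smul (Units.mk0 _ (neg_ne_zero.2 n0)) using 1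
      rw [Algebra.algebraMap_eq_smul_one, Units.smul_mk0, smul_sub, smul_smul, neg_mul_neg,
        mul_div_cancel₀ _ n0, neg_smul, sub_neg_eq_add]
    have hP : K * P = (r : ℂ) • c P := by
      simp only [P, mul_add, mul_smul_comm, mul_one, hz', e, map_add, cs, map_one, cc, smul_add, smul_smul, map_mul,
        map_sub, Complex.conj_ofReal, Complex.conj_I]
      rw [add_comm]; congr 2 <;> ring
    clear_value P
    obtain ⟨P, rfl⟩ := uP
    have re : ∀ g, c (P⁻¹.val * A g * P.val) = P⁻¹.val * A g * P.val := fun g => by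
      refine ((P.isUnit.map c).smul (Units.mk0 (r : ℂ) (by simp [hr.ne']))).mul_left_cancel ?_
      rw [Units.smul_mk0, smul_mul_assoc, ← map_mul, ← mul_assoc, ← mul_assoc, Units.mul_inv, one_mul, map_mul,
        ← mul_smul_comm, ← hP, ← mul_assoc, ← k1, ← mul_assoc, ← mul_assoc, Units.mul_inv_cancel_right]
    let j := Complex.ofRealHom.mapMatrix (m := Fin n)
    have hj : Function.Injective j := map_injective Complex.ofReal_injective
    have hR : ∀ g, j ((P⁻¹.val * A g * P.val).map Complex.re) = P⁻¹.val * A g * P.val := fun g => by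
      ext a b
      exact Complex.conj_eq_iff_re.1 (congr_fun (congr_fun (re g) a) b)
    let R : G →* Matrix (Fin n) (Fin n) ℝ := ⟨⟨fun g => (P⁻¹.val * A g * P.val).map Complex.re,
      hj (by rw [hR]; simp)⟩, fun a b => hj (by rw [map_mul j, hR, hR, hR, map_mul]; simp [mul_assoc])⟩
    refine ⟨n, (Matrix.toLinAlgEquiv' (R := ℝ) (n := Fin n)).toMonoidHom.comp R, fun g => ?_⟩
    refine (congrArg _ (Matrix.trace_toLin'_eq (R g))).trans ?_
    change _ = trace (A g)
    rw [← trace_units_conj' P, ← hR]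
    simp [trace, j, R]
  · let A : G →* Matrix (Fin n) (Fin n) ℂ := (Complex.ofRealHom.mapMatrix (m := Fin n)).toMonoidHom.comp
      ((LinearMap.toMatrixAlgEquiv' (R := ℝ) (n := Fin n)).toMonoidHom.comp ρ)
    obtain rfl : χ = fun g => trace (A g) := funext fun g => by
      refine (hρ g).symm.trans ?_
      rw [← Matrix.toLin'_toMatrix' (ρ g), Matrix.trace_toLin'_eq]
      simp [trace, A]
    refine (h.fsInd_of_real (funext fun g => by rw [← show _ = trace (A g) from hρ g]; simp)).resolve_right
      fun hf => ?_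
    obtain ⟨B, h1, h2, h3⟩ := exists_form h (by simp) hf
    have e : ∀ g, (A g)ᴴ = (A g)ᵀ := fun g => by ext; simp [A]
    obtain ⟨S, h4, h5, h6⟩ := exists_herm (A := A)
    obtain ⟨K, hK⟩ : ∃ K, S * K = B :=
      ⟨S⁻¹ * B, mul_nonsing_inv_cancel_left _ _ ((isUnit_iff_isUnit_det _).1 h4.isUnit)⟩
    obtain ⟨z, rfl⟩ := mat_schur h (M := K) fun g => by
      refine h4.isUnit.mul_left_cancel (((isUnit_transpose _).2 ((Group.isUnit g).map A)).mul_left_cancel ?_)
      rw [← mul_assoc S, ← mul_assoc S, ← mul_assoc _ _ K, ← mul_assoc _ S, ← e, h5, e, hK, ← mul_assoc, h3]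
    rw [← hK, mul_smul_comm, mul_one, transpose_smul, h6 e, neg_smul, one_smul, eq_neg_iff_add_eq_zero,
      ← two_smul ℂ, smul_eq_zero, or_iff_right two_ne_zero] at h2
    haveI : Nonempty (Fin n) := by
      by_contra H
      rw [not_nonempty_iff] at H
      exact h.apply_one_ne_zero (by simp [trace])
    exact h1 (by rw [← hK, mul_smul_comm, mul_one, h2, det_zero])

end Cfsg.Agent.S4474
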