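import Cfsg.Statements.S4475
import Cfsg.Agent.H3.FS

set_option autoImplicit false
open Cfsg

namespace Cfsg.Agent.S4475

open Cfsg.Agent Cfsg.Agent.H3
open scoped Pointwise commutatorElement
theorem tr_eq {n : ℕ} (L : Matrix (Fin n) (Fin n) ℂ →ₗ[ℂ] Matrix (Fin n) (Fin n) ℂ) :
    LinearMap.trace ℂ _ L = ∑ i, ∑ j, L (Matrix.single i j 1) i j := by
  classical
  rw [LinearMap.trace_eq_matrix_trace ℂ (Matrix.stdBasis ℂ (Fin n) (Fin n)), Matrix.trace,
    Fintype.sum_prod_type]
  refine Finset.sum_congr rfl fun i _ => Finset.sum_congr rfl fun j _ => ?_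
  rw [Matrix.diag_apply, LinearMap.toMatrix_apply, Matrix.stdBasis_eq_single]
  simp [Matrix.stdBasis]

theorem entry {n : ℕ} (X : Matrix (Fin n) (Fin n) ℂ) (i j a b : Fin n) :
    (X.transpose * Matrix.single i j (1 : ℂ) * X) a b = X i a * X j b := by
  classical
  simp [Matrix.mul_apply, Matrix.single_apply, ite_and, Finset.sum_ite_eq]

/-- Let ρ be an irreducible representation of the finite group G on the coordinate space Fin n → ℂ whose character χ is real-valued, and let ν be the Frobenius–Schur indicator of χ (the average of χ(s²)). Writing X(g) for the matrix of ρ(g), there is a nonzero matrix M with X(g)ᵀ M X(g) = M for all g ∈ G; and every such M (zero or not) satisfies Mᵀ = ν·M. -/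
theorem result {G : Type*} [Group G] [Fintype G] (n : ℕ) (ρ : Representation ℂ G (Fin n → ℂ)) (hirr : ρ.IsIrreducible) (hreal : ∀ g : G, (ρ.character g).im = 0) : (∃ M : Matrix (Fin n) (Fin n) ℂ, M ≠ 0 ∧ ∀ g : G, (LinearMap.toMatrix' (ρ g)).transpose * M * LinearMap.toMatrix' (ρ g) = M) ∧ ∀ M : Matrix (Fin n) (Fin n) ℂ, (∀ g : G, (LinearMap.toMatrix' (ρ g)).transpose * M * LinearMap.toMatrix' (ρ g) = M) → M.transpose = ((Nat.card G : ℂ)⁻¹ * ∑ s : G, ρ.character (s * s)) • M := by
  classical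
  set X : G → Matrix (Fin n) (Fin n) ℂ := fun g => LinearMap.toMatrix' (ρ g) with hX
  have hm : ∀ a b, X (a * b) = X a * X b := fun a b => by
    simp only [hX, map_mul, LinearMap.toMatrix'_mul]
  have htr : ∀ g, ρ.character g = (X g).trace := fun g => by
    simp only [hX, Representation.character]
    rw [LinearMap.trace_eq_matrix_trace ℂ (Pi.basisFun ℂ (Fin n))]
    rfl
  let Av : Matrix (Fin n) (Fin n) ℂ →ₗ[ℂ] Matrix (Fin n) (Fin n) ℂ :=
    { toFun := fun A => (Nat.card G : ℂ)⁻¹ • ∑ g, (X g).transpose * A * X g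
      map_add' := fun A B => by simp only [Matrix.mul_add, Matrix.add_mul, Finset.sum_add_distrib, smul_add]
      map_smul' := fun c A => by
        simp only [Matrix.mul_smul, Matrix.smul_mul, ← Finset.smul_sum, RingHom.id_apply, smul_comm c] }
  have hAv : ∀ A, Av A = (Nat.card G : ℂ)⁻¹ • ∑ g, (X g).transpose * A * X g := fun _ => rfl
  let W : Submodule ℂ (Matrix (Fin n) (Fin n) ℂ) :=
    { carrier := {M | ∀ g, (X g).transpose * M * X g = M}
      add_mem' := fun {A B} hA hB g => by rw [Matrix.mul_add, Matrix.add_mul, hA g, hB g]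
      zero_mem' := fun g => by simp
      smul_mem' := fun c A hA g => by rw [Matrix.mul_smul, Matrix.smul_mul, hA g] }
  have hW : ∀ M, M ∈ W ↔ ∀ g, (X g).transpose * M * X g = M := fun _ => Iff.rfl
  have hP : LinearMap.IsProj W Av := ⟨fun A => (hW _).2 fun g => by
      rw [hAv, Matrix.mul_smul, Matrix.smul_mul, Finset.mul_sum, Finset.sum_mul]
      congr 1
      rw [← Equiv.sum_comp (Equiv.mulRight g) (fun h => (X h).transpose * A * X h)]
      refine Finset.sum_congr rfl fun h _ => ?_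
      simp only [Equiv.coe_mulRight, hm, Matrix.transpose_mul, Matrix.mul_assoc],
    fun A hA => by
      rw [hAv]
      simp only [(hW A).1 hA, Finset.sum_const, Finset.card_univ, ← Nat.card_eq_fintype_card]
      rw [← Nat.cast_smul_eq_nsmul ℂ, smul_smul, inv_mul_cancel₀ card_ne_zero, one_smul]⟩
  have h1 : LinearMap.trace ℂ _ Av = 1 := by
    have := hirr
    rw [← (isIrrCharacter_character ρ).inner_self, tr_eq, classInner_def]
    simp only [hAv, Matrix.smul_apply, Matrix.sum_apply, entry, smul_eq_mul, ← Finset.mul_sum]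
    congr 1
    simp only [Finset.sum_comm (s := (Finset.univ : Finset (Fin n))) (t := (Finset.univ : Finset G))]
    refine Finset.sum_congr rfl fun g _ => ?_
    rw [Complex.conj_eq_iff_im.2 (hreal g), htr, Matrix.trace, Finset.sum_mul_sum]
    rfl
  have h2 : Module.finrank ℂ W = 1 := by
    rw [hP.trace] at h1
    exact_mod_cast h1
  let T : Matrix (Fin n) (Fin n) ℂ →ₗ[ℂ] Matrix (Fin n) (Fin n) ℂ := (Matrix.transposeLinearEquiv _ _ ℂ ℂ).toLinearMap
  have hT : ∀ A, T A = A.transpose := fun _ => rfl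
  have h3 : LinearMap.trace ℂ _ (T ∘ₗ Av) = (Nat.card G : ℂ)⁻¹ * ∑ s : G, ρ.character (s * s) := by
    rw [tr_eq]
    simp only [LinearMap.comp_apply, hT, Matrix.transpose_apply, hAv, Matrix.smul_apply, Matrix.sum_apply,
      entry, smul_eq_mul, ← Finset.mul_sum]
    congr 1
    simp only [Finset.sum_comm (s := (Finset.univ : Finset (Fin n))) (t := (Finset.univ : Finset G))]
    refine Finset.sum_congr rfl fun g _ => ?_
    rw [htr, hm, Matrix.trace]
    simp [Matrix.mul_apply]
  obtain ⟨M₀, h0, hM₀⟩ := finrank_eq_one_iff'.1 h2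
  have h4 : (M₀ : Matrix (Fin n) (Fin n) ℂ).transpose ∈ W := (hW _).2 fun g => by
    conv_rhs => rw [← (hW _).1 M₀.2 g]
    simp only [Matrix.transpose_mul, Matrix.transpose_transpose, Matrix.mul_assoc]
  obtain ⟨c, hc⟩ := hM₀ ⟨_, h4⟩
  have h5 : ∀ M ∈ W, M.transpose = c • M := fun M hM => by
    obtain ⟨a, ha⟩ := hM₀ ⟨M, hM⟩
    have e1 : M = a • (M₀ : Matrix (Fin n) (Fin n) ℂ) := (congrArg Subtype.val ha).symm
    have e2 : (M₀ : Matrix (Fin n) (Fin n) ℂ).transpose = c • (M₀ : Matrix (Fin n) (Fin n) ℂ) :=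
      (congrArg Subtype.val hc).symm
    rw [e1, Matrix.transpose_smul, e2, smul_comm]
  have h6 : T ∘ₗ Av = c • Av := LinearMap.ext fun A => h5 _ (hP.map_mem A)
  rw [h6, map_smul, h1, smul_eq_mul, mul_one] at h3
  exact ⟨⟨M₀, fun h => h0 (Subtype.ext h), M₀.2⟩, fun M hM => h3 ▸ h5 M hM⟩

end Cfsg.Agent.S4475
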