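import Cfsg.Statements.S4476
import Cfsg.Agent.C3.Landau

set_option autoImplicit false
open Cfsg

namespace Cfsg.Agent.S4476

open H3 H2 C3 B Subgroup Finset
open scoped ComplexConjugate

/-- Let G be a finite group of even order g with exactly t involutions, and put α = (g − 1)/t (a rational number). Then (a) some non-identity element x of G has at most α² conjugates; and (b) some non-principal real-valued irreducible character of G has degree at most α. -/
theorem result {G : Type*} [Group G] [Fintype G] (heven : Even (Nat.card G)) (t : ℕ) (ht : Nat.card {x : G // orderOf x = 2} = t) : (∃ x : G, x ≠ 1 ∧ ((Subgroup.centralizer ({x} : Set G)).index : ℚ) ≤ (((Nat.card G : ℚ) - 1) / t) ^ 2) ∧ ∃ χ : Cfsg.IrrCharacter G, (χ : G → ℂ) ≠ (fun _ => 1) ∧ (∀ g : G, ((χ : G → ℂ) g).im = 0) ∧ (Cfsg.charDegree (χ : G → ℂ) : ℚ) ≤ ((Nat.card G : ℚ) - 1) / t := by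
  classical
  subst ht
  obtain ⟨s, a⟩ := exists_ord2_of_even heven
  have : Nonempty {x : G // orderOf x = 2} := ⟨⟨s, a⟩⟩
  have t : (0 : ℚ) < Nat.card {x : G // orderOf x = 2} := Nat.cast_pos.2 Nat.card_pos
  constructor
  · obtain ⟨x, b, c⟩ := exists_min_image (univ.erase 1) (fun x : G => (centralizer ({x} : Set G)).index)
      ⟨s, by simp [ord2_ne_one a]⟩
    refine ⟨x, ne_of_mem_erase b, ?_⟩
    have d := sum_index_out (G := G)
    rw [← add_sum_erase _ _ (mem_univ (ConjClasses.mk 1)), isConj_one_right.1 (isConj_out 1),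
      centralizer_eq_top_iff_subset.2 (by simp), index_top] at d
    have e := card_nsmul_le_sum (univ.erase (ConjClasses.mk (1 : G))) _ _ fun K e => c K.out
      (mem_erase.2 ⟨fun f => ne_of_mem_erase e (isConj_out_iff.1 (f ▸ IsConj.refl _)), mem_univ _⟩)
    have f := (Nat.pow_le_pow_left (card_invol_le (G := G)) 2).trans sq_sum_le_card_mul_sum_sq
    have i := sum_sq_ne_one fun χ : IrrCharacter G => (fun g => conj ((χ : G → ℂ) g)) = χ
    have j := card_le_card (s := univ.filter fun χ : IrrCharacter G => χ ≠ oneIrr G ∧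
      (fun g => conj ((χ : G → ℂ) g)) = χ) (t := univ.erase (oneIrr G)) fun χ => by simp +contextual
    rw [card_erase_of_mem (mem_univ _), card_univ, ← Nat.card_eq_fintype_card] at e j
    rw [card_irr_eq_card_conjClasses] at j
    rw [div_pow, le_div_iff₀ (by positivity), ← Nat.cast_pred Nat.card_pos]
    norm_cast
    calc _ ≤ _ * ((Nat.card (ConjClasses G) - 1) * (Nat.card G - 1)) := Nat.mul_le_mul_left _ (f.trans
          (Nat.mul_le_mul (by simpa using j) (Nat.le_sub_one_of_lt i)))
      _ ≤ _ := by rw [← mul_assoc, sq, mul_comm (Subgroup.index _)]; exact Nat.mul_le_mul_right _ (e.trans (by omega))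
  · obtain ⟨χ, b, c, d⟩ := exists_real_small heven
    refine ⟨χ, fun e => b (Subtype.ext e), real_iff.2 c, ?_⟩
    rw [le_div_iff₀ t, le_sub_iff_add_le]
    exact_mod_cast d

end Cfsg.Agent.S4476
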