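import Cfsg.Statements.S4478
import Mathlib
import Cfsg.Agent.H3.Brauer2
import Cfsg.Agent.H3.FS

set_option autoImplicit false
open Cfsg

namespace Cfsg.Agent.S4478

open Cfsg H3 Finset

/-- Let G be a finite group of even order and χ an irreducible character of G whose degree x is divisible by the full power of 2 dividing the order of G and, for every odd prime p such that G has an element of order 2p, by the full power of p dividing the order of G. Then all involutions of G are conjugate, the centralizer of every involution has order exactly x with x coprime to its index, and the Frobenius–Schur indicator of χ equals 1. -/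
theorem result {G : Type*} [Group G] [Fintype G] (heven : Even (Nat.card G)) (χ : Cfsg.IrrCharacter G) (h2 : 2 ^ (Nat.card G).factorization 2 ∣ Cfsg.charDegree (χ : G → ℂ)) (hp : ∀ p : ℕ, p.Prime → p ≠ 2 → (∃ g : G, orderOf g = 2 * p) → p ^ (Nat.card G).factorization p ∣ Cfsg.charDegree (χ : G → ℂ)) : (∀ s t : G, orderOf s = 2 → orderOf t = 2 → IsConj s t) ∧ (∀ s : G, orderOf s = 2 → Nat.card (Subgroup.centralizer ({s} : Set G)) = Cfsg.charDegree (χ : G → ℂ) ∧ (Nat.card (Subgroup.centralizer ({s} : Set G))).Coprime (Subgroup.centralizer ({s} : Set G)).index) ∧ (Nat.card G : ℂ)⁻¹ * ∑ g : G, (χ : G → ℂ) (g * g) = 1 := by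
  classical
  have n0 : Nat.card G ≠ 0 := Nat.card_pos.ne'
  have z : ∀ p : ℕ, p.Prime → p ^ (Nat.card G).factorization p ∣ charDegree (χ : G → ℂ) →
      ∀ g : G, p ∣ orderOf g → (χ : G → ℂ) g = 0 := fun p hp h g hg =>
    χ.2.eq_zero_of_defect_zero hp (Nat.pow_succ_factorization_not_dvd n0 hp) h hg
  have a1 : ∀ g : G, (χ : G → ℂ) (g * g) = (if orderOf g = 2 then (χ : G → ℂ) 1 else 0) +
      if Odd (orderOf g) then (χ : G → ℂ) (g * g) else 0 := fun g => by
    by_cases h : orderOf g = 2
    · rw [if_pos h, if_neg (by rw [h]; decide), ← sq, ← h, pow_orderOf_eq_one, add_zero]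
    by_cases h' : Odd (orderOf g)
    · rw [if_neg h, if_pos h', zero_add]
    rw [if_neg h, if_neg h', add_zero]
    obtain ⟨m, hm⟩ := (Nat.not_odd_iff_even.1 h').two_dvd
    have e : orderOf (g * g) = m := by
      rw [← sq, orderOf_pow_of_dvd two_ne_zero ⟨m, hm⟩, hm, Nat.mul_div_cancel_left _ two_pos]
    obtain ⟨p, pp, hd⟩ := Nat.exists_prime_and_dvd (show m ≠ 1 by omega)
    by_cases p2 : p = 2
    · exact z 2 Nat.prime_two h2 _ (e ▸ p2 ▸ hd)
    · exact z p pp (hp p pp p2 ⟨_, orderOf_pow_orderOf_div (orderOf_pos g).ne'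
        (hm ▸ Nat.mul_dvd_mul_left 2 hd)⟩) _ (e ▸ hd)
  have a2 : ∀ g : G, Odd (orderOf g) → orderOf (g * g) = orderOf g := fun g h => by
    rw [← sq, (Nat.coprime_two_right.2 h).orderOf_pow]
  have a3 : ∀ g : G, Odd (orderOf g) → g ^ (2 * ((orderOf g + 1) / 2)) = g := fun g h => by
    rw [Nat.mul_div_cancel' h.add_one.two_dvd, pow_succ, pow_orderOf_eq_one, one_mul]
  have n1 : (χ : G → ℂ) ≠ fun _ => 1 := fun e => by
    rw [e, charDegree_eq (n := 1) (by simp), Nat.dvd_one, Nat.pow_eq_one, or_iff_right (by decide)] at h2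
    exact (Nat.prime_two.factorization_pos_of_dvd n0 heven.two_dvd).ne' h2
  have a4 : ∑ g : G, (if Odd (orderOf g) then (χ : G → ℂ) (g * g) else 0) = 0 := by
    rw [← sum_filter, sum_nbij' (t := univ.filter fun g : G => Odd (orderOf g)) (g := (χ : G → ℂ))
      (fun g => g * g) (fun g => g ^ ((orderOf g + 1) / 2))
      (fun g hg => by simp only [mem_filter, mem_univ, true_and] at hg ⊢; rwa [a2 g hg])
      (fun g hg => by
        simp only [mem_filter, mem_univ, true_and] at hg ⊢; exact hg.of_dvd_nat (orderOf_pow_dvd _))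
      (fun g hg => by rw [a2 g (mem_filter.1 hg).2, ← sq, ← pow_mul, a3 g (mem_filter.1 hg).2])
      (fun g hg => by rw [← sq, ← pow_mul, mul_comm, a3 g (mem_filter.1 hg).2]) (fun _ _ => rfl),
      sum_filter_of_ne fun g _ h => by_contra fun h' => h (z 2 Nat.prime_two h2 g
        (Nat.not_odd_iff_even.1 h').two_dvd)]
    have := card_mul_classInner (χ : G → ℂ) fun _ => 1
    simpa [χ.2.inner_of_ne isIrrCharacter_one n1] using this.symm
  have a5 : ∑ g : G, (χ : G → ℂ) (g * g) = (#{g : G | orderOf g = 2} * charDegree (χ : G → ℂ) : ℕ) := by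
    rw [sum_congr rfl fun g _ => a1 g, sum_add_distrib, a4, ← sum_filter, ← χ.2.cast_charDegree]; simp
  haveI := Fact.mk Nat.prime_two
  obtain ⟨u, hu⟩ := exists_prime_orderOf_dvd_card' (G := G) 2 heven.two_dvd
  have t0 : 0 < #{g : G | orderOf g = 2} * charDegree (χ : G → ℂ) :=
    Nat.mul_pos (card_pos.2 ⟨u, by simp [hu]⟩) χ.2.charDegree_pos
  have a6 : fsInd (χ : G → ℂ) * Nat.card G = (#{g : G | orderOf g = 2} * charDegree (χ : G → ℂ) : ℕ) := by
    rw [← a5, fsInd, mul_right_comm, inv_mul_cancel₀ card_ne_zero, one_mul]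
  have a7 : fsInd (χ : G → ℂ) = 1 := by
    rcases χ.2.fsInd_cases with h | h | h
    · rw [h, zero_mul, eq_comm, Nat.cast_eq_zero] at a6; omega
    · exact h
    · rw [h, neg_one_mul, neg_eq_iff_add_eq_zero, ← Nat.cast_add, Nat.cast_eq_zero] at a6; omega
  rw [a7, one_mul, Nat.cast_inj] at a6
  have b1 : ∀ s : G, orderOf s = 2 → ∀ p : ℕ, p.Prime → p ∣ Nat.card (Subgroup.centralizer ({s} : Set G)) →
      p ^ (Nat.card G).factorization p ∣ charDegree (χ : G → ℂ) := fun s hs p pp hd => by
    by_cases p2 : p = 2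
    · exact p2 ▸ h2
    haveI := Fact.mk pp
    obtain ⟨y, hy⟩ := exists_prime_orderOf_dvd_card' p hd
    refine hp p pp p2 ⟨s * y, ?_⟩
    rw [← Subgroup.orderOf_coe] at hy
    rw [Commute.orderOf_mul_eq_mul_orderOf_of_coprime (Subgroup.mem_centralizer_singleton_iff.1 y.2).symm
      (by rw [hs, hy]; exact (Nat.coprime_primes Nat.prime_two pp).2 (Ne.symm p2)), hs, hy]
  have b2 : ∀ s : G, orderOf s = 2 → (univ.filter fun y => IsConj s y) = univ.filter (fun g : G => orderOf g = 2) ∧
      Nat.card (Subgroup.centralizer ({s} : Set G)) = charDegree (χ : G → ℂ) := fun s hs => by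
    have h1 := Nat.le_of_dvd χ.2.charDegree_pos ((Nat.dvd_iff_prime_pow_dvd_dvd _ _).2
      fun p k pp hk => (show p ^ k ∣ Nat.card (Subgroup.centralizer ({s} : Set G)) → _ from fun hk => by
        rcases k with _ | k
        · simp
        · exact (pow_dvd_pow p ((pp.pow_dvd_iff_le_factorization n0).1 (hk.trans
            (Subgroup.card_subgroup_dvd_card _)))).trans (b1 s hs p pp ((dvd_pow_self p k.succ_ne_zero).trans hk))) hk)
    have sub : (univ.filter fun y => IsConj s y) ⊆ univ.filter fun g : G => orderOf g = 2 := fun y hy => by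
      obtain ⟨c, rfl⟩ := isConj_iff.1 (mem_filter.1 hy).2
      simpa [← hs] using (MulAut.conj c).orderOf_eq s
    have h3 := card_le_card sub
    have h4 := (Subgroup.centralizer ({s} : Set G)).index_mul_card
    rw [show (Subgroup.centralizer ({s} : Set G)).index = #(univ.filter fun y => IsConj s y) by convert (card_filter_isConj s).symm, a6] at h4
    have h5 := χ.2.charDegree_pos
    have h6 : 0 < #{g : G | orderOf g = 2} := Nat.pos_of_mul_pos_right t0
    exact ⟨eq_of_subset_of_card_le sub (by nlinarith), by nlinarith⟩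
  refine ⟨fun s t hs ht => (mem_filter.1 ((b2 s hs).1.ge (by simp [ht]) : t ∈ _)).2, fun s hs =>
    ⟨(b2 s hs).2, Nat.coprime_of_dvd fun p pp h1 h3 => Nat.pow_succ_factorization_not_dvd n0 pp ?_⟩, a7⟩
  conv_rhs => rw [← (Subgroup.centralizer ({s} : Set G)).card_mul_index, (b2 s hs).2]
  exact mul_dvd_mul (b1 s hs p pp h1) h3

end Cfsg.Agent.S4478
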