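import Cfsg.Statements.S4479
import Cfsg.Agent.B.Inv2

set_option autoImplicit false
open Cfsg

namespace Cfsg.Agent.S4479

open Cfsg.Agent Cfsg.Agent.B Cfsg.Agent.H2 Cfsg.Agent.H3 Subgroup MonoidAlgebra
open scoped Pointwise commutatorElement
theorem setup {G : Type*} [Group G] [Finite G] {g₀ : ℕ} (hg₀ : Odd g₀) (hG : Nat.card G = 4 * g₀)
    (hnc : ¬ ∃ N : Subgroup G, N.Normal ∧ Nat.card N = g₀) (P : Sylow 2 G) :
    IsKleinFour (P : Subgroup G) ∧ ∀ s t : G, orderOf s = 2 → orderOf t = 2 → IsConj s t := by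
  have h4 : Nat.card (P : Subgroup G) = 4 := by
    rw [P.card_eq_multiplicity, hG, Nat.factorization_mul (by norm_num) hg₀.pos.ne', Finsupp.add_apply,
      Nat.factorization_eq_zero_of_not_dvd (Nat.two_dvd_ne_zero.2 (Nat.odd_iff.1 hg₀)),
      show 4 = 2 ^ 2 from rfl, Nat.Prime.factorization_pow Nat.prime_two]
    simp
  have hn : ¬ PNil 2 (⊤ : Subgroup G) := fun h => hnc ⟨pResidual 2 G, inferInstance, by
    have := (h.isComplement' P).card_mul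
    rw [h4, hG] at this
    omega⟩
  have hK : IsKleinFour (P : Subgroup G) := ⟨h4, (not_isCyclic_iff_exponent_eq_prime Nat.prime_two
    (by rw [h4]; rfl)).1 fun hc => hn ((sylIn_top P).pNil_of_isCyclic hc)⟩
  have := hK.isMulCommutative
  exact ⟨hK, fun s t hs ht => L.isConj_of_not_pNil P hK
    (fun x => ⟨fun h => ⟨h, IsKleinFour.mul_self' hK h⟩, fun h => h.1⟩) hn hs ht⟩

open Classical in
theorem order_formula {G : Type*} [Group G] [Finite G] (M : Ideal Cfsg.AlgInt) [PMod 2 M] (P : Sylow 2 G)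
    (hK : IsKleinFour (P : Subgroup G)) (hone : ∀ s t : G, orderOf s = 2 → orderOf t = 2 → IsConj s t)
    {J : G} (hJ : J ∈ (P : Subgroup G)) (hJ2 : orderOf J = 2) :
    (Nat.card G : ℂ) * (∑ χ : IrrCharacter G,
        if χ ∈ principalBlock M G then (χ : G → ℂ) J ^ 2 / (χ : G → ℂ) 1 * (χ : G → ℂ) J else 0) *
      (Nat.card (centralizer ((P : Subgroup G) : Set G)) : ℂ) ^ 2 =
      8 * (Nat.card (centralizer ({J} : Set G)) : ℂ) ^ 3 := by
  have := Fintype.ofFinite G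
  have hJ1 : J ≠ 1 := by rintro rfl; simp at hJ2
  obtain ⟨t, h⟩ := exists_k4_of_mem hK hJ hJ1
  have hn : PNil 2 (centralizer ({J} : Set G)) := by
    simpa using pNil_centralizer_of_kleinFour (sylIn_top P) hK hJ hJ1
  have hc : ∀ a ∈ (P : Subgroup G), ∀ b ∈ (P : Subgroup G), a * b = b * a := fun a ha b hb =>
    congrArg Subtype.val (hK.isMulCommutative.is_comm.comm (⟨a, ha⟩ : (P : Subgroup G)) ⟨b, hb⟩)
  have hP : SylIn 2 (P : Subgroup G) (centralizer {J}) := (sylIn_top P).mono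
    (fun a ha => mem_centralizer_singleton_iff.2 (hc a ha J hJ)) le_top
  have h1 := inv_count M hJ2 hn hP hJ (mem_zpowers J)
  set C := centralizer ({J} : Set G) with hC
  set U := resOf 2 C with hU
  have ht : t ∈ (P : Subgroup G) := (h.mem t).2 (by simp)
  have hd : (P : Subgroup G) ⊓ U = ⊥ := hP.pNil_iff.1 hn
  have hPn : (P : Subgroup G) ≤ normalizer (U : Set G) := hP.le.trans (le_normalizer_resOf 2 C)
  have e1 := card_split hd hP.le (resOf_le 2 C) (fun g hg => hP.exists_mul_resOf hg)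
  have e2 := card_split_cent hd hPn hP.le (resOf_le 2 C) (fun g hg => hP.exists_mul_resOf hg) ht
  have e3 : C ⊓ centralizer {t} = centralizer ((P : Subgroup G) : Set G) := by
    refine le_antisymm (fun g hg => mem_centralizer_iff.2 fun a ha => ?_) (le_inf
      (centralizer_le (Set.singleton_subset_iff.2 hJ)) (centralizer_le (Set.singleton_subset_iff.2 ht)))
    have g1 : Commute g J := mem_centralizer_singleton_iff.1 hg.1
    have g2 : Commute g t := mem_centralizer_singleton_iff.1 hg.2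
    rcases (h.mem a).1 ha with rfl | rfl | rfl | rfl
    · simp
    · exact g1.symm
    · exact g2.symm
    · exact (g1.mul_right g2).symm
  have e4 : (P : Subgroup G) ⊓ centralizer {t} = P :=
    inf_eq_left.2 fun a ha => mem_centralizer_singleton_iff.2 (hc a ha t ht)
  rw [e3, e4, hK.card_four] at e2
  rw [hK.card_four] at e1
  have e5 : Nat.card ↥(U ⊓ centralizer {t}) * (centralizer {t}).relIndex U = Nat.card U := by
    rw [inf_comm]
    exact H1.card_inf_mul_relIndex _ _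
  have e6 : (centralizer {J * t}).relIndex U = (centralizer {t}).relIndex U := by
    rw [← inf_relIndex_left, ← inf_relIndex_left (K := centralizer {t})]
    congr 1
    ext g
    refine and_congr_right fun hg => ?_
    have g1 : Commute g J := mem_centralizer_singleton_iff.1 (resOf_le 2 C hg)
    refine mem_centralizer_singleton_iff.trans (Iff.trans ?_ mem_centralizer_singleton_iff.symm)
    rw [← mul_assoc, g1.eq, mul_assoc, mul_assoc, mul_right_inj]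
  have o1 : orderOf t = 2 := orderOf_eq_prime (by rw [sq, h.b2]) h.b1
  have n1 : J * t ≠ 1 := fun e => h.ne (by rw [eq_inv_of_mul_eq_one_left e, inv_eq_of_mul_eq_one_right h.b2])
  have o2 : orderOf (J * t) = 2 := orderOf_eq_prime
    (by rw [sq]; exact IsKleinFour.mul_self' hK ((h.mem _).2 (by simp))) n1
  have c0 : cind J 1 = 0 := if_neg fun e => hJ1 (isConj_one_left.1 e)
  have c1 : cind J t = 1 := if_pos (hone _ _ hJ2 o1)
  have c2 : cind J (J * t) = 1 := if_pos (hone _ _ hJ2 o2)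
  rw [← Finset.sum_subtype ({1, J, t, J * t} : Finset G) (p := (· ∈ (P : Subgroup G)))
    (fun x => by rw [h.mem]; simp) (fun s => cind J s * (centralizer {s}).relIndex U *
      (cind J (s⁻¹ * J) * (centralizer {s⁻¹ * J}).relIndex U)),
    Finset.sum_insert (by simp [hJ1.symm, h.b1.symm, n1.symm]),
    Finset.sum_insert (by simp [h.ne, h.b1]), Finset.sum_pair (by simp [hJ1])] at h1
  have a1 : t⁻¹ * J = J * t := by rw [inv_eq_of_mul_eq_one_right h.b2, h.comm]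
  have a2 : (J * t)⁻¹ * J = t := by rw [mul_inv_rev, inv_mul_cancel_right, inv_eq_of_mul_eq_one_right h.b2]
  rw [inv_mul_cancel, a1, a2, c0, c1, c2, e6, e1] at h1
  rw [e1, e2]
  have hu : (Nat.card U : ℂ) ≠ 0 := card_ne_zero
  have e7 := congrArg (Nat.cast : ℕ → ℂ) e5
  push_cast at h1 e7 ⊢
  generalize (∑ χ : IrrCharacter G,
        if χ ∈ principalBlock M G then (χ : G → ℂ) J ^ 2 / (χ : G → ℂ) 1 * (χ : G → ℂ) J else 0) = S at h1 ⊢
  field_simp at h1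
  linear_combination (-(16 * (Nat.card ↥(U ⊓ centralizer {t}) : ℂ) ^ 2)) * h1 + 512 * (Nat.card U : ℂ) *
    ((Nat.card ↥(U ⊓ centralizer {t}) : ℂ) * ((centralizer {t}).relIndex U : ℂ) + Nat.card U) * e7

open Classical in
theorem sum_four {G : Type*} [Group G] [Finite G] {B : Set (IrrCharacter G)} {χ₁ χ₂ χ₃ : Cfsg.IrrCharacter G}
    (hB : B = {χ : Cfsg.IrrCharacter G | (χ : G → ℂ) = (fun _ => 1) ∨ χ = χ₁ ∨ χ = χ₂ ∨ χ = χ₃}) (hdist : (χ₁ : G → ℂ) ≠ (fun _ => 1) ∧ (χ₂ : G → ℂ) ≠ (fun _ => 1) ∧ (χ₃ : G → ℂ) ≠ (fun _ => 1) ∧ χ₁ ≠ χ₂ ∧ χ₁ ≠ χ₃ ∧ χ₂ ≠ χ₃)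
    (f : IrrCharacter G → ℂ) :
    ∑ χ : IrrCharacter G, (if χ ∈ B then f χ else 0) = f (oneIrr G) + f χ₁ + f χ₂ + f χ₃ := by
  obtain ⟨d1, d2, d3, d4, d5, d6⟩ := hdist
  have n1 : oneIrr G ≠ χ₁ := fun e => d1 (by rw [← e]; rfl)
  have n2 : oneIrr G ≠ χ₂ := fun e => d2 (by rw [← e]; rfl)
  have n3 : oneIrr G ≠ χ₃ := fun e => d3 (by rw [← e]; rfl)
  rw [← Finset.sum_filter, show Finset.univ.filter (· ∈ B) = {oneIrr G, χ₁, χ₂, χ₃} from Finset.ext fun χ => by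
    rw [hB]
    simp only [Finset.mem_filter, Finset.mem_univ, true_and, Set.mem_setOf_eq, Finset.mem_insert,
      Finset.mem_singleton]
    exact or_congr_left ⟨fun e => Subtype.ext e, fun e => by rw [e]; rfl⟩,
    Finset.sum_insert (by simp [n1, n2, n3]), Finset.sum_insert (by simp [d4, d5]), Finset.sum_pair d6]
  ring

theorem deg_rel {G : Type*} [Group G] [Finite G] (M : Ideal Cfsg.AlgInt) [PMod 2 M] {J : G} (hJ2 : orderOf J = 2) {χ₁ χ₂ χ₃ : Cfsg.IrrCharacter G} {ε₁ ε₂ ε₃ : ℤ} (hB : Cfsg.principalBlock M G = {χ : Cfsg.IrrCharacter G | (χ : G → ℂ) = (fun _ => 1) ∨ χ = χ₁ ∨ χ = χ₂ ∨ χ = χ₃}) (hdist : (χ₁ : G → ℂ) ≠ (fun _ => 1) ∧ (χ₂ : G → ℂ) ≠ (fun _ => 1) ∧ (χ₃ : G → ℂ) ≠ (fun _ => 1) ∧ χ₁ ≠ χ₂ ∧ χ₁ ≠ χ₃ ∧ χ₂ ≠ χ₃) (hval : (χ₁ : G → ℂ) J = ε₁ ∧ (χ₂ : G → ℂ) J = ε₂ ∧ (χ₃ : G → ℂ) J = ε₃) :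
    1 + ε₁ * charDegree (χ₁ : G → ℂ) + ε₂ * charDegree (χ₂ : G → ℂ) + ε₃ * charDegree (χ₃ : G → ℂ) = 0 := by
  have hJp : PElt 2 J := ⟨1, by simpa using hJ2⟩
  have h1 := (isPBlock_principal (M := M) (G := G)).closed.orth hJp.isPPart_self
    (pElt_one (p := 2) (G := G)).isPPart_self (fun h => by
      rw [isConj_one_left.1 h] at hJ2; simp at hJ2)
  rw [sum_four hB hdist, inv_one, hval.1, hval.2.1, hval.2.2, ← χ₁.2.cast_charDegree, ← χ₂.2.cast_charDegree,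
    ← χ₃.2.cast_charDegree] at h1
  have h2 : (oneIrr G : G → ℂ) J * (oneIrr G : G → ℂ) 1 = 1 := mul_one _
  rw [h2] at h1
  exact_mod_cast h1

/-- An order formula from the principal 2-block. Let G be a finite group of order 4·g₀ with g₀ odd having no normal 2-complement (no normal subgroup of order g₀); let P be a Sylow 2-subgroup, J an involution of P, and fix a maximal ideal M of the algebraic integers containing 2. Suppose the principal 2-block consists of the principal character and three further distinct characters χ₁, χ₂, χ₃ of degrees x₁, x₂, x₃, with χ_i(J) = ε_i = ±1. Then, writing c(J) and c(P) for the orders of the centralizers of J and of P, the order of G equals 8·α·c(J)³/c(P)² with α = x₁x₂x₃ / ((x₁ + ε₁)(x₂ + ε₂)(x₃ + ε₃)). -/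
theorem result {G : Type*} [Group G] [Finite G] (M : Ideal Cfsg.AlgInt) (hM : Cfsg.IsPModular 2 M) (g₀ : ℕ) (hg₀ : Odd g₀) (hG : Nat.card G = 4 * g₀) (hnc : ¬ ∃ N : Subgroup G, N.Normal ∧ Nat.card N = g₀) (P : Sylow 2 G) (J : G) (hJ : J ∈ (P : Subgroup G)) (hJ2 : orderOf J = 2) (χ₁ χ₂ χ₃ : Cfsg.IrrCharacter G) (ε₁ ε₂ ε₃ : ℤ) (hB : Cfsg.principalBlock M G = {χ : Cfsg.IrrCharacter G | (χ : G → ℂ) = (fun _ => 1) ∨ χ = χ₁ ∨ χ = χ₂ ∨ χ = χ₃}) (hdist : (χ₁ : G → ℂ) ≠ (fun _ => 1) ∧ (χ₂ : G → ℂ) ≠ (fun _ => 1) ∧ (χ₃ : G → ℂ) ≠ (fun _ => 1) ∧ χ₁ ≠ χ₂ ∧ χ₁ ≠ χ₃ ∧ χ₂ ≠ χ₃) (hε : (ε₁ = 1 ∨ ε₁ = -1) ∧ (ε₂ = 1 ∨ ε₂ = -1) ∧ (ε₃ = 1 ∨ ε₃ = -1)) (hval : (χ₁ : G → ℂ) J = ε₁ ∧ (χ₂ : G → ℂ) J = ε₂ ∧ (χ₃ : G → ℂ) J = ε₃) : (Nat.card G : ℚ) = 8 * (((Cfsg.charDegree (χ₁ : G → ℂ) : ℚ) * Cfsg.charDegree (χ₂ : G → ℂ) * Cfsg.charDegree (χ₃ : G → ℂ)) / ((Cfsg.charDegree (χ₁ : G → ℂ) + ε₁) * (Cfsg.charDegree (χ₂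 : G → ℂ) + ε₂) * (Cfsg.charDegree (χ₃ : G → ℂ) + ε₃))) * (Nat.card (Subgroup.centralizer ({J} : Set G)) : ℚ) ^ 3 / (Nat.card (Subgroup.centralizer ((P : Subgroup G) : Set G)) : ℚ) ^ 2 := by
  have : PMod 2 M := ⟨hM⟩
  obtain ⟨hK, hone⟩ := setup hg₀ hG hnc P
  have h1 := order_formula M P hK hone hJ hJ2
  have h2 := deg_rel M hJ2 hB hdist hval
  have h3 : (oneIrr G : G → ℂ) J ^ 2 / (oneIrr G : G → ℂ) 1 * (oneIrr G : G → ℂ) J = 1 := by
    simp [oneIrr]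
  rw [sum_four hB hdist, h3, hval.1, hval.2.1, hval.2.2, ← χ₁.2.cast_charDegree, ← χ₂.2.cast_charDegree,
    ← χ₃.2.cast_charDegree] at h1
  have h4 : (Nat.card G : ℚ) * (1 + (ε₁ : ℚ) ^ 2 / charDegree (χ₁ : G → ℂ) * ε₁ +
      (ε₂ : ℚ) ^ 2 / charDegree (χ₂ : G → ℂ) * ε₂ + (ε₃ : ℚ) ^ 2 / charDegree (χ₃ : G → ℂ) * ε₃) *
      (Nat.card (centralizer ((P : Subgroup G) : Set G)) : ℚ) ^ 2 =
      8 * (Nat.card (centralizer ({J} : Set G)) : ℚ) ^ 3 := by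
    rw [← Rat.cast_inj (α := ℂ)]
    push_cast
    exact h1
  have h5 : (1 : ℚ) + ε₁ * charDegree (χ₁ : G → ℂ) + ε₂ * charDegree (χ₂ : G → ℂ) +
    ε₃ * charDegree (χ₃ : G → ℂ) = 0 := by exact_mod_cast h2
  have x1 : (charDegree (χ₁ : G → ℂ) : ℚ) ≠ 0 := by exact_mod_cast χ₁.2.charDegree_pos.ne'
  have x2 : (charDegree (χ₂ : G → ℂ) : ℚ) ≠ 0 := by exact_mod_cast χ₂.2.charDegree_pos.ne'
  have x3 : (charDegree (χ₃ : G → ℂ) : ℚ) ≠ 0 := by exact_mod_cast χ₃.2.charDegree_pos.ne'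
  have c1 : (Nat.card (centralizer ((P : Subgroup G) : Set G)) : ℚ) ≠ 0 := by exact_mod_cast Nat.card_pos.ne'
  have c2 : (Nat.card (centralizer ({J} : Set G)) : ℚ) ≠ 0 := by exact_mod_cast Nat.card_pos.ne'
  have s1 : (ε₁ : ℚ) ^ 2 = 1 := by rcases hε.1 with h | h <;> simp [h]
  have s2 : (ε₂ : ℚ) ^ 2 = 1 := by rcases hε.2.1 with h | h <;> simp [h]
  have s3 : (ε₃ : ℚ) ^ 2 = 1 := by rcases hε.2.2 with h | h <;> simp [h]
  generalize (charDegree (χ₁ : G → ℂ) : ℚ) = a at *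
  generalize (charDegree (χ₂ : G → ℂ) : ℚ) = b at *
  generalize (charDegree (χ₃ : G → ℂ) : ℚ) = c at *
  generalize (ε₁ : ℚ) = e₁ at *
  generalize (ε₂ : ℚ) = e₂ at *
  generalize (ε₃ : ℚ) = e₃ at *
  rw [s1, s2, s3] at h4
  have h6 : 1 + 1 / a * e₁ + 1 / b * e₂ + 1 / c * e₃ = (a + e₁) * (b + e₂) * (c + e₃) / (a * b * c) := by
    field_simp
    linear_combination (-(e₁ * e₂ * e₃)) * h5 + a * e₂ * e₃ * s1 + b * e₁ * e₃ * s2 + c * e₁ * e₂ * s3
  rw [h6] at h4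
  have h7 : (a + e₁) * (b + e₂) * (c + e₃) ≠ 0 := by
    intro h
    rw [h] at h4
    simp [c2] at h4
  have h8 := left_ne_zero_of_mul (left_ne_zero_of_mul h7)
  have h9 := right_ne_zero_of_mul (left_ne_zero_of_mul h7)
  have h10 := right_ne_zero_of_mul h7
  field_simp
  field_simp at h4
  linear_combination h4


end Cfsg.Agent.S4479
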