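import Cfsg.Statements.S4480
import Cfsg.Agent.S4479
import Cfsg.Agent.S4475
import Cfsg.Agent.C3.Canon

set_option autoImplicit false
open Cfsg

namespace Cfsg.Agent.S4480

open Cfsg.Agent Cfsg.Agent.B Cfsg.Agent.H2 Cfsg.Agent.H3 Subgroup MonoidAlgebra
open scoped Pointwise commutatorElement
open ComplexConjugate in
theorem even_of_fs {G : Type*} [Group G] [Fintype G] {χ : G → ℂ} (h : IsIrrCharacter G χ) (h1 : fsInd χ = -1) :
    Even (charDegree χ) := by
  classical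
  have hr : (fun g => conj (χ g)) = χ := by
    by_contra e
    rw [h.fsInd_of_not_real e] at h1
    norm_num at h1
  obtain ⟨n, ρ, hρ, rfl⟩ := h
  obtain ⟨⟨M, h0, hM⟩, h2⟩ := S4475.result n ρ hρ fun g => Complex.conj_eq_iff_im.1 (congrFun hr g)
  have h3 := h2 M hM
  change M.transpose = fsInd ρ.character • M at h3
  rw [h1] at h3
  have hd : M.det ≠ 0 := by
    intro e
    obtain ⟨v, hv, hMv⟩ := Matrix.exists_mulVec_eq_zero_iff.2 e
    let W : Subrepresentation ρ := ⟨LinearMap.ker (Matrix.toLin' M), fun g w hw => by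
      rw [LinearMap.mem_ker, Matrix.toLin'_apply] at hw ⊢
      have e1 : w = (LinearMap.toMatrix' (ρ g⁻¹)).mulVec (ρ g w) := by
        rw [LinearMap.toMatrix'_mulVec, ← Module.End.mul_apply, ← map_mul]; simp
      rw [← hM g⁻¹, ← Matrix.mulVec_mulVec, ← e1, ← Matrix.mulVec_mulVec, hw, Matrix.mulVec_zero]⟩
    rcases eq_bot_or_eq_top W with e1 | e1
    · have e2 : v ∈ W.toSubmodule := by
        change v ∈ LinearMap.ker (Matrix.toLin' M)
        rw [LinearMap.mem_ker, Matrix.toLin'_apply, hMv]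
      rw [e1] at e2
      exact hv e2
    · have e2 : LinearMap.ker (Matrix.toLin' M) = ⊤ := congrArg Subrepresentation.toSubmodule e1
      exact h0 ((LinearEquiv.map_eq_zero_iff _).1 (LinearMap.ker_eq_top.1 e2))
  have h4 := congrArg Matrix.det h3
  rw [Matrix.det_transpose, Matrix.det_smul, Fintype.card_fin] at h4
  have h5 : charDegree ρ.character = n := charDegree_eq (by simp)
  rw [h5]
  by_contra e
  rw [(Nat.not_even_iff_odd.1 e).neg_one_pow] at h4
  exact hd (by linear_combination h4 / 2)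

/-- Same setting as the Klein-four order formula: G of order 4·g₀ (g₀ odd) with no normal 2-complement, P a Sylow 2-subgroup, J an involution of P, M over 2, principal 2-block {1, χ₁, χ₂, χ₃} with χ_i(J) = ε_i = ±1. Suppose ε₁ε₂ε₃ = −1 and ε₃ = −1, and put q = x₃ = χ₃(1). Then there is a natural number m with 4·c(J) = m·c(P)·(q + 1), and the order of G equals (m³·c(P)/4)·(q³ − q)/2, that is 8·#G = m³·c(P)·(q³ − q). -/
theorem result {G : Type*} [Group G] [Finite G] (M : Ideal Cfsg.AlgInt) (hM : Cfsg.IsPModular 2 M) (g₀ : ℕ) (hg₀ : Odd g₀) (hG : Nat.card G = 4 * g₀) (hnc : ¬ ∃ N : Subgroup G, N.Normal ∧ Nat.card N = g₀) (P : Sylow 2 G) (J : G) (hJ : J ∈ (P : Subgroup G)) (hJ2 : orderOf J = 2) (χ₁ χ₂ χ₃ : Cfsg.IrrCharacter G) (ε₁ ε₂ ε₃ : ℤ) (hB : Cfsg.principalBlock M G = {χ : Cfsg.IrrCharacter G | (χ : G → ℂ) = (fun _ => 1) ∨ χ = χ₁ ∨ χ = χ₂ ∨ χ = χ₃}) (hdist : (χ₁ : G → ℂ) ≠ (fun _ => 1) ∧ (χ₂ : G → ℂ) ≠ (fun _ => 1) ∧ (χ₃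 : G → ℂ) ≠ (fun _ => 1) ∧ χ₁ ≠ χ₂ ∧ χ₁ ≠ χ₃ ∧ χ₂ ≠ χ₃) (hε : (ε₁ = 1 ∨ ε₁ = -1) ∧ (ε₂ = 1 ∨ ε₂ = -1) ∧ (ε₃ = 1 ∨ ε₃ = -1)) (hval : (χ₁ : G → ℂ) J = ε₁ ∧ (χ₂ : G → ℂ) J = ε₂ ∧ (χ₃ : G → ℂ) J = ε₃) (hprod : ε₁ * ε₂ * ε₃ = -1) (hε₃ : ε₃ = -1) : ∃ m : ℕ, 4 * Nat.card (Subgroup.centralizer ({J} : Set G)) = m * Nat.card (Subgroup.centralizer ((P : Subgroup G) : Set G)) * (Cfsg.charDegree (χ₃ : G → ℂ) + 1) ∧ 8 * Nat.card G = m ^ 3 * Nat.card (Subgroup.centralizer ((P : Subgroup G) : Set G)) * (Cfsg.charDegree (χ₃ : G → ℂ) ^ 3 - Cfsg.charDegree (χ₃ : G → ℂ)) := by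
  have : PMod 2 M := ⟨hM⟩
  classical
  have := Fintype.ofFinite G
  obtain ⟨hK, hone⟩ := S4479.setup hg₀ hG hnc P
  have h1 := S4479.result M hM g₀ hg₀ hG hnc P J hJ hJ2 χ₁ χ₂ χ₃ ε₁ ε₂ ε₃ hB hdist hε hval
  have h2 := S4479.deg_rel M hJ2 hB hdist hval
  have x1 := χ₁.2.charDegree_pos
  have x2 := χ₂.2.charDegree_pos
  have x3 := χ₃.2.charDegree_pos
  subst hε₃
  obtain ⟨rfl, rfl⟩ : ε₁ = 1 ∧ ε₂ = 1 := by
    rcases hε.1 with rfl | rfl <;> rcases hε.2.1 with rfl | rfl <;> simp_all <;> omega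
  have hJp : PElt 2 J := ⟨1, by simpa using hJ2⟩
  have hJJ : J * J = 1 := IsKleinFour.mul_self' hK hJ
  have h3 := (isPBlock_principal (M := M) (G := G)).closed.blockPart_section
    (isClassFunction_sum_irr fun χ : IrrCharacter G => fsInd (χ : G → ℂ)) hJp.isPPart_self (fun v hv => by
      have e1 := card_sq_root_eq_sum v⁻¹
      have e2 : IsEmpty {s : G // s * s = v⁻¹} := ⟨fun ⟨s, hs⟩ => by
        obtain ⟨x, y, rfl, hc, hx, hy⟩ := exists_pdecomp (p := 2) s
        have e3 : IsPPart 2 v⁻¹ (x * x) := by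
          rw [← hs, hc.symm.mul_mul_mul_comm x y]
          exact isPPart_mul (hx.mul hx (Commute.refl x)) (reg_mul hy hy (Commute.refl y))
            ((hc.mul_right hc).mul_left (hc.mul_right hc))
        obtain ⟨k, hk⟩ := hx
        obtain ⟨g, hg⟩ := exists_conj_mem_sylow P hk
        have e4 : x * x = 1 := sq_of_isConj (IsKleinFour.mul_self' hK hg) (isConj_iff.2 ⟨g, rfl⟩).symm
        have e5 := IsPPart.unique e3 (IsPPart.inv hv)
        rw [e4, eq_comm, inv_eq_one] at e5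
        rw [e5] at hJ2
        simp at hJ2⟩
      rw [Nat.card_of_isEmpty, Nat.cast_zero] at e1
      rw [e1, Finset.sum_apply]
      refine Finset.sum_congr rfl fun χ _ => ?_
      rw [← χ.2.apply_inv, inv_inv, Pi.smul_apply, smul_eq_mul])
  rw [blockPart_eq] at h3
  simp only [classInner_sum_irr] at h3
  rw [S4479.sum_four hB hdist, hval.1, hval.2.1, hval.2.2] at h3
  have h4 : fsInd (oneIrr G : G → ℂ) * (oneIrr G : G → ℂ) J = 1 := by
    simp [fsInd, oneIrr]
  rw [h4] at h3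
  obtain ⟨δ, hδ, -⟩ := klein_block M P hK hone
  have h5 : ∀ χ ∈ principalBlock M G, fsInd (χ : G → ℂ) = 0 ∨ fsInd (χ : G → ℂ) = 1 := fun χ hχ => by
    rcases χ.2.fsInd_cases with h | h | h
    · exact Or.inl h
    · exact Or.inr h
    · obtain ⟨k, hk⟩ := even_of_fs χ.2 h
      obtain ⟨h6, -, h7⟩ := hδ χ hχ
      omega
  have m1 : χ₁ ∈ principalBlock M G := by rw [hB]; simp
  have m2 : χ₂ ∈ principalBlock M G := by rw [hB]; simp
  have m3 : χ₃ ∈ principalBlock M G := by rw [hB]; simp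
  have h6 : fsInd (χ₁ : G → ℂ) = 0 := by
    rcases h5 _ m1 with a | a
    · exact a
    · rcases h5 _ m2 with b | b <;> rcases h5 _ m3 with c | c <;> rw [a, b, c] at h3 <;> norm_num at h3
  have h7 : charDegree (χ₂ : G → ℂ) = charDegree (χ₁ : G → ℂ) := by
    have e1 := C3.conj_mem_principal (M := M) m1
    rw [hB] at e1
    rcases e1 with e | e | e | e
    · exact absurd (funext fun g => by simpa using congrArg (starRingEnd ℂ) (congrFun e g)) hdist.1
    · rcases χ₁.2.fsInd_of_real (congrArg Subtype.val e) with a | a <;> rw [h6] at a <;> norm_num at a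
    · rw [← e]
      apply charDegree_eq
      rw [χ₁.2.cast_charDegree]
      exact χ₁.2.isCharacter.conj_apply_one
    · have e2 := congrFun (congrArg Subtype.val e) J
      dsimp only at e2
      rw [hval.1, hval.2.2] at e2
      norm_num at e2
  have i1 : charDegree (χ₁ : G → ℂ) ∣ (centralizer ({J} : Set G)).index := by
    have e1 := χ₁.2.isIntegral_centralChar J
    rw [centralChar, hval.1, ← χ₁.2.cast_charDegree, Int.cast_one, mul_one] at e1
    exact nat_dvd_of_isIntegral_div x1.ne' e1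
  have i3 : charDegree (χ₃ : G → ℂ) ∣ (centralizer ({J} : Set G)).index := by
    have e1 := (χ₃.2.isIntegral_centralChar J).neg
    rw [centralChar, hval.2.2, ← χ₃.2.cast_charDegree, Int.cast_neg, Int.cast_one, mul_neg, mul_one,
      neg_div, neg_neg] at e1
    exact nat_dvd_of_isIntegral_div x3.ne' e1
  rw [h7] at h1 h2
  generalize charDegree (χ₁ : G → ℂ) = x at *
  obtain hq : charDegree (χ₃ : G → ℂ) = 2 * x + 1 := by omega
  rw [hq] at h1 i3 ⊢
  obtain ⟨k, hk⟩ := Nat.Coprime.mul_dvd_of_dvd_of_dvd (by simp) i1 i3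
  have e1 := (centralizer ({J} : Set G)).index_mul_card
  have c1 : 0 < Nat.card (centralizer ((P : Subgroup G) : Set G)) := Nat.card_pos
  have c2 : 0 < Nat.card (centralizer ({J} : Set G)) := Nat.card_pos
  generalize Nat.card (centralizer ((P : Subgroup G) : Set G)) = a at *
  generalize Nat.card (centralizer ({J} : Set G)) = c at *
  rw [← e1, hk] at h1 ⊢
  have e2 : (2 * c) ^ 2 = ((x + 1) * a) ^ 2 * k := by
    have a1 : (x : ℚ) ≠ 0 := by positivity
    have a2 : (a : ℚ) ≠ 0 := by positivity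
    have a3 : (c : ℚ) ≠ 0 := by positivity
    have a4 : (x : ℚ) + 1 ≠ 0 := by positivity
    have a5 : 2 * (x : ℚ) + 1 ≠ 0 := by positivity
    push_cast at h1
    rw [show 2 * (x : ℚ) + 1 + -1 = 2 * x by ring] at h1
    field_simp at h1
    rw [← Nat.cast_inj (R := ℚ)]
    push_cast
    linear_combination (-1 / 2) * h1
  obtain ⟨m, hm⟩ := (Nat.pow_dvd_pow_iff two_ne_zero).1 ⟨k, e2⟩
  have e3 : k = m ^ 2 := by
    rw [hm, mul_pow] at e2
    exact (Nat.eq_of_mul_eq_mul_left (by positivity) e2).symm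
  refine ⟨m, by linear_combination 2 * hm, ?_⟩
  rw [show (2 * x + 1) ^ 3 - (2 * x + 1) = 4 * (2 * x + 1) * x * (x + 1) from
    Nat.sub_eq_of_eq_add (by ring), e3]
  linear_combination 4 * x * (2 * x + 1) * m ^ 2 * hm

end Cfsg.Agent.S4480
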