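import Cfsg.Statements.S4481
import Cfsg.Agent.B.Dih

set_option autoImplicit false
open Cfsg

namespace Cfsg.Agent.S4481

open Cfsg.Agent Cfsg.Agent.B Cfsg.Agent.H2 Cfsg.Agent.H3 Subgroup MonoidAlgebra
open scoped Pointwise commutatorElement

/-- The principal 2-block of a group with dihedral Sylow 2-subgroups. Let G be a finite group whose Sylow 2-subgroup P is dihedral of order 2^n ≥ 8, let σ be an element of P of order 2^(n−1), ζ a primitive 2^(n−1)-th root of unity, and M a maximal ideal of the algebraic integers containing 2. Then the principal 2-block consists of exactly 3 + 2^(n−2) irreducible characters, which can be labelled 1, χ₁, χ₂, χ₃ and χ^(j) for 1 ≤ j ≤ 2^(n−2) − 1 (all distinct), with signs δ₁, δ₂, δ₃ such that for 0 < λ < 2^(n−1): χ₁(σ^λ) = δ₁, χ₂(σ^λ) = δ₂(−1)^(λ+1), χ₃(σ^λ) = δ₃(−1)^(λ+1)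 and χ^(j)(σ^λ) = δ₁(ζ^(jλ) + ζ^(−jλ)); and for every element ρ of odd order and every j: 1 + δ₁χ₁(ρ) = −δ₂χ₂(ρ) − δ₃χ₃(ρ) = δ₁χ^(j)(ρ). -/
theorem result {G : Type*} [Group G] [Finite G] (M : Ideal Cfsg.AlgInt) (hM : Cfsg.IsPModular 2 M) (n : ℕ) (hn : 3 ≤ n) (P : Sylow 2 G) (hP : Nonempty ((P : Subgroup G) ≃* DihedralGroup (2 ^ (n - 1)))) (σ : G) (hσ : σ ∈ (P : Subgroup G)) (hσo : orderOf σ = 2 ^ (n - 1)) (ζ : ℂ) (hζ : IsPrimitiveRoot ζ (2 ^ (n - 1))) : Nat.card (Cfsg.principalBlock M G) = 3 + 2 ^ (n - 2) ∧ ∃ (χ₁ χ₂ χ₃ : Cfsg.IrrCharacter G) (χ' : Fin (2 ^ (n - 2) - 1) → Cfsg.IrrCharacter G) (δ₁ δ₂ δ₃ : ℤ), (δ₁ = 1 ∨ δ₁ = -1) ∧ (δ₂ = 1 ∨ δ₂ = -1) ∧ (δ₃ = 1 ∨ δ₃ = -1) ∧ Function.Injective χ' ∧ (χ₁ : G → ℂ) ≠ (fun _ => 1) ∧ (χ₂ : G → ℂ) ≠ (fun _ => 1) ∧ (χ₃ : G → ℂ) ≠ (fun _ => 1) ∧ χ₁ ≠ χ₂ ∧ χ₁ ≠ χ₃ ∧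 χ₂ ≠ χ₃ ∧ (∀ j, χ' j ≠ χ₁ ∧ χ' j ≠ χ₂ ∧ χ' j ≠ χ₃ ∧ (χ' j : G → ℂ) ≠ (fun _ => 1)) ∧ Cfsg.principalBlock M G = {χ : Cfsg.IrrCharacter G | (χ : G → ℂ) = (fun _ => 1) ∨ χ = χ₁ ∨ χ = χ₂ ∨ χ = χ₃ ∨ ∃ j, χ = χ' j} ∧ (∀ l : ℕ, 0 < l → l < 2 ^ (n - 1) → (χ₁ : G → ℂ) (σ ^ l) = δ₁ ∧ (χ₂ : G → ℂ) (σ ^ l) = δ₂ * (-1) ^ (l + 1) ∧ (χ₃ : G → ℂ) (σ ^ l) = δ₃ * (-1) ^ (l + 1) ∧ ∀ j : Fin (2 ^ (n - 2) - 1), (χ' j : G → ℂ) (σ ^ l) = δ₁ * (ζ ^ (((j : ℕ) + 1) * l) + (ζ ^ (((j : ℕ) + 1) * l))⁻¹)) ∧ ∀ ρ : G, Odd (orderOf ρ) → ∀ j : Fin (2 ^ (n - 2) - 1), 1 + δ₁ * (χ₁ : G → ℂ) ρ = -δ₂ * (χ₂ : G → ℂ) ρ - δ₃ * (χ₃ : G → ℂ) ρ ∧ 1 + δ₁ * (χ₁ : G → ℂ) ρ = δ₁ * (χ' j : G → ℂ) ρ := by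
  have : PMod 2 M := ⟨hM⟩
  classical
  obtain ⟨n, rfl⟩ := Nat.exists_eq_add_of_le' hn
  have e1 : 2 ^ (n + 3 - 1) = 4 * 2 ^ n := by rw [show n + 3 - 1 = n + 2 from rfl]; ring
  have e2 : 2 ^ (n + 3 - 2) = 2 * 2 ^ n := by rw [show n + 3 - 2 = n + 1 from rfl]; ring
  rw [e1] at hP hσo hζ ⊢
  rw [e2]
  obtain ⟨e⟩ := hP
  have p0 : 0 < 2 ^ n := by positivity
  obtain ⟨k, x, y, h, hy, hk⟩ := exists_mc_of_dihedral P.isPGroup' e (by omega)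
  obtain rfl : k = 2 ^ n := by omega
  have h1 : σ ∈ zpowers x := by
    by_contra a
    have := Nat.le_of_dvd two_pos (orderOf_dvd_of_pow_eq_one (x := σ) (by rw [sq]; exact dih_sq h hy hσ a))
    omega
  have h2 : MC P (2 ^ n) σ y 1 := mc_of_gen ⟨n, rfl⟩ hσo (by simpa using h.conj_A' h1) (Or.inl rfl) (Or.inl hy)
    (fun a => h.nmem (zpowers_le.2 h1 a)) hσ h.y_mem h.card
  obtain ⟨χ₁, χ₂, χ₃, χ', δ₁, δ₂, δ₃, a1, a2, a3, a4, a5, a6, a7, a8, a9, a10, a11, a12, a13, a14, -⟩ :=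
    dih_block h2 hy (sylIn_top P) M hζ
  have o : ∀ χ : IrrCharacter G, (χ : G → ℂ) = (fun _ => 1) ↔ χ = oneIrr G := fun χ =>
    ⟨fun a => Subtype.ext a, fun a => by rw [a]; rfl⟩
  refine ⟨?_, χ₁, χ₂, χ₃, χ', δ₁, δ₂, δ₃, a1, a2, a3, a4, mt (o _).1 a5, mt (o _).1 a6, mt (o _).1 a7, a8, a9,
    a10, fun j => ⟨(a11 j).1, (a11 j).2.1, (a11 j).2.2.1, mt (o _).1 (a11 j).2.2.2⟩,
    Set.ext fun χ => by rw [a12, Set.mem_setOf_eq, o], fun l h3 h4 => a13 l fun a => ?_,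
    fun ρ hρ => a14 ρ (Nat.two_dvd_ne_zero.2 (Nat.odd_iff.1 hρ))⟩
  · rw [← card_filter_mem, show Finset.univ.filter (· ∈ principalBlock M G) =
      insert (oneIrr G) (insert χ₁ (insert χ₂ (insert χ₃ (Finset.univ.image χ')))) from Finset.ext fun χ => by
        simp [a12, eq_comm],
      Finset.card_insert_of_notMem (by simp [a5.symm, a6.symm, a7.symm, fun j => (a11 j).2.2.2]),
      Finset.card_insert_of_notMem (by simp [a8, a9, fun j => (a11 j).1]),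
      Finset.card_insert_of_notMem (by simp [a10, fun j => (a11 j).2.1]),
      Finset.card_insert_of_notMem (by simp [fun j => (a11 j).2.2.1]),
      Finset.card_image_of_injective _ a4]
    simp
    omega
  · have := Nat.le_of_dvd h3 (orderOf_dvd_of_pow_eq_one a)
    omega

end Cfsg.Agent.S4481
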