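import Cfsg.Statements.S4482
import Cfsg.Agent.B.Dih

set_option autoImplicit false
open Cfsg

namespace Cfsg.Agent.S4482

open Cfsg.Agent Cfsg.Agent.B Cfsg.Agent.H2 Cfsg.Agent.H3 Subgroup MonoidAlgebra
open scoped Pointwise commutatorElement
theorem rel_conj {G : Type*} [Group G] [Finite G] {U : Subgroup G} {g : G} (hg : g ∈ normalizer (U : Set G)) (s : G) :
    (centralizer {g⁻¹ * s * g}).relIndex U = (centralizer {s}).relIndex U := by
  have h1 := H1.card_inf_mul_relIndex (centralizer {g⁻¹ * s * g}) U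
  have h2 : Nat.card ↥(centralizer {g⁻¹ * s * g} ⊓ U) = Nat.card ↥(centralizer {s} ⊓ U) := by
    refine Nat.card_congr ⟨fun a => ⟨g * a * g⁻¹, mem_centralizer_singleton_iff.2 ?_,
      (mem_normalizer_iff.1 hg _).1 a.2.2⟩, fun a => ⟨g⁻¹ * a * g, mem_centralizer_singleton_iff.2 ?_,
      (mem_normalizer_iff''.1 hg _).1 a.2.2⟩, fun a => Subtype.ext (by group), fun a => Subtype.ext (by group)⟩
    · have := mem_centralizer_singleton_iff.1 a.2.1
      calc g * a * g⁻¹ * s = g * (a * (g⁻¹ * s * g)) * g⁻¹ := by group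
        _ = _ := by rw [this]; group
    · have := mem_centralizer_singleton_iff.1 a.2.1
      calc g⁻¹ * a * g * (g⁻¹ * s * g) = g⁻¹ * (a * s) * g := by group
        _ = _ := by rw [this]; group
  rw [h2, ← H1.card_inf_mul_relIndex (centralizer {s}) U] at h1
  exact Nat.eq_of_mul_eq_mul_left Nat.card_pos h1

theorem sum_mc {G : Type*} [Group G] [Finite G] {S : Subgroup G} [Fintype S] {k : ℕ} {x y : G} (h : MC S k x y 1)
    (F : G → ℂ) : ∑ s : S, F s = ∑ i ∈ Finset.range (4 * k), F (x ^ i) + ∑ i ∈ Finset.range (4 * k), F (y * x ^ i) := by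
  classical
  have i1 : Set.InjOn (fun i : ℕ => x ^ i) (Finset.range (4 * k)) := by
    rw [← h.ord, Finset.coe_range]; exact pow_injOn_Iio_orderOf
  rw [← Finset.sum_image (f := F) i1, ← Finset.sum_image (f := F) (g := fun i : ℕ => y * x ^ i)
    (fun a ha b hb e => i1 ha hb (mul_left_cancel e)), ← Finset.sum_union]
  · symm
    refine Finset.sum_subtype _ (fun g => ?_) F
    have e : ∀ g, g ∈ (Finset.range (4 * k)).image (fun i : ℕ => x ^ i) ↔ g ∈ zpowers x := fun g => by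
      rw [mem_zpowers_iff_mem_range_orderOf, h.ord]
    rw [Finset.mem_union, e, h.mem]
    constructor
    · rintro (⟨i, rfl⟩ | a)
      · exact ⟨i, Or.inl rfl⟩
      · obtain ⟨i, -, rfl⟩ := Finset.mem_image.1 a
        exact ⟨i, Or.inr (by simp)⟩
    · rintro ⟨i, rfl | rfl⟩
      · exact Or.inl ⟨i, rfl⟩
      · obtain ⟨j, a, b⟩ := Finset.mem_image.1 ((e _).2 (⟨i, rfl⟩ : x ^ i ∈ zpowers x))
        exact Or.inr (Finset.mem_image.2 ⟨j, a, by rw [b]⟩)
  · rw [Finset.disjoint_left]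
    intro g h1 h2
    obtain ⟨i, -, rfl⟩ := Finset.mem_image.1 h1
    obtain ⟨j, -, e⟩ := Finset.mem_image.1 h2
    refine h.nmem ?_
    rw [eq_mul_inv_of_mul_eq e]
    exact mul_mem (pow_mem (mem_zpowers x) i) (inv_mem (pow_mem (mem_zpowers x) j))

/-- An order formula for groups with dihedral Sylow 2-subgroups and one class of involutions. Let G be a finite group whose Sylow 2-subgroup P = ⟨σ, τ⟩ is dihedral of order 2^n ≥ 8 (σ of order 2^(n−1), τ an involution inverting σ), let J be the central involution σ^(2^(n−2)), and suppose J, τ and στ are conjugate in G. Fix M over 2 and let χ₁ be an irreducible character in the principal 2-block taking one constant value δ₁ = ±1 at every non-identity power of σ, with χ₁ ≠ 1. Then, with x₁ = χ₁(1) and c(·) denoting orders of centralizers, x₁ ≠ δ₁ and #G · (x₁ − δ₁)² = 2·x₁(x₁ + δ₁)·c(J)³·(1/c(J, τ) + 1/c(J, στ))², where c(J, y) is the order of the joint centralizer of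 J and y. -/
theorem result {G : Type*} [Group G] [Finite G] (M : Ideal Cfsg.AlgInt) (hM : Cfsg.IsPModular 2 M) (n : ℕ) (hn : 3 ≤ n) (P : Sylow 2 G) (σ τ : G) (hσ : σ ∈ (P : Subgroup G)) (hτ : τ ∈ (P : Subgroup G)) (hσo : orderOf σ = 2 ^ (n - 1)) (hτo : orderOf τ = 2) (hrel : τ * σ * τ⁻¹ = σ⁻¹) (hgen : Subgroup.closure ({σ, τ} : Set G) = (P : Subgroup G)) (hconj : IsConj (σ ^ (2 ^ (n - 2))) τ ∧ IsConj (σ ^ (2 ^ (n - 2))) (σ * τ)) (χ₁ : Cfsg.IrrCharacter G) (hχ₁ : χ₁ ∈ Cfsg.principalBlock M G) (h1 : (χ₁ : G → ℂ) ≠ (fun _ => 1)) (δ₁ : ℤ) (hδ₁ : δ₁ = 1 ∨ δ₁ = -1) (hval : ∀ l : ℕ, 0 < l → l < 2 ^ (n - 1) → (χ₁ : G → ℂ) (σ ^ l) = δ₁) : (Cfsg.charDegree (χ₁ : G → ℂ) : ℤ) ≠ δ₁ ∧ (Nat.card G : ℚ) * ((Cfsg.charDegree (χ₁ : G → ℂ) : ℚ) - δ₁) ^ 2 = 2 * (Cfsg.charDegree (χ₁ : G → ℂ) : ℚ) * ((Cfsg.charDegree (χ₁ : G → ℂ) : ℚ) + δ₁) * (Nat.card (Subgroup.centralizer ({σ ^ (2 ^ (n - 2))} : Set G)) : ℚ) ^ 3 * (1 / (Nat.card (Subgroup.centralizer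 ({σ ^ (2 ^ (n - 2)), τ} : Set G)) : ℚ) + 1 / (Nat.card (Subgroup.centralizer ({σ ^ (2 ^ (n - 2)), σ * τ} : Set G)) : ℚ)) ^ 2 := by
  have : PMod 2 M := ⟨hM⟩
  classical
  have := Fintype.ofFinite G
  obtain ⟨n, rfl⟩ := Nat.exists_eq_add_of_le' hn
  have e1 : 2 ^ (n + 3 - 1) = 4 * 2 ^ n := by rw [show n + 3 - 1 = n + 2 from rfl]; ring
  have e2 : 2 ^ (n + 3 - 2) = 2 * 2 ^ n := by rw [show n + 3 - 2 = n + 1 from rfl]; ring
  rw [e1] at hσo hval
  rw [e2] at hconj ⊢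
  have p0 : 0 < 2 ^ n := by positivity
  have hy : τ * τ = 1 := by rw [← sq, ← hτo, pow_orderOf_eq_one]
  have hnm : τ ∉ zpowers σ := fun a => by
    rw [(MC.commute_A a (mem_zpowers σ)).eq, mul_inv_cancel_right, eq_inv_iff_mul_eq_one, ← sq] at hrel
    have := Nat.le_of_dvd two_pos (orderOf_dvd_of_pow_eq_one hrel)
    omega
  have h : MC P (2 ^ n) σ τ 1 := mc_of_gen ⟨n, rfl⟩ hσo (by simpa using hrel) (Or.inl rfl) (Or.inl hy) hnm hσ hτ (by
    obtain ⟨e⟩ := closure_equiv_dihedral hσo hy hrel hnm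
    rw [← hgen, Nat.card_congr e.toEquiv, DihedralGroup.nat_card]; ring)
  generalize 2 ^ n = k at *
  have hζ := Complex.isPrimitiveRoot_exp (4 * k) (by omega)
  generalize Complex.exp _ = ζ at hζ
  have hS := sylIn_top P
  obtain ⟨s, χ₂, χ₃, χ', δ, δ₂, δ₃, a1, a2, a3, -, -, -, -, -, -, -, -, a12, a13, a14, a15⟩ :=
    dih_block h hy hS M hζ
  have ne1 : ∀ l, 0 < l → l < 4 * k → σ ^ l ≠ 1 := fun l h3 h4 a => by
    have := Nat.le_of_dvd h3 (orderOf_dvd_of_pow_eq_one a)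
    omega
  have e5 : ζ ^ (2 * k) = -1 := (hζ.pow (by omega) (by ring : 4 * k = 2 * k * 2)).eq_neg_one_of_two_right
  have v1 := hval 1 one_pos (by omega)
  have v2 := hval 2 two_pos (by omega)
  have v3 := hval (2 * k) (by omega) (by omega)
  have w1 := a13 1 (ne1 1 one_pos (by omega))
  have w2 := a13 2 (ne1 2 two_pos (by omega))
  have w3 := a13 (2 * k) h.z_ne_one
  obtain rfl : χ₁ = s := by
    rcases (a12 χ₁).1 hχ₁ with a | a | a | a | ⟨j, a⟩
    · exact absurd (by rw [a]; rfl) h1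
    · exact a
    · rw [a, w1.2.1] at v1
      rw [a, w2.2.1] at v2
      have : (δ₂ : ℂ) = 0 := by linear_combination (v1 - v2) / 2
      rcases a2 with b | b <;> simp [b] at this
    · rw [a, w1.2.2.1] at v1
      rw [a, w2.2.2.1] at v2
      have : (δ₃ : ℂ) = 0 := by linear_combination (v1 - v2) / 2
      rcases a3 with b | b <;> simp [b] at this
    · rw [a, w3.2.2.2, mul_comm _ (2 * k), pow_mul, e5] at v3
      have : δ * (2 * (-1) ^ ((j : ℕ) + 1)) = δ₁ := by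
        rw [← Int.cast_inj (α := ℂ), ← v3, ← inv_pow, inv_neg_one]; push_cast; ring
      rcases neg_one_pow_eq_or ℤ ((j : ℕ) + 1) with b | b <;> rw [b] at this <;> omega
  obtain rfl : δ₁ = δ := by exact_mod_cast v1.symm.trans w1.1
  set J := σ ^ (2 * k) with hJ
  have b1 := a15 ⟨0, by omega⟩ fun χ => (χ : G → ℂ) J ^ 2 / (χ : G → ℂ) 1
  have b2 := (a14 1 reg_one ⟨0, by omega⟩).2
  have hP := dih_syl h hS
  have hn := dih_pNil h hy hS
  set C := centralizer ({J} : Set G) with hC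
  set U := resOf 2 C with hU
  have hPn : (P : Subgroup G) ≤ normalizer (U : Set G) := hP.le.trans (le_normalizer_resOf 2 C)
  have mv : ∀ i : ℕ, σ ^ i * τ = τ * (σ ^ i)⁻¹ := fun i => by
    have : τ * σ ^ i * τ⁻¹ = (σ ^ i)⁻¹ := by rw [← conj_pow, hrel, inv_pow]
    rw [← this, ← mul_assoc, ← mul_assoc, hy, one_mul, inv_eq_of_mul_eq_one_right hy]
  have cj2 : ∀ i : ℕ, σ⁻¹ * (τ * σ ^ i) * σ = τ * σ ^ (i + 2) := fun i => by
    rw [← hrel, inv_eq_of_mul_eq_one_right hy]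
    calc τ * σ * τ * (τ * σ ^ i) * σ = τ * σ * (τ * τ) * σ ^ i * σ := by group
      _ = _ := by rw [hy]; group
  have cj1 : σ⁻¹ * (σ * τ) * σ = τ * σ ^ 1 := by group
  set A : ℂ := (((centralizer {τ}).relIndex U : ℕ) : ℂ) with hA
  set B : ℂ := (((centralizer {σ * τ}).relIndex U : ℕ) : ℂ) with hB
  have W : ∀ i : ℕ, cind J (τ * σ ^ i) * (centralizer {τ * σ ^ i}).relIndex U =
      (A + B) / 2 + (-1) ^ i * ((A - B) / 2) := fun i => by
    induction i using Nat.twoStepInduction with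
    | zero => rw [pow_zero, mul_one, cind, if_pos hconj.1]; ring
    | one =>
      rw [← cj1, rel_conj (hPn hσ), cind, if_pos (hconj.2.trans (isConj_iff.2 ⟨σ⁻¹, by rw [inv_inv]⟩))]; ring
    | more i ih _ =>
      rw [← cj2, rel_conj (hPn hσ), pow_add (-1 : ℂ), neg_one_sq, mul_one, ← ih]
      congr 1
      unfold cind
      congr 1
      exact propext ⟨fun a => a.trans (isConj_iff.2 ⟨σ, by group⟩),
        fun a => a.trans (isConj_iff.2 ⟨σ⁻¹, by rw [inv_inv]⟩)⟩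
  have alt : ∑ i ∈ Finset.range (4 * k), (-1 : ℂ) ^ i = 0 := by
    rw [neg_one_geom_sum, if_pos ⟨2 * k, by ring⟩]
  have R : ∀ l ∈ Finset.range (4 * k), (ζ ^ l - 1) * (Nat.card U * ((Nat.card G : ℂ) / (Nat.card C : ℂ) ^ 2 *
      ∑ χ : IrrCharacter G, if χ ∈ principalBlock M G then (χ : G → ℂ) (σ ^ l) *
        ((χ : G → ℂ) J ^ 2 / (χ : G → ℂ) 1) else 0)) = (ζ ^ l - 1) * ((4 * k : ℕ) *
          (((A + B) / 2) ^ 2 + (-1) ^ l * ((A - B) / 2) ^ 2)) := fun l hl => by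
    rcases Nat.eq_zero_or_pos l with rfl | l0
    · simp
    have l1 := ne1 l l0 (Finset.mem_range.1 hl)
    have lA : σ ^ l ∈ zpowers σ := pow_mem (mem_zpowers σ) l
    have c1 := inv_count M h.ord_z hn hP (h.A_le lA) (h.z_mem_zpowers lA l1)
    simp only [mul_comm _ ((_ : G → ℂ) (σ ^ l))] at c1
    rw [← c1, sum_mc h (fun s => cind J s * (centralizer {s}).relIndex U *
        (cind J (s⁻¹ * σ ^ l) * (centralizer {s⁻¹ * σ ^ l}).relIndex U)), Finset.sum_eq_zero, zero_add]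
    · congr 1
      have c2 : ∀ i : ℕ, (τ * σ ^ i)⁻¹ * σ ^ l = τ * σ ^ (i + l) := fun i => by
        rw [inv_eq_of_mul_eq_one_right (by simpa using refl_mul_self hy hrel i), pow_add, mul_assoc]
      have c3 : ∀ i : ℕ, ((A + B) / 2 + (-1) ^ i * ((A - B) / 2)) * ((A + B) / 2 + (-1) ^ (i + l) * ((A - B) / 2)) =
          ((A + B) / 2) ^ 2 + (-1) ^ l * ((A - B) / 2) ^ 2 +
            (-1) ^ i * ((A + B) / 2 * ((A - B) / 2) * (1 + (-1) ^ l)) := fun i => by
        have : ((-1 : ℂ) ^ i) ^ 2 = 1 := by rw [← pow_mul, mul_comm, pow_mul]; simp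
        rw [pow_add]
        linear_combination (-1) ^ l * ((A - B) / 2) ^ 2 * this
      simp only [c2, W, c3]
      rw [Finset.sum_add_distrib, ← Finset.sum_mul, alt, Finset.sum_const, Finset.card_range]
      simp only [nsmul_eq_mul, zero_mul, add_zero]
    · intro i _
      by_contra a
      obtain ⟨c2, c3⟩ := mul_ne_zero_iff.1 a
      have c4 : ∀ g ∈ zpowers σ, cind J g ≠ 0 → g = J := fun g hg a => by
        have c5 : IsConj J g := by by_contra e; exact a (if_neg e)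
        refine (h.eq_z hg (sq_of_isConj h.z_mul_self c5)).resolve_left ?_
        rintro rfl
        exact h.z_ne_one (isConj_one_left.1 c5)
      have iA : σ ^ i ∈ zpowers σ := pow_mem (mem_zpowers σ) i
      have c5 := c4 _ iA (left_ne_zero_of_mul c2)
      have c6 := c4 _ (mul_mem (inv_mem iA) lA) (left_ne_zero_of_mul c3)
      rw [c5, inv_mul_eq_iff_eq_mul, h.z_mul_self] at c6
      exact l1 c6
  have g1 : ∑ l ∈ Finset.range (4 * k), ζ ^ l = 0 := hζ.geom_sum_eq_zero (by omega)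
  have g2 : ∑ l ∈ Finset.range (4 * k), (-ζ) ^ l = 0 := by
    have : -ζ ≠ 1 := fun a => by
      have := hζ.dvd_of_pow_eq_one 2 (by rw [← neg_sq, a, one_pow])
      have := Nat.le_of_dvd two_pos this
      omega
    rw [geom_sum_eq this, neg_pow, hζ.pow_eq_one, Even.neg_one_pow ⟨2 * k, by ring⟩]; simp
  have R2 := Finset.sum_congr rfl R
  have c3 : ∀ l : ℕ, (ζ ^ l - 1) * ((4 * k : ℕ) * (((A + B) / 2) ^ 2 + (-1) ^ l * ((A - B) / 2) ^ 2)) =
      (4 * k : ℕ) * (((A + B) / 2) ^ 2 * (ζ ^ l - 1) + ((A - B) / 2) ^ 2 * ((-ζ) ^ l - (-1) ^ l)) := fun l => by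
    rw [neg_pow ζ]; ring
  simp only [c3, mul_left_comm (ζ ^ _ - 1), ← Finset.mul_sum, Finset.sum_add_distrib, Finset.sum_sub_distrib, g1, g2,
    alt, Finset.sum_const, Finset.card_range] at R2
  simp only [Nat.cast_zero, zero_add, zpow_one] at b1
  have hm : ((4 * k : ℕ) : ℂ) ≠ 0 := Nat.cast_ne_zero.2 (by omega)
  rw [eq_inv_mul_iff_mul_eq₀ hm] at b1
  rw [← b1, w3.1, w3.2.2.2, ← χ₁.2.cast_charDegree] at R2
  rw [← χ₁.2.cast_charDegree] at b2
  have d1 := card_split (hP.pNil_iff.1 hn) hP.le (resOf_le 2 C) (fun g hg => hP.exists_mul_resOf hg)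
  have d2 : ∀ t ∈ (P : Subgroup G), t ∉ zpowers σ → (Nat.card (centralizer ({J, t} : Set G)) : ℂ) *
      (centralizer {t}).relIndex U = 4 * Nat.card U := fun t ht htA => by
    have c1 := dih_card_cent h hy hS ht
    have h' := h.of_not_mem ht htA
    have c2 := h'.k4 (dih_sq h hy ht htA)
    have c4 : (P : Subgroup G) ⊓ centralizer {t} = zpowers J ⊔ zpowers t := le_antisymm
      (fun g hg => h'.cent_y hg.1 (mem_centralizer_singleton_iff.1 hg.2)) (c2.le ⟨h.z_mem,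
        mem_centralizer_singleton_iff.2 (h.commute_z ht).symm⟩ ⟨ht, mem_centralizer_singleton_iff.2 rfl⟩)
    have c5 : centralizer ({J, t} : Set G) = C ⊓ centralizer {t} := by
      ext g; simp [hC, mem_centralizer_iff]
    rw [c4, c2.card] at c1
    rw [c5, c1, ← H1.card_inf_mul_relIndex (centralizer {t}) U, inf_comm]
    push_cast; ring
  have d3 := d2 τ hτ hnm
  have d4 := d2 (σ * τ) (mul_mem hσ hτ) fun a => hnm (((zpowers σ).mul_mem_cancel_left (mem_zpowers σ)).1 a)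
  rw [← hA] at d3
  rw [← hB] at d4
  rw [h.card] at d1
  have o1 : (oneIrr G : G → ℂ) J ^ 2 / (oneIrr G : G → ℂ) 1 = 1 := by simp [oneIrr]
  have s1 : (δ₁ : ℂ) ^ 2 = 1 := by rcases hδ₁ with a | a <;> simp [a]
  have x0 := (χ' ⟨0, by omega⟩).2.apply_one_ne_zero
  have x1 : (χ' ⟨0, by omega⟩ : G → ℂ) 1 = charDegree (χ₁ : G → ℂ) + δ₁ := by
    linear_combination (-δ₁) * b2 + (charDegree (χ₁ : G → ℂ) - (χ' ⟨0, by omega⟩ : G → ℂ) 1) * s1
  rw [x1] at x0 R2
  rw [o1, zero_add, one_mul, e5, inv_neg_one, mul_pow, s1] at R2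
  have x2 : (charDegree (χ₁ : G → ℂ) : ℂ) ≠ 0 := Nat.cast_ne_zero.2 χ₁.2.charDegree_pos.ne'
  have d5 : (Nat.card C : ℂ) = 8 * k * Nat.card U := by exact_mod_cast d1
  have z1 := card_ne_zero (G := centralizer ({J, τ} : Set G))
  have z2 := card_ne_zero (G := centralizer ({J, σ * τ} : Set G))
  have z3 := card_ne_zero (G := U)
  have z4 : (k : ℂ) ≠ 0 := Nat.cast_ne_zero.2 p0.ne'
  rw [mul_comm, ← eq_div_iff z1] at d3
  rw [mul_comm, ← eq_div_iff z2] at d4
  have main : (Nat.card G : ℚ) * ((Cfsg.charDegree (χ₁ : G → ℂ) : ℚ) - δ₁) ^ 2 =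
      2 * (Cfsg.charDegree (χ₁ : G → ℂ) : ℚ) * ((Cfsg.charDegree (χ₁ : G → ℂ) : ℚ) + δ₁) * (Nat.card C : ℚ) ^ 3 *
      (1 / (Nat.card (Subgroup.centralizer ({J, τ} : Set G)) : ℚ) +
        1 / (Nat.card (Subgroup.centralizer ({J, σ * τ} : Set G)) : ℚ)) ^ 2 := by
    rw [← Rat.cast_inj (α := ℂ)]
    have x3 : -1 - (δ₁ : ℂ) * (1 / charDegree (χ₁ : G → ℂ)) + δ₁ * (1 * (-1 + -1) ^ 2 /
        (charDegree (χ₁ : G → ℂ) + δ₁)) = -((charDegree (χ₁ : G → ℂ) : ℂ) - δ₁) ^ 2 /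
          (charDegree (χ₁ : G → ℂ) * (charDegree (χ₁ : G → ℂ) + δ₁)) := by
      field_simp; ring
    rw [x3, d3, d4, d5] at R2
    push_cast at R2 ⊢
    rw [d5]
    simp only [nsmul_eq_mul] at R2
    push_cast at R2
    field_simp at R2 ⊢
    linear_combination (-1 / 4) * R2
  refine ⟨fun a => ?_, main⟩
  have a' : (charDegree (χ₁ : G → ℂ) : ℚ) = δ₁ := by exact_mod_cast a
  have x4 : (0 : ℚ) < charDegree (χ₁ : G → ℂ) := by exact_mod_cast χ₁.2.charDegree_pos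
  have y1 : (0 : ℚ) < Nat.card C := by exact_mod_cast Nat.card_pos
  have y2 : (0 : ℚ) < Nat.card (Subgroup.centralizer ({J, τ} : Set G)) := by exact_mod_cast Nat.card_pos
  have y3 : (0 : ℚ) < Nat.card (Subgroup.centralizer ({J, σ * τ} : Set G)) := by exact_mod_cast Nat.card_pos
  rw [← a', sub_self, zero_pow two_ne_zero, mul_zero] at main
  exact absurd main (by positivity)

end Cfsg.Agent.S4482
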