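import Cfsg.Statements.S4483
import Cfsg.Agent.C3.Sig

set_option autoImplicit false
open Cfsg

namespace Cfsg.Agent.S4483

open H3 C3 B Subgroup Finset

/-- Let G be a finite group of order 2^n·g₀ with g₀ odd, and M a maximal ideal of the algebraic integers containing 2. Every real-valued irreducible character of G of odd degree lies in the principal 2-block; consequently G has at most 2^(2n) real-valued irreducible characters of odd degree. -/
theorem result {G : Type*} [Group G] [Finite G] (M : Ideal Cfsg.AlgInt) (hM : Cfsg.IsPModular 2 M) : (∀ χ : Cfsg.IrrCharacter G, (∀ g : G, ((χ : G → ℂ) g).im = 0) → Odd (Cfsg.charDegree (χ : G → ℂ)) → χ ∈ Cfsg.principalBlock M G) ∧ Nat.card {χ : Cfsg.IrrCharacter G // (∀ g : G, ((χ : G → ℂ) g).im = 0) ∧ Odd (Cfsg.charDegree (χ : G → ℂ))} ≤ 2 ^ (2 * (Nat.card G).factorization 2) := by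
  have : PMod 2 M := ⟨hM⟩
  have a : ∀ χ : IrrCharacter G, (∀ g : G, ((χ : G → ℂ) g).im = 0) → Odd (charDegree (χ : G → ℂ)) →
      χ ∈ principalBlock M G := fun χ a b => mem_principal_of_inv b.not_two_dvd_nat rfl fun g _ => by
    rw [χ.2.isCharacter.apply_inv, Complex.conj_eq_iff_im.2 (a g)]
  refine ⟨a, (Nat.card_le_card_of_injective (β := principalBlock M G) (fun χ => ⟨χ.1, a _ χ.2.1 χ.2.2⟩)
    fun _ _ h => Subtype.ext (congrArg (·.1) h)).trans ?_⟩
  have b := (isPBlock_principal (M := M) (G := G)).card_le_bf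
  rw [defect_principal] at b
  have : 0 < 2 ^ (2 * (Nat.card G).factorization 2) := by positivity
  omega

end Cfsg.Agent.S4483
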