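import Cfsg.Statements.S4488
import Mathlib
import Cfsg.Agent.H3.Cong
import Cfsg.Agent.H3.Galois

set_option autoImplicit false
open Cfsg

namespace Cfsg.Agent.S4488

open Cfsg.Agent.H3 Subgroup

theorem vals {P : Type*} [Group P] [Finite P] {p : ℕ} (hp : p.Prime) {a : ℕ} (ha : Nat.card P = p ^ (a + 1)) {ψ : P → ℂ}
    (hψ : IsCharacter P ψ) (h : ∀ g (k : ℕ), k.Coprime (Nat.card P) → ψ (g ^ k) = ψ g) (g : P) :
    ∃ j : ℕ, j ≤ charDegree ψ / (p - 1) ∧ ψ g = charDegree ψ - p * j := by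
  obtain ⟨z, hz⟩ := hψ.isGen.exists_int_of_pow g (h g)
  obtain ⟨M, hM⟩ := exists_isPModular hp
  have h1 := hψ.isGen.inM_sub hM (Commute.one_right g) (ha ▸ pow_card_eq_one')
  rw [mul_one, hz, ← hψ.cast_charDegree, ← Int.cast_natCast, ← Int.cast_sub, inM_int_iff hM, dvd_sub_comm] at h1
  obtain ⟨j, hj⟩ := h1
  have h2 : z ≤ charDegree ψ := by
    have := hψ.norm_apply_le g
    rw [hz, Complex.norm_intCast] at this
    exact_mod_cast (le_abs_self _).trans this
  have h3 : ∀ k : ℤ, ¬ (p : ℤ) ∣ k → ψ (g ^ k) = z := fun k hk => by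
    have h0 : (0 : ℤ) ≤ k % Nat.card P := Int.emod_nonneg _ (by exact_mod_cast Nat.card_pos.ne')
    rw [← zpow_mod_natCard, ← Int.toNat_of_nonneg h0, zpow_natCast, h, hz]
    refine ha ▸ (hp.coprime_iff_not_dvd.2 fun e => hk ?_).symm.pow_right _
    rwa [← Int.natCast_dvd_natCast, ← ha, Int.toNat_of_nonneg h0, EuclideanDomain.mod_eq_sub_mul_div, dvd_sub_left
      ((Int.natCast_dvd_natCast.2 (ha ▸ dvd_pow_self p a.succ_ne_zero)).mul_right _)] at e
  obtain ⟨n, ε, -, h4, -, h5⟩ := hψ.exists_eigenvalues g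
  have h6 : ((∑ i, Complex.normSq (∑ s ∈ Finset.range p, ε i ^ s) : ℝ) : ℂ) =
      ((p * (charDegree ψ + (p - 1) * z) : ℤ) : ℂ) := by
    have h7 : ∀ s ∈ Finset.range p, ∑ t ∈ Finset.range p, ψ (g ^ ((s : ℤ) - t)) = charDegree ψ + (p - 1) * z :=
      fun s hs => by
      rw [← Finset.add_sum_erase _ _ hs, sub_self, zpow_zero, hψ.cast_charDegree, Finset.sum_congr rfl fun t ht => h3 _
        fun e => (Finset.mem_erase.1 ht).1 (by
          have := Int.eq_zero_of_abs_lt_dvd e (by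
            have := Finset.mem_range.1 hs; have := Finset.mem_range.1 (Finset.mem_erase.1 ht).2; rw [abs_lt]; omega)
          omega)]
      simp [Finset.card_erase_of_mem hs, Nat.cast_sub hp.one_le]
    push_cast
    refine Eq.trans ?_ ((Finset.sum_congr rfl h7).trans (by simp [mul_add]))
    simp only [h5, ← Complex.mul_conj, map_sum, Finset.sum_mul_sum]
    rw [Finset.sum_comm]
    refine Finset.sum_congr rfl fun s _ => Finset.sum_comm.trans (Finset.sum_congr rfl fun t _ =>
      Finset.sum_congr rfl fun i _ => ?_)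
    have h8 := Complex.norm_eq_one_of_pow_eq_one (h4 i) (orderOf_pos g).ne'
    rw [zpow_sub₀ (norm_ne_zero_iff.1 (h8 ▸ one_ne_zero)), map_pow, ← Complex.inv_eq_conj h8]
    simp [div_eq_mul_inv]
  have h7 : (0 : ℤ) ≤ p * (charDegree ψ + (p - 1) * z) := by
    have := Finset.sum_nonneg fun i (_ : i ∈ Finset.univ) => Complex.normSq_nonneg (∑ s ∈ Finset.range p, ε i ^ s)
    rw [Complex.ofReal_injective (h6.trans (Complex.ofReal_intCast _).symm)] at this
    exact_mod_cast this
  have h8 : (0 : ℤ) < p := by exact_mod_cast hp.pos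
  obtain ⟨j, rfl⟩ := Int.eq_ofNat_of_zero_le (show 0 ≤ j from (mul_nonneg_iff_of_pos_left h8).1 (hj ▸ sub_nonneg.2 h2))
  refine ⟨j, (Nat.le_div_iff_mul_le (Nat.sub_pos_of_lt hp.one_lt)).2 ?_, by
    rw [hz, show z = charDegree ψ - p * j by omega]; simp⟩
  zify [hp.one_le]
  have := (mul_nonneg_iff_of_pos_left h8).1 h7
  exact le_of_mul_le_mul_left (by nlinarith) h8

/-- Let the finite group G have a faithful p-rational character χ of degree n (all values of χ lie in the field generated over ℚ by a root of unity of order prime to p), and let p^a be the order of a Sylow p-subgroup of G. Then a ≤ Σ_{i ≥ 0} ⌊n / ((p − 1)·p^i)⌋ (a finite sum; the terms vanish once (p − 1)p^i > n). -/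
theorem result {G : Type*} [Group G] [Finite G] (p : ℕ) (hp : p.Prime) (χ : G → ℂ) (hχ : Cfsg.IsCharacter G χ) (hfaith : ∀ g : G, χ g = χ 1 → g = 1) (hrat : (∃ r : ℕ, 0 < r ∧ ¬ p ∣ r ∧ ∀ g : G, χ g ∈ IntermediateField.adjoin ℚ ({Complex.exp (2 * Real.pi * Complex.I / r)} : Set ℂ))) (n : ℕ) (hn : Cfsg.charDegree χ = n) : (Nat.card G).factorization p ≤ ∑ i ∈ Finset.range (n + 1), n / ((p - 1) * p ^ i) := by
  classical
  haveI := Fact.mk hp
  obtain ⟨P⟩ := (inferInstance : Nonempty (Sylow p G))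
  obtain ⟨r, h1, h2, h3⟩ := hrat
  have hc := P.card_eq_multiplicity
  generalize (Nat.card G).factorization p = a at hc
  rcases a with _ | a
  · exact Nat.zero_le _
  have hψ := hχ.res P
  have hd : charDegree (fun x : P => χ x) = n := hn
  have h4 := vals hp hc hψ fun g k hk => by
    have h5 : (Nat.card P).Coprime r := hc ▸ (hp.coprime_iff_not_dvd.2 h2).pow_left _
    obtain ⟨l, a1, a2⟩ := Nat.chineseRemainder h5 k 1
    obtain ⟨σ, hσ⟩ := exists_ringEquiv_pow (mul_pos Nat.card_pos h1).ne' (Nat.Coprime.mul_right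
      (a1.gcd_eq.trans hk) (a2.gcd_eq.trans (Nat.gcd_one_left r)))
    rw [← pow_eq_pow_of_modEq a1 pow_card_eq_one', ← hψ.map_apply_eq_pow σ g l fun ε h => hσ ε
      (pow_eq_one_of_dvd' h ((orderOf_dvd_natCard g).mul_right r))]
    have h6 := h3 g
    generalize χ g = x at h6
    induction h6 using IntermediateField.adjoin_induction with
    | mem x hx =>
      have h7 : x ^ r = 1 := hx ▸ (Complex.isPrimitiveRoot_exp r h1.ne').pow_eq_one
      exact (hσ x (pow_eq_one_of_dvd' h7 (dvd_mul_left _ _))).trans ((pow_eq_pow_of_modEq a2 h7).trans (pow_one x))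
    | algebraMap q => simp
    | add _ _ _ _ b1 b2 => rw [map_add, b1, b2]
    | inv _ _ b1 => rw [map_inv₀, b1]
    | mul _ _ _ _ b1 b2 => rw [map_mul, b1, b2]
  replace h4 : ∀ g : P, ∃ j ≤ n / (p - 1), χ g = n - p * j := hd ▸ h4
  haveI := Fintype.ofFinite P
  obtain ⟨z, hz⟩ := (Finset.prod_induction (s := Finset.Icc 1 (n / (p - 1)))
    (fun j => (fun x : P => χ x) - (((n - p * j : ℤ) : ℂ) • fun _ => 1)) _ (fun _ _ => IsGeneralizedCharacter.mul) isGen_one
    fun j _ => hψ.isGen.sub (isGen_one.intCast_smul _)).exists_int_inner isGen_one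
  have h5 : χ 1 = n := hn ▸ hχ.cast_charDegree.symm
  rw [classInner, Finset.sum_eq_single 1 (fun g _ hg => by
    obtain ⟨j, a1, a2⟩ := h4 g
    rw [Finset.prod_apply, Finset.prod_eq_zero (Finset.mem_Icc.2 ⟨Nat.pos_of_ne_zero ?_, a1⟩) (by simp [a2]), zero_mul]
    rintro rfl
    exact hg (Subtype.ext (hfaith _ (by simp [a2, h5])))) (by simp)] at hz
  have h6 : Nat.card P ∣ p ^ (n / (p - 1)) * (n / (p - 1)).factorial := nat_dvd_of_isIntegral_div Nat.card_pos.ne' (by
    convert isIntegral_int z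
    rw [← hz, ← Finset.prod_Ico_id_eq_factorial]
    simp [h5, Finset.prod_mul_distrib, div_eq_inv_mul, Finset.Ico_add_one_right_eq_Icc])
  have h7 := (hp.pow_dvd_iff_le_factorization (mul_pos (pow_pos hp.pos _) (Nat.factorial_pos _)).ne').1 (hc ▸ h6)
  rw [Nat.factorization_mul (pow_pos hp.pos _).ne' (Nat.factorial_pos _).ne', Finsupp.add_apply, hp.factorization_pow,
    Finsupp.single_eq_same, Nat.factorization_factorial hp (b := n + 1)
      (Nat.lt_succ_of_le ((Nat.log_le_self _ _).trans (Nat.div_le_self _ _)))] at h7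
  rw [Finset.range_eq_Ico, Finset.sum_eq_sum_Ico_succ_bot n.succ_pos]
  simpa only [← Nat.div_div_eq_div_mul, pow_zero, Nat.div_one] using h7

end Cfsg.Agent.S4488
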