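import Cfsg.Statements.S4493
import Cfsg.Agent.B.Ito
import Cfsg.Agent.H9.GT

set_option autoImplicit false
open Cfsg

namespace Cfsg.Agent.S4493

open Cfsg.Agent Cfsg.Agent.B Cfsg.Agent.H2 Cfsg.Agent.H3 Cfsg.Agent.L Subgroup MonoidAlgebra
open scoped Pointwise commutatorElement

/-- Let G be a finite solvable group and p a prime. Then G has a normal abelian Sylow p-subgroup if and only if no irreducible character degree of G is divisible by p. -/
theorem result {G : Type*} [Group G] [Finite G] (hsolv : Group.IsSolvable G) (p : ℕ) (hp : p.Prime) : (∃ P : Subgroup G, P.Normal ∧ (∀ x ∈ P, ∀ y ∈ P, x * y = y * x) ∧ IsPGroup p P ∧ ¬ p ∣ P.index) ↔ ∀ χ : Cfsg.IrrCharacter G, ¬ p ∣ Cfsg.charDegree (χ : G → ℂ) := by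
  have := Fact.mk hp
  have h := H9.pSolv_of_solvable (p := p) hsolv
  refine ⟨fun ⟨P, h1, h2, h3, h4⟩ => (ito_iff h (sylIn_of_not_dvd le_top h3 (by rwa [relIndex_top_right]))).1
    ⟨h1, ⟨⟨fun a b => Subtype.ext (h2 a a.2 b b.2)⟩⟩⟩, fun h1 => ?_⟩
  obtain ⟨P, hP⟩ := exists_sylIn p (⊤ : Subgroup G)
  obtain ⟨h2, h3⟩ := (ito_iff h hP).2 h1
  exact ⟨P, h2, fun a ha b hb => congrArg Subtype.val (mul_comm' (⟨a, ha⟩ : P) ⟨b, hb⟩), hP.pgrp,
    relIndex_top_right P ▸ hP.not_dvd_relIndex⟩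

end Cfsg.Agent.S4493
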