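import Cfsg.Statements.S4497
import Mathlib
import Cfsg.Agent.H7.K1

set_option autoImplicit false
open Cfsg

namespace Cfsg.Agent.S4497

/-- Let the finite group G contain an element x of prime order p with C_G(x) = ⟨x⟩, let t be the number of conjugacy classes of elements of order p, and let S* = O_{p′}(G) be the largest normal subgroup of order prime to p. Then S* ≤ G′; if t ≠ p − 1 the quotient G′/S* is simple (in particular non-trivial); if t = p − 1 then G′ = S*. -/
theorem result {G : Type*} [Group G] [Finite G] (p : ℕ) (hp : p.Prime) (x : G) (hx : orderOf x = p) (hC : Subgroup.centralizer ({x} : Set G) = Subgroup.zpowers x) (t : ℕ) (ht : Nat.card {C : ConjClasses G // ∃ g ∈ C.carrier, orderOf g = p} = t) : Cfsg.pPrimeCore p G ≤ commutator G ∧ (t ≠ p - 1 → ∀ h : ((Cfsg.pPrimeCore p G).subgroupOf (commutator G)).Normal, IsSimpleGroup (↥(commutator G) ⧸ (Cfsg.pPrimeCore p G).subgroupOf (commutator G))) ∧ (t = p - 1 → commutator G = Cfsg.pPrimeCore p G) := by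
  haveI := Fact.mk hp
  obtain ⟨K, h, hK⟩ := H7.exists_D1_one hx hC
  have h1 := h.card_classes
  have h2 := hp.two_le
  rw [ht] at h1
  have h0 := L.not_dvd_card_pPrimeCore (G := G) hp
  refine ⟨h.le_commutator hK h0, fun h3 _ => ?_, fun h3 => (h.e_one hK ?_).1⟩
  · have h4 := h.dvd_commutator fun e => h3 (by rw [← h1, e, mul_one])
    set S := (Cfsg.pPrimeCore p G).subgroupOf (commutator G) with hS
    haveI : Nontrivial (commutator G ⧸ S) := QuotientGroup.nontrivial_iff.2 fun e =>
      h0 (h4.trans (Subgroup.card_dvd_of_le (Subgroup.subgroupOf_eq_top.1 e)))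
    refine ⟨fun M hM => ?_⟩
    by_cases h5 : p ∣ Nat.card (M.comap (QuotientGroup.mk' S))
    · right
      have h6 := h.commutator_le' hK h5
      refine eq_top_iff.2 fun g _ => ?_
      obtain ⟨g, rfl⟩ := QuotientGroup.mk_surjective g
      obtain ⟨g', h7, h8⟩ := h6 g.2
      rwa [show g' = g from Subtype.ext h8] at h7
    · left
      have h6 : (M.comap (QuotientGroup.mk' S)).map (commutator G).subtype ≤ Cfsg.pPrimeCore p G :=
        L.le_pPrimeCore_of_isSubnormal hp
          (Subgroup.IsSubnormal.trans' (Subgroup.Normal.isSubnormal inferInstance)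
            (Subgroup.Normal.isSubnormal inferInstance))
          (by rw [Subgroup.card_map_of_injective (Subgroup.subtype_injective _)]
              exact ((Nat.Prime.coprime_iff_not_dvd hp).2 h5).symm)
      refine eq_bot_iff.2 fun g hg => ?_
      obtain ⟨g, rfl⟩ := QuotientGroup.mk_surjective g
      exact (QuotientGroup.eq_one_iff _).2 (h6 ⟨g, hg, rfl⟩)
  · rw [h3] at h1
    exact (Nat.mul_eq_left (by omega)).1 h1

end Cfsg.Agent.S4497
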