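import Cfsg.Statements.S4731
import Cfsg.Agent.B.Fong

set_option autoImplicit false
open Cfsg

namespace Cfsg.Agent.S4731

open Cfsg.Agent Cfsg.Agent.B Cfsg.Agent.H2 Cfsg.Agent.H3 Cfsg.Agent.L Subgroup MonoidAlgebra
open scoped Pointwise commutatorElement

/-- Let p ≠ q be primes, M_p and M_q maximal ideals of the algebraic integers containing p and q respectively, and G a finite group with no element of order pq; let q^b be the q-part of the order of G. For a p-block B_p (relative to M_p), a q-block B_q (relative to M_q) and a p-singular element y, the sum of χ(1)χ(y) over the irreducible characters χ lying in both B_p and B_q is q^b times an algebraic integer. -/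
theorem result {G : Type*} [Group G] [Finite G] (p q : ℕ) [Fact p.Prime] [Fact q.Prime] (hpq : p ≠ q) (Mp Mq : Ideal Cfsg.AlgInt) (hMp : Cfsg.IsPModular p Mp) (hMq : Cfsg.IsPModular q Mq) (hno : ∀ g : G, orderOf g ≠ p * q) (b : ℕ) (hb : (Nat.card G).factorization q = b) (Bp : Set (Cfsg.IrrCharacter G)) (hBp : Cfsg.IsPBlock Mp Bp) (Bq : Set (Cfsg.IrrCharacter G)) (hBq : Cfsg.IsPBlock Mq Bq) (y : G) (hy : p ∣ orderOf y) : ∃ ω : Cfsg.AlgInt, ∑ᶠ χ ∈ Bp ∩ Bq, (Cfsg.charDegree (χ : G → ℂ) : ℂ) * (χ : G → ℂ) y = (q : ℂ) ^ b * (ω : ℂ) := by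
  classical
  have : PMod p Mp := ⟨hMp⟩
  have : PMod q Mq := ⟨hMq⟩
  haveI : Fintype G := Fintype.ofFinite G
  let θ : G → ℂ := ∑ χ : IrrCharacter G, (if χ ∈ Bp then (χ : G → ℂ) y else 0) • (χ : G → ℂ)
  have hreg : ∀ g : G, q ∣ orderOf g → ¬ p ∣ orderOf g := by
    intro g h1 h2
    have h3 : p * q ∣ orderOf g :=
      Nat.Coprime.mul_dvd_of_dvd_of_dvd ((Nat.coprime_primes Fact.out Fact.out).2 hpq) h2 h1
    refine hno (g ^ (orderOf g / (p * q))) ?_
    rw [orderOf_pow_orderOf_div (orderOf_pos g).ne' h3]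
  have h1 : ∀ g, q ∣ orderOf g → θ g = 0 := by
    intro g hg
    rw [← (IsPBlock.closed hBp).weak_orth (hreg g hg) hy]
    simp only [θ, Finset.sum_apply, Pi.smul_apply, smul_eq_mul]
    refine Finset.sum_congr rfl fun χ _ => ?_
    split_ifs <;> ring
  have h2 : ∀ g, blockPart Bq θ g =
      ∑ χ : IrrCharacter G, if χ ∈ Bp ∩ Bq then (χ : G → ℂ) g * (χ : G → ℂ) y else 0 := by
    intro g
    rw [blockPart_eq]
    refine Finset.sum_congr rfl fun χ _ => ?_
    rw [classInner_sum_irr]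
    by_cases h : χ ∈ Bp <;> by_cases h' : χ ∈ Bq <;> simp [h, h', mul_comm]
  obtain ⟨Q⟩ : Nonempty (Sylow q G) := inferInstance
  haveI : Fintype (Q : Subgroup G) := Fintype.ofFinite _
  have h3 : ∑ x : (Q : Subgroup G), blockPart Bq θ x = blockPart Bq θ 1 := by
    refine Finset.sum_eq_single 1 (fun x _ hx => (IsPBlock.closed hBq).blockPart_sing h1 ?_) (by simp)
    exact (pElt_of_mem Q.isPGroup' x.2).dvd fun h => hx (Subtype.ext h)
  choose m hm using fun χ : IrrCharacter G =>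
    (χ.2.isCharacter.res (Q : Subgroup G)).exists_nat_inner isCharacter_one
  refine ⟨⟨∑ χ : IrrCharacter G, if χ ∈ Bp ∩ Bq then m χ * (χ : G → ℂ) y else 0,
    IsIntegral.sum _ fun χ _ => ?_⟩, ?_⟩
  · split_ifs
    · exact (isIntegral_nat _).mul (χ.2.isCharacter.isIntegral y)
    · exact isIntegral_zero
  rw [finsum_mem_eq_ite]
  simp only [IsIrrCharacter.cast_charDegree (Subtype.prop _)]
  have h4 : (Nat.card (Q : Subgroup G) : ℂ) = q ^ b := by
    rw [Q.card_eq_multiplicity, hb, Nat.cast_pow]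
  refine Eq.trans ?_ (?_ : ∑ x : (Q : Subgroup G), blockPart Bq θ x = _)
  · rw [h3, h2]
  · simp only [h2]
    rw [Finset.sum_comm, Finset.mul_sum]
    refine Finset.sum_congr rfl fun χ _ => ?_
    split_ifs
    · rw [← hm, ← h4, ← mul_assoc, card_mul_classInner, Finset.sum_mul]
      simp
    · simp

end Cfsg.Agent.S4731
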