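import Cfsg.Statements.S4498
import Cfsg.Agent.B.Fong
import Cfsg.Agent.S4731

set_option autoImplicit false
open Cfsg

namespace Cfsg.Agent.S4498

open Cfsg.Agent Cfsg.Agent.B Cfsg.Agent.H2 Cfsg.Agent.H3 Cfsg.Agent.L Subgroup MonoidAlgebra
open scoped Pointwise commutatorElement

/-- Let p and q be distinct primes dividing the order of the finite group G, and suppose G has no element of order p·q. Fix maximal ideals M_p over p and M_q over q of the algebraic integers. Then the principal p-block and the principal q-block of G have a non-principal irreducible character in common. -/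
theorem result {G : Type*} [Group G] [Finite G] (p q : ℕ) [Fact p.Prime] [Fact q.Prime] (hpq : p ≠ q) (hp : p ∣ Nat.card G) (hq : q ∣ Nat.card G) (hno : ∀ g : G, orderOf g ≠ p * q) (Mp Mq : Ideal Cfsg.AlgInt) (hMp : Cfsg.IsPModular p Mp) (hMq : Cfsg.IsPModular q Mq) : ∃ χ : Cfsg.IrrCharacter G, (χ : G → ℂ) ≠ (fun _ => 1) ∧ χ ∈ Cfsg.principalBlock Mp G ∧ χ ∈ Cfsg.principalBlock Mq G := by
  classical
  have : PMod p Mp := ⟨hMp⟩
  have : PMod q Mq := ⟨hMq⟩
  by_contra h
  push Not at h
  obtain ⟨y, hy⟩ := exists_prime_orderOf_dvd_card' p hp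
  obtain ⟨ω, hω⟩ := S4731.result p q hpq Mp Mq hMp hMq hno _ rfl _ isPBlock_principal _ isPBlock_principal y
    (hy ▸ dvd_rfl)
  have h1 : principalBlock Mp G ∩ principalBlock Mq G = {oneIrr G} := by
    ext χ
    refine ⟨fun hχ => ?_, ?_⟩
    · by_contra h2
      exact h χ (fun h3 => h2 (Subtype.ext h3)) hχ.1 hχ.2
    · rintro rfl
      exact ⟨oneIrr_mem, oneIrr_mem⟩
  rw [h1, finsum_mem_singleton, (oneIrr G).2.cast_charDegree] at hω
  change (1 : ℂ) * 1 = _ at hω
  have h2 := congrArg (red Mq) hω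
  rw [one_mul, red_one, red_mul (pow_mem (natCast_mem _ _) _) (algInt_mem_O _), red_pow (natCast_mem _ _), red_p,
    zero_pow, zero_mul] at h2
  · exact one_ne_zero h2
  · exact ((Fact.out : q.Prime).factorization_pos_of_dvd Nat.card_pos.ne' hq).ne'

end Cfsg.Agent.S4498
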