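import Cfsg.Statements.S4499
import Cfsg.Agent.B.Rank2

set_option autoImplicit false
open Cfsg

namespace Cfsg.Agent.S4499

open Cfsg.Agent Cfsg.Agent.B Cfsg.Agent.H2 Cfsg.Agent.H3 Cfsg.Agent.L Subgroup MonoidAlgebra
open scoped Pointwise commutatorElement

/-- Let G be a finite group whose order has p-part p^a (a ≥ 1), and fix a maximal ideal M of the algebraic integers containing p. If the degree of one irreducible character of a p-block B is divisible by p^(a−1), then the degree of every irreducible character in B is divisible by p^(a−1) (so B has defect at most 1). -/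
theorem result {G : Type*} [Group G] [Finite G] (p : ℕ) [Fact p.Prime] (M : Ideal Cfsg.AlgInt) (hM : Cfsg.IsPModular p M) (hpa : p ∣ Nat.card G) (B : Set (Cfsg.IrrCharacter G)) (hB : Cfsg.IsPBlock M B) (χ : Cfsg.IrrCharacter G) (hχ : χ ∈ B) (hdiv : p ^ ((Nat.card G).factorization p - 1) ∣ Cfsg.charDegree (χ : G → ℂ)) (ψ : Cfsg.IrrCharacter G) (hψ : ψ ∈ B) : p ^ ((Nat.card G).factorization p - 1) ∣ Cfsg.charDegree (ψ : G → ℂ) := by
  have : PMod p M := ⟨hM⟩
  have h1 := (Nat.Prime.pow_dvd_iff_le_factorization Fact.out χ.2.charDegree_pos.ne').1 hdiv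
  have h2 := nu_add_blockDefect (p := p) hχ
  have h3 := le_nu_add (p := p) hψ
  refine (Nat.Prime.pow_dvd_iff_le_factorization Fact.out ψ.2.charDegree_pos.ne').2 ?_
  by_cases h : blockHeight p B (χ : G → ℂ) = 0
  · simp only [nu] at *; omega
  · have := (hB.height_pos hχ h).1
    simp only [nu] at *; omega

end Cfsg.Agent.S4499
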