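import Cfsg.Statements.S4503
import Mathlib
import Cfsg.Agent.H7.Fe5

set_option autoImplicit false
open Cfsg

namespace Cfsg.Agent.S4503

open Cfsg.Agent.H7 Cfsg.Agent.H3 Subgroup

/-- Let G be a finite group whose order is divisible by the prime p exactly once and which has no normal subgroup of order p. Then every faithful character χ of G has degree at least (p − 1)/2: 2·χ(1) + 1 ≥ p. -/
theorem result {G : Type*} [Group G] [Finite G] (p : ℕ) (hp : p.Prime) (hdiv : p ∣ Nat.card G) (hsq : ¬ p ^ 2 ∣ Nat.card G) (hnn : ∀ H : Subgroup G, H.Normal → Nat.card H ≠ p) (χ : G → ℂ) (hχ : Cfsg.IsCharacter G χ) (hfaith : ∀ g : G, χ g = χ 1 → g = 1) : p ≤ 2 * Cfsg.charDegree χ + 1 := by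
  have := Fact.mk hp
  obtain ⟨x, K, h⟩ := exists_D1_of_dvd hdiv hsq
  have hx : χ x ≠ χ 1 := fun e => hp.one_lt.ne' (by rw [← h.ord, hfaith x e, orderOf_one])
  obtain ⟨j, h1, h2⟩ := h.exists_mult hχ hx
  have := Fintype.ofFinite K
  have h3 := card_Eg_pos h
  have h4 : Nat.card (Eg h) ≤ charDegree χ :=
    (Nat.le_mul_of_pos_right _ (Nat.pos_of_ne_zero h1)).trans ((Nat.le_add_left _ _).trans (h2 j))
  by_contra e
  rcases h.of_char (by omega) hnn hχ hfaith (by omega) with h5 | ⟨h5, -⟩ <;> omega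

end Cfsg.Agent.S4503
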