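import Cfsg.Statements.S4504
import Mathlib
import Cfsg.Agent.H7.Fe5

set_option autoImplicit false
open Cfsg

namespace Cfsg.Agent.S4504

open Cfsg.Agent.H7 Cfsg.Agent.H3 Subgroup

/-- Let G be a finite group whose order is divisible by the prime p exactly once and which has no normal subgroup of order p. If G has a faithful character of degree exactly (p − 1)/2, then G modulo its centre is isomorphic to PSL(2, p). -/
theorem result {G : Type*} [Group G] [Finite G] (p : ℕ) (hp : p.Prime) (hdiv : p ∣ Nat.card G) (hsq : ¬ p ^ 2 ∣ Nat.card G) (hnn : ∀ H : Subgroup G, H.Normal → Nat.card H ≠ p) (χ : G → ℂ) (hχ : Cfsg.IsCharacter G χ) (hfaith : ∀ g : G, χ g = χ 1 → g = 1) (hdeg : 2 * Cfsg.charDegree χ + 1 = p) : Nonempty ((G ⧸ Subgroup.center G) ≃* Matrix.ProjectiveSpecialLinearGroup (Fin 2) (ZMod p)) := by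
  have := Fact.mk hp
  obtain ⟨x, K, h⟩ := exists_D1_of_dvd hdiv hsq
  have hx1 : x ≠ 1 := fun e => hp.one_lt.ne' (by rw [← h.ord, e, orderOf_one])
  have hx : χ x ≠ χ 1 := fun e => hx1 (hfaith x e)
  obtain ⟨j, h1, h2⟩ := h.exists_mult hχ hx
  have := Fintype.ofFinite K
  have h3 := card_Eg_pos h
  have h4 : Nat.card (Eg h) ≤ charDegree χ :=
    (Nat.le_mul_of_pos_right _ (Nat.pos_of_ne_zero h1)).trans ((Nat.le_add_left _ _).trans (h2 j))
  have lin : ∀ {H : Type _} [Group H] {φ : H → ℂ}, IsCharacter H φ → charDegree φ ≤ 1 → ∀ a b : H,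
      φ (a * b * a⁻¹ * b⁻¹) = φ 1 := fun {H} _ φ hφ hd a b => by
    have h3 := hφ.cast_charDegree
    obtain h0 | h0 : charDegree φ = 0 ∨ charDegree φ = 1 := by omega
    · rw [h0, Nat.cast_zero] at h3
      rw [hφ.eq_zero_of_apply_one h3.symm]; simp
    · rw [h0, Nat.cast_one] at h3
      obtain ⟨lam, rfl⟩ := hφ.exists_linear h3.symm
      simp
  have hp3 : 3 < p := by
    by_contra e
    refine hnn (zpowers x) ⟨fun n hn g => ?_⟩ (by rw [Nat.card_zpowers, h.ord])
    have := hfaith _ (lin hχ (by omega) g n)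
    rwa [mul_inv_eq_one.1 this]
  rcases h.of_char hp3 hnn hχ hfaith (by omega) with h5 | ⟨h5, _, h6, ⟨e⟩⟩
  · omega
  have h7 : ∀ i : ZMod p, charDegree (iso K x χ i) ≤ 1 := fun i => by
    have h7 : charDegree χ = Nat.card (Eg h) := by omega
    by_cases hi : i = 0
    · have := h2 j
      have := Nat.le_mul_of_pos_right (Nat.card (Eg h)) (Nat.pos_of_ne_zero h1)
      subst hi; omega
    · have := h2 (Units.mk0 i hi)
      rw [h7, Units.val_mk0] at this
      exact Nat.le_of_mul_le_mul_left (by omega) h3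
  have h8 : K ≤ centralizer (K : Set G) := fun b hb a ha => by
    have h8 : ∀ y : K, χ y = ∑ i : ZMod p, iso K x χ i y := fun y => by
      simpa [xp_zero, iso] using four_inv (fun a : ZMod p => χ (xp x a * y)) 0
    have := h8 (⟨a, ha⟩ * ⟨b, hb⟩ * ⟨a, ha⟩⁻¹ * ⟨b, hb⟩⁻¹)
    simp only [lin (h.isCharacter_iso hχ _) (h7 _), ← h8] at this
    exact commutatorElement_eq_one_iff_mul_comm.1 (hfaith _ this)
  have h9 : center G = K := by
    refine le_antisymm (fun z hz => (h.mem z).2 ⟨mem_center_iff.1 hz x, fun hd => ?_⟩) fun y hy => ?_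
    · have h9 := h.mem_of_normal (hd.trans (orderOf_dvd_natCard _ hz))
      exact hnn (zpowers x) ⟨fun n hn g => by
        rwa [mem_center_iff.1 (zpowers_le.2 h9 hn) g, mul_inv_cancel_right]⟩ (by rw [Nat.card_zpowers, h.ord])
    · have := h6 (centralizer K) inferInstance fun y hy => (h.comm hy).symm
      rw [sup_eq_left.2 h8] at this
      exact mem_center_iff.2 fun g => (this.ge (mem_top g) y hy).symm
  exact ⟨(QuotientGroup.quotientMulEquivOfEq h9).trans e⟩

end Cfsg.Agent.S4504
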