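import Cfsg.Statements.S4506
import Mathlib
import Cfsg.Agent.B.Prin
import Cfsg.Agent.B.Rank
import Cfsg.Agent.H3.Galois

set_option autoImplicit false
open Cfsg

namespace Cfsg.Agent.S4506

open Cfsg.Agent.H3 Cfsg.Agent.B Finset

/-- Let G be a finite group, p a prime, p^a the p-part of the order of G and g′ its p′-part. Call two irreducible characters p-conjugate when one is obtained from the other by applying a field automorphism of ℂ that fixes the g′-th roots of unity, and let r be the number of characters p-conjugate to the irreducible character χ (χ included). Then the exponent of p in r·χ(1) is at most a; and if p^a divides r·χ(1) then p^a already divides χ(1). -/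
theorem result {G : Type*} [Group G] [Finite G] (p : ℕ) (hp : p.Prime) (χ : Cfsg.IrrCharacter G) (r : ℕ) (hr : Nat.card {ψ : Cfsg.IrrCharacter G // ∃ σ : ℂ ≃+* ℂ, σ (Complex.exp (2 * Real.pi * Complex.I / ((Nat.card G / p ^ (Nat.card G).factorization p) : ℕ))) = Complex.exp (2 * Real.pi * Complex.I / ((Nat.card G / p ^ (Nat.card G).factorization p) : ℕ)) ∧ (ψ : G → ℂ) = fun g => σ ((χ : G → ℂ) g)} = r) : (r * Cfsg.charDegree (χ : G → ℂ)).factorization p ≤ (Nat.card G).factorization p ∧ (p ^ (Nat.card G).factorization p ∣ r * Cfsg.charDegree (χ : G → ℂ) → p ^ (Nat.card G).factorization p ∣ Cfsg.charDegree (χ : G → ℂ)) := by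
  classical
  haveI := Fact.mk hp
  haveI := Fintype.ofFinite G
  have hχ := χ.2
  set a := (Nat.card G).factorization p with ha
  have hθ := isGen_smul_reg (c := p ^ a) dvd_rfl hχ.isCharacter.isGen
  obtain ⟨c, c1, c2⟩ := hθ.exists_int_coeffs
  have c3 := hθ.inner_self_eq_sum_sq c c1
  rw [Nat.card_eq_fintype_card, Fintype.card_subtype] at hr
  obtain ⟨T, hT0, hr⟩ : ∃ T : Finset (IrrCharacter G), T = _ ∧ #T = r := ⟨_, rfl, hr⟩
  have hT : ∀ ψ ∈ T, ∃ σ : ℂ ≃+* ℂ, (∀ g : G, ¬ p ∣ orderOf g → σ (χ.1 g) = χ.1 g) ∧ ψ.1 = fun g => σ (χ.1 g) :=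
    fun ψ hψ => by
      obtain ⟨σ, s1, s2⟩ := (mem_filter.1 (hT0.le hψ)).2
      refine ⟨σ, fun g hg => ?_, s2⟩
      have h0 : Nat.card G / p ^ a ≠ 0 := (Nat.ordCompl_pos p Nat.card_pos.ne').ne'
      simpa using hχ.isCharacter.map_apply_eq_pow (σ : ℂ →+* ℂ) g 1 fun ε hε => by
        haveI := NeZero.mk h0
        obtain ⟨i, -, rfl⟩ := (Complex.isPrimitiveRoot_exp _ h0).eq_pow_of_pow_eq_one (pow_eq_one_of_dvd' hε
          ((hp.coprime_iff_not_dvd.2 hg).symm.pow_right a |>.dvd_of_dvd_mul_left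
            ((Nat.ordProj_mul_ordCompl_eq_self _ p).symm ▸ orderOf_dvd_natCard g)))
        rw [map_pow, pow_one]
        exact congrArg (· ^ i) s1
  have e1 : ∀ φ : G → ℂ, (∀ g, ¬ p ∣ orderOf g → φ g = χ.1 g) → classInner (reg p χ.1) φ = classInner (reg p χ.1) χ.1 :=
    fun φ h => by
      simp only [classInner_def]
      congr 1
      refine sum_congr rfl fun g _ => ?_
      by_cases e : p ∣ orderOf g
      · simp [reg, e]
      · rw [h g e]
  have e2 : ∀ ψ ∈ T, c ψ = c χ := fun ψ hψ => by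
    obtain ⟨σ, s1, s2⟩ := hT ψ hψ
    refine Int.cast_injective (α := ℂ) ?_
    rw [← c1, ← c1, classInner_smul_left, classInner_smul_left, e1 _ fun g hg => by rw [s2]; exact s1 g hg]
  have e3 : ∑ ψ, c ψ ^ 2 = p ^ a * c χ := by
    refine Int.cast_injective (α := ℂ) ?_
    rw [← c3, classInner_smul_right, classInner_smul_left, e1 _ fun g hg => by simp [reg, hg], ← classInner_smul_left, c1]
    simp
  have m0 : 0 < c χ := by
    refine (mul_pos_iff_of_pos_left (a := (p : ℤ) ^ a) (pow_pos (Nat.cast_pos.2 hp.pos) a)).1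
      (e3 ▸ lt_of_le_of_ne (sum_nonneg fun _ _ => sq_nonneg _) fun e => ?_)
    rw [← e, Int.cast_zero, classInner_self_eq_zero] at c3
    simpa [reg, hp.ne_one, hp.ne_zero, hχ.apply_one_ne_zero] using congrFun c3 1
  have e4 : ∑ ψ ∈ T, c ψ ^ 2 = r * c χ * c χ := by
    rw [sum_congr rfl fun ψ hψ => by rw [e2 ψ hψ], sum_const, hr, nsmul_eq_mul, sq, mul_assoc]
  have e5 := sum_add_sum_compl T fun ψ => c ψ ^ 2
  have e6 : 0 ≤ ∑ ψ ∈ Tᶜ, c ψ ^ 2 := sum_nonneg fun _ _ => sq_nonneg _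
  have e7 : r * c χ ≤ p ^ a := le_of_mul_le_mul_right (by omega) m0
  have r0 : r ≠ 0 := hr ▸ card_ne_zero.2 ⟨χ, hT0.ge (mem_filter.2 ⟨mem_univ _, RingEquiv.refl _, rfl, rfl⟩)⟩
  have d0 : charDegree χ.1 ≠ 0 := fun e => hχ.apply_one_ne_zero (by rw [← hχ.cast_charDegree, e, Nat.cast_zero])
  have v1 : (charDegree χ.1).factorization p ≤ a :=
    (Nat.factorization_le_iff_dvd d0 Nat.card_pos.ne').2 hχ.degree_dvd_card p
  obtain ⟨M, hM⟩ := exists_pMod p
  obtain ⟨n, hn⟩ := exists_int_reg' (M := M) hχ.isCharacter.isGen χ (k := a - (charDegree χ.1).factorization p)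
    (Nat.add_sub_cancel' v1).ge
  have e8 : (p : ℤ) ^ (charDegree χ.1).factorization p ≤ c χ := Int.le_of_dvd m0 ⟨n, Int.cast_injective (α := ℂ) (by
    rw [← c1, classInner_smul_left]
    push_cast
    rw [← hn, ← mul_assoc, ← pow_add, Nat.add_sub_cancel' v1])⟩
  have e9 : (p : ℤ) ^ (r * charDegree χ.1).factorization p ≤ r * c χ := by
    rw [Nat.factorization_mul r0 d0, Finsupp.add_apply, pow_add]
    exact mul_le_mul (by exact_mod_cast Nat.ordProj_le p r0) e8 (by positivity) (by positivity)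
  have p1 : (1 : ℤ) < p := by exact_mod_cast hp.one_lt
  refine ⟨(pow_le_pow_iff_right₀ p1).1 (e9.trans e7), fun h => ?_⟩
  have f1 : r * c χ = p ^ a := le_antisymm e7 ((pow_le_pow_right₀ p1.le
    ((hp.pow_dvd_iff_le_factorization (mul_ne_zero r0 d0)).1 h)).trans e9)
  have f2 : ∀ ψ ∈ Tᶜ, c ψ = 0 := fun ψ hψ => pow_eq_zero_iff two_ne_zero |>.1
    ((sum_eq_zero_iff_of_nonneg fun _ _ => sq_nonneg _).1 (by rw [f1] at e4; omega) ψ hψ)
  obtain ⟨P⟩ := (inferInstance : Nonempty (Sylow p G))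
  haveI := Fintype.ofFinite (P : Subgroup G)
  obtain ⟨k, hk⟩ := (hχ.isCharacter.res (P : Subgroup G)).exists_nat_inner isIrrCharacter_one.isCharacter
  have f3 : (fun x : (P : Subgroup G) => (((p ^ a : ℕ) : ℂ) • reg p χ.1) x) =
      ∑ ψ ∈ T, (c χ : ℂ) • fun x : (P : Subgroup G) => ψ.1 x := by
    funext x
    rw [c2, ← sum_add_sum_compl T, sum_eq_zero (s := Tᶜ) fun ψ hψ => by rw [f2 ψ hψ, Int.cast_zero, zero_smul], add_zero,
      sum_congr rfl fun ψ hψ => by rw [e2 ψ hψ]]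
    simp
  have f4 := congrArg (classInner · fun _ => 1) f3
  simp only [classInner_sum_left, classInner_smul_left] at f4
  rw [sum_congr rfl (g := fun _ => (c χ : ℂ) * k) fun ψ hψ => by
    obtain ⟨σ, -, s2⟩ := hT ψ hψ
    have := classInner_galois (fun x : (P : Subgroup G) => χ.1 x) isIrrCharacter_one.isCharacter.isGen (σ : ℂ →+* ℂ)
    simp only [map_one, hk, map_natCast] at this
    rw [s2, ← this]; rfl, sum_const, hr, nsmul_eq_mul, ← mul_assoc, classInner_def, sum_eq_single 1 (fun x _ x1 => ?_)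
      (by simp), P.card_eq_multiplicity, ← ha, show (r : ℂ) * c χ = (p ^ a : ℕ) by exact_mod_cast f1] at f4
  · refine ⟨k, Nat.cast_injective (R := ℂ) ?_⟩
    rw [hχ.cast_charDegree, Nat.cast_mul, ← f4]
    simp [reg, hp.ne_one, hp.ne_zero]
  · obtain ⟨j, hj⟩ := (IsPGroup.iff_orderOf.1 P.2) x
    have : p ∣ orderOf (x : G) := by
      rw [Subgroup.orderOf_coe, hj]
      exact dvd_pow_self p fun e => x1 (orderOf_eq_one_iff.1 (by rw [hj, e, pow_zero]))
    rw [Pi.smul_apply, reg, if_pos this, smul_zero, zero_mul]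

end Cfsg.Agent.S4506
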