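import Cfsg.Statements.S4507
import Cfsg.Agent.B.Cyc5

set_option autoImplicit false
open Cfsg

namespace Cfsg.Agent.S4507

open Cfsg.Agent Cfsg.Agent.B Cfsg.Agent.H2 Cfsg.Agent.H3 Cfsg.Agent.L Subgroup MonoidAlgebra
open scoped Pointwise commutatorElement

/-- Let G be a finite group whose order g is divisible by the prime p exactly once, g′ = g/p, and fix a maximal ideal M of the algebraic integers containing p. Call two irreducible characters p-conjugate when a field automorphism of ℂ fixing the g′-th roots of unity carries one to the other. Let B be a p-block of positive defect (its defect group is a Sylow p-subgroup). Then B contains a subset Y (the exceptional family) such that: Y is a full p-conjugacy class (its members are pairwise p-conjugate and every p-conjugate of a member of Y lies in Y); every member of B outside Y is p-conjugate only to itself; the size t of Y divides p − 1 and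 B has exactly t + (p − 1)/t members; and there are signs δ_χ = ±1 (χ ∈ B) such that for every p-regular element x and every θ ∈ Y, Σ_{χ ∈ B ∖ Y} δ_χ χ(x) + δ_θ θ(x) = 0. -/
theorem result {G : Type*} [Group G] [Finite G] (p : ℕ) [Fact p.Prime] (M : Ideal Cfsg.AlgInt) (hM : Cfsg.IsPModular p M) (hdiv : p ∣ Nat.card G) (hsq : ¬ p ^ 2 ∣ Nat.card G) (B : Set (Cfsg.IrrCharacter G)) (hB : Cfsg.IsPBlock M B) (hd : 0 < Cfsg.blockDefect p B) : ∃ Y : Set (Cfsg.IrrCharacter G), Y ⊆ B ∧ Y.Nonempty ∧ (∀ θ ∈ Y, ∀ ψ : Cfsg.IrrCharacter G, (∃ σ : ℂ ≃+* ℂ, σ (Complex.exp (2 * Real.pi * Complex.I / ((Nat.card G / p ^ (Nat.card G).factorization p) : ℕ))) = Complex.exp (2 * Real.pi * Complex.I / ((Nat.card G / p ^ (Nat.card G).factorization p) : ℕ)) ∧ (ψ : G → ℂ) = fun g => σ ((θ : G → ℂ) g)) ↔ ψ ∈ Y) ∧ (∀ χ ∈ B, χ ∉ Y → ∀ ψ : Cfsg.IrrCharacter G, (∃ σ : ℂ ≃+* ℂ, σ (Complex.exp (2 * Real.pi * Complex.I / ((Nat.card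 G / p ^ (Nat.card G).factorization p) : ℕ))) = Complex.exp (2 * Real.pi * Complex.I / ((Nat.card G / p ^ (Nat.card G).factorization p) : ℕ)) ∧ (ψ : G → ℂ) = fun g => σ ((χ : G → ℂ) g)) → ψ = χ) ∧ Nat.card Y ∣ p - 1 ∧ Nat.card B = Nat.card Y + (p - 1) / Nat.card Y ∧ ∃ δ : Cfsg.IrrCharacter G → ℤ, (∀ χ ∈ B, δ χ = 1 ∨ δ χ = -1) ∧ ∀ x : G, ¬ p ∣ orderOf x → ∀ θ ∈ Y, (∑ᶠ χ ∈ B \ Y, (δ χ : ℂ) * (χ : G → ℂ) x) + (δ θ : ℂ) * (θ : G → ℂ) x = 0 := by
  have : PMod p M := ⟨hM⟩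
  classical
  have := Fintype.ofFinite G
  have hp : p.Prime := Fact.out
  obtain ⟨D, hD⟩ := hB.exists_defectGroup
  have h1 := hD.card_eq_pow hB.closed
  have h2 : blockDefect p B = 1 := le_antisymm (le_of_not_gt fun h => hsq ((pow_dvd_pow p h).trans
    (h1 ▸ card_subgroup_dvd_card D))) hd
  rw [h2, pow_one] at h1
  obtain ⟨⟨z, hz'⟩, hz⟩ := exists_prime_orderOf_dvd_card' (G := D) p h1.symm.dvd
  rw [← orderOf_coe] at hz
  obtain rfl : D = zpowers z := (eq_of_le_of_card_ge (zpowers_le.2 hz') (by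
    rw [Nat.card_zpowers, h1]; exact hz.ge)).symm
  obtain ⟨e, he⟩ := (hB.isDefectGroup_iff_top.1 hD).exists_mp hB.isBI_top
  obtain ⟨g, h⟩ := he.exists_CS hB inferInstance hz' hz
  generalize relIndex (G := G) _ _ = ε at h
  obtain ⟨θ, hθ, h3⟩ := h.exists_canonical
  have h4 := (h3 θ hθ).2 rfl
  obtain ⟨X, y, δ, δ₀, h5⟩ := h.exists_EX hθ fun n hn => ((h.fixed_iff hθ h4).1 hn).2
  have h6 := h5.cardY
  have h7 : B \ y '' (sb p (zpowers z) e z \ {θ}) = X := by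
    rw [h5.eq_union, Set.union_sdiff_right, h5.disj.sdiff_eq_left]
  rw [h1] at h6
  have h8 : p - 1 = Nat.card (y '' (sb p (zpowers z) e z \ {θ})) * ε := by rw [mul_comm]; omega
  obtain ⟨ξ₀, hξ₀⟩ := h5.exists_memY
  simp only [← fixR_iff (Nat.card_pos (α := G)).ne']
  refine ⟨y '' (sb p (zpowers z) e z \ {θ}), ?_, ⟨_, ξ₀, hξ₀, rfl⟩, ?_, fun χ h9 h10 ψ ⟨σ, h11, h12⟩ => ?_, ⟨_, h8⟩, ?_,
    fun χ => if χ ∈ X then δ χ else δ₀, fun χ _ => ?_, ?_⟩
  · rintro _ ⟨ξ, hξ, rfl⟩; exact h5.memY hξ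
  · rintro _ ⟨ξ, hξ, rfl⟩ ψ
    refine ⟨fun ⟨σ, h9, h10⟩ => ?_, ?_⟩
    · have h11 := h.gal_canonical hθ h4 h9
      exact ⟨_, h5.gal_mem h9 h11 hξ, (h5.gal_Y h9 h11 hξ).symm.trans (Subtype.ext h10.symm)⟩
    · rintro ⟨ξ', hξ', rfl⟩
      obtain ⟨σ, h9, rfl⟩ := h.exists_gal hsq hθ h4 hξ hξ'
      exact ⟨σ, h9, congrArg Subtype.val (h5.gal_Y h9 (h.gal_canonical hθ h4 h9) hξ).symm⟩
  · exact (Subtype.ext h12).trans (h5.gal_X h11 (h.gal_canonical hθ h4 h11) (Finset.mem_coe.1 (h7 ▸ ⟨h9, h10⟩)))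
  · have : Nonempty (y '' (sb p (zpowers z) e z \ {θ})) := ⟨⟨_, ξ₀, hξ₀, rfl⟩⟩
    rw [h8, Nat.mul_div_cancel_left _ Nat.card_pos, h5.cardB, add_comm]
  · beta_reduce
    split_ifs with h
    exacts [h5.sgn χ h, h5.sgn₀]
  · rintro x hx _ ⟨ξ, hξ, rfl⟩
    beta_reduce
    rw [h7, finsum_mem_coe_finset, if_neg (h5.notMem ξ hξ), add_comm, ← h5.rel hξ hx]
    exact congrArg _ (Finset.sum_congr rfl fun χ hχ => by rw [if_pos hχ])

end Cfsg.Agent.S4507
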