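import Cfsg.Statements.S4508
import Mathlib
import Cfsg.Agent.H7.K1

set_option autoImplicit false
open Cfsg

namespace Cfsg.Agent.S4508

open H3 H7

/-- Let the finite group G contain an element x of prime order p with C_G(x) = ⟨x⟩, and let t be the number of conjugacy classes of elements of order p. If G has an irreducible character of degree p − 1, then t is even or the commutator subgroup has even index. -/
theorem result {G : Type*} [Group G] [Finite G] (p : ℕ) (hp : p.Prime) (x : G) (hx : orderOf x = p) (hC : Subgroup.centralizer ({x} : Set G) = Subgroup.zpowers x) (t : ℕ) (ht : Nat.card {C : ConjClasses G // ∃ g ∈ C.carrier, orderOf g = p} = t) (χ : Cfsg.IrrCharacter G) (hχ : Cfsg.charDegree (χ : G → ℂ) + 1 = p) : Even t ∨ Even (commutator G).index := by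
  classical
  haveI := Fact.mk hp
  letI := Fintype.ofFinite G
  obtain ⟨K, h, hK⟩ := H7.exists_D1_one hx hC
  letI := Fintype.ofFinite K
  have h1 := h.card_classes
  have h2 := hp.two_le
  rw [ht] at h1
  by_contra hn
  rw [not_or, Nat.not_even_iff_odd, Nat.not_even_iff_odd] at hn
  have he : Nat.card (Eg h) ≠ 1 := fun e => by
    rw [(h.e_one hK e).2.1] at hn
    rw [e] at h1
    obtain ⟨⟨a, ha⟩, b, hb⟩ := hn
    omega
  have hp2 : Odd p := hp.odd_of_ne_two fun e => he (by
    exact Nat.eq_one_of_mul_eq_one_left (h1.trans (by omega)))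
  have hpos := card_Eg_pos h
  obtain ⟨k, hk⟩ : 2 ∣ Nat.card (Eg h) := by
    have : Even (t * Nat.card (Eg h)) := by obtain ⟨b, hb⟩ := hp2; exact ⟨b, by omega⟩
    exact ((Nat.even_mul.1 this).resolve_left (Nat.not_even_iff_odd.2 hn.1)).two_dvd
  obtain ⟨X, Y, δ, ε, hB⟩ := h.exists_br
  have hd : (χ : G → ℂ) 1 = p - 1 := by
    rw [← χ.2.cast_charDegree, ← hχ]; simp
  have hle := Nat.le_of_dvd (by omega) (card_Eg_dvd h)
  have hv : ∀ a : (ZMod p)ˣ, (χ : G → ℂ) (xp x (a : ZMod p)) = -1 := by
    intro a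
    by_cases hX : χ ∈ X
    · obtain ⟨m, hm⟩ := hB.deg_X hX
      have h3 := hB.valX χ hX a 1 K.one_mem
      rw [mul_one] at h3
      rcases hB.sign χ hX with e | e
      · exfalso
        have h4 : (p : ℤ) ∣ 2 := ⟨1 - m, by rw [e] at hm; linarith [congrArg (Nat.cast (R := ℤ)) hχ]⟩
        have := Nat.le_of_dvd two_pos (Int.natCast_dvd_natCast.1 h4)
        obtain ⟨b, hb⟩ := hp2; omega
      · rw [h3, e]; simp
    by_cases hY : χ ∈ Y
    · obtain ⟨m, hm⟩ := hB.deg_Y hY
      obtain ⟨j, hj⟩ := hB.valY χ hY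
      have h3 := hj a 1 K.one_mem
      rw [mul_one] at h3
      rcases hB.eps with e | e
      · have h4 : (p : ℤ) ∣ (Nat.card (Eg h) + 1 : ℕ) :=
          ⟨1 - m, by rw [e] at hm; push_cast; linarith [congrArg (Nat.cast (R := ℤ)) hχ]⟩
        have := Nat.le_of_dvd (by omega) (Int.natCast_dvd_natCast.1 h4)
        rw [h3, e, eta_top h (Subgroup.eq_top_of_le_card _ (by
          rw [Nat.card_eq_fintype_card (α := (ZMod p)ˣ), ZMod.card_units]; omega))]
        simp
      · exfalso
        have h4 : (p : ℤ) ∣ (Nat.card (Eg h) - 1 : ℕ) :=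
          ⟨m - 1, by
            rw [e] at hm; rw [Nat.cast_sub (card_Eg_pos h)]; push_cast
            linarith [congrArg (Nat.cast (R := ℤ)) hχ]⟩
        have := card_Eg_pos h
        have := Nat.le_of_dvd (by omega) (Int.natCast_dvd_natCast.1 h4)
        omega
    · exfalso
      have h3 := card_dvd_of_vanish χ.2.isGen (Subgroup.zpowers x) (n := charDegree (χ : G → ℂ))
        (fun v hv hv1 => by
          obtain ⟨b, rfl⟩ := h.exists_unit hv hv1
          exact (cz_eq hK _ _).symm.trans (hB.out χ hX hY b)) (by rw [← χ.2.cast_charDegree]; simp)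
      rw [Nat.card_zpowers, hx] at h3
      have := Nat.le_of_dvd (by omega) (Int.natCast_dvd_natCast.1 h3)
      omega
  obtain ⟨y, hy, hy', -⟩ := h.exists_gen' hK (by omega)
  have h3 := detChar_of_vanish χ.2.isCharacter (y := y) (k := k) (t := t) (by rw [hy', hk])
    (by rw [hd, ← hk, ← Nat.cast_mul, h1, Nat.cast_sub hp.one_le, Nat.cast_one]) fun g hg hg1 => by
      refine h.vanish hK χ.2.isCharacter ?_ (Subgroup.zpowers_le.2 hy hg) fun hg2 => ?_
      · rw [sum_units, xp_zero, hd]
        simp only [hv, Finset.sum_const, Finset.card_univ, nsmul_eq_mul, card_units_cast]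
        ring
      · have h4 := orderOf_dvd_of_mem_zpowers hg
        rw [← Nat.card_zpowers, eq_zpowers_of_card_prime hp (by rw [Nat.card_zpowers, hx]) hg2 hg1,
          Nat.card_zpowers, hx, hy'] at h4
        have := Nat.le_of_dvd (by omega) h4
        omega
  obtain ⟨lam, hl⟩ := χ.2.isCharacter.exists_det
  have h4 := congrArg (fun f : G →* ℂˣ => (f y : ℂ)) (linear_pow_index (N := commutator G)
    (Abelianization.commutator_subset_ker lam))
  rw [hl] at h3
  simp only [MonoidHom.pow_apply, Units.val_pow_eq_pow_val, h3, hn.1.neg_one_pow, hn.2.neg_one_pow,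
    MonoidHom.one_apply, Units.val_one] at h4
  norm_num at h4

end Cfsg.Agent.S4508
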