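import Cfsg.Statements.S4509
import Mathlib
import Cfsg.Agent.H7.K1

set_option autoImplicit false
open Cfsg

namespace Cfsg.Agent.S4509

open H7

/-- Let the finite group G contain an element x of prime order p with C_G(x) = ⟨x⟩; let t be the number of conjugacy classes of elements of order p and 1 + n·p the number of subgroups of order p. Then G has a normal subgroup of order 1 + n·p if and only if either t = p − 1, or t < p − 1 and G″ ≠ G′. Moreover, if t = p − 1 then G′ has order 1 + n·p and G/G′ is cyclic of order p; and if t < p − 1 and G″ ≠ G′ then G″ has order 1 + n·p and G′ has order p·(1 + n·p). -/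
theorem result {G : Type*} [Group G] [Finite G] (p : ℕ) (hp : p.Prime) (x : G) (hx : orderOf x = p) (hC : Subgroup.centralizer ({x} : Set G) = Subgroup.zpowers x) (t : ℕ) (ht : Nat.card {C : ConjClasses G // ∃ g ∈ C.carrier, orderOf g = p} = t) (n : ℕ) (hn : Nat.card {H : Subgroup G // Nat.card H = p} = 1 + n * p) : ((∃ S : Subgroup G, S.Normal ∧ Nat.card S = 1 + n * p) ↔ (t = p - 1 ∨ (t < p - 1 ∧ derivedSeries G 2 ≠ derivedSeries G 1))) ∧ (t = p - 1 → Nat.card (commutator G) = 1 + n * p ∧ IsCyclic (G ⧸ commutator G) ∧ (commutator G).index = p) ∧ (t < p - 1 → derivedSeries G 2 ≠ derivedSeries G 1 → Nat.card (derivedSeries G 2) = 1 + n * p ∧ Nat.card (commutator G) = p * (1 + n * p)) := by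
  haveI := Fact.mk hp
  obtain ⟨K, h, hK⟩ := H7.exists_D1_one hx hC
  letI := Fintype.ofFinite K
  have h1 := h.card_classes
  have h2 := hp.two_le
  rw [ht] at h1
  rw [h.card_subgroups] at hn
  have hA : t = p - 1 → Nat.card (commutator G) = 1 + n * p ∧ IsCyclic (G ⧸ commutator G) ∧
      (commutator G).index = p := fun h3 => by
    rw [h3] at h1
    obtain ⟨-, h4, h5⟩ := h.e_one hK ((Nat.mul_eq_left (by omega)).1 h1)
    exact ⟨h5.trans hn, isCyclic_of_prime_card (p := p) h4, h4⟩
  have hd : derivedSeries G 2 = (commutator (commutator G)).map (commutator G).subtype := by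
    rw [Subgroup.map_subtype_commutator]; rfl
  have hE : t < p - 1 → Nat.card (Eg h) ≠ 1 := fun h3 e => by rw [e] at h1; omega
  have hB : t < p - 1 → derivedSeries G 2 ≠ derivedSeries G 1 →
      Nat.card (derivedSeries G 2) = 1 + n * p ∧ Nat.card (commutator G) = p * (1 + n * p) := by
    intro h3 h4
    obtain ⟨K', h', hK'⟩ := h.sub_one hK (h.mem_commutator (hE h3))
    have h5 : Nat.card (Eg h') = 1 := by
      by_contra e
      exact h4 (le_antisymm (derivedSeries_antitone G (by omega))
        (hd ▸ h.commutator_le' hK (h'.dvd_commutator e)))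
    have h6 : Nat.card (Sylow p (commutator G)) = 1 + n * p := by
      rw [← hn]
      refine (card_sylow_of_normal fun e => ?_).symm
      have := Nat.le_of_dvd (by omega)
        ((e.trans (h.index_dvd hK (h.dvd_commutator (hE h3)))).trans (card_Eg_dvd h))
      omega
    refine ⟨?_, by rw [h'.card_G hK', h5, h6]; ring⟩
    rw [hd, Subgroup.card_map_of_injective (Subgroup.subtype_injective _), (h'.e_one hK' h5).2.2, h6]
  refine ⟨⟨?_, ?_⟩, hA, hB⟩
  · rintro ⟨S, hS, hS'⟩
    have h3 : t ≤ p - 1 := Nat.le_of_dvd (by omega) (Dvd.intro _ h1)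
    refine h3.eq_or_lt.imp id fun h4 => ⟨h4, fun e => ?_⟩
    have h5 : ¬ p ∣ Nat.card S := fun e => hp.one_lt.ne' (Nat.dvd_one.1
      ((Nat.dvd_add_left (dvd_mul_left p n)).1 (hS' ▸ e)))
    obtain ⟨h6, h7⟩ := h.quot hK h5
    obtain ⟨K', h', hK'⟩ := H7.exists_D1_one h6 h7
    have h8 : Eg h ≤ Eg h' := fun u hu => by
      have := (QuotientGroup.mk' S).map_isConj hu
      rw [xp, map_pow] at this
      exact this
    have h9 := h'.card_G hK'
    have h10 := h.card_G hK
    rw [Subgroup.card_eq_card_quotient_mul_card_subgroup S, hS', hn, h9, mul_comm (1 + n * p)] at h10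
    have h11 := Nat.eq_of_mul_eq_mul_right (by omega) h10
    have h12 := Subgroup.card_le_of_le h8
    have h13 : Nat.card (Sylow p (G ⧸ S)) = 1 := by
      have := Nat.card_pos (α := Sylow p (G ⧸ S))
      have := card_Eg_pos h
      by_contra
      nlinarith [Nat.mul_le_mul (show 2 ≤ Nat.card (Sylow p (G ⧸ S)) by omega)
        (Nat.mul_le_mul_left p h12), Nat.mul_pos hp.pos (card_Eg_pos h)]
    haveI := (Nat.card_eq_one_iff_unique.1 h13).1
    haveI : (Subgroup.zpowers (x : G ⧸ S)).Normal := Sylow.normal_of_subsingleton h'.syl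
    have h14 := h'.commutator_le hK' (N := Subgroup.zpowers (x : G ⧸ S)) (by
      rw [Nat.card_zpowers, h6])
    have h15 : derivedSeries (G ⧸ S) 2 = ⊥ := by
      rw [eq_bot_iff]
      refine (Subgroup.commutator_mono h14 h14).trans (le_of_eq ?_)
      rw [Subgroup.commutator_eq_bot_iff_le_centralizer]
      exact Subgroup.le_centralizer _
    rw [← map_derivedSeries_eq (QuotientGroup.mk'_surjective S), e, Subgroup.map_eq_bot_iff,
      QuotientGroup.ker_mk'] at h15
    exact h5 ((h.dvd_commutator (hE h4)).trans (Subgroup.card_dvd_of_le h15))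
  · rintro (h3 | ⟨h3, h4⟩)
    · exact ⟨_, inferInstance, (hA h3).1⟩
    · exact ⟨_, derivedSeries_normal G 2, (hB h3 h4).1⟩

end Cfsg.Agent.S4509
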