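import Cfsg.Statements.S4510
import Cfsg.Agent.B.Rob

set_option autoImplicit false
open Cfsg

namespace Cfsg.Agent.S4510

open Cfsg.Agent Cfsg.Agent.B Cfsg.Agent.H2 Cfsg.Agent.H3 Cfsg.Agent.L Subgroup MonoidAlgebra
open scoped Pointwise commutatorElement

/-- Let G be a finite group, p a prime, M a maximal ideal of the algebraic integers containing p, and call the defect of a conjugacy class the exponent of p in the order of the centralizer of its elements. Two irreducible characters lying in p-blocks of defect exactly d lie in the same block if and only if their central characters (class size times χ(x)/χ(1)) agree modulo the local ideal at M at every p-regular element x whose class has defect exactly d. -/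
theorem result {G : Type*} [Group G] [Finite G] (p : ℕ) [Fact p.Prime] (M : Ideal Cfsg.AlgInt) (hM : Cfsg.IsPModular p M) (d : ℕ) (χ ψ : Cfsg.IrrCharacter G) (hχ : Cfsg.blockDefect p (Cfsg.blockOf M (χ : G → ℂ)) = d) (hψ : Cfsg.blockDefect p (Cfsg.blockOf M (ψ : G → ℂ)) = d) : Cfsg.SameBlock M (χ : G → ℂ) (ψ : G → ℂ) ↔ ∀ x : G, ¬ p ∣ orderOf x → (Nat.card (Subgroup.centralizer ({x} : Set G))).factorization p = d → Cfsg.MemLocalIdeal M (Cfsg.centralChar (χ : G → ℂ) x - Cfsg.centralChar (ψ : G → ℂ) x) := by
  have : PMod p M := ⟨hM⟩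
  classical
  refine ⟨fun h x _ _ => h x, fun h => ?_⟩
  have := Fintype.ofFinite (ConjClasses G)
  have hB := isPBlock_blockOf (M := M) χ
  refine hB.closed.mem_of_lam_eB (χ := ψ) ?_
  have h1 := hB.closed.lam_eB_of_mem (self_mem_blockOf χ)
  rw [lam_eq_sum _ (eB_mem _)] at h1 ⊢
  rw [← Finset.sum_congr rfl fun K _ => ?_, h1]
  · exact one_ne_zero
  by_cases h2 : (eB M (blockOf M (χ : G → ℂ))).coeff K.out = 0
  · simp [h2]
  congr 1
  rcases (hB.le_defect_of_coeff h2).eq_or_lt with h3 | h3
  · rw [lam_cls χ.2.isClassFunction, lam_cls ψ.2.isClassFunction,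
      red_eq_iff (centralChar_mem_O χ.2 _) (centralChar_mem_O ψ.2 _)]
    exact h _ (hB.closed.reg_of_coeff_eB h2) (h3.trans hχ)
  · rw [by_contra fun h4 => h3.not_ge (hB.defect_le_of_lam (self_mem_blockOf χ) h4),
      by_contra fun h4 => h3.not_ge (hχ.trans hψ.symm ▸
        (isPBlock_blockOf (M := M) ψ).defect_le_of_lam (self_mem_blockOf ψ) h4)]

end Cfsg.Agent.S4510
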