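import Cfsg.Statements.S4511
import Cfsg.Agent.B.Contr

set_option autoImplicit false
open Cfsg

namespace Cfsg.Agent.S4511

open Cfsg.Agent Cfsg.Agent.B Cfsg.Agent.H2 Cfsg.Agent.H3 Cfsg.Agent.L Subgroup MonoidAlgebra
open scoped Pointwise commutatorElement

/-- Brauer's count of the irreducible characters in a block by subsections. Let M be a maximal ideal of the algebraic integers containing the prime p, B a p-block of the finite group G, and X a set of representatives of the conjugacy classes of p-elements of G (elements of p-power order, the identity included: every p-element is conjugate to exactly one member of X). Then the number of irreducible characters in B is the sum, over x ∈ X and over the blocks b of C_G(x) that induce B, of the p-regular rank of b (the number of irreducible Brauer characters of b, here the dimension of the span of the restrictions of the members of b to the p-regular elements of C_G(x)). -/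
theorem result {G : Type*} [Group G] [Finite G] (p : ℕ) (M : Ideal Cfsg.AlgInt) (hM : Cfsg.IsPModular p M)
    (B : Set (Cfsg.IrrCharacter G)) (hB : Cfsg.IsPBlock M B) (X : Finset G)
    (hX : ∀ x ∈ X, ∃ k : ℕ, orderOf x = p ^ k)
    (hXrep : ∀ g : G, (∃ k : ℕ, orderOf g = p ^ k) → ∃! x, x ∈ X ∧ IsConj g x) :
    Nat.card B = ∑ x ∈ X, ∑ᶠ b ∈ {b : Set (Cfsg.IrrCharacter ↥(Subgroup.centralizer ({x} : Set G))) | Cfsg.IsInducedBlock M (Subgroup.centralizer ({x} : Set G)) b B},
      Cfsg.blockRank p b := by
  have : PMod p M := ⟨hM⟩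
  classical
  have : Fact p.Prime := ⟨hM.1⟩
  have := Fintype.ofFinite G
  have h1 : ∀ x : G, PElt p x → ∑ᶠ b ∈ {b : Set (Cfsg.IrrCharacter ↥(Subgroup.centralizer ({x} : Set G))) | Cfsg.IsInducedBlock M (Subgroup.centralizer ({x} : Set G)) b B},
        Cfsg.blockRank p b = blockRank p (roots M (centralizer {x}) B) := fun x hx => by
    rw [(closed_roots _ B).blockRank_eq_sum, ← Finset.sum_filter, ← finsum_mem_coe_finset]
    refine (finsum_mem_eq_of_bijOn Subtype.val ⟨fun b hb => ?_, Subtype.val_injective.injOn,
      fun b hb => ⟨⟨b, hb.1⟩, ?_, rfl⟩⟩ fun _ _ => rfl).symm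
    · obtain ⟨ξ, hξ⟩ := b.2.nonempty
      exact (mem_roots_iff (inducedBlockDefined_centralizer hx b.2) hB hξ).1
        ((Finset.mem_filter.1 hb).2 hξ)
    · exact Finset.mem_filter.2 ⟨Finset.mem_univ _, fun ξ hξ =>
        (mem_roots_iff (inducedBlockDefined_centralizer hx hb.1) hB hξ).2 hb⟩
  rw [Finset.sum_congr rfl fun x hx => h1 x (hX x hx)]
  apply Nat.eq_of_mul_eq_mul_left (Nat.card_pos (α := G))
  rw [hB.closed.card_mul_card, Finset.mul_sum]
  have h2 : ∀ x ∈ X, Nat.card G * blockRank p (roots M (centralizer {x}) B) = ∑ g : G,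
      if IsConj x g then Nat.card (centralizer ({g} : Set G)) *
        blockRank p (roots M (centralizer {g}) B) else 0 := fun x hx => by
    rw [← Finset.sum_filter, Finset.sum_congr rfl fun g hg => by
      rw [← H3.card_centralizer_of_isConj (Finset.mem_filter.1 hg).2,
        ← hB.closed.blockRank_roots_conj (hX x hx) (Finset.mem_filter.1 hg).2],
      Finset.sum_const, card_filter_isConj, smul_eq_mul, ← mul_assoc, index_mul_card]
  rw [Finset.sum_congr rfl h2, Finset.sum_comm]
  refine Finset.sum_congr rfl fun g _ => ?_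
  split_ifs with hg
  · obtain ⟨x, ⟨h3, h4⟩, h5⟩ := hXrep g hg
    rw [Finset.sum_eq_single_of_mem x h3 fun y hy hne => if_neg fun h => hne (h5 y ⟨hy, h.symm⟩),
      if_pos h4.symm]
  · exact (Finset.sum_eq_zero fun x hx => if_neg fun h => hg (PElt.of_isConj (hX x hx) h)).symm

end Cfsg.Agent.S4511
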