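import Cfsg.Statements.S4637
import Cfsg.Agent.B.Sub2
import Cfsg.Agent.H2.Two2

set_option autoImplicit false
open Cfsg

namespace Cfsg.Agent.S4637

open Cfsg.Agent Cfsg.Agent.B Cfsg.Agent.H2 Cfsg.Agent.H3 Cfsg.Agent.L Subgroup MonoidAlgebra
open scoped Pointwise commutatorElement

/-- Let B be a block of the finite group G relative to a maximal ideal M of the algebraic integers containing 2, with a Klein four defect group P. Let c be a block of C_G(P) inducing B, T the stabilizer of c in N_G(P) and e the index of C_G(P) in T (the inertial index). Then e is 1 or 3, B contains exactly four irreducible characters, and the 2-regular rank of B (its number of irreducible Brauer characters) equals e. -/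
theorem result {G : Type*} [Group G] [Finite G] (M : Ideal Cfsg.AlgInt) (hM : Cfsg.IsPModular 2 M) (B : Set (Cfsg.IrrCharacter G)) (hB : Cfsg.IsPBlock M B) (P : Subgroup G) (hPD : Cfsg.IsDefectGroup 2 M B P) (hV : IsKleinFour P) (c : Set (Cfsg.IrrCharacter (Subgroup.centralizer (P : Set G)))) (hc : Cfsg.IsInducedBlock M (Subgroup.centralizer (P : Set G)) c B) (T : Subgroup G) (hT : ∀ g : G, g ∈ T ↔ (g ∈ Subgroup.normalizer (P : Set G) ∧ Cfsg.StabilizesBlock (Subgroup.centralizer (P : Set G)) c g)) (e : ℕ) (he : (Subgroup.centralizer (P : Set G)).relIndex T = e) : (e = 1 ∨ e = 3) ∧ Nat.card B = 4 ∧ Cfsg.blockRank 2 B = e := by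
  have : PMod 2 M := ⟨hM⟩
  classical
  have h := mp_of_induced hc hPD
  have hab : P ≤ centralizer (P : Set G) := le_centralizer_iff_isMulCommutative.2 IsKleinFour.isMulCommutative
  rw [(hc.1.closed.eq_inf_stab hT).trans (NS_top _ _).symm] at he
  have h1 := relIndex_centralizer_dvd_six hV.card_four (NS_le_normalizer ⊤ P (iB M _ c))
  have h2 := h.not_dvd
  rw [CH_top, sup_eq_right.2 hab] at h2
  rw [he] at h1 h2
  have h3 : e = 1 ∨ e = 3 := by
    have := Nat.le_of_dvd (by norm_num) h1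
    interval_cases e <;> simp_all
  obtain ⟨h4, h5⟩ := h.card_of_free hB hab (fun g hg x hx h6 h7 => by
    obtain ⟨y, hk⟩ := exists_k4_of_mem hV hx h6
    have h8 : g ^ 2 ^ 1 * y * (g ^ 2 ^ 1)⁻¹ = y := by
      rw [show g ^ 2 ^ 1 * y * (g ^ 2 ^ 1)⁻¹ = g * (g * y * g⁻¹) * g⁻¹ by rw [pow_one, sq]; group]
      rcases (hk.mem _).1 ((mem_normalizer_iff.1 hg.1.2 y).1 hk.b_mem) with h | h | h | h
      · exact absurd (by simpa using h) hk.b1
      · exact absurd (by simpa using h.trans h7.symm) hk.ne.symm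
      · rw [h, h]
      · rw [h, ← conj_mul, h7, h, ← mul_assoc, hk.a2, one_mul]
    have h9 : g ^ 2 ^ 1 * x * (g ^ 2 ^ 1)⁻¹ = x := by
      rw [show g ^ 2 ^ 1 * x * (g ^ 2 ^ 1)⁻¹ = g * (g * x * g⁻¹) * g⁻¹ by rw [pow_one, sq]; group, h7, h7]
    refine h.mem_centralizer_of_pow hab hg (k := 1) fun z hz => (mul_inv_eq_iff_eq_mul.1 ?_).symm
    rcases (hk.mem _).1 hz with rfl | rfl | rfl | rfl
    exacts [by simp, h9, h8, by rw [← conj_mul, h8, h9]]) he
  obtain ⟨u, y, hk⟩ := exists_k4 hV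
  have hu := pElt_of_mem h.bp.pgrp hk.a_mem
  have h6 := h.induced_sb hB hk.a_mem
  obtain ⟨φ, d, m, -, -, -, h7, h8, h9⟩ := exists_gdec hu h6.1 (h4 u hk.a_mem hk.a1).1
  have h10 := h.defect_sb hB hk.a_mem (mem_centralizer_comm.1 (hab hk.a_mem))
  have h11 : blockDefect 2 B = 2 := Nat.pow_right_injective le_rfl (by
    dsimp only; rw [← h.card_eq_pow hB, hV.card_four])
  rw [orderOf_eq_prime (p := 2) (by rw [sq, hk.a2]) hk.a1] at h8
  choose n hn using fun χ => exists_int_of_mem_closure (h8 χ)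
  have h12 : ∀ χ ∈ B, Odd (n χ) := fun χ hχ => by
    have := (h6.red_ctr_ne_zero_iff hu hχ hχ).2 ⟨hB.height_eq_zero h11.le hχ, hB.height_eq_zero h11.le hχ⟩
    rw [h7, hn, map_intCast, ← Int.cast_mul, red_intCast, Ne, CharP.intCast_eq_zero_iff (F M) 2] at this
    exact Int.not_even_iff_odd.1 fun h => this (even_iff_two_dvd.1 (h.mul_right _))
  have h13 : ∑ χ, n χ ^ 2 = 4 := by
    simp only [hn, map_intCast, h10, h11, ← sq] at h9
    exact_mod_cast h9
  have h14 : ∑ χ, n χ ^ 2 = ∑ χ ∈ Finset.univ.filter (· ∈ B), 1 := by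
    rw [Finset.sum_filter]
    refine Finset.sum_congr rfl fun χ _ => ?_
    split_ifs with hχ
    · have := h13 ▸ Finset.single_le_sum (f := fun χ => n χ ^ 2) (fun _ _ => sq_nonneg _) (Finset.mem_univ χ)
      obtain ⟨k, hk⟩ := h12 χ hχ
      rw [hk] at this ⊢
      have : k = 0 ∨ k = -1 := by
        by_contra! h
        rcases lt_or_gt_of_ne h.1 with h1 | h1 <;> [have : k ≤ -2 := (by omega); skip] <;> nlinarith
      rcases this with rfl | rfl <;> rfl
    · have := h7 χ χ
      rw [h6.ctr_eq_zero hu hχ, hn, map_intCast, mul_zero, ← sq] at this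
      exact_mod_cast this.symm
  rw [h13, Finset.sum_const, card_filter_mem, nsmul_eq_mul, mul_one] at h14
  have h15 : Nat.card B = 4 := by exact_mod_cast h14.symm
  rw [h15, hV.card_four] at h5
  refine ⟨h3, h15, ?_⟩
  rcases h3 with rfl | rfl <;> omega

end Cfsg.Agent.S4637
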