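import Cfsg.Statements.S4512
import Cfsg.Agent.B.Sub2
import Cfsg.Agent.S4637

set_option autoImplicit false
open Cfsg

namespace Cfsg.Agent.S4512

open Cfsg.Agent Cfsg.Agent.B Cfsg.Agent.H2 Cfsg.Agent.H3 Cfsg.Agent.L Subgroup MonoidAlgebra
open scoped Pointwise commutatorElement

theorem aux {G : Type*} [Group G] [Finite G] (M : Ideal AlgInt) [hM : PMod 2 M] {P : Subgroup G} (hP : SylIn 2 P ⊤)
    (hV : IsKleinFour P) (hone : ∀ s t : G, orderOf s = 2 → orderOf t = 2 → IsConj s t) :
    blockRank 2 (principalBlock M G) = 3 := by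
  have hab : P ≤ centralizer (P : Set G) := le_centralizer_iff_isMulCommutative.2 IsKleinFour.isMulCommutative
  have hc := (third_main (inducedBlockDefined_of_le hP.pgrp hab le_rfl (centralizer_le_normalizer _)
    (isPBlock_principal (M := M)))).2 rfl
  obtain ⟨h1 | h1, -, h2⟩ := S4637.result M hM.1 _ isPBlock_principal P (isDefectGroup_principal_iff.2 hP) hV _ hc
    (normalizer (P : Set G)) (fun g => ⟨fun hg => ⟨hg, hc.1.closed.stabilizesBlock_iff.2
      ⟨normalizer_le_nc _ hg, hc.1.isBI.mem_stab_of_aug (aug_iB_principal _) (normalizer_le_nc _ hg)⟩⟩, fun h => h.1⟩) _ rfl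
  · obtain ⟨a, b, hk⟩ := exists_k4 hV
    obtain ⟨n, hn, h3⟩ := exists_normalizer_conj (hP.mono (mem_centralizer_comm.1 (hab hk.a_mem)) le_top)
      (hone a b (orderOf_eq_prime (by rw [sq, hk.a2]) hk.a1) (orderOf_eq_prime (by rw [sq, hk.b2]) hk.b1)) (hab hk.b_mem)
    exact absurd (by rw [← h3, ← relIndex_eq_one.1 h1 hn a hk.a_mem]; group) hk.ne
  · rw [h2, h1]


/-- If G is a finite group with a Sylow 2-subgroup that is a Klein four-group and a single conjugacy class of involutions, then its principal 2-block (relative to a maximal ideal M of the algebraic integers containing 2) has 2-regular rank 3: the restrictions of its irreducible characters to the elements of odd order span a space of dimension 3 (it has three irreducible Brauer characters). -/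
theorem result {G : Type*} [Group G] [Finite G] (M : Ideal Cfsg.AlgInt) (hM : Cfsg.IsPModular 2 M) (P : Sylow 2 G)
    (hP : Nat.card P = 4) (hexp : ∀ x : P, x * x = 1)
    (hone : ∀ s t : G, orderOf s = 2 → orderOf t = 2 → IsConj s t) :
    Cfsg.blockRank 2 (Cfsg.principalBlock M G) = 3 := by
  have : PMod 2 M := ⟨hM⟩
  refine aux M (sylIn_top P) ⟨hP, ?_⟩ hone
  have : Nontrivial (P : Subgroup G) := Finite.one_lt_card_iff_nontrivial.1 (by rw [show Nat.card (P : Subgroup G) = 4 from hP]; norm_num)
  exact (Monoid.exponent_eq_prime_iff Nat.prime_two).2 fun g hg => orderOf_eq_prime (by rw [sq]; exact hexp g) hg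

end Cfsg.Agent.S4512
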