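import Cfsg.Statements.S4513
import Cfsg.Agent.B.Sub2

set_option autoImplicit false
open Cfsg

namespace Cfsg.Agent.S4513

open Cfsg.Agent Cfsg.Agent.B Cfsg.Agent.H2 Cfsg.Agent.H3 Cfsg.Agent.L Subgroup MonoidAlgebra
open scoped Pointwise commutatorElement

/-- Blocks of defect one for p = 2. Let M be a maximal ideal of the algebraic integers containing 2, B a 2-block of the finite group G whose defect group is the subgroup generated by an involution x, C = C_G(x), b a block of C inducing B and θ a member of b taking the same value at x as at 1 (there is exactly one). Then B consists of exactly two irreducible characters, which agree on every element of odd order, and they can be labelled χ₁, χ₂ with signs ε₁, ε₂ = ±1, ε₁ε₂ = −1, such that χᵢ(x y) = εᵢ θ(y) for every element y of C of odd order. -/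
theorem result {G : Type*} [Group G] [Finite G] (M : Ideal Cfsg.AlgInt) (hM : Cfsg.IsPModular 2 M) (x : G) (hx : orderOf x = 2)
    (B : Set (Cfsg.IrrCharacter G)) (hB : Cfsg.IsPBlock M B) (hBD : Cfsg.IsDefectGroup 2 M B (Subgroup.zpowers x))
    (b : Set (Cfsg.IrrCharacter ↥(Subgroup.centralizer ({x} : Set G)))) (hb : Cfsg.IsInducedBlock M (Subgroup.centralizer ({x} : Set G)) b B)
    (θ : Cfsg.IrrCharacter ↥(Subgroup.centralizer ({x} : Set G))) (hθ : θ ∈ b)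
    (hθx : ∀ z : ↥(Subgroup.centralizer ({x} : Set G)), (z : G) = x → (θ : ↥(Subgroup.centralizer ({x} : Set G)) → ℂ) z = (θ : ↥(Subgroup.centralizer ({x} : Set G)) → ℂ) 1) :
    Nat.card B = 2 ∧ (∀ χ ∈ B, ∀ ψ ∈ B, ∀ g : G, ¬ 2 ∣ orderOf g → (χ : G → ℂ) g = (ψ : G → ℂ) g) ∧
      ∃ χ₁ ∈ B, ∃ χ₂ ∈ B, χ₁ ≠ χ₂ ∧ ∃ ε₁ ε₂ : ℤ, (ε₁ = 1 ∨ ε₁ = -1) ∧ (ε₂ = 1 ∨ ε₂ = -1) ∧ ε₁ * ε₂ = -1 ∧
        ∀ y : ↥(Subgroup.centralizer ({x} : Set G)), ¬ 2 ∣ orderOf y →
          (χ₁ : G → ℂ) (x * y) = (ε₁ : ℂ) * (θ : ↥(Subgroup.centralizer ({x} : Set G)) → ℂ) y ∧ (χ₂ : G → ℂ) (x * y) = (ε₂ : ℂ) * (θ : ↥(Subgroup.centralizer ({x} : Set G)) → ℂ) y := by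
  have : PMod 2 M := ⟨hM⟩
  classical
  obtain ⟨e, h⟩ := (hB.isDefectGroup_iff_top.1 hBD).exists_mp hB.isBI_top
  have hab : zpowers x ≤ centralizer (zpowers x : Set G) := le_centralizer_iff_isMulCommutative.2 inferInstance
  have h0 : ∀ v ∈ zpowers x, IsConj x v → v = x := fun v hv hc => by
    have h1 := orderOf_eq_of_isConj hc
    rw [mem_zpowers_iff_mem_range_orderOf, hx] at hv
    obtain ⟨i, hi, rfl⟩ := Finset.mem_image.1 hv
    have := Finset.mem_range.1 hi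
    interval_cases i <;> simp_all
  have hn := (h.nil_iff_of_abelian hab).2 fun g hg => by
    rw [centralizer_zpowers, mem_centralizer_singleton_iff, ← mul_inv_eq_iff_eq_mul]
    exact h0 _ ((mem_normalizer_iff.1 hg.1.2 x).1 (mem_zpowers x)) (isConj_iff.2 ⟨g, rfl⟩)
  obtain ⟨h1, h2⟩ := h.of_nil_abelian hB hn hab
  rw [Nat.card_zpowers, hx] at h2
  have hu : PElt 2 x := ⟨1, hx⟩
  have h3 : ∀ c, IsInducedBlock M _ c B → c = b := fun c hc => (h.eq_sb hu hc h0).trans (h.eq_sb hu hb h0).symm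
  have h4 : blockDefect 2 B = 1 := Nat.pow_right_injective le_rfl (by
    dsimp only; rw [← h.card_eq_pow hB, Nat.card_zpowers, hx])
  have h5 : blockDefect 2 b = blockDefect 2 B := by
    rw [h.eq_sb hu hb h0, h.defect_sb hB (mem_zpowers x) (zpowers_le_of_mem (self_mem_centralizer x))]
  obtain ⟨φ, d, m, h6, h7, h8, h9, h10, h11⟩ := exists_gdec hu hb.1 (by
    rw [h.eq_sb hu hb h0]
    exact h.rank_sb hab (mem_zpowers x) (inf_le_right.trans (centralizer_zpowers x).ge))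
  rw [hx] at h10
  choose n hn using fun χ => exists_int_of_mem_closure (h10 χ)
  obtain ⟨ψ, a, -, -, h12, h13, -⟩ := hB.exists_brauer h1
  obtain ⟨χ₁, χ₂, h14, h15⟩ := Finset.card_eq_two.1 ((card_filter_mem B).trans h2)
  have h16 : ∀ χ, χ ∈ B ↔ χ = χ₁ ∨ χ = χ₂ := fun χ => by simpa using Finset.ext_iff.1 h15 χ
  have m1 := (h16 _).2 (Or.inl rfl)
  have m2 := (h16 _).2 (Or.inr rfl)
  rw [h15, Finset.sum_pair h14, h4] at h13
  have h17 : ∀ χ ∈ B, a χ = 1 := fun χ hχ => by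
    have := (h12 _ m1).1
    have := (h12 _ m2).1
    rcases (h16 _).1 hχ with rfl | rfl <;> nlinarith
  have h18 : ∀ χ ∈ B, ∀ ψ ∈ B, ∀ g : G, ¬ 2 ∣ orderOf g → (χ : G → ℂ) g = (ψ : G → ℂ) g := fun χ hχ ξ hξ g hg =>
    eq_of_reg_eq (by rw [(h12 _ hχ).2, (h12 _ hξ).2, h17 _ hχ, h17 _ hξ]) hg
  have h19 : m θ = 1 := by
    have := h7 θ hθ
    rw [h5, h4] at this
    nlinarith [(h6 θ hθ).1]
  have h20 : ∀ χ ∈ B, ∀ y : centralizer ({x} : Set G), ¬ 2 ∣ orderOf y → (χ : G → ℂ) (x * y) = n χ * (θ : _ → ℂ) y :=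
    fun χ hχ y hy => by
      rw [hb.apply_mul hu h3 hχ hy, ← reg_of_not_dvd (blockPart b (sh x χ)) hy, h8, ← reg_of_not_dvd θ.1 hy, (h6 θ hθ).2, h19, hn]
      simp
  have h21 : n χ₁ ^ 2 + n χ₂ ^ 2 = 2 := by
    rw [← Finset.sum_subset (Finset.subset_univ {χ₁, χ₂}) fun χ _ hχ => by
      rw [← h9, hb.ctr_eq_zero hu (by simpa [h16] using hχ), mul_zero], Finset.sum_pair h14, h5, h4] at h11
    simp only [hn, map_intCast, ← sq] at h11
    exact_mod_cast h11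
  have h22 : n χ₁ + n χ₂ = 0 := by
    have := hB.closed.weak_orth (x := 1) (y := x * (1 : centralizer ({x} : Set G))) reg_one (by simp [hx])
    rw [← Finset.sum_filter, h15, Finset.sum_pair h14, h20 _ m1 _ reg_one, h20 _ m2 _ reg_one,
      h18 _ m1 _ m2 _ reg_one, ← mul_add, ← add_mul] at this
    exact_mod_cast (mul_eq_zero.1 ((mul_eq_zero.1 this).resolve_left χ₂.2.apply_one_ne_zero)).resolve_right θ.2.apply_one_ne_zero
  have h23 : n χ₂ = - n χ₁ := by omega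
  have h24 : n χ₁ = 1 ∨ n χ₁ = -1 := sq_eq_one_iff.1 (by rw [h23] at h21; linarith)
  exact ⟨h2, h18, χ₁, m1, χ₂, m2, h14, n χ₁, n χ₂, h24, by omega, by rcases h24 with h | h <;> simp [h23, h],
    fun y hy => ⟨h20 _ m1 y hy, h20 _ m2 y hy⟩⟩

end Cfsg.Agent.S4513
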