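import Cfsg.Statements.S4633
import Cfsg.Agent.B.Cov3
import Cfsg.Agent.H2.BG1
import Cfsg.Agent.BG.LAux
import Mathlib.RingTheory.ZMod.UnitsCyclic

set_option autoImplicit false
open Cfsg

namespace Cfsg.Agent.S4633

open Cfsg.Agent Cfsg.Agent.B Cfsg.Agent.H2 Cfsg.Agent.H3 Cfsg.Agent.L Subgroup MonoidAlgebra
open scoped Pointwise commutatorElement

/-- Let B be a block of the finite group G relative to a maximal ideal M of the algebraic integers containing the prime p, with a nontrivial cyclic defect group P. Let c be a block of C_G(P) inducing B and T the stabilizer of c in N_G(P) (the elements of N_G(P) conjugating c to itself); T contains C_G(P). Then T/C_G(P) is cyclic of order dividing p − 1, and it acts freely on the non-identity elements of P: an element of T fixing some non-identity element of P under conjugation lies in C_G(P). -/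
theorem result {G : Type*} [Group G] [Finite G] (p : ℕ) [Fact p.Prime] (M : Ideal Cfsg.AlgInt) (hM : Cfsg.IsPModular p M) (B : Set (Cfsg.IrrCharacter G)) (hB : Cfsg.IsPBlock M B) (P : Subgroup G) (hPD : Cfsg.IsDefectGroup p M B P) (hP1 : P ≠ ⊥) (hcyc : IsCyclic P) (c : Set (Cfsg.IrrCharacter (Subgroup.centralizer (P : Set G)))) (hc : Cfsg.IsInducedBlock M (Subgroup.centralizer (P : Set G)) c B) (T : Subgroup G) (hT : ∀ g : G, g ∈ T ↔ (g ∈ Subgroup.normalizer (P : Set G) ∧ Cfsg.StabilizesBlock (Subgroup.centralizer (P : Set G)) c g)) [hn : ((Subgroup.centralizer (P : Set G)).subgroupOf T).Normal] : IsCyclic (T ⧸ (Subgroup.centralizer (P : Set G)).subgroupOf T) ∧ (Subgroup.centralizer (P : Set G)).relIndex T ∣ p - 1 ∧ ∀ g ∈ T, ∀ x ∈ P, x ≠ 1 → g * x * g⁻¹ = x → g ∈ Subgroup.centralizer (P : Set G) := by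
  have : PMod p M := ⟨hM⟩
  have h := mp_of_induced hc hPD
  have hT' := (hc.1.closed.eq_inf_stab hT).trans (NS_top _ _).symm
  have h1 : ∀ g ∈ T, ∀ x ∈ P, x ≠ 1 → g * x * g⁻¹ = x → g ∈ centralizer (P : Set G) :=
    fun g hg x hx h1 h2 => h.free_of_cyclic hcyc (hT' ▸ hg) hx h1 h2
  have h2 : Nat.card (omegaOne p P) = p := BL.card_omega_of_cyclic hcyc (by
    obtain ⟨k, hk, h4⟩ := h.bp.pgrp.nontrivial_iff_card.1 ((nontrivial_iff_ne_bot P).2 hP1)
    exact h4 ▸ dvd_pow_self p hk.ne')
  have h3 : T ≤ normalizer (omegaOne p P : Set G) := fun g hg =>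
    normalizer_le_omegaOne p P ((hT g).1 hg).1
  have h4 : omegaOne p P ≤ P := omegaOne_le p P
  set Z := omegaOne p P
  have h5 : (centralizer (P : Set G)).subgroupOf T = (centralizer (Z : Set G)).subgroupOf T := by
    ext g
    simp only [mem_subgroupOf]
    refine ⟨fun h => centralizer_anti h4 h, fun h => ?_⟩
    obtain ⟨x, hx, h6⟩ := (bot_or_exists_ne_one Z).resolve_left fun h0 => by
      rw [h0, card_bot] at h2; exact (Fact.out : p.Prime).one_lt.ne h2
    exact h1 g g.2 x (h4 hx) h6 (mul_inv_eq_iff_eq_mul.2 (h x hx).symm)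
  refine ⟨?_, ?_, h1⟩
  · have : IsCyclic Z := isCyclic_of_prime_card h2
    have h6 : IsCyclic (ZMod (Nat.card Z))ˣ := by
      rw [h2]; exact ZMod.isCyclic_units_prime Fact.out
    have : IsCyclic (MulAut Z) := isCyclic_of_surjective _ (IsCyclic.mulAutMulEquiv Z).symm.surjective
    let φ : T →* MulAut Z := Z.normalizerMonoidHom.comp (inclusion h3)
    have h7 : (centralizer (P : Set G)).subgroupOf T = φ.ker := by
      rw [h5, ← MonoidHom.comap_ker, normalizerMonoidHom_ker]; rfl
    exact isCyclic_of_injective (QuotientGroup.lift _ φ fun x hx => by rwa [h7] at hx)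
      (QuotientGroup.injective_lift_iff _ _ _ |>.2 h7)
  · rw [relIndex, h5]
    exact p'group_quotient_cent_prime h2.dvd h3

end Cfsg.Agent.S4633
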