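import Cfsg.Statements.S4634
import Cfsg.Agent.B.Perf

set_option autoImplicit false
open Cfsg

namespace Cfsg.Agent.S4634

open Cfsg.Agent Cfsg.Agent.B Cfsg.Agent.H2 Cfsg.Agent.H3 Subgroup MonoidAlgebra
open scoped Pointwise commutatorElement
theorem key {F : Type*} [Group F] [Finite F] {Q : Subgroup F} [IsMulCommutative Q] (hQ : Q.index < Nat.card Q)
    {η η' : IrrCharacter F} (hne : η ≠ η') {δ : ℤ} (hδ : δ = 1 ∨ δ = -1) (h1 : ∀ u ∈ Q, u ≠ 1 → η.1 u = δ)
    (h2 : ∃ x ∈ Q, η.1 x ≠ η.1 1) (h3 : ∃ x ∈ Q, η'.1 x ≠ η'.1 1) : False := by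
  classical
  have := Fintype.ofFinite F
  have := Fintype.ofFinite Q
  obtain ⟨l, hl, h4⟩ : ∃ l : IrrCharacter Q, l ≠ oneIrr Q ∧ classInner (fun x : Q => η'.1 x) l ≠ 0 := by
    by_contra! h
    obtain ⟨x, hx, h5⟩ := h3
    have h6 := fun y => ((η'.2.isClassFunction.res Q).apply_eq_sum_irr y).trans
      (Finset.sum_eq_single (oneIrr Q) (fun l _ hl => by rw [h l hl, zero_mul]) (by simp))
    exact h5 ((h6 ⟨x, hx⟩).trans (h6 1).symm)
  have h5 : (fun x : Q => η.1 x) = (δ : ℂ) • (oneIrr Q).1 + ((η.1 1 - δ) / Nat.card Q) • regChar Q := funext fun u => by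
    by_cases hu : u = 1
    · simp [hu, regChar_one, oneIrr, div_mul_cancel₀ _ (card_ne_zero (G := Q)), -Nat.card_eq_fintype_card]
    · simp [regChar_of_ne hu, oneIrr, h1 u u.2 (by simpa using hu)]
  obtain ⟨n, hn⟩ := (η.2.isCharacter.res Q).exists_nat_inner l.2.isCharacter
  have h6 := hn
  rw [h5, classInner_add_left, classInner_smul_left, classInner_smul_left, irr_inner, if_neg hl.symm, classInner_regChar_left,
    l.2.degree_eq_one_of_comm, map_one, mul_one, mul_zero, zero_add, div_eq_iff card_ne_zero, ← η.2.cast_charDegree] at h6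
  have h7 : n ≠ 0 := by
    rintro rfl
    obtain ⟨x, hx, h7⟩ := h2
    refine h7 ?_
    rw [h1 x hx (by rintro rfl; exact h7 rfl), ← η.2.cast_charDegree]
    simpa [sub_eq_zero, eq_comm] using h6
  have h8 := l.2.isCharacter.ind.sub_of_inner_ne_zero η.2 (by
    rw [classInner_indFun_left _ η.2.isClassFunction, Ne, classInner_eq_zero_comm, hn]; exact_mod_cast h7)
  have h9 := h8.degree_le_of_inner_ne_zero η'.2 (by
    rw [classInner_sub_left, irr_inner, if_neg hne, sub_zero, classInner_indFun_left _ η'.2.isClassFunction, Ne,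
      classInner_eq_zero_comm]; exact h4)
  have h10 := h8.cast_charDegree
  rw [Pi.sub_apply, indFun_one, l.2.degree_eq_one_of_comm, mul_one, ← η.2.cast_charDegree, eq_sub_iff_add_eq] at h10
  have h11 := η'.2.charDegree_pos
  have h12 : (charDegree η.1 : ℤ) - δ = n * Nat.card Q := by exact_mod_cast h6
  have h13 : charDegree (indFun Q l.1 - η.1) + charDegree η.1 = Q.index := by exact_mod_cast h10
  have h14 : Nat.card Q ≤ n * Nat.card Q := Nat.le_mul_of_pos_left _ (Nat.pos_of_ne_zero h7)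
  zify at h14
  omega

theorem ctr_pg {G : Type*} [Group G] [Finite G] {p : ℕ} [Fact p.Prime] {M : Ideal AlgInt} [PMod p M] {u : G}
    (h : IsPGroup p (centralizer ({u} : Set G))) {b : Set (IrrCharacter (centralizer ({u} : Set G)))} (hb : IsPBlock M b)
    {φ : G → ℂ} (hφ : IsClassFunction G φ) (ψ : G → ℂ) :
    Nat.card (centralizer ({u} : Set G)) * ctr p u b φ ψ = φ u * (starRingEnd ℂ) (ψ u) := by
  have := Fintype.ofFinite (centralizer ({u} : Set G))
  have h1 : ∀ g : centralizer ({u} : Set G), ¬ p ∣ orderOf g → g = 1 := fun g hg => by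
    obtain ⟨_ | k, hk⟩ := IsPGroup.iff_orderOf.1 h g
    exacts [orderOf_eq_one_iff.1 hk, absurd (hk ▸ dvd_pow_self p k.succ_ne_zero) hg]
  obtain rfl : b = Set.univ := by
    obtain ⟨χ, -, rfl⟩ := hb
    exact Set.eq_univ_of_forall fun ψ => sameBlock_of_centralizer (Q := ⊤) (h.to_subgroup _) (fun g _ => h1 g) _ _
  rw [ctr_def, blockPart_univ (isClassFunction_sh u hφ), card_mul_classInner, Finset.sum_eq_single 1 (fun g _ hg => by
    rw [reg_of_dvd _ (by_contra fun h => hg (h1 g h)), zero_mul]) (by simp), reg_of_not_dvd _ (by simpa using (Fact.out : p.Prime).ne_one)]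
  simp [sh]

/-- Let B be a block of the finite group G relative to a maximal ideal M of the algebraic integers containing the prime p, with a nontrivial cyclic defect group P, let c be a block of C_G(P) inducing B, T the stabilizer of c in N_G(P) and e the index of C_G(P) in T. Let F be any finite group of order #P · e having a cyclic subgroup Q of order #P that is its own centralizer (F is then the semidirect product of Q by a cyclic group of order e acting faithfully). Then there is a perfect isometry from the set of all irreducible characters of F onto B whose signs agree on all the characters of F that do not contain Q in their kernel. -/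
theorem result {G : Type*} [Group G] [Finite G] (p : ℕ) [Fact p.Prime] (M : Ideal Cfsg.AlgInt) (hM : Cfsg.IsPModular p M) (B : Set (Cfsg.IrrCharacter G)) (hB : Cfsg.IsPBlock M B) (P : Subgroup G) (hPD : Cfsg.IsDefectGroup p M B P) (hP1 : P ≠ ⊥) (hcyc : IsCyclic P) (c : Set (Cfsg.IrrCharacter (Subgroup.centralizer (P : Set G)))) (hc : Cfsg.IsInducedBlock M (Subgroup.centralizer (P : Set G)) c B) (T : Subgroup G) (hT : ∀ g : G, g ∈ T ↔ (g ∈ Subgroup.normalizer (P : Set G) ∧ Cfsg.StabilizesBlock (Subgroup.centralizer (P : Set G)) c g)) (e : ℕ) (he : (Subgroup.centralizer (P : Set G)).relIndex T = e) (F : Type*) [Group F] [Finite F] (hF : Nat.card F = Nat.card P * e) (Q : Subgroup F) (hQ : IsCyclic Q) (hQcard : Nat.card Q = Nat.card P) (hQC : Subgroup.centralizer (Q : Set F) = Q) : ∃ (I : Cfsg.IrrCharacter F → Cfsg.IrrCharacter G) (ε : Cfsg.IrrCharacter F → ℤ), Cfsg.IsPerfectIsometry p M (Set.univ : Set (Cfsg.IrrCharacter F)) B I ε ∧ ∀ η η' : Cfsg.IrrCharacter F, (∃ x ∈ Q,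 (η : F → ℂ) x ≠ (η : F → ℂ) 1) → (∃ x ∈ Q, (η' : F → ℂ) x ≠ (η' : F → ℂ) 1) → ε η = ε η' := by
  have : PMod p M := ⟨hM⟩
  classical
  have h := mp_of_induced hc hPD
  rw [hc.1.closed.eq_inf_stab hT, ← NS_top] at he
  have := Fintype.ofFinite P
  obtain ⟨E, hE, h1⟩ := exists_autE (MulEquiv.refl P) (NS_le_normalizer ⊤ P (iB M _ c))
  have := Fintype.ofFinite E
  obtain ⟨χ, h2, h3⟩ := h.fi_cyc hB hcyc hP1 hE
  have h4 : Q.index = e := Nat.eq_of_mul_eq_mul_left Nat.card_pos (by rw [card_mul_index, hF, hQcard])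
  have h5 : e < p := by
    have := (Fact.out : p.Prime).two_le
    have := Nat.le_of_dvd (by omega) h3
    omega
  have h6 : IsPGroup p Q := by
    obtain ⟨n, hn⟩ := hPD.isPGroup.exists_card_eq
    exact .of_card (hQcard.trans hn)
  have h7 : ¬ p ∣ Q.index := fun h => by
    have := Nat.le_of_dvd (Nat.pos_of_ne_zero index_ne_zero_of_finite) h
    omega
  have h8 : Q.Normal := by
    have h8 := Nat.le_of_dvd (Nat.pos_of_ne_zero index_ne_zero_of_finite) (h6.toSylow h7).card_dvd_index
    rw [IsPGroup.toSylow_coe] at h8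
    have := (Nat.card_eq_one_iff_unique.1 (Nat.ModEq.eq_of_lt_of_lt (card_sylow_modEq_one p F) (by omega)
      (Fact.out : p.Prime).one_lt)).1
    exact (h6.toSylow h7).normal_of_subsingleton
  have h9 : Set.univ = principalBlock M F := (Set.eq_univ_of_forall fun ψ => sameBlock_of_centralizer h6 (fun g hg h => by
    obtain ⟨_ | k, hk⟩ := IsPGroup.iff_orderOf.1 h6 ⟨g, hQC ▸ hg⟩
    · simpa using hk
    · exact absurd (by rw [← orderOf_coe] at hk; exact hk ▸ dvd_pow_self p k.succ_ne_zero) h) (oneIrr F) ψ).symm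
  obtain ⟨e', h'⟩ := (isPBlock_principal.isDefectGroup_iff_top.1 (isDefectGroup_principal_iff.2
    (sylIn_top (h6.toSylow h7)))).exists_mp (isPBlock_principal (M := M)).isBI_top
  rw [IsPGroup.toSylow_coe] at h'
  have h10 : NS ⊤ Q e' = ⊤ := by
    rw [NS_top, normalizer_eq_top, top_inf_eq, eq_top_iff]
    exact fun x _ => h'.bp.bi_top.mem_stab_of_aug ((h'.bp.aug_iff isPBlock_principal.isBI_top h'.br).1 aug_principal)
      (by rw [hQC, normalizer_eq_top]; trivial)
  obtain ⟨E', hE', h11⟩ := exists_autE (mulEquivOfCyclicCardEq hQcard.symm) (NS_le_normalizer ⊤ Q e')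
  obtain rfl : E = E' := autE_unique hPD.isPGroup (by rw [h1, h11, he, h10, hQC, relIndex_top_right, h4]) h3
  have h12 : Q ≠ ⊥ := fun h => hP1 (card_eq_one.1 (by rw [← hQcard, h, card_bot]))
  obtain ⟨χ', h13, -⟩ := h'.fi_cyc isPBlock_principal hQ h12 hE'
  have h14 : ∀ u ∈ Q, u ≠ 1 → ∀ φ, IsClassFunction F φ → Nat.card Q * ctr p u (sb p Q e' u) φ (oneIrr F) = φ u := fun u hu hu1 φ hφ => by
    have h14 : centralizer {u} = Q := le_antisymm (fun g hg => hQC ▸ h13.free g (by rw [h10]; trivial) u hu hu1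
      (by rw [mul_inv_eq_iff_eq_mul, mem_centralizer_singleton_iff.1 hg])) fun g hg => mem_centralizer_singleton_iff.2 (h13.ab hg u hu).symm
    have := ctr_pg (by rwa [h14]) (h'.bp.isPBlock_sb hu) hφ (oneIrr F)
    rw [h14] at this
    simpa [oneIrr] using this
  have h15 : FI p _ Q e' _ E (oneIrr F) := { h13 with mem := oneIrr_mem, base := fun u hu hu1 => h14 u hu hu1 _ (isClassFunction_const 1) }
  obtain ⟨-, -, I, ε, h16, s, h17⟩ := h2.exists_perfect h15
  refine ⟨I, ε, h9 ▸ h16, fun η η' h18 h19 => by_contra fun h20 => ?_⟩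
  have h21 : ∀ η η' : IrrCharacter F, η ≠ η' → (∃ x ∈ Q, η.1 x ≠ η.1 1) → (∃ x ∈ Q, η'.1 x ≠ η'.1 1) → ε η = s := fun η η' a b c =>
    (h17 η (h9 ▸ Set.mem_univ _)).resolve_right fun ⟨δ, hδ, h⟩ => key (by
      have := Nat.le_of_dvd Nat.card_pos ((h6.card_eq_or_dvd).resolve_left (mt card_eq_one.1 h12))
      omega) a hδ (fun u hu hu1 => by
        have := h ((mulEquivOfCyclicCardEq hQcard.symm).symm ⟨u, hu⟩) (by simpa using hu1)
        rwa [gd, MulEquiv.apply_symm_apply, ← hQcard, h14 u hu hu1 _ η.2.isClassFunction] at this) b c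
  have h22 : η ≠ η' := fun h => h20 (h ▸ rfl)
  exact h20 ((h21 _ _ h22 h18 h19).trans (h21 _ _ h22.symm h19 h18).symm)

end Cfsg.Agent.S4634
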