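import Cfsg.Statements.S4635
import Cfsg.Agent.B.Perf

set_option autoImplicit false
open Cfsg

namespace Cfsg.Agent.S4635

open Cfsg.Agent Cfsg.Agent.B Cfsg.Agent.H2 Cfsg.Agent.H3 Subgroup MonoidAlgebra
open scoped Pointwise commutatorElement

/-- Let B be a block of the finite group G relative to a maximal ideal M of the algebraic integers containing the prime p, with a nontrivial cyclic defect group P; let Z be the subgroup of order p of P and H = N_G(Z), which contains N_G(P). Let c be the block of H with defect group P that induces B. Then B and c contain the same number of irreducible characters, have the same p-regular rank, and there is a perfect isometry from c onto B. -/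
theorem result {G : Type*} [Group G] [Finite G] (p : ℕ) [Fact p.Prime] (M : Ideal Cfsg.AlgInt) (hM : Cfsg.IsPModular p M) (B : Set (Cfsg.IrrCharacter G)) (hB : Cfsg.IsPBlock M B) (P : Subgroup G) (hPD : Cfsg.IsDefectGroup p M B P) (hP1 : P ≠ ⊥) (hcyc : IsCyclic P) (Z : Subgroup G) (hZ : Z ≤ P) (hZcard : Nat.card Z = p) (H : Subgroup G) (hH : H = Subgroup.normalizer (Z : Set G)) (c : Set (Cfsg.IrrCharacter H)) (hcD : Cfsg.IsDefectGroup p M c (P.subgroupOf H)) (hc : Cfsg.IsInducedBlock M H c B) : Nat.card c = Nat.card B ∧ Cfsg.blockRank p c = Cfsg.blockRank p B ∧ ∃ (I : Cfsg.IrrCharacter H → Cfsg.IrrCharacter G) (ε : Cfsg.IrrCharacter H → ℤ), Cfsg.IsPerfectIsometry p M c B I ε := by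
  have : PMod p M := ⟨hM⟩
  have hN : normalizer (P : Set G) ≤ H := fun g hg => by
    rw [hH]
    have := Fintype.ofFinite Z
    obtain ⟨z, hz⟩ := exists_prime_orderOf_dvd_card' (G := Z) p hZcard.symm.dvd
    have h1 : zpowers (z : G) = Z := eq_of_le_of_card_ge (zpowers_le.2 z.2) (by rw [hZcard, Nat.card_zpowers, orderOf_coe, hz])
    rw [← h1]
    exact mem_normalizer_of_cyclic hcyc hPD.isPGroup (hZ z.2) (by rwa [orderOf_coe]) ((mem_normalizer_iff.1 hg _).1 (hZ z.2))
  obtain ⟨e, e', E, h1, h2, h3, h4⟩ := exists_lift hc hPD hcD hN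
  have := Fintype.ofFinite (P.subgroupOf H)
  have := Fintype.ofFinite E
  have h5 := subgroupOfEquivOfLe (le_normalizer.trans hN)
  obtain ⟨χ, h6, -⟩ := h1.fi_cyc hB hcyc hP1 h3
  obtain ⟨χ', h7, -⟩ := h2.fi_cyc hc.1 (isCyclic_of_surjective _ h5.symm.surjective)
    (fun h => hP1 (card_eq_one.1 (by rw [← Nat.card_congr h5.toEquiv, h, card_bot]))) h4
  obtain ⟨h8, h9, I, ε, h10, -⟩ := h6.exists_perfect h7
  exact ⟨h8, h9, I, ε, h10⟩

end Cfsg.Agent.S4635
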