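import Cfsg.Statements.S4636
import Cfsg.Agent.B.Cyc2

set_option autoImplicit false
open scoped Pointwise
open Cfsg

namespace Cfsg.Agent.S4636

open Cfsg.Agent Cfsg.Agent.B Cfsg.Agent.H2 Cfsg.Agent.H3 Cfsg.Agent.L Subgroup MonoidAlgebra
open scoped Pointwise commutatorElement

/-- Let P be a nontrivial cyclic p-subgroup of the finite group G and Z its subgroup of order p. For every x outside N_G(Z), P meets its conjugate xPx⁻¹ trivially; consequently N_G(Q) ≤ N_G(Z) for every nontrivial subgroup Q of P. -/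
theorem result {G : Type*} [Group G] [Finite G] (p : ℕ) [Fact p.Prime] (P : Subgroup G) (hP : IsPGroup p P) (hP1 : P ≠ ⊥) (hcyc : IsCyclic P) (Z : Subgroup G) (hZ : Z ≤ P) (hZcard : Nat.card Z = p) : (∀ x : G, x ∉ Subgroup.normalizer (Z : Set G) → P ⊓ MulAut.conj x • P = ⊥) ∧ ∀ Q : Subgroup G, Q ≤ P → Q ≠ ⊥ → Subgroup.normalizer (Q : Set G) ≤ Subgroup.normalizer (Z : Set G) := by
  classical
  have hz : ∃ z, Z = zpowers z ∧ orderOf z = p := by
    haveI : IsCyclic Z := isCyclic_of_prime_card hZcard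
    obtain ⟨z, hz⟩ := (isCyclic_iff_exists_zpowers_eq_top.1 this)
    have h1 : Z = zpowers (z : G) := by
      have := congrArg (Subgroup.map Z.subtype) hz
      rw [MonoidHom.map_zpowers, ← MonoidHom.range_eq_map, range_subtype] at this
      exact this.symm
    exact ⟨z, h1, by rw [← Nat.card_zpowers, ← h1, hZcard]⟩
  obtain ⟨z, rfl, ho⟩ := hz
  have hzP : z ∈ P := hZ (mem_zpowers z)
  have key : ∀ Q : Subgroup G, Q ≤ P → Q ≠ ⊥ → z ∈ Q := by
    intro Q h1 h2
    obtain ⟨⟨w, hw⟩, h3⟩ := ne_bot_iff_exists_ne_one.1 h2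
    exact zpowers_le.2 hw (mem_zpowers_of_cyclic hcyc hP hzP ho (h1 hw) fun h => h3 (Subtype.ext h))
  constructor
  · intro x hx
    by_contra h
    have h1 : z ∈ MulAut.conj x • P := (key _ inf_le_left h).2
    rw [mem_pointwise_smul_iff_inv_smul_mem] at h1
    refine hx (inv_mem_iff.1 (mem_normalizer_of_cyclic hcyc hP hzP ho ?_))
    simpa using h1
  · intro Q h1 h2 x hx
    exact mem_normalizer_of_cyclic hcyc hP hzP ho (h1 ((mem_normalizer_iff.1 hx z).1 (key Q h1 h2)))

end Cfsg.Agent.S4636
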