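import Cfsg.Statements.S4638
import Cfsg.Agent.B.Perf
import Cfsg.Agent.S4637

set_option autoImplicit false
open Cfsg

namespace Cfsg.Agent.S4638

open Cfsg.Agent Cfsg.Agent.B Cfsg.Agent.H2 Cfsg.Agent.H3 Subgroup MonoidAlgebra
open scoped Pointwise commutatorElement
theorem aux {G : Type*} [Group G] [Finite G] {M : Ideal AlgInt} [hM : PMod 2 M] {B : Set (IrrCharacter G)} {P : Subgroup G}
    {e : MonoidAlgebra (F M) G} {A : Type*} [Group A] [Fintype A] {E : Subgroup (MulAut A)} {α : A ≃* P}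
    (h : MP 2 ⊤ (eB M B) P e) (hB : IsPBlock M B) (hV : IsKleinFour P)
    (hE : ∀ σ, σ ∈ E ↔ ∃ t ∈ NS ⊤ P e, ∀ u, (α (σ u) : G) = t * α u * t⁻¹) : ∃ χ₀, FI 2 B P e α E χ₀ := by
  classical
  have hab : P ≤ centralizer (P : Set G) := le_centralizer_iff_isMulCommutative.2 IsKleinFour.isMulCommutative
  obtain ⟨c, hc, rfl⟩ := h.bp.exists_iB
  have hc' := (isInducedBlock_iff_br h.bp.pgrp hab le_rfl (centralizer_le_normalizer _) hc hB).2 h.br
  obtain ⟨-, h1, h2⟩ := S4637.result M hM.1 B hB P (hB.isDefectGroup_iff_top.2 h.dg) hV c hc' (NS ⊤ P (iB M _ c)) (fun g => by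
    rw [NS_top, hc.closed.stabilizesBlock_iff, mem_inf]
    exact ⟨fun h => ⟨h.1, normalizer_le_nc _ h.1, h.2⟩, fun h => ⟨h.1, h.2.2⟩⟩) _ rfl
  have hf : ∀ g ∈ NS ⊤ P (iB M _ c), ∀ x ∈ P, x ≠ 1 → g * x * g⁻¹ = x → g ∈ centralizer (P : Set G) := fun g hg x hx h6 h7 => by
    obtain ⟨y, hk⟩ := exists_k4_of_mem hV hx h6
    have h8 : g ^ 2 ^ 1 * y * (g ^ 2 ^ 1)⁻¹ = y := by
      rw [show g ^ 2 ^ 1 * y * (g ^ 2 ^ 1)⁻¹ = g * (g * y * g⁻¹) * g⁻¹ by rw [pow_one, sq]; group]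
      rcases (hk.mem _).1 ((mem_normalizer_iff.1 hg.1.2 y).1 hk.b_mem) with h | h | h | h
      · exact absurd (by simpa using h) hk.b1
      · exact absurd (by simpa using h.trans h7.symm) hk.ne.symm
      · rw [h, h]
      · rw [h, ← conj_mul, h7, h, ← mul_assoc, hk.a2, one_mul]
    have h9 : g ^ 2 ^ 1 * x * (g ^ 2 ^ 1)⁻¹ = x := by
      rw [show g ^ 2 ^ 1 * x * (g ^ 2 ^ 1)⁻¹ = g * (g * x * g⁻¹) * g⁻¹ by rw [pow_one, sq]; group, h7, h7]
    refine h.mem_centralizer_of_pow hab hg (k := 1) fun z hz => (mul_inv_eq_iff_eq_mul.1 ?_).symm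
    rcases (hk.mem _).1 hz with rfl | rfl | rfl | rfl
    exacts [by simp, h9, h8, by rw [← conj_mul, h8, h9]]
  obtain ⟨χ, hχ⟩ := hB.nonempty
  refine ⟨χ, h, hB, hab, fun h0 => by simpa [h0] using hV.card_four, hE, hf, h2.ge, hχ, fun u hu hu1 => ?_⟩
  have h3 := pElt_of_mem h.bp.pgrp hu
  have h4 := h.bp.isPBlock_sb hu
  have h5 := h.defect_sb hB hu (mem_centralizer_comm.1 (hab hu))
  have h6 := h.induced_sb hB hu
  refine eq_one_of_galois (Finset.univ.filter (· ∈ B)) (fun χ => (Nat.card P : ℂ) * ctr 2 u (sb 2 P _ u) χ.1 χ.1)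
    (fun χ _ => by rw [h.card_eq_pow hB, Nat.cast_pow, ← h5]; exact isIntegral_ctr h3 h4 χ.2.isGen χ.2.isGen)
    (fun χ hχ => mul_ne_zero card_ne_zero (h6.ctr_self_ne_zero h3 h5 (by simpa using hχ)))
    (fun σ χ _ => norm_galois_ctr h3 h4.closed σ χ _) ?_ χ (by simpa using hχ)
  rw [← Finset.mul_sum, Finset.sum_filter_of_ne fun χ _ h7 => by_contra fun h8 => h7 (h6.ctr_eq_zero h3 h8),
    sum_ctr_self h3 h4.closed, ((h.card_of_free hB hab hf rfl).1 u hu hu1).1, card_filter_mem, h1, hV.card_four]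
  simp

/-- Let B be a block of the finite group G relative to a maximal ideal M of the algebraic integers containing 2, with a Klein four defect group P, and let c be its Brauer correspondent: the block of N_G(P) with defect group P that induces B. Then there is a perfect isometry from c onto B. -/
theorem result {G : Type*} [Group G] [Finite G] (M : Ideal Cfsg.AlgInt) (hM : Cfsg.IsPModular 2 M) (B : Set (Cfsg.IrrCharacter G)) (hB : Cfsg.IsPBlock M B) (P : Subgroup G) (hPD : Cfsg.IsDefectGroup 2 M B P) (hV : IsKleinFour P) (c : Set (Cfsg.IrrCharacter (Subgroup.normalizer (P : Set G)))) (hcD : Cfsg.IsDefectGroup 2 M c (P.subgroupOf (Subgroup.normalizer (P : Set G)))) (hc : Cfsg.IsInducedBlock M (Subgroup.normalizer (P : Set G)) c B) : ∃ (I : Cfsg.IrrCharacter (Subgroup.normalizer (P : Set G)) → Cfsg.IrrCharacter G) (ε : Cfsg.IrrCharacter (Subgroup.normalizer (P : Set G)) → ℤ), Cfsg.IsPerfectIsometry 2 M c B I ε :=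 by
  have : PMod 2 M := ⟨hM⟩
  obtain ⟨e, e', E, h1, h2, h3, h4⟩ := exists_lift hc hPD hcD le_rfl
  have := Fintype.ofFinite (P.subgroupOf (normalizer (P : Set G)))
  have := Fintype.ofFinite E
  have h5 := subgroupOfEquivOfLe (le_normalizer (H := P))
  obtain ⟨χ, h6⟩ := aux h1 hB hV h3
  obtain ⟨χ', h7⟩ := aux h2 hc.1 ⟨(Nat.card_congr h5.toEquiv).trans hV.card_four,
    (Monoid.exponent_eq_of_mulEquiv h5).trans hV.exponent_two⟩ h4
  obtain ⟨-, -, I, ε, h10, -⟩ := h6.exists_perfect h7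
  exact ⟨I, ε, h10⟩

end Cfsg.Agent.S4638
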