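import Cfsg.Statements.S4642
import Cfsg.Agent.B.Fong

set_option autoImplicit false
open Cfsg

namespace Cfsg.Agent.S4642

open Cfsg.Agent Cfsg.Agent.B Cfsg.Agent.H2 Cfsg.Agent.H3 Cfsg.Agent.L Subgroup MonoidAlgebra
open scoped Pointwise commutatorElement

/-- Let G be a finite group, p a prime, M a maximal ideal of the algebraic integers containing p, K the largest normal subgroup of G of order prime to p, and L the preimage in G of the largest normal p-subgroup of G/K. Let Q be a Sylow p-subgroup of L and suppose C_G(Q) ≤ L. Let θ be an irreducible character of K invariant under conjugation by every element of G, and let B be the set of irreducible characters of G whose restriction to K contains θ. Then B is a block of G, every Sylow p-subgroup of G is a defect group of B, and B is of principal type: for every p-subgroup R of G exactly one block of C_G(R) induces B. -/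
theorem result {G : Type*} [Group G] [Fintype G] (p : ℕ) [Fact p.Prime] (M : Ideal Cfsg.AlgInt) (hM : Cfsg.IsPModular p M) (K : Subgroup G) (hK : K = Cfsg.pPrimeCore p G) [Fintype K] (L : Subgroup G) (hL : L = Cfsg.pPrimePCore p G) (Q : Subgroup G) (hQL : Q ≤ L) (hQp : IsPGroup p Q) (hQS : ¬ p ∣ Q.relIndex L) (hCQ : Subgroup.centralizer (Q : Set G) ≤ L) (θ : Cfsg.IrrCharacter K) (hθ : ∀ g : G, Cfsg.IsConjCharOf K g (θ : K → ℂ) (θ : K → ℂ)) (B : Set (Cfsg.IrrCharacter G)) (hBdef : ∀ χ : Cfsg.IrrCharacter G, χ ∈ B ↔ Cfsg.classInner (fun k : K => (χ : G → ℂ) k) (θ : K → ℂ) ≠ 0) : Cfsg.IsPBlock M B ∧ (∀ S : Sylow p G, Cfsg.IsDefectGroup p M B S) ∧ ∀ R : Subgroup G, IsPGroup p R → ∃! f : Set (Cfsg.IrrCharacter (Subgroup.centralizer (R : Set G))), Cfsg.IsInducedBlock M (Subgroup.centralizer (R : Set G)) f B := by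
  have : PMod p M := ⟨hM⟩
  have : K.Normal := hK ▸ inferInstance
  have h0 : H8.PLay p (⊤ : Subgroup G) = ⊥ := by
    rw [H8.PLay_top, ← H8.isPConstrained_iff]
    intro S
    subst hL
    obtain ⟨x, hx, h⟩ := (sylIn_of_not_dvd hQL hQp hQS).exists_cj_eq (sylIn_map_subtype S)
    rw [← h, ← cj_centralizer]
    exact (cj_mono x hCQ).trans (cj_eq_of_normal x _).le
  obtain ⟨h1, -, h2, h3⟩ := fong_block (M := M) hK h0 (θ := θ) (fun g => funext fun n => (hθ g n _ rfl)) hBdef
  refine ⟨h1, fun P => (h2 _).2 (sylIn_top P), fun R hR => ?_⟩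
  obtain ⟨f, hf, h4⟩ := (h3 R hR).exists_iB
  refine ⟨f, (isInducedBlock_centralizer_iff hR).2 (isBrauerPairOf_iff.2 ⟨hR, hf, h1, by
    rw [h4, hf.isBI.idem]⟩), fun c hc => ?_⟩
  obtain ⟨-, h5, -, h6⟩ := isBrauerPairOf_iff.1 ((isInducedBlock_centralizer_iff hR).1 hc)
  exact h5.closed.iB_inj hf.closed (hf.isBI.eq_of_mul h5.isBI (by rw [← h4, h6]; exact h5.isBI.ne)).symm

end Cfsg.Agent.S4642
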