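import Cfsg.Statements.S4644
import Cfsg.Agent.B.Wat

set_option autoImplicit false
open Cfsg

namespace Cfsg.Agent.S4644

open Cfsg.Agent Cfsg.Agent.B Cfsg.Agent.H2 Cfsg.Agent.H3 Subgroup MonoidAlgebra
open scoped Pointwise commutatorElement

/-- Let B be a block of the finite group G relative to a maximal ideal M of the algebraic integers containing the prime p, with a commutative defect group P; let c be a block of C_G(P) inducing B and T the stabilizer of c in N_G(P). Let u be an element of P fixed under conjugation by every element of T, H = C_G(u) (so C_G(P) ≤ H), and f the block of H induced by c inside H. Then B and f have the same p-regular rank and the same number of irreducible characters. -/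
theorem result {G : Type*} [Group G] [Finite G] (p : ℕ) [Fact p.Prime] (M : Ideal Cfsg.AlgInt) (hM : Cfsg.IsPModular p M) (B : Set (Cfsg.IrrCharacter G)) (hB : Cfsg.IsPBlock M B) (P : Subgroup G) (hPD : Cfsg.IsDefectGroup p M B P) (hPab : ∀ x ∈ P, ∀ y ∈ P, x * y = y * x) (c : Set (Cfsg.IrrCharacter (Subgroup.centralizer (P : Set G)))) (hc : Cfsg.IsInducedBlock M (Subgroup.centralizer (P : Set G)) c B) (T : Subgroup G) (hT : ∀ g : G, g ∈ T ↔ (g ∈ Subgroup.normalizer (P : Set G) ∧ Cfsg.StabilizesBlock (Subgroup.centralizer (P : Set G)) c g)) (u : G) (hu : u ∈ P) (huT : ∀ g ∈ T, g * u * g⁻¹ = u) (H : Subgroup G) (hH : H = Subgroup.centralizer ({u} : Set G)) (f : Set (Cfsg.IrrCharacter H)) (hf : Cfsg.IsInducedBlockIn M H (Subgroup.centralizer (P : Set G)) c f) : Cfsg.blockRank p B = Cfsg.blockRank p f ∧ Nat.card B = Nat.card f := by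
  have : PMod p M := ⟨hM⟩
  classical
  have h := mp_of_induced hc hPD
  have hab : P ≤ centralizer (P : Set G) := fun x hx y hy => hPab y hy x hx
  have h0 : H = centralizer (zpowers u : Set G) := by rw [hH, centralizer_zpowers]
  have hPH := hab.trans (centralizer_anti (zpowers_le.2 hu))
  have h1 := ple_of_inducedIn h0 (zpowers_le.2 hu) (h0 ▸ hPH) hPD.isPGroup hf
  have h2 : NS ⊤ P (iB M _ c) ≤ centralizer {u} := fun g hg => mem_centralizer_singleton_iff.2
    (mul_inv_eq_iff_eq_mul.1 (huT g (((hc.1.closed.eq_inf_stab hT).trans (NS_top _ _).symm).ge hg)))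
  have h3 := h.bp.lq_eq (h0.trans (CH_top _).symm) hf.2.1 h1
  have h4 := h.lq_eq_of_fixed hab hu h2
  rw [h3, ← zpowers_one_eq_bot, h.bp.lq_top (one_mem _), h.rank_sb_one hB] at h4
  refine ⟨h4.symm, ?_⟩
  have := Fintype.ofFinite P
  have h5 := h.centralizer h1 hPH
  have h6 := h.sum_lin_top hB hab 1 fun _ _ _ _ _ => rfl
  have h7 := MP.sum_lin (H := H) (by rwa [CH_top, ← h0] at h5) hf.2.1 hab 1 fun _ _ _ _ _ => rfl
  rw [if_pos rfl] at h6 h7
  apply Nat.cast_injective (R := ℂ)
  rw [← h6, ← h7]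
  refine Finset.sum_congr rfl fun v _ => ?_
  have h8 := hab.trans (centralizer_anti (zpowers_le.2 v.2))
  obtain ⟨f', h9⟩ := h.bp.exists_ple (zpowers_le.2 v.2)
  have h10 := (h.centralizer h9 h8).lq_eq_of_fixed hab hu
    (le_trans (inf_le_inf_right _ (inf_le_inf_right _ le_top)) h2)
  rw [h.bp.lq_CH (zpowers_le.2 v.2) (zpowers_le.2 hu) h8, h.bp.lq_CH (zpowers_le.2 v.2) bot_le h8, sup_bot_eq,
    sup_comm, ← h.bp.lq_CH (zpowers_le.2 hu) (zpowers_le.2 v.2) hPH, CH_top, ← h0] at h10
  rw [h10, show NS H P (iB M _ c) = NS ⊤ P (iB M _ c) from le_antisymm (inf_le_inf_right _ (inf_le_inf_right _ le_top))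
    fun g hg => ⟨⟨hH ▸ h2 hg, hg.1.2⟩, hg.2⟩]

end Cfsg.Agent.S4644
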