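import Cfsg.Statements.S4645
import Cfsg.Agent.B.Sub2

set_option autoImplicit false
open Cfsg

namespace Cfsg.Agent.S4645

open Cfsg.Agent Cfsg.Agent.B Cfsg.Agent.H2 Cfsg.Agent.H3 Cfsg.Agent.L Subgroup MonoidAlgebra
open scoped Pointwise commutatorElement

/-- Let B be a block of the finite group G relative to a maximal ideal M of the algebraic integers containing the prime p, with a nontrivial cyclic defect group P; let c be a block of C_G(P) inducing B and T the stabilizer of c in N_G(P). Let Q be a nontrivial subgroup of P (so C_G(P) ≤ C_G(Q)), f the block of C_G(Q) induced by c inside C_G(Q), and T' the stabilizer of f in N_G(Q). Then T' = T·C_G(Q), the index of C_G(Q) in T' equals the index of C_G(P) in T, f has p-regular rank 1, and f is a nilpotent block of C_G(Q). -/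
theorem result {G : Type*} [Group G] [Finite G] (p : ℕ) [Fact p.Prime] (M : Ideal Cfsg.AlgInt) (hM : Cfsg.IsPModular p M) (B : Set (Cfsg.IrrCharacter G)) (hB : Cfsg.IsPBlock M B) (P : Subgroup G) (hPD : Cfsg.IsDefectGroup p M B P) (hP1 : P ≠ ⊥) (hcyc : IsCyclic P) (c : Set (Cfsg.IrrCharacter (Subgroup.centralizer (P : Set G)))) (hc : Cfsg.IsInducedBlock M (Subgroup.centralizer (P : Set G)) c B) (T : Subgroup G) (hT : ∀ g : G, g ∈ T ↔ (g ∈ Subgroup.normalizer (P : Set G) ∧ Cfsg.StabilizesBlock (Subgroup.centralizer (P : Set G)) c g)) (Q : Subgroup G) (hQP : Q ≤ P) (hQ1 : Q ≠ ⊥) (f : Set (Cfsg.IrrCharacter (Subgroup.centralizer (Q : Set G)))) (hf : Cfsg.IsInducedBlockIn M (Subgroup.centralizer (Q : Set G)) (Subgroup.centralizer (P : Set G)) c f) (T' : Subgroup G) (hT' : ∀ g : G, g ∈ T' ↔ (g ∈ Subgroup.normalizer (Q : Set G) ∧ Cfsg.StabilizesBlock (Subgroup.centralizer (Q : Set G)) f g)) : T' = T ⊔ Subgroup.centralizer (Q : Set G) ∧ (Subgroup.centralizer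 (Q : Set G)).relIndex T' = (Subgroup.centralizer (P : Set G)).relIndex T ∧ Cfsg.blockRank p f = 1 ∧ Cfsg.IsNilpotentBlock p M f := by
  have : PMod p M := ⟨hM⟩
  have h := mp_of_induced hc hPD
  have hab : P ≤ centralizer (P : Set G) := le_centralizer_iff_isMulCommutative.2 inferInstance
  have hPQ := hab.trans (centralizer_anti hQP)
  have h1 := ple_of_inducedIn rfl hQP hPQ hPD.isPGroup hf
  rw [(hf.2.1.closed.eq_inf_stab hT').trans (NS_top _ _).symm,
    (hc.1.closed.eq_inf_stab hT).trans (NS_top _ _).symm]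
  have h2 : NS ⊤ P (iB M _ c) ≤ normalizer (Q : Set G) := fun g hg => H1.mem_normalizer_of_conj_mem fun x hx => by
    obtain ⟨a, rfl⟩ := H1.exists_zpowers_eq P
    obtain ⟨i, rfl⟩ := hQP hx
    obtain ⟨j, hj⟩ := (mem_normalizer_iff.1 hg.1.2 a).1 (mem_zpowers a)
    dsimp only at hj hx ⊢
    rw [← conj_zpow, ← hj, ← zpow_mul, mul_comm, zpow_mul]
    exact zpow_mem hx j
  have h3 : NS ⊤ P (iB M _ c) ⊓ centralizer (Q : Set G) ≤ centralizer (P : Set G) := fun g hg => by
    obtain ⟨⟨x, hx⟩, hx1⟩ := (ne_bot_iff_exists_ne_one).1 hQ1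
    exact h.free_of_cyclic hcyc hg.1 (hQP hx) (by simpa using hx1) (by rw [← hg.2 x hx]; group)
  have h4 := h.centralizer h1 hPQ
  rw [CH_top] at h4
  have h5 := (h4.nil_iff_of_abelian hab).2 fun x hx => h3 ⟨⟨⟨trivial, hx.1.2⟩, hx.2⟩, hx.1.1⟩
  rw [h.NS_eq_of_abelian hab h1, CH_top, inf_eq_left.2 h2]
  refine ⟨rfl, ?_, (IsPBlock.rank_of_nil hf.2.1 h5 h4.dg hab).1, (isNilpotentBlock_iff hf.2.1).2 h5⟩
  rw [H1.relIndex_sup_norm (h2.trans (normalizer_le_nc Q)), ← inf_relIndex_right,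
    ← inf_relIndex_right (centralizer (P : Set G))]
  congr 1
  exact le_antisymm (le_inf (fun g hg => h3 ⟨hg.2, hg.1⟩) inf_le_right) (inf_le_inf_right _ (centralizer_anti hQP))

end Cfsg.Agent.S4645
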