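import Cfsg.Statements.S4691
import Cfsg.Agent.B.Cov2
import Cfsg.Agent.H2.Alperin

set_option autoImplicit false
open Cfsg

namespace Cfsg.Agent.S4691

open Cfsg.Agent Cfsg.Agent.B Cfsg.Agent.H2 Cfsg.Agent.H3 Cfsg.Agent.L Subgroup MonoidAlgebra
open scoped Pointwise commutatorElement

/-- Fix a prime p and a maximal ideal M of the algebraic integers containing p. A finite group G has a normal p-complement if and only if its principal p-block is nilpotent. -/
theorem result {G : Type*} [Group G] [Fintype G] (p : ℕ) [Fact p.Prime] (M : Ideal Cfsg.AlgInt) (hM : Cfsg.IsPModular p M) : Cfsg.HasNormalPComplement p G ↔ Cfsg.IsNilpotentBlock p M (Cfsg.principalBlock M G) := by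
  have : PMod p M := ⟨hM⟩
  rw [hasNPC_iff_top, isNilpotentBlock_iff_top isPBlock_principal]
  have hc : ∀ x : G, ¬ p ∣ orderOf x ↔ (orderOf x).Coprime p := fun x => by
    rw [Nat.coprime_comm, (Fact.out : p.Prime).coprime_iff_not_dvd]
  constructor
  · intro h Q f hf _ x hx h1
    exact h.mem_centralizer hf.pgrp le_top (mem_top x) hx.1.2 ((hc x).1 h1)
  · intro h
    refine pNil_of_forall_centralizer fun U _ hU _ g hg h1 => ?_
    obtain ⟨f, hf, h2⟩ := exists_bp_aug (M := M) (le_top : U ≤ ⊤) hU
    exact h U f hf (hf.br_of_aug isPBlock_principal.isBI_top aug_principal h2) g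
      ⟨hg, hf.bi.mem_stab_of_aug h2 (le_normalizer_CH (R := zpowers g) le_normalizer_of_normal
        (zpowers_le_of_mem hg.2) (mem_zpowers g))⟩ ((hc g).2 h1)

end Cfsg.Agent.S4691
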