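import Cfsg.Statements.S4646
import Cfsg.Agent.B.Rank2
import Cfsg.Agent.S4691

set_option autoImplicit false
open Cfsg

namespace Cfsg.Agent.S4646

open Cfsg.Agent Cfsg.Agent.B Cfsg.Agent.H2 Cfsg.Agent.H3 Cfsg.Agent.L Subgroup MonoidAlgebra
open scoped Pointwise commutatorElement

/-- For a finite group G, a prime p and a maximal ideal M of the algebraic integers containing p: the principal block of G is nilpotent if and only if its p-regular rank is 1 (the trivial Brauer character is its only irreducible Brauer character). -/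
theorem result {G : Type*} [Group G] [Finite G] (p : ℕ) [Fact p.Prime] (M : Ideal Cfsg.AlgInt) (hM : Cfsg.IsPModular p M) : Cfsg.IsNilpotentBlock p M (Cfsg.principalBlock M G) ↔ Cfsg.blockRank p (Cfsg.principalBlock M G) = 1 := by
  have : PMod p M := ⟨hM⟩
  classical
  have := Fintype.ofFinite G
  rw [← S4691.result p M hM, hasNPC_iff_top]
  constructor
  · intro h
    refine rank_eq_one_of isPBlock_principal.nonempty (reg p fun _ => 1) fun χ hχ => ⟨χ.1 1, ?_⟩
    have hN : ¬ p ∣ Nat.card (resOf p (⊤ : Subgroup G)) :=
      (Fact.out : p.Prime).coprime_iff_not_dvd.1 (pNil_iff_card.1 h).symm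
    ext g
    by_cases hg : p ∣ orderOf g
    · simp [reg_of_dvd _ hg]
    · simp [reg_of_not_dvd _ hg, apply_of_mem_charKer
        (le_charKer_of_mem_principal hN hχ (mem_resOf (mem_top g) (reg_iff_coprime.1 hg)))]
  · intro h x hx
    have h1 : ∀ χ ∈ principalBlock M G, resOf p ⊤ ≤ charKer (χ : G → ℂ) := fun χ hχ =>
      resOf_le_iff.2 fun g _ hg => χ.2.mem_charKer_iff.2 (by
        have := congrFun (exists_smul_of_rank_one h oneIrr_mem hχ) g
        simpa [reg_of_not_dvd _ (reg_iff_coprime.2 hg), oneIrr] using this)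
    rw [← reg_iff_coprime]
    intro hp
    have h2 := (isPBlock_principal (M := M) (G := G)).closed.blockCoeff_eq_zero hp
    have h3 := cast_sum_degree_sq (principalBlock M G)
    rw [show blockCoeff (principalBlock M G) 1 = blockCoeff (principalBlock M G) x by
      rw [blockCoeff_eq, blockCoeff_eq]
      congr 1
      refine Finset.sum_congr rfl fun χ _ => ?_
      split_ifs with hχ
      · rw [inv_one, apply_of_mem_charKer (h1 χ hχ (inv_mem hx))]
      · rfl, h2, mul_zero, Nat.cast_eq_zero, Finset.sum_eq_zero_iff] at h3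
    exact (pow_pos (oneIrr G).2.charDegree_pos 2).ne' (h3 (oneIrr G) (by simpa using oneIrr_mem))

end Cfsg.Agent.S4646
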