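import Cfsg.Statements.S4649
import Cfsg.Agent.B.Cyc4

set_option autoImplicit false
open Cfsg

namespace Cfsg.Agent.S4649

open Cfsg.Agent Cfsg.Agent.B Cfsg.Agent.H2 Cfsg.Agent.H3 Cfsg.Agent.L Subgroup MonoidAlgebra
open scoped Pointwise commutatorElement

/-- A block with cyclic defect group, of a finite group relative to a maximal ideal M of the algebraic integers containing the prime p, is nilpotent if and only if its p-regular rank is 1 (it has a unique irreducible Brauer character). -/
theorem result {G : Type*} [Group G] [Finite G] (p : ℕ) [Fact p.Prime] (M : Ideal Cfsg.AlgInt) (hM : Cfsg.IsPModular p M) (B : Set (Cfsg.IrrCharacter G)) (hB : Cfsg.IsPBlock M B) (P : Subgroup G) (hPD : Cfsg.IsDefectGroup p M B P) (hcyc : IsCyclic P) : Cfsg.IsNilpotentBlock p M B ↔ Cfsg.blockRank p B = 1 := by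
  have : PMod p M := ⟨hM⟩
  have := Fintype.ofFinite G
  obtain ⟨e, h⟩ := (hB.isDefectGroup_iff_top.1 hPD).exists_mp hB.isBI_top
  have hab : P ≤ centralizer (P : Set G) := le_centralizer_iff_isMulCommutative.2 inferInstance
  rw [isNilpotentBlock_iff_top hB]
  refine ⟨fun h1 => (h.of_nil_abelian hB h1 hab).1, fun h1 => (h.nil_iff_of_abelian hab).2 ?_⟩
  by_cases h2 : P = ⊥
  · rw [h2, coe_bot, centralizer_one_eq]; exact le_top
  obtain ⟨z, g, h3⟩ := h.exists_CS' hB hcyc h2
  exact relIndex_eq_one.1 (Nat.le_antisymm (h1 ▸ h3.le_rank) (Nat.pos_of_ne_zero h3.ne))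

end Cfsg.Agent.S4649
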