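import Cfsg.Statements.S4648
import Cfsg.Agent.B.Small
import Cfsg.Agent.S4649
import Cfsg.Agent.S4637

set_option autoImplicit false
open Cfsg

namespace Cfsg.Agent.S4648

open Cfsg.Agent Cfsg.Agent.B Cfsg.Agent.H2 Cfsg.Agent.H3 Subgroup MonoidAlgebra
open scoped Pointwise commutatorElement

/-- Let B be a block of the finite group G relative to a maximal ideal M of the algebraic integers containing the prime p, with a nontrivial defect group D. If B has p-regular rank 1 and at most four irreducible characters, then B is nilpotent, D has exactly as many elements as B has irreducible characters, and p is 2 or 3. -/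
theorem result {G : Type*} [Group G] [Finite G] (p : ℕ) [Fact p.Prime] (M : Ideal Cfsg.AlgInt) (hM : Cfsg.IsPModular p M) (B : Set (Cfsg.IrrCharacter G)) (hB : Cfsg.IsPBlock M B) (D : Subgroup G) (hD : Cfsg.IsDefectGroup p M B D) (hD1 : D ≠ ⊥) (hl : Cfsg.blockRank p B = 1) (hk : Nat.card B ≤ 4) : Cfsg.IsNilpotentBlock p M B ∧ Nat.card D = Nat.card B ∧ (p = 2 ∨ p = 3) := by
  have : PMod p M := ⟨hM⟩
  have h1 := (IsPBlock.card_eq_of_le_four hB hl hk).trans (IsDefectGroup.card_eq_pow hD hB.closed).symm
  have h2 := IsDefectGroup.card_eq_pow hD hB.closed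
  have h3 : blockDefect p B ≠ 0 := fun h => hD1 (card_eq_one.1 (by rw [h2, h, pow_zero]))
  have hp : p.Prime := Fact.out
  have h4 : p ≤ 4 := (Nat.le_self_pow h3 p).trans (by omega)
  have h5 : p = 2 ∨ p = 3 := by
    have := hp.two_le
    interval_cases p <;> simp_all (decide := true)
  refine ⟨?_, h1.symm, h5⟩
  by_cases hc : IsCyclic D
  · exact (S4649.result p M hM B hB D hD hc).2 hl
  have h6 : blockDefect p B ≠ 1 := fun h => hc (isCyclic_of_prime_card (p := p) (by rw [h2, h, pow_one]))
  have h7 := Nat.pow_le_pow_right hp.pos (show 2 ≤ blockDefect p B by omega)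
  obtain rfl : p = 2 := h5.resolve_right (by rintro rfl; omega)
  have h8 : Nat.card D = 2 ^ 2 := by omega
  have hV : IsKleinFour D := ⟨h8, (not_isCyclic_iff_exponent_eq_prime hp h8).1 hc⟩
  have hab : D ≤ centralizer (D : Set G) := le_centralizer_iff_isMulCommutative.2 IsKleinFour.isMulCommutative
  obtain ⟨c, hc, -⟩ := IsDefectGroup.exists_root hD hB hab le_rfl (centralizer_le_normalizer _)
  have h9 := (S4637.result M hM B hB D hD hV c hc (NS ⊤ D (iB M _ c)) (fun g => by
    rw [NS_top, hc.1.closed.stabilizesBlock_iff, mem_inf]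
    exact ⟨fun h => ⟨h.1, normalizer_le_nc _ h.1, h.2⟩, fun h => ⟨h.1, h.2.2⟩⟩) _ rfl).2.2
  rw [isNilpotentBlock_iff_top hB]
  exact ((mp_of_induced hc hD).nil_iff_of_abelian hab).2 (relIndex_eq_one.1 (h9.symm.trans hl))

end Cfsg.Agent.S4648
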