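import Cfsg.Statements.S4650
import Cfsg.Agent.B.Cov3

set_option autoImplicit false
open Cfsg

namespace Cfsg.Agent.S4650

open Cfsg.Agent Cfsg.Agent.B Cfsg.Agent.H2 Cfsg.Agent.H3 Cfsg.Agent.L Subgroup MonoidAlgebra
open scoped Pointwise commutatorElement

/-- Let B be a block of the finite group G relative to a maximal ideal M of the algebraic integers containing the prime p, with a nontrivial commutative defect group P; let c be a block of C_G(P) inducing B and T the stabilizer of c in N_G(P). Then T/C_G(P) acts freely on the non-identity elements of P (an element of T fixing a non-identity element of P under conjugation lies in C_G(P)) if and only if, for every nontrivial subgroup Q of P, the block of C_G(Q) induced by c inside C_G(Q) is a nilpotent block of C_G(Q). -/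
theorem result {G : Type*} [Group G] [Finite G] (p : ℕ) [Fact p.Prime] (M : Ideal Cfsg.AlgInt) (hM : Cfsg.IsPModular p M) (B : Set (Cfsg.IrrCharacter G)) (hB : Cfsg.IsPBlock M B) (P : Subgroup G) (hPD : Cfsg.IsDefectGroup p M B P) (hPab : ∀ x ∈ P, ∀ y ∈ P, x * y = y * x) (hP1 : P ≠ ⊥) (c : Set (Cfsg.IrrCharacter (Subgroup.centralizer (P : Set G)))) (hc : Cfsg.IsInducedBlock M (Subgroup.centralizer (P : Set G)) c B) (T : Subgroup G) (hT : ∀ g : G, g ∈ T ↔ (g ∈ Subgroup.normalizer (P : Set G) ∧ Cfsg.StabilizesBlock (Subgroup.centralizer (P : Set G)) c g)) : (∀ g ∈ T, ∀ x ∈ P, x ≠ 1 → g * x * g⁻¹ = x → g ∈ Subgroup.centralizer (P : Set G)) ↔ ∀ Q : Subgroup G, Q ≤ P → Q ≠ ⊥ → ∀ f : Set (Cfsg.IrrCharacter (Subgroup.centralizer (Q : Set G))), Cfsg.IsInducedBlockIn M (Subgroup.centralizer (Q : Set G)) (Subgroup.centralizer (P : Set G)) c f → Cfsg.IsNilpotentBlock p M f := by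
  have : PMod p M := ⟨hM⟩
  have h := mp_of_induced hc hPD
  rw [(hc.1.closed.eq_inf_stab hT).trans (NS_top _ _).symm]
  have h2 : P ≤ centralizer (P : Set G) := fun x hx y hy => hPab y hy x hx
  have h3 : ∀ Q ≤ P, P ≤ centralizer (Q : Set G) := fun Q hQ => h2.trans (centralizer_anti hQ)
  have h4 : ∀ Q ≤ P, centralizer (P : Set G) = CH (centralizer (Q : Set G)) P := fun Q hQ =>
    (inf_eq_right.2 (centralizer_anti hQ)).symm
  constructor
  · intro h5 Q hQ hQ1 f hf
    obtain ⟨-, hf', h6⟩ := (isInducedBlockIn_CH h.bp.pgrp (h3 Q hQ) (h4 Q hQ)).1 hf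
    have h7 := hf'.bp (h.bp.pgrp.to_le hQ)
    have h8 := h7.nl_sup (h.bp.congr (by rw [CH_CH, sup_eq_right.2 hQ])
      (le_inf le_top (h3 Q hQ))) h6
    rw [sup_eq_right.2 hQ] at h8
    have h9 := h.centralizer h8.ple (h3 Q hQ)
    rw [isNilpotentBlock_iff hf']
    rw [CH_top] at h9
    refine (h9.nil_iff_of_abelian h2).2 fun g hg => ?_
    obtain ⟨x, hx, h10⟩ := (bot_or_exists_ne_one Q).resolve_left hQ1
    exact h5 g ⟨⟨mem_top g, hg.1.2⟩, hg.2⟩ x (hQ hx) h10
      (mul_inv_eq_iff_eq_mul.2 (hg.1.1 x hx).symm)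
  · intro h5 g hg x hx h6 h7
    have hQ := zpowers_le_of_mem hx
    obtain ⟨f, hf⟩ := h.bp.exists_ple hQ
    have h9 := h.centralizer hf (h3 _ hQ)
    obtain ⟨f, hf', rfl⟩ := (hf.bp h.bp).exists_iB
    have h10 := h5 _ hQ (zpowers_ne_bot.2 h6) f
      ((isInducedBlockIn_CH h.bp.pgrp (h3 _ hQ) (h4 _ hQ)).2 ⟨hc.1, hf', h9.br⟩)
    rw [isNilpotentBlock_iff hf'] at h10
    rw [CH_top] at h9
    refine (h9.nil_iff_of_abelian h2).1 h10 ⟨⟨?_, hg.1.2⟩, hg.2⟩
    rw [centralizer_zpowers]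
    exact mem_centralizer_singleton_iff.2 (mul_inv_eq_iff_eq_mul.1 h7)

end Cfsg.Agent.S4650
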