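import Cfsg.Statements.S4651
import Cfsg.Agent.B.Chain

set_option autoImplicit false
open Cfsg

namespace Cfsg.Agent.S4651

open Cfsg.Agent Cfsg.Agent.B Cfsg.Agent.H2 Cfsg.Agent.H3 Subgroup MonoidAlgebra
open scoped Pointwise commutatorElement

/-- An alternating-sum identity over chains of p-subgroups (the character-count form behind the chain reformulation of Alperin's weight conjecture, which holds unconditionally for the difference k − l). Let b be a block of the finite group G relative to a maximal ideal M of the algebraic integers containing the prime p. Consider the nonempty chains s = {Q_0 < Q_1 < ⋯ < Q_m} of nontrivial p-subgroups of G in which every member is normal in the largest member; let N_G(s) be the intersection of the normalizers of the members (the stabilizer of the chain), and let b_s be the set of irreducible characters of N_G(s) lying in blocks of N_G(s) that induce b. Then #G · (k(b) − l(b)) equals the sum over all such chains s of (−1)^m · #N_G(s)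 · (k(b_s) − l(b_s)), where k counts irreducible characters and l is the p-regular rank; equivalently, k(b) − l(b) is the alternating sum of k(b_s) − l(b_s) over representatives of the conjugacy classes of such chains. -/
theorem result {G : Type*} [Group G] [Finite G] (p : ℕ) [Fact p.Prime] (M : Ideal Cfsg.AlgInt) (hM : Cfsg.IsPModular p M) (b : Set (Cfsg.IrrCharacter G)) (hb : Cfsg.IsPBlock M b) : (Nat.card G : ℤ) * ((Nat.card b : ℤ) - (Cfsg.blockRank p b : ℤ)) = ∑ᶠ s ∈ {s : Finset (Subgroup G) | s.Nonempty ∧ (∀ Q ∈ s, ∀ R ∈ s, Q ≤ R ∨ R ≤ Q) ∧ (∀ Q ∈ s, Q ≠ ⊥ ∧ IsPGroup p Q) ∧ ∃ T ∈ s, ∀ Q ∈ s, Q ≤ T ∧ T ≤ Subgroup.normalizer ((Q : Subgroup G) : Set G)}, (-1 : ℤ) ^ (s.card - 1) * (Nat.card (((⨅ Q ∈ s, Subgroup.normalizer ((Q : Subgroup G) : Set G) : Subgroup G))) : ℤ) * ((Nat.card {ψ : Cfsg.IrrCharacter (((⨅ Q ∈ s, Subgroup.normalizer ((Q : Subgroup G) : Set G) : Subgroup G))) | ∃ β : Set (Cfsg.IrrCharacter (((⨅ Q ∈ s, Subgroup.normalizer ((Q : Subgroup G) : Set G)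 : Subgroup G)))), ψ ∈ β ∧ Cfsg.IsInducedBlock M (((⨅ Q ∈ s, Subgroup.normalizer ((Q : Subgroup G) : Set G) : Subgroup G))) β b} : ℤ) - (Cfsg.blockRank p {ψ : Cfsg.IrrCharacter (((⨅ Q ∈ s, Subgroup.normalizer ((Q : Subgroup G) : Set G) : Subgroup G))) | ∃ β : Set (Cfsg.IrrCharacter (((⨅ Q ∈ s, Subgroup.normalizer ((Q : Subgroup G) : Set G) : Subgroup G)))), ψ ∈ β ∧ Cfsg.IsInducedBlock M (((⨅ Q ∈ s, Subgroup.normalizer ((Q : Subgroup G) : Set G) : Subgroup G))) β b} : ℤ)) := by
  have : PMod p M := ⟨hM⟩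
  classical
  have := Fintype.ofFinite G
  have := Fintype.ofFinite (Subgroup G)
  let φ : Subgroup G → Subgroup G → ℤ := fun K R => Nat.card K * lr K (Br R (eB M b))
  let F : Finset (Subgroup G) → G → ℤ := fun s x => if PElt p x ∧ x ≠ 1 then
    (if x ∈ NN s then φ (NN s ⊓ centralizer {x}) (s.sup id ⊔ zpowers x) else 0) else 0
  have h0 : ∑ s : Finset (Subgroup G) with NC p s, (-1) ^ s.card * ∑ x, F s x = 0 := by
    simp only [Finset.mul_sum]
    rw [Finset.sum_comm]
    refine Finset.sum_eq_zero fun x _ => ?_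
    by_cases hx : PElt p x ∧ x ≠ 1
    · rw [← sum_chain hx.1 hx.2 φ, ← Finset.filter_filter, Finset.sum_filter (x ∈ NN ·)]
      simp only [F, hx, ne_eq, not_false_eq_true, and_self, if_true, mul_ite, mul_zero]
    · simp only [F, hx, if_false, mul_zero, Finset.sum_const_zero]
  have h1 : ∑ x, F ∅ x = (Nat.card G : ℤ) * (Nat.card b - blockRank p b) := by
    rw [hb.closed.card_sub_rank]
    refine Finset.sum_congr rfl fun x _ => ?_
    have h2 : NN (∅ : Finset (Subgroup G)) = ⊤ := by simp [NN]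
    simp only [F, φ, h2, mem_top, if_true, top_inf_eq, lr_br le_rfl, Finset.sup_empty, br_bot]
  rw [← Finset.add_sum_erase _ _ (show ∅ ∈ _ from Finset.mem_filter.2 ⟨Finset.mem_univ _, by simp, by simp, by simp⟩), h1,
    Finset.card_empty, pow_zero, one_mul, add_eq_zero_iff_eq_neg] at h0
  rw [h0, ← Finset.sum_neg_distrib, finsum_mem_eq_finite_toFinset_sum _ (Set.toFinite _)]
  refine Finset.sum_congr ?_ fun s hs => ?_
  · ext s
    simp only [Finset.mem_erase, Finset.mem_filter, Finset.mem_univ, true_and, Set.Finite.mem_toFinset, Set.mem_setOf_eq,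
      Finset.nonempty_iff_ne_empty]
    refine and_congr_right fun hs => ⟨fun h => ⟨h.ch, h.pg, _, sup_mem_of_chain h.ch (Finset.nonempty_iff_ne_empty.2 hs),
      fun Q hQ => ⟨Finset.le_sup (f := id) hQ, Finset.sup_le (h.nm Q hQ)⟩⟩,
      fun ⟨h1, h2, T, _, h3⟩ => ⟨h1, h2, fun Q hQ R hR => (h3 R hR).1.trans (h3 Q hQ).2⟩⟩
  · simp only [Set.Finite.mem_toFinset, Set.mem_setOf_eq] at hs
    obtain ⟨hs, h2, h3, T, hT, h4⟩ := hs
    have h5 : s.sup id = T := le_antisymm (Finset.sup_le fun Q hQ => (h4 Q hQ).1) (Finset.le_sup (f := id) hT)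
    have h6 : T ≤ NN s := le_iInf₂ fun Q hQ => (h4 Q hQ).2
    have h7 : centralizer (T : Set G) ≤ NN s := le_iInf₂ fun Q hQ =>
      (centralizer_anti (h4 Q hQ).1).trans (centralizer_le_normalizer _)
    have h8 : NN s ≤ normalizer (T : Set G) := iInf₂_le T hT
    have h9 : {ψ : IrrCharacter (NN s) | ∃ β, ψ ∈ β ∧ IsInducedBlock M (NN s) β b} = roots M (NN s) b := by
      ext ψ
      refine ⟨fun ⟨β, h1, h2⟩ => h2.lam_eB h1, fun h => ⟨_, self_mem_blockOf ψ, (mem_roots_iff (inducedBlockDefined_of_le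
        (h3 T hT).2 h6 h7 h8 (isPBlock_blockOf ψ)) hb (self_mem_blockOf ψ)).1 h⟩⟩
    rw [mul_assoc, h9, hb.closed.card_sub_rank' (h3 T hT).2 h6 h7 h8]
    obtain ⟨n, hn⟩ := Nat.exists_eq_succ_of_ne_zero (Finset.card_ne_zero.2 hs)
    simp only [F, φ, h5, hn, Nat.succ_sub_one, pow_succ]
    ring

end Cfsg.Agent.S4651
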