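import Cfsg.Statements.S4654
import Cfsg.Agent.B.Fong

set_option autoImplicit false
open Cfsg

namespace Cfsg.Agent.S4654

open Cfsg.Agent Cfsg.Agent.B Cfsg.Agent.H2 Cfsg.Agent.H3 Cfsg.Agent.L Subgroup MonoidAlgebra
open scoped Pointwise commutatorElement
theorem aux {G : Type*} [Group G] [Fintype G] {p : ℕ} [Fact p.Prime] {M : Ideal AlgInt} [PMod p M]
    {C T : Subgroup G} [C.Normal] {B : Set (IrrCharacter G)} {e : Set (IrrCharacter C)}
    (hB : IsPBlock M B) (he : IsPBlock M e) (hT' : T = stab (iB M C e))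
    (hne : eB M B * iB M C e ≠ 0) (hs : ∀ g, (eB M B).coeff g ≠ 0 → g ∈ C) (g : G) :
    blockCoeff B g = (Nat.card T : ℂ)⁻¹ * ∑ x : G, subgroupBlockCoeff C e (x⁻¹ * g * x) := by
  classical
  haveI : Fintype C := Fintype.ofFinite _
  have hcl := IsPBlock.closed he
  have hcB := IsPBlock.closed hB
  have h1 : eB M B = iB M C (sat e) := by
    have hi := (inv_sat e).incA_eB_mem (M := M)
    have hi2 := hcl.sat.iB_idem
    refine idem_ext (eB_mem B) hi hcB.eB_mul_self hi2 fun χ => ?_
    by_cases hχ : χ ∈ B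
    · obtain ⟨θ, h1, h2⟩ := exists_under_of_covers hB he hne hχ
      rw [hcB.lam_eB_of_mem hχ]
      exact ((lam_idem hi hi2).resolve_left
        (((inv_sat e).mem_iff_lam hcl.sat h2).1 (subset_sat e h1))).symm
    · rw [hcB.lam_eB_of_not_mem hχ]
      by_contra h
      obtain ⟨θ, h2⟩ := exists_under χ C
      obtain ⟨g, h3⟩ := ((inv_sat e).mem_iff_lam hcl.sat h2).2 (Ne.symm h)
      rw [← classInner_res_cjI χ g] at h2
      refine hχ ((hcB.lam_resA_eB hs h2).2 ?_)
      exact (IsPBlock.mul_iB_ne_zero_iff he h3 (mem_ZA.2 ⟨mem_SA.2 hs, cent_le_fix _ (eB_mem B)⟩)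
        hcB.eB_mul_self).1 hne
  have h2 : (Nat.card T : ℂ) • fC (sat e) = ∑ x : G, fC (cjI x ⁻¹' e) := by
    refine cent_ext (Subalgebra.smul_mem _ (fC_mem _) _) (sum_mem fun x _ => fC_mem _) fun θ => ?_
    rw [map_smul, map_sum]
    simp only [om_fC, smul_eq_mul, Set.mem_preimage]
    by_cases h : θ ∈ sat e
    · obtain ⟨y, hy⟩ := h
      rw [if_pos (show θ ∈ sat e from ⟨y, hy⟩), mul_one, ← Equiv.sum_comp (Equiv.mulLeft y)]
      have : ∀ x, cjI (Equiv.mulLeft y x) θ ∈ e ↔ x ∈ T := fun x => by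
        rw [hT', ← IsPBlock.cjI_mem_iff he hy]
        exact Iff.of_eq (congrArg (· ∈ e) (Subtype.ext (cjf_mul y x _)))
      simp only [this]
      rw [Finset.sum_boole, Nat.card_eq_fintype_card, Fintype.card_subtype]
    · rw [if_neg h, mul_zero]
      exact (Finset.sum_eq_zero fun x _ => if_neg fun h' => h ⟨x, h'⟩).symm
  rw [hcB.blockCoeff_eq_of_eB hcl.sat h1]
  by_cases hg : g ∈ C
  · have h3 := congrArg (fun a => a.coeff ⟨g, hg⟩) h2
    simp only [coeff_smul', coeff_sum_apply, coeff_fC] at h3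
    rw [eq_inv_mul_iff_mul_eq₀ card_ne_zero]
    unfold subgroupBlockCoeff
    rw [dif_pos hg, h3]
    refine Finset.sum_congr rfl fun x _ => ?_
    have h4 : x⁻¹ * g * x ∈ C := Subgroup.Normal.conj_mem' inferInstance g hg x
    rw [dif_pos h4, ← blockCoeff_preimage_cmp (MulAut.conjNormal x) e ⟨_, h4⟩]
    congr 1
    ext
    simp [mul_assoc]
  · unfold subgroupBlockCoeff
    rw [dif_neg hg, Finset.sum_eq_zero, mul_zero]
    intro x _
    refine dif_neg fun h => hg ?_
    simpa [mul_assoc] using Subgroup.Normal.conj_mem inferInstance _ h x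


/-- Fix a prime p and a maximal ideal M of the algebraic integers containing p. Let P be a normal p-subgroup of the finite group G, B a p-block of G and e a p-block of C_G(P) such that (P, e) is a Brauer pair of B (as P is normal, this says that e occurs in the idempotent of B, which is supported on C_G(P)). Let T be the stabilizer of e in G under conjugation. Then the idempotent of e is a block idempotent of T: some block E of T has, at every element of T, the same idempotent coefficient as e (zero off C_G(P)); and the idempotent of B is the sum of the distinct G-conjugates of the idempotent of e: its coefficient at g is the sum over all x in G of the coefficient of e at x⁻¹ g x, divided by the order of T. -/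
theorem result {G : Type*} [Group G] [Fintype G] (p : ℕ) [Fact p.Prime] (M : Ideal Cfsg.AlgInt) (hM : Cfsg.IsPModular p M) (P : Subgroup G) [P.Normal] (hP : IsPGroup p P) (B : Set (Cfsg.IrrCharacter G)) (e : Set (Cfsg.IrrCharacter (Subgroup.centralizer (P : Set G)))) (hBe : Cfsg.IsBrauerPairOf p M B P e) (T : Subgroup G) (hT : ∀ x : G, x ∈ T ↔ Cfsg.StabilizesBlock (Subgroup.centralizer (P : Set G)) e x) : (∃ E : Set (Cfsg.IrrCharacter T), Cfsg.IsPBlock M E ∧ ∀ t : T, Cfsg.blockCoeff E t = Cfsg.subgroupBlockCoeff (Subgroup.centralizer (P : Set G)) e (t : G)) ∧ ∀ g : G, Cfsg.blockCoeff B g = (Nat.card T : ℂ)⁻¹ * ∑ x : G, Cfsg.subgroupBlockCoeff (Subgroup.centralizer (P : Set G)) e (x⁻¹ * g * x) := by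
  have : PMod p M := ⟨hM⟩
  classical
  obtain ⟨-, he, hB, hbr⟩ := isBrauerPairOf_iff.1 hBe
  have hcl := IsPBlock.closed he
  have hcB := IsPBlock.closed hB
  have hT' := hcl.eq_stab hT
  have hbp := IsBrauerPairOf.bp hBe
  rw [hcB.br_eB hP] at hbr
  have hne : eB M B * iB M _ e ≠ 0 := by rw [hbr]; exact (IsPBlock.isBI he).ne
  have hCT : centralizer (P : Set G) ≤ T := hT' ▸ IsPBlock.le_stab he
  constructor
  · obtain ⟨E, h1, -, h2⟩ := IsBI.exists_coeff hcl hCT le_normalizer_of_normal
      (hbp.isBI_of_le (T := T) (hT' ▸ hbp.le_NS.trans inf_le_right) (by rw [CH_top]; exact hCT) le_top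
        le_normalizer_of_normal hT'.le)
    exact ⟨E, h1, h2⟩
  exact aux hB he hT' hne fun g hg => hcB.mem_centralizer_of_coeff_eB hP hg

end Cfsg.Agent.S4654
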