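import Cfsg.Statements.S4657
import Cfsg.Agent.B.Pair2

set_option autoImplicit false
open Cfsg

namespace Cfsg.Agent.S4657

open Cfsg.Agent Cfsg.Agent.B Cfsg.Agent.H2 Cfsg.Agent.H3 Cfsg.Agent.L Subgroup MonoidAlgebra
open scoped Pointwise commutatorElement

/-- Fix a prime p and a maximal ideal M of the algebraic integers containing p. Every Brauer pair (P, e) of the finite group G is a Brauer pair of exactly one p-block B of G. -/
theorem result {G : Type*} [Group G] [Fintype G] (p : ℕ) [Fact p.Prime] (M : Ideal Cfsg.AlgInt) (hM : Cfsg.IsPModular p M) (P : Subgroup G) (e : Set (Cfsg.IrrCharacter (Subgroup.centralizer (P : Set G)))) (hPe : Cfsg.IsBrauerPair p M P e) : ∃! B : Set (Cfsg.IrrCharacter G), Cfsg.IsBrauerPairOf p M B P e := by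
  have : PMod p M := ⟨hM⟩
  have he := hPe.2.bp hPe.1
  obtain ⟨b, hb, h⟩ := he.exists_block
  obtain ⟨B, hB, rfl⟩ := hb.exists_top
  exact ⟨B, (isBrauerPairOf_iff' hPe.2 hB).2 ⟨he, h⟩, fun C hC =>
    hC.2.1.closed.eB_inj hB.closed (he.block_unique hC.2.1.isBI_top hb hC.br h)⟩

end Cfsg.Agent.S4657
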