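import Cfsg.Statements.S4662
import Cfsg.Agent.B.Cov2

set_option autoImplicit false
open Cfsg

namespace Cfsg.Agent.S4662

open Cfsg.Agent Cfsg.Agent.B Cfsg.Agent.H2 Cfsg.Agent.H3 Cfsg.Agent.L Subgroup MonoidAlgebra
open scoped Pointwise commutatorElement

/-- Fix a prime p and a maximal ideal M of the algebraic integers containing p. Let (P, e) be a maximal Brauer pair of the p-block B of the finite group G, Q ≤ P, and f the p-block of C_G(Q) with (Q, f) ≤ (P, e). Let T be the stabilizer of f in N_G(Q). Then the idempotent of f is a block idempotent of T, and N_P(Q) is contained in a defect group of that block of T; moreover for some x in G the conjugate pair (x Q x⁻¹, conjugate of f) again lies below (P, e) and, with T' the stabilizer of the conjugate of f in N_G(x Q x⁻¹), N_P(x Q x⁻¹) is a defect group of the block of T' whose idempotent is that of the conjugate of f. -/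
theorem result {G : Type*} [Group G] [Fintype G] (p : ℕ) [Fact p.Prime] (M : Ideal Cfsg.AlgInt) (hM : Cfsg.IsPModular p M) (B : Set (Cfsg.IrrCharacter G)) (P Q : Subgroup G) (e : Set (Cfsg.IrrCharacter (Subgroup.centralizer (P : Set G)))) (f : Set (Cfsg.IrrCharacter (Subgroup.centralizer (Q : Set G)))) (hmax : Cfsg.IsMaximalBrauerPair p M B P e) (hQP : Q ≤ P) (hf : Cfsg.IsPBlock M f) (hle : Cfsg.SubpairLE p M Q f P e) (T : Subgroup G) (hT : ∀ y : G, y ∈ T ↔ y ∈ Subgroup.normalizer (Q : Set G) ∧ Cfsg.StabilizesBlock (Subgroup.centralizer (Q : Set G)) f y) : (∃ F : Set (Cfsg.IrrCharacter T), Cfsg.IsPBlock M F ∧ (∀ t : T, Cfsg.blockCoeff F t = Cfsg.subgroupBlockCoeff (Subgroup.centralizer (Q : Set G)) f (t : G)) ∧ ∃ D : Subgroup T, Cfsg.IsDefectGroup p M F D ∧ (P ⊓ Subgroup.normalizer (Q : Set G)).subgroupOf T ≤ D) ∧ ∃ x : G, Cfsg.SubpairLE p M (Q.map (MulAut.conj x).toMonoidHom) (Cfsg.conjBlock Q x f) P e ∧ ∀ (T' : Subgroup G), (∀ y : G, y ∈ T'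 ↔ y ∈ Subgroup.normalizer ((Q.map (MulAut.conj x).toMonoidHom) : Set G) ∧ Cfsg.StabilizesBlock (Subgroup.centralizer ((Q.map (MulAut.conj x).toMonoidHom) : Set G)) (Cfsg.conjBlock Q x f) y) → ∃ F' : Set (Cfsg.IrrCharacter T'), Cfsg.IsPBlock M F' ∧ (∀ t : T', Cfsg.blockCoeff F' t = Cfsg.subgroupBlockCoeff (Subgroup.centralizer ((Q.map (MulAut.conj x).toMonoidHom) : Set G)) (Cfsg.conjBlock Q x f) (t : G)) ∧ Cfsg.IsDefectGroup p M F' ((P ⊓ Subgroup.normalizer ((Q.map (MulAut.conj x).toMonoidHom) : Set G)).subgroupOf T') := by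
  have : PMod p M := ⟨hM⟩
  have hT' := (hf.closed.eq_inf_stab hT).trans (NS_top _ _).symm
  have h := hmax.mp
  have h1 := hle.ple
  have h2 := h1.bp h.bp
  have key : ∀ (Q : Subgroup G) (f : Set (IrrCharacter (centralizer (Q : Set G)))),
      IsPBlock M f → BP p ⊤ Q (iB M _ f) → ∃ E, IsPBlock M E ∧
        iB M (NS ⊤ Q (iB M _ f)) E = iB M _ f ∧ ∀ t : NS ⊤ Q (iB M _ f), blockCoeff E t =
          subgroupBlockCoeff (centralizer (Q : Set G)) f t := fun Q f hf h2 =>
    h2.isBI_NS.exists_coeff hf.closed ((CH_top Q).ge.trans h2.CH_le_NS)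
      ((NS_le_normalizer _ _ _).trans (normalizer_le_nc Q))
  subst hT'
  constructor
  · obtain ⟨E, hE, h3, h4⟩ := key Q f hf h2
    obtain ⟨D, hD, h5⟩ := h2.isBI_NS.exists_isDG_ge (h1.inf_normalizer_le_NS h.bp)
      (h.bp.pgrp.to_le inf_le_left) (h1.br_ne h.bp inf_le_left inf_le_right)
    exact ⟨E, hE, h4, D.subgroupOf _, (hE.isDefectGroup_iff hD.le).2 (by rw [h3]; exact hD),
      subgroupOf_mono _ h5⟩
  · obtain ⟨x, -, h3, h4⟩ := h.exists_conj_isDG h2 (h.br_of_ple h1) le_rfl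
    rw [cj_NS, cj_top, ← iB_conjBlock] at h4
    rw [← iB_conjBlock] at h3
    refine ⟨x, h3.subpairLE (hf.conjBlock x) hmax.1.1.2, fun T' hT' => ?_⟩
    have hT'' := ((hf.conjBlock x).closed.eq_inf_stab hT').trans (NS_top _ _).symm
    subst hT''
    obtain ⟨E, hE, h5, h6⟩ := key _ _ (hf.conjBlock x) (h3.bp h.bp)
    have h7 := h3.inf_normalizer_le_NS h.bp
    refine ⟨E, hE, h6, (hE.isDefectGroup_iff h7).2 ?_⟩
    rw [h5]
    convert h4 using 1
    exact le_antisymm (le_inf inf_le_left h7) (inf_le_inf_left _ (NS_le_normalizer _ _ _))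

end Cfsg.Agent.S4662
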