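import Cfsg.Statements.S4664
import Cfsg.Agent.B.Fong

set_option autoImplicit false
open Cfsg

namespace Cfsg.Agent.S4664

open Cfsg.Agent Cfsg.Agent.B Cfsg.Agent.H2 Cfsg.Agent.H3 Cfsg.Agent.L Subgroup MonoidAlgebra
open scoped Pointwise commutatorElement

/-- Fix a prime p and a maximal ideal M of the algebraic integers containing p, and let B be a p-block of the finite group G. Let m be the p'-part of the order of G and η = exp(2πi/m). Then every coefficient of the idempotent of B lies in the cyclotomic field ℚ(η). -/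
theorem result {G : Type*} [Group G] [Fintype G] (p : ℕ) [Fact p.Prime] (M : Ideal Cfsg.AlgInt) (hM : Cfsg.IsPModular p M) (B : Set (Cfsg.IrrCharacter G)) (hB : Cfsg.IsPBlock M B) (g : G) : Cfsg.blockCoeff B g ∈ IntermediateField.adjoin ℚ ({Complex.exp (2 * Real.pi * Complex.I / ((Nat.card G / p ^ (Nat.card G).factorization p : ℕ) : ℂ))} : Set ℂ) := by
  have : PMod p M := ⟨hM⟩
  classical
  set m := Nat.card G / p ^ (Nat.card G).factorization p with hm
  by_cases hg : p ∣ orderOf g
  · rw [(IsPBlock.closed hB).blockCoeff_eq_zero hg]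
    exact zero_mem _
  have hm0 : m ≠ 0 := (Nat.ordCompl_pos p Nat.card_pos.ne').ne'
  have hζ := Complex.isPrimitiveRoot_exp m hm0
  have hdvd : orderOf g⁻¹ ∣ m := by
    rw [orderOf_inv]
    have h1 : orderOf g ∣ p ^ (Nat.card G).factorization p * m := by
      rw [hm, Nat.ordProj_mul_ordCompl_eq_self]
      exact orderOf_dvd_natCard g
    exact (Nat.Coprime.pow_right _ ((Nat.Prime.coprime_iff_not_dvd Fact.out).2 hg).symm).dvd_of_dvd_mul_left h1
  rw [blockCoeff_eq]
  refine mul_mem (inv_mem (natCast_mem _ _)) (sum_mem fun χ _ => ?_)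
  split_ifs
  · rw [← χ.2.cast_charDegree]
    refine mul_mem (natCast_mem _ _) ?_
    obtain ⟨n, ε, -, h1, h2, -⟩ := χ.2.isCharacter.exists_eigenvalues g⁻¹
    have := h2 1
    rw [pow_one] at this
    rw [this]
    refine sum_mem fun i _ => pow_mem ?_ _
    haveI : NeZero m := ⟨hm0⟩
    obtain ⟨k, -, hk⟩ := hζ.eq_pow_of_pow_eq_one (pow_eq_one_of_dvd' (h1 i) hdvd)
    rw [← hk]
    exact pow_mem (IntermediateField.subset_adjoin _ _ (Set.mem_singleton _)) _
  · exact zero_mem _

end Cfsg.Agent.S4664
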