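import Cfsg.Statements.S4665
import Cfsg.Agent.B.Rank2

set_option autoImplicit false
open Cfsg

namespace Cfsg.Agent.S4665

open Cfsg.Agent Cfsg.Agent.B Cfsg.Agent.H2 Cfsg.Agent.H3 Cfsg.Agent.L Subgroup MonoidAlgebra
open scoped Pointwise commutatorElement

/-- Fix a prime p, a maximal ideal M of the algebraic integers containing p, and a p-block B of the finite group G, and let p^a be the p-part of the order of G. Let χ be an integer combination of the irreducible characters in B. If the function that agrees with χ on p-regular elements and vanishes on p-singular elements is again an integer combination of the irreducible characters in B, then p^a divides χ(1). -/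
theorem result {G : Type*} [Group G] [Fintype G] (p : ℕ) [Fact p.Prime] (M : Ideal Cfsg.AlgInt) (hM : Cfsg.IsPModular p M) (B : Set (Cfsg.IrrCharacter G)) (hB : Cfsg.IsPBlock M B) (χ : G → ℂ) (hχ : (∃ n : Cfsg.IrrCharacter G → ℤ, ∀ g : G, χ g = ∑ᶠ ψ ∈ B, (n ψ : ℂ) * (ψ : G → ℂ) g)) (h0 : (∃ n : Cfsg.IrrCharacter G → ℤ, ∀ g : G, Cfsg.pRegularPart p χ g = ∑ᶠ ψ ∈ B, (n ψ : ℂ) * (ψ : G → ℂ) g)) : ∃ k : ℤ, χ 1 = (p ^ (Nat.card G).factorization p : ℂ) * k := by
  have : PMod p M := ⟨hM⟩
  obtain ⟨n, hn⟩ := h0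
  obtain ⟨P⟩ : Nonempty (Sylow p G) := inferInstance
  have := Fintype.ofFinite P
  have h1 : IsGeneralizedCharacter G (reg p χ) := by
    rw [← pRegularPart_eq, funext hn]
    exact isGen_finsum_mem B n
  obtain ⟨k, hk⟩ := (h1.res P).exists_int_inner (oneIrr P).2.isGen
  refine ⟨k, ?_⟩
  rw [← hk, ← Nat.cast_pow, ← P.card_eq_multiplicity, card_mul_classInner, Finset.sum_eq_single 1
    (fun u _ hu => by rw [reg_of_dvd _ (by simpa using (pElt_of_mem P.2 u.2).dvd (by simpa using hu)),
      zero_mul]) (by simp)]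
  simp [reg_one', oneIrr]

end Cfsg.Agent.S4665
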