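import Cfsg.Statements.S4668
import Cfsg.Agent.B.Fong
import Cfsg.Agent.H8.Cop

set_option autoImplicit false
open Cfsg

namespace Cfsg.Agent.S4668

open Cfsg.Agent Cfsg.Agent.B Cfsg.Agent.H2 Cfsg.Agent.H3 Cfsg.Agent.L Subgroup MonoidAlgebra
open scoped Pointwise commutatorElement

/-- Fix a prime p and a maximal ideal M of the algebraic integers containing p. Let Q₀ < Q₁ < ⋯ < Q_m be a strictly increasing chain of p-subgroups of the finite group G and N the intersection of their normalizers. Then every block idempotent of N is supported on C_G(Q_m): for every p-block E of N, the idempotent coefficient of E vanishes at every element of N outside C_G(Q_m). -/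
theorem result {G : Type*} [Group G] [Fintype G] (p : ℕ) [Fact p.Prime] (M : Ideal Cfsg.AlgInt) (hM : Cfsg.IsPModular p M) (m : ℕ) (Q : Fin (m + 1) → Subgroup G) (hQ : StrictMono Q) (hQp : ∀ i, IsPGroup p (Q i)) (N : Subgroup G) (hN : ∀ g : G, g ∈ N ↔ ∀ i, g ∈ Subgroup.normalizer (Q i : Set G)) (E : Set (Cfsg.IrrCharacter N)) (hE : Cfsg.IsPBlock M E) (n : N) (hn : (n : G) ∉ Subgroup.centralizer (Q (Fin.last m) : Set G)) : Cfsg.blockCoeff E n = 0 := by
  have : PMod p M := ⟨hM⟩
  classical
  have hcl := IsPBlock.closed hE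
  have hn1 : ∀ i, N ≤ normalizer (Q i : Set G) := fun i g hg => (hN g).1 hg i
  haveI h1 : ((Q (Fin.last m)).subgroupOf N).Normal := normal_subgroupOf_of_le_normalizer (hn1 _)
  haveI h2 : ((centralizer (Q (Fin.last m) : Set G)).subgroupOf N).Normal :=
    normal_subgroupOf_of_le_normalizer ((hn1 _).trans (normalizer_le_nc _))
  refine hcl.blockCoeff_eq_zero_of_SA (K := (centralizer (Q (Fin.last m) : Set G)).subgroupOf N) ?_ hn
  rw [mem_SA]
  intro g hg
  have hr := hcl.reg_of_coeff_eB hg
  have hc := hcl.mem_centralizer_of_coeff_eB (Q := (Q (Fin.last m)).subgroupOf N) ((hQp _).comap_subtype) hg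
  have hc' : ∀ x ∈ N, x ∈ Q (Fin.last m) → x * g = g * x := fun x hx hx' =>
    congrArg Subtype.val (hc ⟨x, hx⟩ hx')
  have key : ∀ i, (g : G) ∈ centralizer (Q i : Set G) := by
    intro i
    induction i using Fin.induction with
    | zero =>
      intro x hx
      exact hc' x ((hN x).2 fun i => le_normalizer (hQ.monotone (Fin.zero_le i) hx))
        (hQ.monotone (Fin.zero_le _) hx)
    | succ i ih =>
      have h3 : Q i.castSucc ≤ Q i.succ := hQ.monotone (Fin.castSucc_lt_succ).le
      have := H8.axb (P := Q i.castSucc) (Q := zpowers (g : G)) (U := Q i.succ) (hQp _) ?_ (hQp _) ?_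
        (h3.trans le_normalizer) (zpowers_le.2 (hn1 _ g.2)) ?_
      · rw [commutator_eq_bot_iff_le_centralizer] at this
        exact le_centralizer_comm this (mem_zpowers _)
      · rw [Nat.card_zpowers, Subgroup.orderOf_coe]
        exact reg_iff_coprime.1 hr
      · rw [commutator_eq_bot_iff_le_centralizer]
        exact le_centralizer_comm (zpowers_le.2 ih)
      · rw [commutator_eq_bot_iff_le_centralizer]
        refine le_centralizer_comm (zpowers_le.2 fun x hx => hc' x ((hN x).2 fun j => ?_)
          (hQ.monotone (Fin.le_last _) hx.1))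
        rcases le_or_gt j i.castSucc with h | h
        · exact centralizer_le_normalizer _ (centralizer_anti (hQ.monotone h) hx.2)
        · exact le_normalizer (hQ.monotone (Fin.castSucc_lt_iff_succ_le.1 h) hx.1)
  exact key _

end Cfsg.Agent.S4668
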