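import Cfsg.Statements.S4670
import Cfsg.Agent.B.Cov2

set_option autoImplicit false
open Cfsg

namespace Cfsg.Agent.S4670

open Cfsg.Agent Cfsg.Agent.B Cfsg.Agent.H2 Cfsg.Agent.H3 Cfsg.Agent.L Subgroup MonoidAlgebra
open scoped Pointwise commutatorElement

/-- Fix a prime p and a maximal ideal M of the algebraic integers containing p. Let P be a p-subgroup of the finite group G and H a subgroup containing N_G(P). For every p-block B of G with defect group P there is exactly one p-block c of H with defect group P whose idempotent agrees with that of B, modulo the local ideal at M, at every element of C_G(P) (their Brauer-map images at P coincide); and every p-block c of H with defect group P arises in this way from exactly one such B. This is the Brauer correspondence over H. -/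
theorem result {G : Type*} [Group G] [Fintype G] (p : ℕ) [Fact p.Prime] (M : Ideal Cfsg.AlgInt) (hM : Cfsg.IsPModular p M) (P H : Subgroup G) (hP : IsPGroup p P) (hH : Subgroup.normalizer (P : Set G) ≤ H) : (∀ B : Set (Cfsg.IrrCharacter G), Cfsg.IsPBlock M B → Cfsg.IsDefectGroup p M B P → ∃! c : Set (Cfsg.IrrCharacter H), Cfsg.IsPBlock M c ∧ Cfsg.IsDefectGroup p M c (P.subgroupOf H) ∧ ∀ x : G, x ∈ Subgroup.centralizer (P : Set G) → Cfsg.MemLocalIdeal M (Cfsg.blockCoeff B x - Cfsg.subgroupBlockCoeff H c x)) ∧ (∀ c : Set (Cfsg.IrrCharacter H), Cfsg.IsPBlock M c → Cfsg.IsDefectGroup p M c (P.subgroupOf H) → ∃! B : Set (Cfsg.IrrCharacter G), Cfsg.IsPBlock M B ∧ Cfsg.IsDefectGroup p M B P ∧ ∀ x : G, x ∈ Subgroup.centralizer (P : Set G) → Cfsg.MemLocalIdeal M (Cfsg.blockCoeff B x - Cfsg.subgroupBlockCoeff H c x)) := by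
  have : PMod p M := ⟨hM⟩
  have hPH : P ≤ H := le_normalizer.trans hH
  have e : H ⊓ normalizer (P : Set G) = ⊤ ⊓ normalizer (P : Set G) := by
    rw [inf_eq_right.2 hH, top_inf_eq]
  constructor
  · intro B hB hD
    have hD' := hB.isDefectGroup_iff_top.1 hD
    obtain ⟨c, hc, h1, h2⟩ := hD'.exists_corr hB.isBI_top hPH e
    obtain ⟨c, hc', rfl⟩ := hc.exists_iB
    refine ⟨c, ⟨hc', (hc'.isDefectGroup_iff hPH).2 h1,
      (br_eq_iff_coeff hB.closed hc'.closed).2 h2.symm⟩, fun d ⟨hd, _, h3⟩ => ?_⟩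
    rw [br_eq_iff_coeff hB.closed hd.closed] at h3
    refine hd.closed.iB_inj hc'.closed (hd.isBI.eq_of_br hc hP hPH ?_)
    rw [← h3, h2, br_idem' hP (cent_le_fix _ (eB_mem B)) hB.closed.eB_mul_self]
    exact hD'.br
  · intro c hc hD
    have hD' := (hc.isDefectGroup_iff hPH).1 hD
    obtain ⟨B, hB, h1, h2⟩ := hD'.exists_corr hc.isBI le_top e.symm
    obtain ⟨B, hB', rfl⟩ := hB.exists_top
    refine ⟨B, ⟨hB', hB'.isDefectGroup_iff_top.2 h1,
      (br_eq_iff_coeff hB'.closed hc.closed).2 h2⟩, fun d ⟨hd, _, h3⟩ => ?_⟩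
    rw [br_eq_iff_coeff hd.closed hc.closed] at h3
    refine hd.closed.eB_inj hB'.closed (hd.isBI_top.eq_of_br hB hP le_top ?_)
    rw [h3, h2, br_idem' hP (fix_anti hPH hc.isBI.fx) hc.isBI.idem]
    exact hD'.br

end Cfsg.Agent.S4670
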