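import Cfsg.Statements.S4672
import Cfsg.Agent.B.Cov2

set_option autoImplicit false
open Cfsg

namespace Cfsg.Agent.S4672

open Cfsg.Agent Cfsg.Agent.B Cfsg.Agent.H2 Cfsg.Agent.H3 Cfsg.Agent.L Subgroup MonoidAlgebra
open scoped Pointwise commutatorElement

/-- Fix a prime p and a maximal ideal M of the algebraic integers containing p. Let N be a normal subgroup of the finite group G of p-power index and c a p-block of N stable under conjugation by G. Then the idempotent of c is a block idempotent of G: there is a p-block B of G whose idempotent coefficients agree with those of c on N and vanish off N; and for every defect group P of such a block B, G = NP and P ∩ N is a defect group of c. -/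
theorem result {G : Type*} [Group G] [Fintype G] (p : ℕ) [Fact p.Prime] (M : Ideal Cfsg.AlgInt) (hM : Cfsg.IsPModular p M) (N : Subgroup G) [N.Normal] (hN : ∃ k : ℕ, N.index = p ^ k) (c : Set (Cfsg.IrrCharacter N)) (hc : Cfsg.IsPBlock M c) (hst : ∀ x : G, Cfsg.StabilizesBlock N c x) : (∃ B : Set (Cfsg.IrrCharacter G), Cfsg.IsPBlock M B ∧ ∀ g : G, Cfsg.blockCoeff B g = Cfsg.subgroupBlockCoeff N c g) ∧ ∀ B : Set (Cfsg.IrrCharacter G), Cfsg.IsPBlock M B → (∀ g : G, Cfsg.blockCoeff B g = Cfsg.subgroupBlockCoeff N c g) → ∀ P : Subgroup G, Cfsg.IsDefectGroup p M B P → N ⊔ P = ⊤ ∧ Cfsg.IsDefectGroup p M c ((P ⊓ N).subgroupOf N) := by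
  have : PMod p M := ⟨hM⟩
  obtain ⟨k, hk⟩ := hN
  have h1 : iB M N c ∈ fix (F M) ⊤ := mem_fix_iff_le.2 fun x _ =>
    (hc.closed.stabilizesBlock_iff.1 (hst x)).2
  obtain ⟨h2, h3⟩ := hc.isBI.pindex le_top le_normalizer_of_normal
    (by rw [resOf_top]; exact pResidual_le_of_index hk) h1
  constructor
  · obtain ⟨B, hB, h4⟩ := h2.exists_top
    exact ⟨B, hB, hB.closed.blockCoeff_eq_of_eB hc.closed h4.symm⟩
  · intro B hB h4 P hP
    rw [hB.isDefectGroup_iff_top, eB_eq_of_blockCoeff h4] at hP
    exact ⟨(h3 P hP).1, (hc.isDefectGroup_iff inf_le_right).2 (h3 P hP).2⟩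

end Cfsg.Agent.S4672
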