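import Cfsg.Statements.S4673
import Cfsg.Agent.B.Cov2

set_option autoImplicit false
open Cfsg

namespace Cfsg.Agent.S4673

open Cfsg.Agent Cfsg.Agent.B Cfsg.Agent.H2 Cfsg.Agent.H3 Cfsg.Agent.L Subgroup MonoidAlgebra
open scoped Pointwise commutatorElement

/-- Fix a prime p and a maximal ideal M of the algebraic integers containing p. Let N ≤ L be normal subgroups of the finite group G with L/N a p-group, let B be a p-block of G covering the p-block c of N (some member of B has a constituent in c on restriction to N), and suppose that N contains a defect group of B. Then the stabilizer T of c in G satisfies T ∩ L = N. -/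
theorem result {G : Type*} [Group G] [Fintype G] (p : ℕ) [Fact p.Prime] (M : Ideal Cfsg.AlgInt) (hM : Cfsg.IsPModular p M) (N L : Subgroup G) [N.Normal] [L.Normal] [Fintype N] (hNL : N ≤ L) (hLN : ∃ k : ℕ, (N.subgroupOf L).index = p ^ k) (B : Set (Cfsg.IrrCharacter G)) (hB : Cfsg.IsPBlock M B) (c : Set (Cfsg.IrrCharacter N)) (hc : Cfsg.IsPBlock M c) (hcov : (∃ χ ∈ B, ∃ θ ∈ c, Cfsg.classInner (fun n : N => (χ : G → ℂ) n) (θ : N → ℂ) ≠ 0)) (hD : ∃ D : Subgroup G, Cfsg.IsDefectGroup p M B D ∧ D ≤ N) (T : Subgroup G) (hT : ∀ x : G, x ∈ T ↔ Cfsg.StabilizesBlock N c x) : T ⊓ L = N := by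
  have : PMod p M := ⟨hM⟩
  obtain ⟨k, hk⟩ := hLN
  obtain ⟨D, hD, hDN⟩ := hD
  rw [covers_iff hB hc] at hcov
  rw [hc.closed.eq_stab hT]
  have h0 : resOf p L ≤ N := resOf_le_of_relIndex le_normalizer_of_normal hk
  have h1 : N ≤ stab (iB M N c) ⊓ L := le_inf (mem_fix_iff_le.1 hc.isBI.fx) hNL
  obtain ⟨h2, h3⟩ := hc.isBI.pindex h1 le_normalizer_of_normal
    ((resOf_mono inf_le_right).trans h0) (mem_fix_iff_le.2 inf_le_left)
  obtain ⟨R, hR⟩ := exists_isDG p (stab (iB M N c) ⊓ L) hc.isBI.ne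
  have h4 := hc.isBI.isBI_osum hNL le_normalizer_of_normal
    fun c hc h2 => ZA.mem_SA_of_resOf h0 hc h2
  have h5 := hc.isBI.osum_mul_self (K := L) le_normalizer_of_normal
  obtain ⟨R', hR', h6⟩ := h4.exists_isDG_ge (hR.le.trans inf_le_right) hR.pgrp fun h => hR.br (by
    rw [← h5, br_mul hR.pgrp (fix_anti (hR.le.trans inf_le_right) h4.fx) (fix_anti hR.le h2.fx),
      h, zero_mul])
  obtain ⟨D', h7, h8⟩ := h4.knorr_dg le_top le_normalizer_of_normal hB.isBI_top (fun h => hcov (by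
    rw [← h5, ← mul_assoc, h, zero_mul])) hR'
  obtain ⟨x, -, rfl⟩ := (hB.isDefectGroup_iff_top.1 hD).exists_cj_eq hB.isBI_top h7
  have h9 : cj x D ≤ N := (cj_mono x hDN).trans (cj_eq_of_normal x N).le
  rw [← (h3 R hR).1, sup_eq_left]
  exact h6.trans (h8 ▸ inf_le_left.trans h9)

end Cfsg.Agent.S4673
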