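import Cfsg.Statements.S4674
import Cfsg.Agent.B.Cov3

set_option autoImplicit false
open Cfsg

namespace Cfsg.Agent.S4674

open Cfsg.Agent Cfsg.Agent.B Cfsg.Agent.H2 Cfsg.Agent.H3 Cfsg.Agent.L Subgroup MonoidAlgebra
open scoped Pointwise commutatorElement

/-- Fix a prime p and a maximal ideal M of the algebraic integers containing p. Let N be a normal subgroup of the finite group G, Q a p-subgroup of N, H = N_G(Q) and L = H ∩ N = N_N(Q). Let d be a p-block of N with defect group Q and e the p-block of L with defect group Q that induces d inside N (its Brauer correspondent). Then block induction from H to G is a bijection from the p-blocks of H covering e onto the p-blocks of G covering d: every block of H covering e induces exactly one block of G, and that block covers d; and every block of G covering d is induced by exactly one block of H covering e. -/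
theorem result {G : Type*} [Group G] [Fintype G] (p : ℕ) [Fact p.Prime] (M : Ideal Cfsg.AlgInt) (hM : Cfsg.IsPModular p M) (N : Subgroup G) [N.Normal] [Fintype N] (Q : Subgroup G) (hQ : IsPGroup p Q) (hQN : Q ≤ N) [Fintype ↥(Subgroup.normalizer (Q : Set G) ⊓ N)] (d : Set (Cfsg.IrrCharacter N)) (hd : Cfsg.IsPBlock M d) (hdQ : Cfsg.IsDefectGroup p M d (Q.subgroupOf N)) (e : Set (Cfsg.IrrCharacter ↥(Subgroup.normalizer (Q : Set G) ⊓ N))) (he : Cfsg.IsPBlock M e) (heQ : Cfsg.IsDefectGroup p M e (Q.subgroupOf (Subgroup.normalizer (Q : Set G) ⊓ N))) (hed : Cfsg.IsInducedBlockIn M N (Subgroup.normalizer (Q : Set G) ⊓ N) e d) : (∀ c : Set (Cfsg.IrrCharacter ↥(Subgroup.normalizer (Q : Set G))), Cfsg.IsPBlock M c → (∃ ψ ∈ c, ∃ ξ ∈ e, Cfsg.classInner (fun l : ↥(Subgroup.normalizer (Q : Set G) ⊓ N) => (ψ : ↥(Subgroup.normalizer (Q : Set G)) → ℂ) (Subgroup.inclusion inf_le_left l)) (ξ : ↥(Subgroup.normalizer (Q : Set G) ⊓ N) → ℂ) ≠ 0) → ∃! B : Set (Cfsg.IrrCharacter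 G), Cfsg.IsInducedBlock M (Subgroup.normalizer (Q : Set G)) c B ∧ (∃ χ ∈ B, ∃ θ ∈ d, Cfsg.classInner (fun n : N => (χ : G → ℂ) n) (θ : N → ℂ) ≠ 0)) ∧ (∀ B : Set (Cfsg.IrrCharacter G), Cfsg.IsPBlock M B → (∃ χ ∈ B, ∃ θ ∈ d, Cfsg.classInner (fun n : N => (χ : G → ℂ) n) (θ : N → ℂ) ≠ 0) → ∃! c : Set (Cfsg.IrrCharacter ↥(Subgroup.normalizer (Q : Set G))), (Cfsg.IsPBlock M c ∧ ∃ ψ ∈ c, ∃ ξ ∈ e, Cfsg.classInner (fun l : ↥(Subgroup.normalizer (Q : Set G) ⊓ N) => (ψ : ↥(Subgroup.normalizer (Q : Set G)) → ℂ) (Subgroup.inclusion inf_le_left l)) (ξ : ↥(Subgroup.normalizer (Q : Set G) ⊓ N) → ℂ) ≠ 0) ∧ Cfsg.IsInducedBlock M (Subgroup.normalizer (Q : Set G)) c B) := by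
  have : PMod p M := ⟨hM⟩
  have hQH : Q ≤ (normalizer (Q : Set G)) := le_normalizer
  have hC : centralizer (Q : Set G) ≤ (normalizer (Q : Set G)) := centralizer_le_normalizer _
  have hQL : Q ≤ (normalizer (Q : Set G)) ⊓ N := le_inf hQH hQN
  have hLn : (normalizer (Q : Set G)) ≤ normalizer (((normalizer (Q : Set G)) ⊓ N : Subgroup G) : Set G) :=
    H1.le_normalizer_inf le_normalizer le_normalizer_of_normal
  have hc : ∀ c : Set (IrrCharacter ↥(normalizer (Q : Set G))), IsPBlock M c → _ := fun c hc =>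
    covers_iff' inf_le_left hLn hc he
  have hdQ' := (hd.isDefectGroup_iff hQN).1 hdQ
  have heQ' := (he.isDefectGroup_iff hQL).1 heQ
  have h1 := hed.br_mul hQ hQL inf_le_right (le_inf (inf_le_right.trans hC) inf_le_left)
  rw [ZA.br_eq hQ hQL inf_le_left he.isBI.mem he.isBI.idem] at h1
  have h2 : Br Q (iB M N d) = iB M _ e := by
    have := hdQ'.isBI_br hd.isBI
    rw [inf_comm] at this
    exact this.eq_of_mul he.isBI (by rw [h1]; exact he.isBI.ne)
  have h3 : ∀ (c : Set (IrrCharacter ↥(normalizer (Q : Set G)))) (B : Set (IrrCharacter G)), IsPBlock M c → IsPBlock M B →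
      _ := fun c B hc hB => isInducedBlock_iff_br hQ hQH hC le_rfl hc hB
  have h4 : ∀ B : Set (IrrCharacter G), Br Q (eB M B * iB M N d) = Br Q (eB M B) * iB M _ e :=
    fun B => by rw [br_mul hQ (cent_le_fix _ (eB_mem B)) (fix_anti hQN hd.isBI.fx), h2]
  constructor
  · intro c hc' h5
    obtain ⟨B, hB⟩ := inducedBlockDefined_of_le hQ hQH hC le_rfl hc'
    refine ⟨B, ⟨hB, (covers_iff hB.2.1 hd).2 fun h6 => (hc c hc').1 h5 ?_⟩,
      fun B' h => h.1.unique hB⟩
    have h7 := h4 B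
    rw [h6, map_zero] at h7
    rw [← (h3 c B hc' hB.2.1).1 hB, (commute_of_fix_SA (br_mem_fix le_rfl
      (cent_le_fix _ (eB_mem B))) hc'.isBI.sa).eq, mul_assoc, ← h7, mul_zero]
  · intro B hB h5
    have h6 := hd.isBI.knorr le_top le_normalizer_of_normal hQ hQN hdQ'.br hB.isBI_top.mem
      hB.isBI_top.idem ((covers_iff hB hd).1 h5)
    rw [h2] at h6
    have h7 := br_mem_ZA_normalizer hB.isBI_top.mem Q
    rw [top_inf_eq] at h7
    obtain ⟨c, h8, h9, h10⟩ := ZA.exists_isBI h7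
      (br_idem' hQ (cent_le_fix _ (eB_mem B)) hB.isBI_top.idem) h6
    obtain ⟨c, hc', rfl⟩ := h8.exists_iB
    have key : ∀ c : Set (IrrCharacter ↥(normalizer (Q : Set G))), IsPBlock M c → iB M (normalizer (Q : Set G)) c * iB M _ e ≠ 0 →
        Br Q (eB M B) * iB M (normalizer (Q : Set G)) c = iB M (normalizer (Q : Set G)) c → ∃ P, IsDG p (normalizer (Q : Set G)) (iB M (normalizer (Q : Set G)) c) P ∧ P ⊓ N = Q ∧
          IsDG p ⊤ (eB M B) P := by
      intro c hc h1 h2
      obtain ⟨P, hP, h3⟩ := he.isBI.knorr_dg inf_le_left hLn hc.isBI h1 heQ'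
      rw [← inf_assoc, inf_eq_left.2 hP.le] at h3
      have h4 : normalizer (P : Set G) ≤ (normalizer (Q : Set G)) := by
        have := H1.le_normalizer_inf (K := N) (le_refl (normalizer (P : Set G)))
          le_normalizer_of_normal
        rwa [h3] at this
      have h5 := hP.isBI_br hc.isBI
      have h6 := hP.isDG_br
      rw [inf_eq_right.2 h4, ← top_inf_eq (normalizer (P : Set G))] at h5 h6
      refine ⟨P, hP, h3, isDG_of_normalizer hB.isBI_top h5 h6 ?_⟩
      rw [← br_br (h3.ge.trans inf_le_left) (eB M B), ← br_mul hP.pgrp (fix_anti hP.le (ZA.fx h7))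
        (fix_anti hP.le hc.isBI.fx), h2]
    refine ⟨c, ⟨⟨hc', (hc c hc').2 h10⟩, (h3 c B hc' hB).2 h9⟩, fun c' ⟨⟨h11, h12⟩, h13⟩ => ?_⟩
    have h14 := (h3 c' B h11 hB).1 h13
    obtain ⟨P, h15, h16, h17⟩ := key c hc' h10 h9
    obtain ⟨P', h18, h19, h20⟩ := key c' h11 ((hc c' h11).1 h12) h14
    obtain ⟨x, -, rfl⟩ := h20.exists_cj_eq hB.isBI_top h17
    have h21 : x ∈ (normalizer (Q : Set G)) := by
      rw [mem_normalizer_iff_cj]
      conv_lhs => rw [← h19, cj_inf, cj_eq_of_normal x N, h16]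
    have h22 := h18.conj (le_normalizer h21) (cA_of_mem_fix h11.isBI.fx h21)
    have h23 : ∀ c : Set (IrrCharacter ↥(normalizer (Q : Set G))), IsPBlock M c → IsDG p (normalizer (Q : Set G)) (iB M (normalizer (Q : Set G)) c) (cj x P') →
        Br Q (eB M B) * iB M (normalizer (Q : Set G)) c = iB M (normalizer (Q : Set G)) c → Br (cj x P') (iB M (normalizer (Q : Set G)) c) = Br (cj x P') (eB M B) := by
      intro c hc h1 h2
      have h4 : normalizer (cj x P' : Set G) ≤ (normalizer (Q : Set G)) := by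
        have := H1.le_normalizer_inf (K := N) (le_refl (normalizer (cj x P' : Set G)))
          le_normalizer_of_normal
        rwa [h16] at this
      have h5 := h1.isBI_br hc.isBI
      rw [inf_eq_right.2 h4, ← top_inf_eq (normalizer _)] at h5
      refine ((h17.isBI_br hB.isBI_top).eq_of_mul h5 ?_).symm
      rw [← br_br (h16.ge.trans inf_le_left) (eB M B), ← br_mul h1.pgrp
        (fix_anti h1.le (ZA.fx h7)) (fix_anti h1.le hc.isBI.fx), h2]
      exact h1.br
    refine h11.closed.iB_inj hc'.closed (h11.isBI.eq_of_br hc'.isBI h15.pgrp h15.le ?_)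
    rw [h23 c' h11 h22 h14, h23 c hc' h15 h9, br_idem' h15.pgrp (cent_le_fix _ (eB_mem B))
      hB.isBI_top.idem]
    exact h17.br

end Cfsg.Agent.S4674
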