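import Cfsg.Statements.S4679
import Cfsg.Agent.B.Cov2

set_option autoImplicit false
open Cfsg

namespace Cfsg.Agent.S4679

open Cfsg.Agent Cfsg.Agent.B Cfsg.Agent.H2 Cfsg.Agent.H3 Cfsg.Agent.L Subgroup MonoidAlgebra
open scoped Pointwise commutatorElement

/-- Fix a prime p and a maximal ideal M of the algebraic integers containing p, a p-block B of the finite group G with maximal Brauer pair (P, e), its fusion system F on P, a Brauer pair (Q, f) ≤ (P, e), and let T be the stabilizer of f in N_G(Q). Then Q is fully normalized in F if and only if N_P(Q) is a defect group of the block of T whose idempotent is that of f. -/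
theorem result {G : Type*} [Group G] [Fintype G] (p : ℕ) [Fact p.Prime] (M : Ideal Cfsg.AlgInt) (hM : Cfsg.IsPModular p M) (B : Set (Cfsg.IrrCharacter G)) (P : Subgroup G) (e : Set (Cfsg.IrrCharacter (Subgroup.centralizer (P : Set G)))) (hmax : Cfsg.IsMaximalBrauerPair p M B P e) (F : Cfsg.FusionSystem P) (hF : Cfsg.IsBlockFusionSystemOn p M B P e F) (Q : Subgroup G) (f : Set (Cfsg.IrrCharacter (Subgroup.centralizer (Q : Set G)))) (hQP : Q ≤ P) (hf : Cfsg.IsPBlock M f) (hle : Cfsg.SubpairLE p M Q f P e) (T : Subgroup G) (hT : ∀ y : G, y ∈ T ↔ y ∈ Subgroup.normalizer (Q : Set G) ∧ Cfsg.StabilizesBlock (Subgroup.centralizer (Q : Set G)) f y) : F.IsFullyNormalized Q ↔ ∃ F' : Set (Cfsg.IrrCharacter T), Cfsg.IsPBlock M F' ∧ (∀ t : T, Cfsg.blockCoeff F' t = Cfsg.subgroupBlockCoeff (Subgroup.centralizer (Q : Set G)) f (t : G)) ∧ Cfsg.IsDefectGroup p M F' ((P ⊓ Subgroup.normalizer (Q : Set G)).subgroupOf T) := by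
  have : PMod p M := ⟨hM⟩
  have hT' := (hf.closed.eq_inf_stab hT).trans (NS_top _ _).symm
  have h := hmax.mp
  have h1 := hle.ple
  have h2 := h1.bp h.bp
  subst hT'
  have h7 := h1.inf_normalizer_le_NS h.bp
  have h8 : centralizer (Q : Set G) ≤ NS ⊤ Q (iB M _ f) := (CH_top Q).ge.trans h2.CH_le_NS
  rw [hF.bfs.fn_iff h h1]
  constructor
  · intro h3
    obtain ⟨E, hE, h4, h5⟩ := h2.isBI_NS.exists_coeff hf.closed h8
      ((NS_le_normalizer _ _ _).trans (normalizer_le_nc Q))
    exact ⟨E, hE, h5, (hE.isDefectGroup_iff h7).2 (by rw [h4]; exact h3)⟩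
  · rintro ⟨E, hE, h3, h4⟩
    have := (hE.isDefectGroup_iff h7).1 h4
    rwa [iB_eq_of_blockCoeff h8 h3] at this

end Cfsg.Agent.S4679
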