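import Cfsg.Statements.S4681
import Cfsg.Agent.B.Pair2

set_option autoImplicit false
open Cfsg

namespace Cfsg.Agent.S4681

open Cfsg.Agent Cfsg.Agent.B Cfsg.Agent.H2 Cfsg.Agent.H3 Cfsg.Agent.L Subgroup MonoidAlgebra
open scoped Pointwise commutatorElement

/-- Fix a prime p and a maximal ideal M of the algebraic integers containing p. Let B₀ be the principal p-block of the finite group G, P a Sylow p-subgroup and e₀ the principal p-block of C_G(P). Then (P, e₀) is a maximal Brauer pair of B₀, and the fusion system of B₀ on (P, e₀) is the fusion system of G on P: its maps from each subgroup of P are exactly the conjugation maps into P by elements of G. -/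
theorem result {G : Type*} [Group G] [Fintype G] (p : ℕ) [Fact p.Prime] (M : Ideal Cfsg.AlgInt) (hM : Cfsg.IsPModular p M) (S : Sylow p G) : Cfsg.IsMaximalBrauerPair p M (Cfsg.principalBlock M G) (S : Subgroup G) (Cfsg.principalBlock M (Subgroup.centralizer ((S : Subgroup G) : Set G))) ∧ ∀ F : Cfsg.FusionSystem (S : Subgroup G), Cfsg.IsBlockFusionSystemOn p M (Cfsg.principalBlock M G) (S : Subgroup G) (Cfsg.principalBlock M (Subgroup.centralizer ((S : Subgroup G) : Set G))) F → ∀ Q : Subgroup G, F.Hom Q = (Cfsg.groupFusionSystem (S : Subgroup G)).Hom Q := by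
  have : PMod p M := ⟨hM⟩
  have h1 : BP p ⊤ (S : Subgroup G) (iB M _ (principalBlock M _)) := isPBlock_principal.bp S.isPGroup'
  have h2 := isPBlock_principal (M := M) (G := G)
  refine ⟨isMaximalBrauerPair_iff.2 ⟨h2, isPBlock_principal, h2.isBI_top, h1,
    (h2.isBI_top.isDG_of_aug aug_principal).2 (sylIn_top S),
    h1.br_of_aug h2.isBI_top aug_principal (aug_iB_principal _)⟩, fun F hF Q => ?_⟩
  refine H9.hom_eq_of_mor (fun R σ => ?_) Q
  rw [hF.bfs, H9.mor_group_iff]
  constructor
  · rintro ⟨g, h3, h4⟩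
    exact ⟨h3.le, fun x hx => by rw [h4 x hx]; exact h3.cj_le (conj_mem_cj g hx), g, h4⟩
  · rintro ⟨h3, h4, g, h5⟩
    obtain ⟨f, hf, h6⟩ := exists_bp_aug (M := M) (le_top (a := R)) (S.isPGroup'.to_le h3)
    refine ⟨g, ⟨mem_top _, f, hf.ple_of_aug h1 h6 (aug_iB_principal _) h3,
      (hf.conj (le_normalizer (mem_top g))).ple_of_aug h1 (by rwa [aug_push])
        (aug_iB_principal _) ?_⟩, h5⟩
    rintro _ ⟨x, hx, rfl⟩
    have := h4 x hx
    rwa [h5 x hx] at this

end Cfsg.Agent.S4681
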