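import Cfsg.Statements.S4682
import Cfsg.Agent.B.Cov3
import Cfsg.Agent.H1.Basic

set_option autoImplicit false
open Cfsg

namespace Cfsg.Agent.S4682

open Cfsg.Agent Cfsg.Agent.B Cfsg.Agent.H2 Cfsg.Agent.H3 Cfsg.Agent.L Subgroup MonoidAlgebra
open scoped Pointwise commutatorElement

/-- Fix a prime p and a maximal ideal M of the algebraic integers containing p, a p-block B of the finite group G with maximal Brauer pair (P, e), P abelian, and a Brauer pair (Q, f) ≤ (P, e). Let T_Q be the stabilizer of f in N_G(Q) and T_P the stabilizer of e in N_G(P). Then every element of T_Q is a product of an element of T_P and an element of C_G(Q); and the index of C_G(Q) in T_Q equals the index of T_P ∩ C_G(Q) in T_P ∩ N_G(Q). -/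
theorem result {G : Type*} [Group G] [Fintype G] (p : ℕ) [Fact p.Prime] (M : Ideal Cfsg.AlgInt) (hM : Cfsg.IsPModular p M) (B : Set (Cfsg.IrrCharacter G)) (P : Subgroup G) (e : Set (Cfsg.IrrCharacter (Subgroup.centralizer (P : Set G)))) (hmax : Cfsg.IsMaximalBrauerPair p M B P e) (hab : ∀ x ∈ P, ∀ y ∈ P, x * y = y * x) (Q : Subgroup G) (f : Set (Cfsg.IrrCharacter (Subgroup.centralizer (Q : Set G)))) (hQP : Q ≤ P) (hf : Cfsg.IsPBlock M f) (hle : Cfsg.SubpairLE p M Q f P e) (TQ : Subgroup G) (hTQ : ∀ y : G, y ∈ TQ ↔ y ∈ Subgroup.normalizer (Q : Set G) ∧ Cfsg.StabilizesBlock (Subgroup.centralizer (Q : Set G)) f y) (TP : Subgroup G) (hTP : ∀ y : G, y ∈ TP ↔ y ∈ Subgroup.normalizer (P : Set G) ∧ Cfsg.StabilizesBlock (Subgroup.centralizer (P : Set G)) e y) : (∀ x ∈ TQ, ∃ y ∈ TP, ∃ c ∈ Subgroup.centralizer (Q : Set G), x = y * c) ∧ ((Subgroup.centralizer (Q : Set G)).subgroupOf TQ).index = ((TP ⊓ Subgroup.centralizer (Q : Set G)).subgroupOf (TP ⊓ Subgroup.normalizer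 (Q : Set G))).index := by
  have : PMod p M := ⟨hM⟩
  have h := hmax.mp
  have h1 := hle.ple
  rw [(hf.closed.eq_inf_stab hTQ).trans (NS_top _ _).symm,
    (hmax.1.1.2.closed.eq_inf_stab hTP).trans (NS_top _ _).symm]
  have h2 : P ≤ centralizer (P : Set G) := fun x hx y hy => hab y hy x hx
  constructor
  · intro x hx
    obtain ⟨y, hy, c, hc, h3⟩ := h.exists_NS_of_abelian h2 h1 hx
    exact ⟨y, hy.1, c, hc.2, h3⟩
  · change relIndex _ _ = relIndex _ _
    rw [h.NS_eq_of_abelian h2 h1, CH_top, H1.relIndex_sup_norm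
      (inf_le_right.trans (normalizer_le_nc Q)), relIndex, relIndex]
    congr 1
    ext x
    simp only [mem_subgroupOf, mem_inf]
    exact ⟨fun h => ⟨x.2.1, h⟩, fun h => h.2⟩

end Cfsg.Agent.S4682
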