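import Cfsg.Statements.S4683
import Cfsg.Agent.B.Contr
import Cfsg.Agent.B.Cov2

set_option autoImplicit false
open Cfsg

namespace Cfsg.Agent.S4683

open Cfsg.Agent Cfsg.Agent.B Cfsg.Agent.H2 Cfsg.Agent.H3 Cfsg.Agent.L Subgroup MonoidAlgebra
open scoped Pointwise commutatorElement
theorem aux {G : Type*} [Group G] [Fintype G] (p : ℕ) [Fact p.Prime] (M : Ideal Cfsg.AlgInt)
    [PMod p M] (B : Set (Cfsg.IrrCharacter G)) (u : G) (hu : PElt p u) (H : Subgroup G)
    (hH : H = centralizer {u}) (e : Set (Cfsg.IrrCharacter H)) (h : IsInducedBlock M H e B) :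
    ∑ᶠ χ ∈ B, ∑ᶠ s : H, pRegularPart p (blockPart e (fun c : H => (χ : G → ℂ) (u * c))) s *
      blockPart e (fun c : H => (χ : G → ℂ) (u⁻¹ * c)) s⁻¹ =
        (Nat.card H : ℂ) * (Cfsg.blockRank p e : ℂ) := by
  classical
  subst hH
  rw [← sum_ctr_self hu h.1.closed, finsum_mem_eq_ite, Finset.mul_sum]
  refine Finset.sum_congr rfl fun χ _ => ?_
  split_ifs with hχ
  · rw [ctr_eq_self h.1.closed χ.2.isClassFunction χ.2.isClassFunction, classInner_reg_reg,
      card_mul_classInner, finsum_eq_sum_of_fintype, pRegularPart_eq]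
    refine Finset.sum_congr rfl fun s _ => congrArg _ ?_
    simp only [blockPart_eq, map_sum, apply_ite (starRingEnd ℂ), map_mul, map_zero]
    refine Finset.sum_congr rfl fun ξ _ => if_congr Iff.rfl ?_ rfl
    rw [ξ.2.apply_inv, classInner_def, classInner_def, map_mul, map_sum]
    congr 2
    · simp
    · refine Fintype.sum_equiv (Equiv.inv _) _ _ fun c => ?_
      have := mem_centralizer_singleton_iff.1 c.2
      simp only [Equiv.inv_apply, map_mul, ← χ.2.apply_inv, ξ.2.apply_inv, mul_inv_rev,
        InvMemClass.coe_inv, inv_inv]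
      rw [(Commute.inv_right this).eq, Complex.conj_conj]
  · rw [h.ctr_eq_zero hu hχ, mul_zero]


/-- Fix a prime p and a maximal ideal M of the algebraic integers containing p, a p-block B of the finite group G, a p-element u and a p-block e of C = C_G(u) such that (⟨u⟩, e) is a Brauer pair of B (a Brauer element of B). For χ ∈ B let χ_u be the e-part of the class function c ↦ χ(u c) on C and χ_u' the e-part of c ↦ χ(u⁻¹ c). Then the sum over χ ∈ B and over the p-regular elements s of C of χ_u(s)·χ_u'(s⁻¹) equals the order of C times the p-regular rank of e (the number of irreducible Brauer characters of e). -/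
theorem result {G : Type*} [Group G] [Fintype G] (p : ℕ) [Fact p.Prime] (M : Ideal Cfsg.AlgInt) (hM : Cfsg.IsPModular p M) (B : Set (Cfsg.IrrCharacter G)) (u : G) (hu : ∃ k : ℕ, orderOf u = p ^ k) (e : Set (Cfsg.IrrCharacter (Subgroup.centralizer (Subgroup.zpowers u : Set G)))) (hBe : Cfsg.IsBrauerPairOf p M B (Subgroup.zpowers u) e) : ∑ᶠ χ ∈ B, ∑ᶠ s : Subgroup.centralizer (Subgroup.zpowers u : Set G), Cfsg.pRegularPart p (Cfsg.blockPart e (fun c : Subgroup.centralizer (Subgroup.zpowers u : Set G) => (χ : G → ℂ) (u * c))) s * Cfsg.blockPart e (fun c : Subgroup.centralizer (Subgroup.zpowers u : Set G) => (χ : G → ℂ) (u⁻¹ * c)) s⁻¹ = (Nat.card (Subgroup.centralizer (Subgroup.zpowers u : Set G)) : ℂ) * (Cfsg.blockRank p e : ℂ) := by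
  have : PMod p M := ⟨hM⟩
  exact aux p M B u hu _ (centralizer_zpowers u) e
    ((isInducedBlock_centralizer_iff (PElt.isPGroup hu)).2 hBe)

end Cfsg.Agent.S4683
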