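import Cfsg.Statements.S4684
import Cfsg.Agent.B.Star2

set_option autoImplicit false
open Cfsg

namespace Cfsg.Agent.S4684

open Cfsg.Agent Cfsg.Agent.B Cfsg.Agent.H2 Cfsg.Agent.H3 Subgroup MonoidAlgebra
open scoped Pointwise commutatorElement

/-- Fix a prime p and a maximal ideal M of the algebraic integers containing p, a p-block B of the finite group G with maximal Brauer pair (P, e) and fusion system F on P. Then the number of irreducible characters of height zero in B is divisible by the index in P of the focal subgroup of F. -/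
theorem result {G : Type*} [Group G] [Fintype G] (p : ℕ) [Fact p.Prime] (M : Ideal Cfsg.AlgInt) (hM : Cfsg.IsPModular p M) (B : Set (Cfsg.IrrCharacter G)) (P : Subgroup G) (e : Set (Cfsg.IrrCharacter (Subgroup.centralizer (P : Set G)))) (hmax : Cfsg.IsMaximalBrauerPair p M B P e) (F : Cfsg.FusionSystem P) (hF : Cfsg.IsBlockFusionSystemOn p M B P e F) : (F.focalSubgroup.subgroupOf P).index ∣ Nat.card {χ : Cfsg.IrrCharacter G // χ ∈ B ∧ Cfsg.blockHeight p B (χ : G → ℂ) = 0} := by
  have : PMod p M := ⟨hM⟩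
  obtain ⟨hB, -, h⟩ := isMaximalBrauerPair_iff.1 hmax
  simpa using h.dvd_card_of_focal hB (IsBlockFusionSystemOn.bfs hF) le_rfl 0 fun χ hχ h0 u hu h1 =>
    (IsInducedBlock.red_ctr_ne_zero_iff (pElt_of_mem h.bp.pgrp hu) (h.induced_sb hB hu) hχ hχ).2 ⟨h0, h0⟩ (by
      rw [h1, mul_zero, red_zero])

end Cfsg.Agent.S4684
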