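import Cfsg.Statements.S4686
import Cfsg.Agent.B.Pair2

set_option autoImplicit false
open Cfsg

namespace Cfsg.Agent.S4686

open Cfsg.Agent Cfsg.Agent.B Cfsg.Agent.H2 Cfsg.Agent.H3 Cfsg.Agent.L Subgroup MonoidAlgebra
open scoped Pointwise commutatorElement

/-- Fix a prime p and a maximal ideal M of the algebraic integers containing p, a p-block B of the finite group G with maximal Brauer pair (P, e) and fusion system F on P. Then B is nilpotent (for every Brauer pair (Q, f) of B the stabilizer of f in N_G(Q) is C_G(Q) extended by a p-group) if and only if F is the inner fusion system of P: its maps from each subgroup of P are exactly the conjugations by elements of P. -/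
theorem result {G : Type*} [Group G] [Fintype G] (p : ℕ) [Fact p.Prime] (M : Ideal Cfsg.AlgInt) (hM : Cfsg.IsPModular p M) (B : Set (Cfsg.IrrCharacter G)) (P : Subgroup G) (e : Set (Cfsg.IrrCharacter (Subgroup.centralizer (P : Set G)))) (hmax : Cfsg.IsMaximalBrauerPair p M B P e) (F : Cfsg.FusionSystem P) (hF : Cfsg.IsBlockFusionSystemOn p M B P e F) : Cfsg.IsNilpotentBlock p M B ↔ ∀ Q : Subgroup G, F.Hom Q = (Cfsg.innerFusionSystem P).Hom Q := by
  have : PMod p M := ⟨hM⟩
  rw [isNilpotentBlock_iff_top hmax.1.2.1]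
  constructor
  · intro hn Q
    refine H9.hom_eq_of_mor (fun R σ => ⟨fun h => ?_, H9.Mor.of_inner⟩) Q
    obtain ⟨g, h1, h2⟩ := (hF.bfs _ _).1 h
    obtain ⟨u, hu, h3⟩ := hmax.mp.exists_of_nil hn h1
    exact H9.mor_inner_iff.2 ⟨h1.le, u, hu, fun x hx => (h2 x hx).trans (h3 x hx)⟩
  · intro h
    exact hmax.mp.nil_of_inner fun Q g hg =>
      (H9.mor_inner_iff.1 ((H9.mor_iff_of_hom_eq (h Q) _).1 (hF.bfs.mor hg))).2

end Cfsg.Agent.S4686
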