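import Cfsg.Statements.S4689
import Cfsg.Agent.B.Star2

set_option autoImplicit false
open Cfsg

namespace Cfsg.Agent.S4689

open Cfsg.Agent Cfsg.Agent.B Cfsg.Agent.H2 Cfsg.Agent.H3 Subgroup MonoidAlgebra
open scoped Pointwise commutatorElement

/-- Fix a prime p and a maximal ideal M of the algebraic integers containing p, and a nilpotent p-block B of the finite group G. Then B has p-regular rank one (a single irreducible Brauer character), and some χ₀ ∈ B restricts to that Brauer character: every χ ∈ B agrees on the p-regular elements with a natural-number multiple of χ₀. -/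
theorem result {G : Type*} [Group G] [Fintype G] (p : ℕ) [Fact p.Prime] (M : Ideal Cfsg.AlgInt) (hM : Cfsg.IsPModular p M) (B : Set (Cfsg.IrrCharacter G)) (hnil : Cfsg.IsNilpotentBlock p M B) : Cfsg.blockRank p B = 1 ∧ ∃ χ₀ ∈ B, ∀ χ ∈ B, ∃ d : ℕ, ∀ x : G, Cfsg.pRegularPart p (χ : G → ℂ) x = (d : ℂ) * Cfsg.pRegularPart p (χ₀ : G → ℂ) x := by
  have : PMod p M := ⟨hM⟩
  have hB := hnil.1
  obtain ⟨P, hP⟩ := exists_isDG p ⊤ hB.isBI_top.ne
  obtain ⟨e, h⟩ := hP.exists_mp hB.isBI_top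
  have hn := (isNilpotentBlock_iff_top hB).1 hnil
  obtain ⟨χ₀, h0, h1⟩ := exists_height_zero p hB.nonempty
  obtain ⟨Φ, h2⟩ := h.exists_nil_equiv hB hn h0 h1
  have key : ∀ χ ∈ B, ∃ d : ℕ, reg p (χ : G → ℂ) = (d : ℂ) • reg p (χ₀ : G → ℂ) := fun χ hχ => by
    obtain ⟨ζ, h3⟩ := Φ.surjective ⟨χ, hχ⟩
    have := h.reg_star hB ζ.2.isGen (Stab.of_nil h hn ζ.2.isClassFunction) χ₀.2.isGen (blockPart_of_mem h0)
    rw [← h2, h3, ← ζ.2.cast_charDegree] at this
    exact ⟨_, this⟩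
  exact ⟨rank_eq_one_of hB.nonempty _ fun χ hχ => ⟨_, (key χ hχ).choose_spec⟩, χ₀, h0, fun χ hχ =>
    (key χ hχ).imp fun d hd x => by rw [pRegularPart_eq, pRegularPart_eq, hd]; rfl⟩

end Cfsg.Agent.S4689
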