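import Cfsg.Statements.S4690
import Cfsg.Agent.B.Star2

set_option autoImplicit false
open Cfsg

namespace Cfsg.Agent.S4690

open Cfsg.Agent Cfsg.Agent.B Cfsg.Agent.H2 Cfsg.Agent.H3 Subgroup MonoidAlgebra
open scoped Pointwise commutatorElement

/-- Fix a prime p and a maximal ideal M of the algebraic integers containing p, and a nilpotent p-block B of the finite group G with defect group P. Then there is a bijection from B onto the irreducible characters of P carrying the height of each χ ∈ B to the exponent of p in the degree of its image. -/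
theorem result {G : Type*} [Group G] [Fintype G] (p : ℕ) [Fact p.Prime] (M : Ideal Cfsg.AlgInt) (hM : Cfsg.IsPModular p M) (B : Set (Cfsg.IrrCharacter G)) (hnil : Cfsg.IsNilpotentBlock p M B) (P : Subgroup G) (hP : Cfsg.IsDefectGroup p M B P) : ∃ Φ : B ≃ Cfsg.IrrCharacter P, ∀ χ : B, Cfsg.blockHeight p B ((χ : Cfsg.IrrCharacter G) : G → ℂ) = (Cfsg.charDegree ((Φ χ : Cfsg.IrrCharacter P) : P → ℂ)).factorization p := by
  have : PMod p M := ⟨hM⟩
  have hB := hnil.1
  obtain ⟨e, h⟩ := (hB.isDefectGroup_iff_top.1 hP).exists_mp hB.isBI_top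
  have hn := (isNilpotentBlock_iff_top hB).1 hnil
  obtain ⟨χ₀, h0, h1⟩ := exists_height_zero p hB.nonempty
  obtain ⟨Φ, h2⟩ := h.exists_nil_equiv hB hn h0 h1
  refine ⟨Φ.symm, Φ.surjective.forall.2 fun ζ => ?_⟩
  have h3 := h.star_apply_one hB ζ.2.isGen (Stab.of_nil h hn ζ.2.isClassFunction) χ₀.2.isGen (blockPart_of_mem h0)
  rw [← h2, ← ζ.2.cast_charDegree, ← χ₀.2.cast_charDegree, ← Nat.cast_mul] at h3
  have h4 := nu_add_blockDefect (p := p) (Φ ζ).2
  have h5 := nu_add_blockDefect (p := p) h0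
  rw [nu, charDegree_eq h3, Nat.factorization_mul ζ.2.charDegree_pos.ne' χ₀.2.charDegree_pos.ne'] at h4
  simp only [nu, Finsupp.add_apply, Equiv.symm_apply_apply] at h4 h5 ⊢
  omega

end Cfsg.Agent.S4690
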