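import Cfsg.Statements.S4692
import Cfsg.Agent.B.Cov3
import Cfsg.Agent.H1.Coprime

set_option autoImplicit false
open Cfsg

namespace Cfsg.Agent.S4692

open Cfsg.Agent Cfsg.Agent.B Cfsg.Agent.H2 Cfsg.Agent.H3 Cfsg.Agent.L Subgroup MonoidAlgebra
open scoped Pointwise commutatorElement

theorem aux {p : ℕ} [hp : Fact p.Prime] {M : Ideal AlgInt} [hM : PMod p M] {G : Type*} [Group G] [Finite G]
    {N : Subgroup G} [N.Normal] (hN : ∀ x, ¬ p ∣ orderOf x → x ∈ N) {a : MonoidAlgebra (F M) G}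
    (hc : a ∈ cent (F M) G) (h2 : a * a = a) : Nil p N a ↔ Nil p ⊤ a := by
  have h1 : ∀ Q, CH N Q ≤ CH ⊤ Q := fun Q => inf_le_inf_right _ le_top
  have h3 : ∀ Q : Subgroup G, normalizer (Q : Set G) ≤ normalizer (CH N Q : Set G) := fun Q =>
    le_normalizer_CH le_normalizer_of_normal le_rfl
  have h4 : ∀ Q, ∀ c ∈ ZA (F M) (CH ⊤ Q), c * c = c → c ∈ SA (F M) (CH N Q) := fun Q c h h' =>
    mem_SA.2 fun g hg => ⟨hN g (ZA.reg_of_coeff h h' hg), (mem_SA.1 (ZA.sa h) g hg).2⟩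
  have h5 : ∀ Q, CH ⊤ Q ≤ normalizer (CH N Q : Set G) := fun Q => (CH_le_normalizer _ _).trans (h3 Q)
  constructor
  · intro h Q f hf hb x hx hr
    have hn : x ∈ normalizer ((Q ⊓ N : Subgroup G) : Set G) := mem_normalizer_iff_cj.2 (by
      rw [cj_inf, cj_eq_of_mem_normalizer hx.1.2, cj_eq_of_normal])
    obtain ⟨e, he⟩ := hf.exists_ple (inf_le_left (b := N))
    have h6 := he.bp hf
    obtain ⟨g, hg, h7⟩ := exists_isBI_mul (CH N (Q ⊓ N)) h6.bi.ne
    have h8 := h4 _ _ h6.bi.mem h6.bi.idem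
    rw [(commute_of_fix_SA hg.fx h8).eq] at h7
    have h9 := hg.eq_osum (h1 _) (h5 _) h6.bi h8 h7
    have h10 : e * g = g := h9 ▸ hg.osum_mul_self (h5 _)
    obtain ⟨c, h11, h12⟩ := B.mem_orb.1 (hg.mem_orb_of_mul (h5 _) (hg.conjA' (h3 _ hn)) (by
      rw [← h9, ← mem_stab.1 (he.mem_stab hf (le_normalizer_of_normal (mem_top x)) hx.1.2 hx.2 hn), ← map_mul, h10]
      exact (hg.conjA x).ne))
    obtain ⟨s, hs, y, hy, h13, -, h14, h15⟩ := exists_pdecomp_mem (p := p)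
      (K := normalizer ((Q ⊓ N : Subgroup G) : Set G) ⊓ stab g) (g := c⁻¹ * x)
      ⟨Subgroup.mul_mem _ (Subgroup.inv_mem _ (CH_le_normalizer _ _ h11)) hn, mem_stab.2 (by rw [cA_mul, ← h12, cA_inv_cA])⟩
    have h16 := h _ g ⟨inf_le_right, h6.pgrp, hg⟩ (by
      rw [← h10, ← mul_assoc, (he.br_iff (mem_ZA_top.2 hc) h2).1 hb]) y ⟨⟨hN y h15, hy.1⟩, hy.2⟩ h15
    have h17 : ∀ n : ℕ, ∀ r ∈ Q ⊓ N, x ^ n * r * (x ^ n)⁻¹ = s ^ n * r * (s ^ n)⁻¹ := fun n => by
      induction n with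
      | zero => simp
      | succ n ih =>
        intro r hr
        have h18 := (mem_normalizer_iff.1 hs.1 r).1 hr
        have : x * r * x⁻¹ = s * r * s⁻¹ := by
          rw [← mul_inv_cancel_left c x, ← h13]
          calc _ = c * (s * (y * r) * y⁻¹ * s⁻¹) * c⁻¹ := by group
            _ = c * (s * r * s⁻¹) * c⁻¹ := by rw [← h16 r hr]; group
            _ = _ := by rw [← h11.2 _ h18]; group
        calc _ = x ^ n * (x * r * x⁻¹) * (x ^ n)⁻¹ := by rw [pow_succ]; group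
          _ = _ := by rw [this, ih _ h18, pow_succ]; group
    obtain ⟨k, hk⟩ := pElt_iff.1 h14
    refine H1.le_centralizer_of_chain (A := zpowers x) (N := Q ⊓ N) ?_ ?_ (zpowers_le_of_mem
      (mem_of_pow_of_reg (k := k) (fun r hr => ?_) hr)) (mem_zpowers x)
    · obtain ⟨j, hj⟩ := IsPGroup.iff_card.1 h6.pgrp
      rw [hj, Nat.card_zpowers]
      exact (reg_iff_coprime.1 hr).pow_right j
    · exact le_inf (le_normalizer_iff_commutator_le_left.1 (zpowers_le_of_mem hx.1.2))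
        ((commutator_mono le_rfl (zpowers_le_of_mem (hN x hr))).trans (commutator_le_right _ _))
    · rw [eq_comm, ← mul_inv_eq_iff_eq_mul, h17 _ r hr, hk]; simp
  · intro h Q f hf hb x hx hr
    refine h Q _ ⟨le_top, hf.pgrp, hf.bi.isBI_osum (h1 Q) (h5 Q) (h4 Q)⟩
      (mul_osum_of_eq (br_mem_fix (CH_le_normalizer _ _) (cent_le_fix _ hc)) hb) x ⟨⟨trivial, hx.1.2⟩, mem_stab.2 ?_⟩ hr
    rw [cA_osum, mem_stab.1 hx.2, cj_CH, cj_top, cj_eq_of_mem_normalizer hx.1.2]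


/-- Fix a prime p and a maximal ideal M of the algebraic integers containing p. Let N be a normal subgroup of p-power index in the finite group G and c a p-block of N stable under conjugation by G, and let B be the p-block of G whose idempotent is that of c (it exists and is unique). Then c is nilpotent as a block of N if and only if B is nilpotent as a block of G. -/
theorem result {G : Type*} [Group G] [Fintype G] (p : ℕ) [Fact p.Prime] (M : Ideal Cfsg.AlgInt) (hM : Cfsg.IsPModular p M) (N : Subgroup G) [N.Normal] (hN : ∃ k : ℕ, N.index = p ^ k) (c : Set (Cfsg.IrrCharacter N)) (hc : Cfsg.IsPBlock M c) (hst : ∀ x : G, Cfsg.StabilizesBlock N c x) (B : Set (Cfsg.IrrCharacter G)) (hB : Cfsg.IsPBlock M B) (hBc : ∀ g : G, Cfsg.blockCoeff B g = Cfsg.subgroupBlockCoeff N c g) : Cfsg.IsNilpotentBlock p M c ↔ Cfsg.IsNilpotentBlock p M B := by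
  have : PMod p M := ⟨hM⟩
  obtain ⟨k, hk⟩ := hN
  rw [isNilpotentBlock_iff hc, isNilpotentBlock_iff_top hB, ← eB_eq_of_blockCoeff hBc]
  exact aux (fun x => reg_mem_of_index hk) (eB_mem B) hB.closed.eB_mul_self

end Cfsg.Agent.S4692
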