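import Cfsg.Statements.S4693
import Cfsg.Agent.B.Cov3

set_option autoImplicit false
open Cfsg

namespace Cfsg.Agent.S4693

open Cfsg.Agent Cfsg.Agent.B Cfsg.Agent.H2 Cfsg.Agent.H3 Cfsg.Agent.L Subgroup MonoidAlgebra
open scoped Pointwise commutatorElement

/-- Fix a prime p and a maximal ideal M of the algebraic integers containing p, a p-block B of the finite group G with maximal Brauer pair (P, e) and fusion system F on P, and a Brauer pair (Q, f) ≤ (P, e) with Q centric in F. Suppose every element of G normalizes Q and stabilizes f. Then the idempotent of B agrees with that of f modulo M at every element of G, and f is the idempotent of a nilpotent block of Q·C_G(Q): some p-block of Q·C_G(Q) has the idempotent coefficients of f and is nilpotent. -/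
theorem result {G : Type*} [Group G] [Fintype G] (p : ℕ) [Fact p.Prime] (M : Ideal Cfsg.AlgInt) (hM : Cfsg.IsPModular p M) (B : Set (Cfsg.IrrCharacter G)) (P : Subgroup G) (e : Set (Cfsg.IrrCharacter (Subgroup.centralizer (P : Set G)))) (hmax : Cfsg.IsMaximalBrauerPair p M B P e) (F : Cfsg.FusionSystem P) (hF : Cfsg.IsBlockFusionSystemOn p M B P e F) (Q : Subgroup G) (f : Set (Cfsg.IrrCharacter (Subgroup.centralizer (Q : Set G)))) (hQP : Q ≤ P) (hf : Cfsg.IsPBlock M f) (hle : Cfsg.SubpairLE p M Q f P e) (hcen : F.IsCentric Q) (hG : ∀ x : G, x ∈ Subgroup.normalizer (Q : Set G) ∧ Cfsg.StabilizesBlock (Subgroup.centralizer (Q : Set G)) f x) : (∀ g : G, Cfsg.MemLocalIdeal M (Cfsg.blockCoeff B g - Cfsg.subgroupBlockCoeff (Subgroup.centralizer (Q : Set G)) f g)) ∧ ∃ F' : Set (Cfsg.IrrCharacter ↥(Q ⊔ Subgroup.centralizer (Q : Set G))), Cfsg.IsPBlock M F' ∧ (∀ t : ↥(Q ⊔ Subgroup.centralizer (Q : Set G)), Cfsg.blockCoeff F' t = Cfsg.subgroupBlockCoeff (Subgroup.centralizer (Q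 : Set G)) f (t : G)) ∧ Cfsg.IsNilpotentBlock p M F' := by
  have : PMod p M := ⟨hM⟩
  have h := hmax.mp
  have h1 := hle.ple
  have h2 := h1.bp h.bp
  have h3 := (hF.bfs.centric_iff h h1).1 hcen
  have h4 : (⊤ : Subgroup G) ≤ normalizer (Q : Set G) := fun x _ => (hG x).1
  have h5 := h2.isBI_of_le le_top le_top le_rfl h4
    fun x _ => (hf.closed.stabilizesBlock_iff.1 (hG x).2).2
  have hB := hmax.1.2.1
  have h6 := h.br_of_ple h1
  rw [ZA.br_eq h2.pgrp le_top h4 h.bi.mem h.bi.idem] at h6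
  have h7 := h.bi.eq_of_mul h5 (by rw [h6]; exact h5.ne)
  refine ⟨fun g => ?_, ?_⟩
  · rw [← red_eq_iff (hB.closed.blockCoeff_mem _) (hf.closed.subgroupBlockCoeff_mem _), ← coeff_eB,
      ← coeff_iB, h7]
  · have h8 := h2.isBI_sup
    have h9 := h2.isDG_sup_iff.2 h3
    rw [CH_top] at h8 h9
    obtain ⟨E, hE, h10, h11⟩ := h8.exists_coeff hf.closed le_sup_right
      (le_top.trans (h4.trans (normalizer_le_nc Q)))
    refine ⟨E, hE, h11, (isNilpotentBlock_iff hE).2 ?_⟩
    rw [h10]
    have h12 : MP p (Q ⊔ centralizer (Q : Set G)) (iB M _ f) Q (iB M _ f) :=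
      ⟨h8, h2.congr (CH_eq_of_le (inf_le_right.trans le_sup_right) le_top) le_sup_left, h9,
        by rw [h2.br, h8.idem]⟩
    refine h12.nil_of_inner fun R g hg => ?_
    have : (centralizer (Q : Set G)).Normal := normalizer_eq_top_iff.1
      (top_le_iff.1 (h4.trans (normalizer_le_nc Q)))
    obtain ⟨u, hu, c, hc, rfl⟩ := (mem_sup_of_normal_right ..).1 hg.1
    refine ⟨u, hu, fun x hx => ?_⟩
    have := hc x (hg.le hx)
    rw [mul_inv_rev, ← mul_assoc, mul_assoc u, ← this]
    group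

end Cfsg.Agent.S4693
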