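import Cfsg.Statements.S4694
import Cfsg.Agent.B.PC
import Cfsg.Agent.B.Rank2

set_option autoImplicit false
open Cfsg

namespace Cfsg.Agent.S4694

open Cfsg.Agent Cfsg.Agent.B Cfsg.Agent.H2 Cfsg.Agent.H3 Subgroup MonoidAlgebra
open scoped Pointwise commutatorElement

/-- Fix a prime p and a maximal ideal M of the algebraic integers containing p, a p-block B of the finite group G and a Brauer pair (Q, e) of B. Let T be the stabilizer of e in N_G(Q) and suppose that (Q, e) carries a weight: the block of T whose idempotent is that of e contains an irreducible character χ that is constant on the cosets of Q and whose degree has p-part equal to the p-part of the index of Q in T. Then Z(Q) is a defect group of e as a block of C_G(Q), and Q is the largest normal p-subgroup of T: every p-subgroup of T normalized by T lies in Q. -/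
theorem result {G : Type*} [Group G] [Fintype G] (p : ℕ) [Fact p.Prime] (M : Ideal Cfsg.AlgInt) (hM : Cfsg.IsPModular p M) (B : Set (Cfsg.IrrCharacter G)) (Q : Subgroup G) (e : Set (Cfsg.IrrCharacter (Subgroup.centralizer (Q : Set G)))) (hQe : Cfsg.IsBrauerPairOf p M B Q e) (T : Subgroup G) (hT : ∀ y : G, y ∈ T ↔ y ∈ Subgroup.normalizer (Q : Set G) ∧ Cfsg.StabilizesBlock (Subgroup.centralizer (Q : Set G)) e y) (F' : Set (Cfsg.IrrCharacter T)) (hF' : Cfsg.IsPBlock M F') (hF'e : ∀ t : T, Cfsg.blockCoeff F' t = Cfsg.subgroupBlockCoeff (Subgroup.centralizer (Q : Set G)) e (t : G)) (χ : Cfsg.IrrCharacter T) (hχ : χ ∈ F') (hχQ : ∀ q : G, q ∈ Q → ∀ t : T, ∀ t' : T, (t' : G) = q * (t : G) → (χ : T → ℂ) t' = (χ : T → ℂ) t) (hdeg : (Cfsg.charDegree (χ : T → ℂ)).factorization p + (Nat.card Q).factorization p = (Nat.card T).factorization p) : Cfsg.IsDefectGroup p M e ((Q ⊓ Subgroup.centralizer (Q : Set G)).subgroupOf (Subgroup.centralizer (Q : Set G))) ∧ ∀ R : Subgroup G, R ≤ T → IsPGroup p R → (∀ t ∈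 T, t ∈ Subgroup.normalizer (R : Set G)) → R ≤ Q := by
  have : PMod p M := ⟨hM⟩
  classical
  obtain ⟨hQ, he, -, -⟩ := isBrauerPairOf_iff.1 hQe
  have hbp := IsBrauerPairOf.bp hQe
  have hT' := ((IsPBlock.closed he).eq_inf_stab hT).trans (NS_top _ _).symm
  have hQT : Q ≤ T := hT' ▸ hbp.le_NS
  have hCT : centralizer (Q : Set G) ≤ T := (CH_top Q).ge.trans (hbp.CH_le_NS.trans hT'.ge)
  have hTN : T ≤ normalizer (Q : Set G) := fun y h => ((hT y).1 h).1
  have hTC : T ≤ normalizer (centralizer (Q : Set G) : Set G) := fun y h => ((hT y).1 h).2.1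
  have := normal_subgroupOf_of_le_normalizer hTN
  have hq := QuotientGroup.mk'_surjective (Q.subgroupOf T)
  obtain ⟨ξ, hξ⟩ := exists_infl_eq _ hq (ψ := χ) (by
    rw [QuotientGroup.ker_mk']
    exact fun q h => χ.2.mem_charKer_iff.2 (hχQ q h 1 q (by simp)))
  have h1 : nu p ξ.1 = (Nat.card (T ⧸ Q.subgroupOf T)).factorization p := by
    have a := (Q.subgroupOf T).index_mul_card
    rw [Nat.card_congr (subgroupOfEquivOfLe hQT).toEquiv] at a
    rw [← a, Nat.factorization_mul index_ne_zero_of_finite Nat.card_pos.ne', ← hξ] at hdeg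
    exact add_right_cancel hdeg
  constructor
  · let f := (QuotientGroup.mk' (Q.subgroupOf T)).comp (inclusion hCT)
    have : f.range.Normal := by
      rw [MonoidHom.range_comp, inclusion_range]
      exact (normal_subgroupOf_of_le_normalizer hTC).map _ hq
    have h2 : f.rangeRestrict.ker = (Q ⊓ centralizer (Q : Set G)).subgroupOf (centralizer (Q : Set G)) := by
      ext x; simp [f, mem_subgroupOf]
    have h3 : IsPGroup p f.rangeRestrict.ker := h2 ▸ (hQ.to_inf_left).comap_subtype
    have h4 : ∀ x : centralizer (Q : Set G), ¬ p ∣ orderOf x → x ∈ centralizer (f.rangeRestrict.ker : Set _) :=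
      fun x _ y hy => Subtype.ext (x.2 y (h2.le hy).1)
    have hf := f.rangeRestrict_surjective
    have := Fintype.ofFinite (centralizer (Q : Set G))
    have := Fintype.ofFinite f.range
    obtain ⟨θ, hθ, h5⟩ := exists_under_of_covers' hCT hTC hF' he (by
      rw [iB_eq_of_blockCoeff hCT hF'e, (IsPBlock.isBI he).idem]; exact (IsPBlock.isBI he).ne) hχ
    have h6 : resLe hCT χ.1 = fun x => (fun n : f.range => ξ.1 n) (f.rangeRestrict x) := by rw [← hξ]; rfl
    obtain ⟨η, rfl⟩ := exists_infl_eq _ hf (ψ := θ) ((h6 ▸ ker_le_charKer_comp f.rangeRestrict fun n : f.range => ξ.1 n).trans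
      ((χ.2.isCharacter.resLe hCT).charKer_le_of_inner θ.2 h5))
    have h7 := nu_le_of_under (p := p) (χ := ξ) (θ := η) fun a => h5 (by
      rw [h6, ← a]; exact classInner_comp_of_surjective _ hf (fun n : f.range => ξ.1 n) η.1)
    rw [h1, ← f.range.index_mul_card, Nat.factorization_mul index_ne_zero_of_finite Nat.card_pos.ne'] at h7
    obtain ⟨D, hD⟩ := IsPBlock.exists_defectGroup (p := p) he
    have h8 := IsPBlock.preimage_infl _ hf h3 h4 he
    have h9 := (IsDefectGroup.eq_bot_iff (IsDefectGroup.preimage_infl _ hf h3 h4 hD he) (IsPBlock.closed h8)).2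
      ((IsPBlock.defect_eq_zero_iff h8 (χ := η) hθ).2 (le_antisymm (nu_le_card η) (by simpa using h7)))
    rwa [← h2, le_antisymm (IsDefectGroup.normal_le hD (IsPBlock.closed he) h3) ((Subgroup.map_eq_bot_iff _).1 h9)]
  intro R hRT hR hn r hr
  have : ((R.comap T.subtype).map (QuotientGroup.mk' (Q.subgroupOf T))).Normal :=
    (normal_subgroupOf_of_le_normalizer (H := T) (N := R) hn).map _ hq
  have h8 := isPBlock_blockOf (M := M) ξ
  obtain ⟨D, hD⟩ := IsPBlock.exists_defectGroup (p := p) h8
  have h9 := IsDefectGroup.normal_le hD (IsPBlock.closed h8) ((hR.comap_subtype (K := T)).map (QuotientGroup.mk' (Q.subgroupOf T)))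
  rw [(IsDefectGroup.eq_bot_iff hD (IsPBlock.closed h8)).2 ((IsPBlock.defect_eq_zero_iff h8 (self_mem_blockOf ξ)).2 h1)] at h9
  exact (QuotientGroup.eq_one_iff (⟨r, hRT hr⟩ : T)).1 (h9 (mem_map_of_mem _ hr))

end Cfsg.Agent.S4694
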