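import Cfsg.Statements.S4697
import Cfsg.Agent.B.Quad

set_option autoImplicit false
open Cfsg

namespace Cfsg.Agent.S4697

open Cfsg.Agent Cfsg.Agent.B Cfsg.Agent.H2 Cfsg.Agent.H3 Subgroup MonoidAlgebra
open scoped Pointwise commutatorElement

/-- Let p be a prime, M a maximal ideal of the algebraic integers containing p, and B a p-block of the finite group G with an abelian defect group D of order p^d. If D has rank 2 (its least number of generators is 2) then B contains at most p^d irreducible characters; if D has rank 3 then the number k of irreducible characters in B satisfies k^3 ≤ p^(5d). -/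
theorem result {G : Type*} [Group G] [Finite G] (p : ℕ) [Fact p.Prime] (M : Ideal Cfsg.AlgInt) (hM : Cfsg.IsPModular p M) (B : Set (Cfsg.IrrCharacter G)) (hB : Cfsg.IsPBlock M B) (D : Subgroup G) (hBD : Cfsg.IsDefectGroup p M B D) (hab : IsMulCommutative D) (d : ℕ) (hDd : Nat.card D = p ^ d) : (Group.rank D = 2 → Nat.card B ≤ p ^ d) ∧ (Group.rank D = 3 → Nat.card B ^ 3 ≤ p ^ (5 * d)) := by
  have : PMod p M := ⟨hM⟩
  classical
  have hd := IsDefectGroup.card_eq_pow hBD hB.closed
  rw [hDd] at hd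
  have hc : ∀ x ∈ D, D ≤ centralizer {x} := fun x hx y hy => mem_centralizer_singleton_iff.2
    (congrArg Subtype.val (hab.is_comm.comm ⟨y, hy⟩ ⟨x, hx⟩))
  have hg : ∀ S : Finset D, Subgroup.closure (S : Set D) = ⊤ → ∀ K : Subgroup G, (∀ s ∈ S, s.1 ∈ K) → D ≤ K :=
    fun S h K hK y hy => (h.ge.trans ((closure_le (K.subgroupOf D)).2 hK)) (mem_top ⟨y, hy⟩)
  obtain ⟨S, h1, h2⟩ := Group.rank_spec D
  refine ⟨fun h => ?_, fun h => ?_⟩
  · obtain ⟨x, y, -, rfl⟩ := Finset.card_eq_two.1 (h1.trans h)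
    rw [hd]
    refine IsDefectGroup.card_le_of_two hBD hB x.2 (hc x x.2) y.2 (hg _ h2 _ fun s hs => ?_)
    rcases Finset.mem_insert.1 hs with rfl | hs
    · exact mem_sup_left (mem_zpowers _)
    · rw [Finset.mem_singleton.1 hs]; exact mem_sup_right (mem_zpowers _)
  obtain ⟨x, hx, h3⟩ := S.exists_max_image orderOf (Finset.card_pos.1 (by omega))
  obtain ⟨y, w, -, h4⟩ := Finset.card_eq_two.1 ((Finset.card_erase_of_mem hx).trans (by rw [h1, h]))
  have h5 : ∀ s ∈ S, s = x ∨ s = y ∨ s = w := fun s hs => by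
    by_cases e : s = x
    · exact .inl e
    · exact .inr (by simpa using h4.subset (Finset.mem_erase.2 ⟨e, hs⟩))
  have hy : y ∈ S := Finset.mem_of_mem_erase (h4.symm.subset (by simp))
  have hw : w ∈ S := Finset.mem_of_mem_erase (h4.symm.subset (by simp))
  have h6 : p ^ d ≤ orderOf (x : G) ^ 3 := by
    open scoped IsMulCommutative in
    have h7 : Function.Surjective fun t : zpowers x × zpowers y × zpowers w => t.1.1 * (t.2.1.1 * t.2.2.1) := fun s => by
      have : s ∈ zpowers x ⊔ (zpowers y ⊔ zpowers w) := (h2.ge.trans ((closure_le _).2 fun s hs => by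
        rcases h5 s hs with rfl | rfl | rfl
        exacts [mem_sup_left (mem_zpowers _), mem_sup_right (mem_sup_left (mem_zpowers _)),
          mem_sup_right (mem_sup_right (mem_zpowers _))])) (mem_top s)
      obtain ⟨a, ha, b, hb, rfl⟩ := mem_sup.1 this
      obtain ⟨b, hb', c, hc, rfl⟩ := mem_sup.1 hb
      exact ⟨(⟨a, ha⟩, ⟨b, hb'⟩, ⟨c, hc⟩), rfl⟩
    have h8 := Nat.card_le_card_of_surjective _ h7
    simp only [Nat.card_prod, Nat.card_zpowers, hDd] at h8
    rw [orderOf_coe, pow_three]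
    exact h8.trans (Nat.mul_le_mul_left _ (Nat.mul_le_mul (h3 y hy) (h3 w hw)))
  obtain ⟨b, h7, h8, h9⟩ := IsDefectGroup.exists_major hBD hB x.2 (hc x x.2)
  have hz := pElt_of_mem (IsDefectGroup.isPGroup hBD) x.2
  obtain ⟨c, h10, h11, h12, h13⟩ := exists_dom hz h7.1 h9
  let y' : centralizer ({(x : G)} : Set G) := ⟨y, hc x x.2 y.2⟩
  let w' : centralizer ({(x : G)} : Set G) := ⟨w, hc x x.2 w.2⟩
  have h14 := map_le_of_le_sup (D := D) (K := zpowers y' ⊔ zpowers w') (hg _ h2 _ fun s hs => by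
    rw [Subgroup.map_sup, MonoidHom.map_zpowers, MonoidHom.map_zpowers]
    rcases h5 s hs with rfl | rfl | rfl
    exacts [mem_sup_left (mem_zpowers _), mem_sup_right (mem_sup_left (mem_zpowers _)),
      mem_sup_right (mem_sup_right (mem_zpowers _))])
  rw [Subgroup.map_sup, MonoidHom.map_zpowers, MonoidHom.map_zpowers] at h14
  have h15 := IsDefectGroup.card_le_of_two h12 h10 (mem_map_of_mem _ (y.2 : y' ∈ D.subgroupOf _)) (by
    rintro _ ⟨s, hs, rfl⟩
    rw [mem_centralizer_singleton_iff, ← map_mul, ← map_mul]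
    exact congrArg _ (Subtype.ext (mem_centralizer_singleton_iff.1 (hc y y.2 hs))))
    (mem_map_of_mem _ (w.2 : w' ∈ D.subgroupOf _)) h14
  have h16 := (IsInducedBlock.card_le_major hz h7 h8).trans
    (Nat.mul_le_mul_left _ (h11 ▸ (blockRank_le c).trans h15))
  rw [h8, ← hd] at h13
  rw [← hd] at h16
  refine Nat.le_of_mul_le_mul_right (c := p ^ d) ?_ (pow_pos (Fact.out : p.Prime).pos d)
  calc Nat.card B ^ 3 * p ^ d ≤ (p ^ d * p ^ blockDefect p c) ^ 3 * orderOf (x : G) ^ 3 :=
      Nat.mul_le_mul (Nat.pow_le_pow_left h16 3) h6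
    _ = _ := by rw [← mul_pow, mul_assoc, h13]; ring

end Cfsg.Agent.S4697
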