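import Cfsg.Statements.S4698
import Cfsg.Agent.B.Quad

set_option autoImplicit false
open Cfsg

namespace Cfsg.Agent.S4698

open Cfsg.Agent Cfsg.Agent.B Cfsg.Agent.H2 Cfsg.Agent.H3 Subgroup MonoidAlgebra
open scoped Pointwise commutatorElement
universe u
theorem aux {p : ℕ} [hp : Fact p.Prime] {M : Ideal AlgInt} [PMod p M] (d : ℕ) : ∀ {G : Type u} [Group G] [Finite G]
    {B : Set (IrrCharacter G)}, IsPBlock M B → blockDefect p B = d + 2 → Nat.card B ≤ p ^ (2 * d + 2) := by
  induction d with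
  | zero => exact fun hB h => (IsPBlock.card_le_of_defect_le_two hB h.le).trans_eq (by rw [h])
  | succ d ih =>
    intro G _ _ B hB h
    by_cases h1 : ∃ ψ ∈ B, blockHeight p B (ψ : G → ℂ) ≠ 0
    · obtain ⟨ψ, h1, h2⟩ := h1
      have := IsPBlock.card_le_of_height hB h1 h2
      rw [h, show 2 * (d + 1 + 2) - 2 = 2 * (d + 1) + 2 by omega] at this
      omega
    push Not at h1
    obtain ⟨D, hD⟩ := IsPBlock.exists_defectGroup hB
    obtain ⟨z, h2, h3, h4⟩ := exists_central_ord (IsDefectGroup.isPGroup hD) fun e => by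
      have := (IsDefectGroup.eq_bot_iff hD hB.closed).1 e; omega
    obtain ⟨b, h5, h6, h7⟩ := IsDefectGroup.exists_major hD hB h2 h4
    have hz := pElt_of_mem (IsDefectGroup.isPGroup hD) h2
    obtain ⟨c, h8, h9, -, h10⟩ := exists_dom hz h5.1 h7
    rw [h3, h6, h, ← pow_succ, pow_right_inj₀ hp.out.pos hp.out.ne_one] at h10
    have h11 := IsInducedBlock.card_height_zero_sq_le hz h5
    rw [show {χ | χ ∈ B ∧ blockHeight p B (χ : G → ℂ) = 0} = B from Set.ext fun χ => and_iff_left_of_imp (h1 χ),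
      h6, h, ← h9] at h11
    refine (pow_le_pow_iff_left₀ (Nat.zero_le _) (Nat.zero_le _) two_ne_zero).1 (h11.trans
      ((Nat.mul_le_mul_left _ ((blockRank_le c).trans (ih h8 (by omega)))).trans_eq ?_))
    rw [← pow_add, ← pow_mul]; congr 1; omega

/-- Let p be a prime, M a maximal ideal of the algebraic integers containing p, and B a p-block of defect d of the finite group G, containing k irreducible characters. Then k ≤ p^d when d ≤ 2, and k ≤ p^(2d − 2) when d ≥ 3. -/
theorem result {G : Type*} [Group G] [Finite G] (p : ℕ) [Fact p.Prime] (M : Ideal Cfsg.AlgInt) (hM : Cfsg.IsPModular p M) (B : Set (Cfsg.IrrCharacter G)) (hB : Cfsg.IsPBlock M B) (d : ℕ) (hd : Cfsg.blockDefect p B = d) : (d ≤ 2 → Nat.card B ≤ p ^ d) ∧ (3 ≤ d → Nat.card B ≤ p ^ (2 * d - 2)) := by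
  have : PMod p M := ⟨hM⟩
  refine ⟨fun h => hd ▸ IsPBlock.card_le_of_defect_le_two hB (hd ▸ h), fun h => ?_⟩
  exact (aux (d - 2) hB (by omega)).trans_eq (by congr 1; omega)

end Cfsg.Agent.S4698
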