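import Cfsg.Statements.S4699
import Mathlib
import Cfsg.Agent.H7.Fe3
import Cfsg.Agent.H3.Rep

set_option autoImplicit false
open Cfsg

namespace Cfsg.Agent.S4699

open Cfsg.Agent.H7 Cfsg.Agent.H3 Subgroup Finset Polynomial Module

theorem sum_eq_sum_fixed' {G X W : Type*} [Group G] [MulAction G X] [Fintype X] [DecidableEq X] [AddCommGroup W]
    {p : ℕ} (hp : 0 < p) {x : G} (hx : x ^ p = 1) (hf : ∀ q : X, x • q ≠ q → ∀ i : ℕ, x ^ i • q = q → p ∣ i) (F : X → W)
    (h : ∀ q, x • q ≠ q → ∑ i ∈ range p, F (x ^ i • q) = 0) :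
    ∑ q, F q = ∑ q with x • q = q, F q := by
  rw [← sum_filter_add_sum_filter_not univ (fun q => x • q = q), add_eq_left]
  have key : ∀ s : Finset X, (∀ q, q ∈ s ↔ x • q ∈ s) → (∀ q ∈ s, x • q ≠ q) → ∑ q ∈ s, F q = 0 := by
    intro s
    induction s using Finset.strongInduction with
    | H s ih =>
      intro h1 h2
      rcases s.eq_empty_or_nonempty with rfl | ⟨q, hq⟩
      · simp
      have h3 : Function.minimalPeriod (x • ·) q = p := by
        refine Nat.dvd_antisymm (Function.IsPeriodicPt.minimalPeriod_dvd ?_) (hf q (h2 q hq) _ ?_)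
        · rw [Function.IsPeriodicPt, Function.IsFixedPt, smul_iterate_apply, hx, one_smul]
        · rw [← smul_iterate_apply]; exact Function.isPeriodicPt_minimalPeriod _ _
      have h4 : Set.InjOn (fun i : ℕ => x ^ i • q) (range p) := fun i hi j hj e =>
        Function.iterate_injOn_Iio_minimalPeriod (f := (x • ·)) (x := q) (by simpa [h3] using hi)
          (by simpa [h3] using hj) (by simpa [smul_iterate_apply] using e)
      have h5 : ∀ i : ℕ, x ^ i • q ∈ s := fun i => by
        induction i with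
        | zero => simpa
        | succ i ih => rw [pow_succ', mul_smul]; exact (h1 _).1 ih
      have h6 : ∀ i : ℕ, x ^ i • q ∈ (range p).image fun i : ℕ => x ^ i • q := fun i =>
        mem_image.2 ⟨i % p, mem_range.2 (Nat.mod_lt _ hp), by rw [← pow_eq_pow_mod _ hx]⟩
      have h7 : (range p).image (fun i : ℕ => x ^ i • q) ⊆ s := fun r hr => by
        obtain ⟨i, -, rfl⟩ := mem_image.1 hr; exact h5 i
      rw [← sum_sdiff h7, sum_image h4, h q (h2 q hq), add_zero]
      refine ih _ (sdiff_ssubset h7 ⟨_, h6 0⟩) (fun r => ?_) fun r hr => h2 r (mem_sdiff.1 hr).1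
      rw [mem_sdiff, mem_sdiff, ← h1]
      refine and_congr_right fun _ => not_congr ⟨fun hr => ?_, fun hr => ?_⟩
      · obtain ⟨i, -, rfl⟩ := mem_image.1 hr
        rw [← mul_smul, ← pow_succ']; exact h6 _
      · obtain ⟨i, -, e⟩ := mem_image.1 hr
        have : r = x ^ (p - 1 + i) • q := by
          rw [pow_add, mul_smul, e, ← mul_smul, ← pow_succ, Nat.sub_add_cancel hp, hx, one_smul]
        exact this ▸ h6 _
  refine key _ (fun q => ?_) fun q hq => (mem_filter.1 hq).2
  simp

theorem geom_sum_char' {k : Type*} [Field k] {p : ℕ} [hp : Fact p.Prime] [CharP k p] {R : Type*} [Ring R] [Algebra k R]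
    (t : R) (n : ℕ) : ∑ i ∈ range (p ^ n), t ^ i = (t - 1) ^ (p ^ n - 1) := by
  have h : ∑ i ∈ range (p ^ n), (X : k[X]) ^ i = (X - 1) ^ (p ^ n - 1) := by
    refine mul_right_cancel₀ (X_sub_C_ne_zero (1 : k)) ?_
    rw [map_one, geom_sum_mul, ← pow_succ, Nat.sub_add_cancel (pow_pos hp.out.pos n), sub_pow_char_pow, one_pow]
  simpa [map_sum] using congrArg (aeval t) h

theorem smul_iff {G : Type*} [Group G] (P : Subgroup G) (g : G) (q : G ⧸ P) :
    g • q = q ↔ q.out⁻¹ * g * q.out ∈ P := by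
  conv_lhs => rw [← MulAction.Quotient.mk_smul_out, eq_comm]; lhs; rw [← q.out_eq']
  rw [QuotientGroup.eq, smul_eq_mul, mul_assoc]

/-- Let p be a prime and G a finite group whose Sylow p-subgroup P is cyclic of order p^n with n ≥ 2 and meets every other Sylow p-subgroup trivially. Then every faithful irreducible representation of G on a finite-dimensional space over a finite field of characteristic p has dimension at least p^n − (p − 1). -/
theorem result {G : Type*} [Group G] [Finite G] (p : ℕ) [Fact p.Prime] (P : Sylow p G) (hcyc : IsCyclic P) (n : ℕ) (hn : 2 ≤ n) (hPn : Nat.card P = p ^ n) (hTI : ∀ Q : Sylow p G, Q ≠ P → (P : Subgroup G) ⊓ (Q : Subgroup G) = ⊥) (F : Type*) [Field F] [Finite F] [CharP F p] (V : Type*) [AddCommGroup V] [Module F V] [FiniteDimensional F V] (ρ : Representation F G V) (hfaith : Function.Injective ρ) (hirr : ρ.IsIrreducible) : p ^ n - (p - 1) ≤ Module.finrank F V := by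
  classical
  have hp : p.Prime := Fact.out
  obtain ⟨hV, hirr⟩ := (isIrreducible_iff ρ).1 hirr
  obtain ⟨⟨x, hx⟩, hx'⟩ := hcyc.exists_generator
  have hP : zpowers x = P := le_antisymm (zpowers_le.2 hx) fun g hg => by
    obtain ⟨i, hi⟩ := hx' ⟨g, hg⟩
    exact ⟨i, congrArg Subtype.val hi⟩
  have ho : orderOf x = p ^ n := by rw [← Nat.card_zpowers, hP, hPn]
  have hxq : x ^ p ^ n = 1 := ho ▸ pow_orderOf_eq_one x
  have := Fintype.ofFinite (G ⧸ zpowers x)
  by_contra hd
  set y := ρ x - 1 with hyd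
  have hu : ρ x = y + 1 := by simp [hyd]
  have hy0 : IsNilpotent y := ⟨p ^ n, by
    rw [← Nat.sub_add_cancel (pow_pos hp.pos n), pow_succ, ← geom_sum_char' (k := F), geom_sum_mul, ← map_pow, hxq]; simp⟩
  have hy : y ^ finrank F V = 0 := by
    have := LinearMap.aeval_self_charpoly y
    rw [(LinearMap.isNilpotent_iff_charpoly y).1 hy0] at this
    simpa using this
  let J : Submodule F (End F V) := LinearMap.range (LinearMap.mulLeft F (y ^ p))
  have hT : ∀ g (q : G ⧸ zpowers x), ρ (g • q).out * y ^ (p - 1) * ρ (g • q).out⁻¹ =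
      ρ g * (ρ q.out * y ^ (p - 1) * ρ q.out⁻¹) * ρ g⁻¹ := by
    intro g q
    obtain ⟨u, hu, h⟩ := out_smul _ g q
    obtain ⟨i, rfl⟩ := mem_powers_iff_mem_zpowers.2 hu
    have h1 : Commute (ρ (x ^ i)) (y ^ (p - 1)) := by
      rw [map_pow]; exact (((Commute.refl _).sub_right (.one_right _)).pow_pow _ _)
    simp only [h, mul_inv_rev, map_mul, mul_assoc]
    rw [← mul_assoc (ρ (x ^ i)), h1.eq, mul_assoc, ← mul_assoc (ρ (x ^ i)), ← map_mul, mul_inv_cancel, map_one, one_mul]
  have hc : ((#{q : G ⧸ zpowers x | x • q = q} : ℕ) : F) ≠ 0 := by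
    have h := (IsPGroup.of_card (G := zpowers x) (by rw [Nat.card_zpowers, ho])
      ).card_modEq_card_fixedPoints (G ⧸ zpowers x)
    rw [Ne, CharP.cast_eq_zero_iff F p]
    refine fun hd => P.not_dvd_index (hP ▸ (h.dvd_iff dvd_rfl).2 ?_)
    convert hd
    rw [← Fintype.card_subtype, ← Nat.card_eq_fintype_card]
    refine Nat.card_congr (Equiv.subtypeEquivRight fun q => ⟨fun h => h ⟨x, mem_zpowers x⟩, fun h g => ?_⟩)
    exact zpowers_le.2 (show x ∈ MulAction.stabilizer G q from h) g.2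
  set c := ((#{q : G ⧸ zpowers x | x • q = q} : ℕ) : F) with hcd
  have h1 : J.mkQ (∑ q : G ⧸ zpowers x, ρ q.out * y ^ (p - 1) * ρ q.out⁻¹) = J.mkQ (c • y ^ (p - 1)) := by
    rw [map_sum, sum_eq_sum_fixed' (pow_pos hp.pos n) hxq, hcd, Nat.cast_smul_eq_nsmul, ← sum_const, map_sum]
    · refine sum_congr rfl fun q hq => ?_
      have h2 := (smul_iff _ _ _).1 (mem_filter.1 hq).2
      have h3 : zpowers (q.out⁻¹ * x * q.out) = zpowers x := eq_of_le_of_card_ge (zpowers_le.2 h2) (by
        rw [Nat.card_zpowers, Nat.card_zpowers]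
        simpa using ((MulAut.conj q.out⁻¹).orderOf_eq x).ge)
      obtain ⟨a, ha⟩ := mem_powers_iff_mem_zpowers.2 (h3.ge (mem_zpowers x))
      have h4 : q.out * x * q.out⁻¹ = x ^ a := by
        generalize q.out = h at ha ⊢
        have : (h⁻¹ * x * h⁻¹⁻¹) ^ a = x := by simpa using ha
        rw [conj_pow] at this
        exact (congrArg (h * · * h⁻¹) this).symm.trans (by group)
      have h5 : ¬ p ∣ a := fun e => by
        have h5 : orderOf (x ^ a) = orderOf x := h4 ▸ (MulAut.conj q.out).orderOf_eq x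
        rw [orderOf_pow, ho, Nat.div_eq_self] at h5
        exact hp.one_lt.ne' (Nat.dvd_one.1 (h5.resolve_left (pow_pos hp.pos n).ne' ▸
          Nat.dvd_gcd (dvd_pow_self p (by omega)) e))
      obtain ⟨Q, hQ⟩ : (X : F[X]) ∣ (∑ i ∈ range a, (X + 1) ^ i) ^ (p - 1) - 1 := by
        rw [X_dvd_iff, coeff_zero_eq_eval_zero]
        have := ZMod.pow_card_sub_one_eq_one ((ZMod.natCast_eq_zero_iff a p).not.2 h5)
        simpa [eval_finsetSum, sub_eq_zero] using congrArg (ZMod.castHom (dvd_refl p) F) this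
      have h6 : ρ q.out * y * ρ q.out⁻¹ = y * ∑ i ∈ range a, (y + 1) ^ i := by
        rw [hyd, mul_sub, sub_mul, ← map_mul, ← map_mul, h4, mul_one, ← map_mul, mul_inv_cancel, sub_add_cancel,
          mul_geom_sum, map_pow, map_one]
      have h7 : ∀ m : ℕ, ρ q.out * y ^ m * ρ q.out⁻¹ = (ρ q.out * y * ρ q.out⁻¹) ^ m := fun m => by
        induction m with
        | zero => simp [← map_mul]
        | succ m ih =>
          rw [pow_succ _ m, pow_succ _ m, ← ih]
          simp only [mul_assoc]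
          rw [← mul_assoc (ρ q.out⁻¹), ← map_mul, inv_mul_cancel, map_one, one_mul]
      rw [h7, h6, Submodule.mkQ_apply, Submodule.mkQ_apply, Submodule.Quotient.eq]
      refine ⟨aeval y Q, ?_⟩
      have h8 : (X : F[X]) ^ p * Q = (X * ∑ i ∈ range a, (X + 1) ^ i) ^ (p - 1) - X ^ (p - 1) := by
        rw [mul_pow, ← Nat.sub_add_cancel hp.pos, pow_succ, Nat.add_sub_cancel]
        linear_combination -X ^ (p - 1) * hQ
      simpa [map_sum] using congrArg (aeval y) h8
    · intro q hq i hi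
      rw [← ho, orderOf_dvd_iff_pow_eq_one]
      by_contra e
      refine hq ((smul_iff _ _ _).2 ?_)
      have h2 : ∀ g, g ∈ ((q.out • P : Sylow p G) : Subgroup G) ↔ q.out⁻¹ * g * q.out ∈ zpowers x := fun g => by
        generalize q.out = h
        rw [hP, Sylow.coe_subgroup_smul, mem_pointwise_smul_iff_inv_smul_mem]; simp
      rw [← h2, by_contra fun e' => e (mem_bot.1 (hTI _ e' ▸ ⟨hP ▸ pow_mem (mem_zpowers x) i,
        (h2 _).2 ((smul_iff _ _ _).1 hi)⟩))]
      exact hx
    · intro q _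
      simp only [hT]
      generalize ρ q.out * y ^ (p - 1) * ρ q.out⁻¹ = a
      have hU : ρ x * ρ x⁻¹ = 1 := by rw [← map_mul]; simp
      have hU' : ρ x⁻¹ * ρ x = 1 := by rw [← map_mul]; simp
      have hyU : Commute y (ρ x⁻¹) := Commute.sub_left (hU.trans hU'.symm) (Commute.one_left _)
      have h2 : ∑ i ∈ range (p ^ n), ρ (x ^ i) * a * ρ (x ^ i)⁻¹ =
          ((LinearMap.mulLeft F (ρ x) * LinearMap.mulRight F (ρ x⁻¹) - 1) ^ (p ^ n - 1)) a := by
        rw [← geom_sum_char' (k := F), LinearMap.sum_apply]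
        refine sum_congr rfl fun i _ => ?_
        rw [(LinearMap.commute_mulLeft_right _ _).mul_pow, LinearMap.pow_mulLeft, LinearMap.pow_mulRight, ← inv_pow,
          map_pow, map_pow]
        simp [mul_assoc]
      have h3 : LinearMap.mulLeft F (ρ x) * LinearMap.mulRight F (ρ x⁻¹) - 1 =
          (LinearMap.mulLeft F y + LinearMap.mulRight F (-y)) * LinearMap.mulRight F (ρ x⁻¹) := by
        ext1 b; simp [hyd, sub_mul, mul_sub, mul_assoc, hU']
      rw [← map_sum, h2, h3, Commute.mul_pow, (LinearMap.commute_mulLeft_right _ _).add_pow, End.mul_apply,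
        LinearMap.sum_apply, Submodule.mkQ_apply, Submodule.Quotient.mk_eq_zero]
      · refine J.sum_mem fun i hi => ?_
        rw [LinearMap.pow_mulLeft, LinearMap.pow_mulRight]
        by_cases h4 : p ≤ i
        · obtain ⟨j, rfl⟩ := Nat.exists_eq_add_of_le h4
          exact ⟨_, by simp only [End.mul_apply, LinearMap.mulLeft_apply, pow_add, mul_assoc]; rfl⟩
        · rw [neg_pow, pow_eq_zero_of_le (show finrank F V ≤ p ^ n - 1 - i by omega) hy]; simp
      · ext1 b; simp [mul_assoc, hyU.eq, add_mul]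
  obtain ⟨b, hb⟩ := (Submodule.Quotient.eq J).1 h1
  generalize hf : ∑ q : G ⧸ zpowers x, ρ q.out * y ^ (p - 1) * ρ q.out⁻¹ = f at hb
  have h2 : ∀ g, f * ρ g = ρ g * f := fun g => by
    rw [← hf, sum_mul, mul_sum, ← Equiv.sum_comp (MulAction.toPerm g)]
    refine sum_congr rfl fun q _ => ?_
    rw [MulAction.toPerm_apply, hT, mul_assoc, ← map_mul, inv_mul_cancel, map_one, mul_one]
  obtain ⟨r, rfl⟩ : ∃ r, p = r + 2 := ⟨p - 2, by have := hp.two_le; omega⟩
  rw [LinearMap.mulLeft_apply, show r + 2 - 1 = r + 1 from rfl] at hb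
  have h3 : f = 0 := by
    rcases hirr (LinearMap.range f) (by rintro g _ ⟨v, rfl⟩; exact ⟨_, LinearMap.congr_fun (h2 g) v⟩) with h | h
    · exact LinearMap.range_eq_bot.1 h
    · have h4 : IsUnit f := (LinearMap.isUnit_iff_range_eq_top f).2 h
      have h5 : f = y * (y ^ (r + 1) * b + c • y ^ r) := by
        rw [mul_add, ← mul_assoc, ← pow_succ', hb, mul_smul_comm, ← pow_succ', sub_add_cancel]
      rw [h5] at h4
      exact absurd (isUnit_of_mul_isUnit_left h4) hy0.not_isUnit
  have h4 : ∀ m : ℕ, y ^ (r + 1) = y ^ m * y ^ (r + 1) * (-c⁻¹ • b) ^ m := fun m => by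
    induction m with
    | zero => simp
    | succ m ih =>
      rw [pow_succ' (-c⁻¹ • b), ← mul_assoc, pow_succ y m, mul_assoc _ y, mul_assoc (y ^ m), ← pow_succ', mul_smul_comm, hb, h3,
        zero_sub, smul_neg, smul_smul, neg_mul, inv_mul_cancel₀ hc, neg_smul, neg_neg, one_smul, ← ih]
  have h5 : ρ (x ^ (r + 2)) = ρ 1 := by
    rw [map_pow, map_one, ← sub_eq_zero, ← geom_sum_mul, geom_sum_char (k := F), ← hyd, show r + 2 - 1 = r + 1 from rfl,
      h4 (finrank F V), hy]; simp
  have h6 := orderOf_dvd_of_pow_eq_one (hfaith h5)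
  rw [ho] at h6
  have := (Nat.pow_dvd_pow_iff_le_right hp.one_lt).1 (h6.trans (pow_one _).symm.dvd)
  omega

end Cfsg.Agent.S4699
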