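import Cfsg.Statements.S4700
import Mathlib
import Cfsg.Agent.H7.BR5

set_option autoImplicit false
open Cfsg

namespace Cfsg.Agent.S4700

/-- Let G be a finite perfect group and p a prime such that a Sylow p-subgroup of G has order p, and write the number of Sylow p-subgroups as 1 + np. Let H = O_p'(G). Then either p > 3 and G/H is isomorphic to PSL(2, p); or p = 2^m + 1 > 3 and G/H is isomorphic to SL(2, 2^m); or n = (hup + u^2 + u + h)/(u + 1) for some positive integers h and u. -/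
theorem result {G : Type*} [Group G] [Finite G] (hperf : commutator G = ⊤) (p : ℕ) [Fact p.Prime] (P : Sylow p G) (hP : Nat.card P = p) (n : ℕ) (hn : Nat.card (Sylow p G) = 1 + n * p) : (∃ (F : Type) (_ : Field F) (_ : Fintype F), Fintype.card F = p ∧ 3 < p ∧ Nonempty (G ⧸ Cfsg.pPrimeCore p G ≃* Matrix.ProjectiveSpecialLinearGroup (Fin 2) F)) ∨ (∃ (m : ℕ) (F : Type) (_ : Field F) (_ : Fintype F), Fintype.card F = 2 ^ m ∧ p = 2 ^ m + 1 ∧ 3 < p ∧ Nonempty (G ⧸ Cfsg.pPrimeCore p G ≃* Matrix.SpecialLinearGroup (Fin 2) F)) ∨ (∃ h u : ℕ, 0 < h ∧ 0 < u ∧ n * (u + 1) = h * u * p + u ^ 2 + u + h) := by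
  by_cases h : ∃ h u : ℕ, 0 < h ∧ 0 < u ∧ n * (u + 1) = h * u * p + u ^ 2 + u + h
  · exact Or.inr (Or.inr h)
  have hp : p.Prime := Fact.out
  rcases (H7.brc_quot hperf P hP (hn.trans (add_comm _ _)) fun u hu => or_iff_not_imp_left.2 fun h0 =>
    (H7.le_of_dvd_form hp.one_lt hu).eq_or_lt.resolve_right fun h1 =>
      let ⟨k, h2, h3⟩ := H7.exists_form hp h1 hu; h ⟨k, u, h2, Nat.pos_of_ne_zero h0, h3⟩).out with
    h1 | ⟨m, F, _, _, h1, h2, h3, -, h4⟩
  · exact Or.inl h1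
  · exact Or.inr (Or.inl ⟨m, F, _, _, h1, h2, h3, h4⟩)

end Cfsg.Agent.S4700
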