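import Cfsg.Statements.S4701
import Mathlib
import Cfsg.Agent.H7.BR5

set_option autoImplicit false
open Cfsg

namespace Cfsg.Agent.S4701

/-- Let G be a finite perfect group and p a prime dividing the order of G with p^3 larger than the order of G. Suppose a Sylow p-subgroup of G is not normal and G has no normal subgroup of order 2. Then p > 3 and G is isomorphic to PSL(2, p), or to SL(2, 2^m) with p = 2^m + 1. -/
theorem result {G : Type*} [Group G] [Finite G] (hperf : commutator G = ⊤) (p : ℕ) [Fact p.Prime] (hdvd : p ∣ Nat.card G) (hbig : Nat.card G < p ^ 3) (P : Sylow p G) (hP : ¬ (P : Subgroup G).Normal) (h2 : ∀ N : Subgroup G, N.Normal → Nat.card N ≠ 2) : (∃ (F : Type) (_ : Field F) (_ : Fintype F), Fintype.card F = p ∧ 3 < p ∧ Nonempty (G ≃* Matrix.ProjectiveSpecialLinearGroup (Fin 2) F)) ∨ (∃ (m : ℕ) (F : Type) (_ : Field F) (_ : Fintype F), Fintype.card F = 2 ^ m ∧ p = 2 ^ m + 1 ∧ 3 < p ∧ Nonempty (G ≃* Matrix.SpecialLinearGroup (Fin 2) F)) := by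
  have h1 := H7.brc_of_lt_cube hperf hdvd hbig P hP
  have h3 : Nat.card (pPrimeCore p G) = 1 := by
    have h4 := h2 _ (pPrimeCore_normal p G)
    have h5 : 0 < Nat.card (pPrimeCore p G) := Nat.card_pos
    by_contra h6
    have h7 := Nat.mul_le_mul_left (Nat.card (G ⧸ pPrimeCore p G))
      (show 3 ≤ Nat.card (pPrimeCore p G) by omega)
    rw [← Subgroup.card_eq_card_quotient_mul_card_subgroup] at h7
    have h8 := h1.card
    have h9 := h1.1
    obtain ⟨q, rfl⟩ : ∃ q, p = q + 4 := ⟨p - 4, by omega⟩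
    rw [show (q + 4) ^ 2 - 1 = (q + 3) * (q + 5) from Nat.sub_eq_of_eq_add (by ring),
      show q + 4 - 1 = q + 3 from rfl,
      show (q + 3) ^ 2 - 1 = (q + 2) * (q + 4) from Nat.sub_eq_of_eq_add (by ring)] at h8
    rcases h8 with h8 | h8 <;> nlinarith [Nat.zero_le (q ^ 2), Nat.zero_le (q ^ 3)]
  rcases (h1.of_equiv ((QuotientGroup.quotientMulEquivOfEq (Subgroup.card_eq_one.1
      h3)).trans QuotientGroup.quotientBot)).out with h5 | ⟨m, F, _, _, h5, h6, h7, -, h8⟩
  · exact Or.inl h5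
  · exact Or.inr ⟨m, F, _, _, h5, h6, h7, h8⟩

end Cfsg.Agent.S4701
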