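import Cfsg.Statements.S4702
import Mathlib
import Cfsg.Agent.H7.Recog
import Cfsg.Agent.H7.BR2
import Cfsg.Agent.H7.Zass3

set_option autoImplicit false
open Cfsg

namespace Cfsg.Agent.S4702

open H7 MulAction

/-- Let G be a triply transitive permutation group on a finite set of odd size m ≥ 3 in which only the identity fixes three or more points. Then m = 2^a + 1 for some a ≥ 1 and G is isomorphic to SL(2, 2^a). -/
theorem result {α : Type*} [Fintype α] [DecidableEq α] (hm : 3 ≤ Fintype.card α) (hodd : Odd (Fintype.card α)) (G : Subgroup (Equiv.Perm α)) (h3 : MulAction.IsMultiplyPretransitive G α 3) (hfix : ∀ g : G, 3 ≤ Nat.card (MulAction.fixedBy α g) → g = 1) : ∃ a : ℕ, 1 ≤ a ∧ Fintype.card α = 2 ^ a + 1 ∧ ∃ (F : Type) (_ : Field F) (_ : Fintype F), Fintype.card F = 2 ^ a ∧ Nonempty (G ≃* Matrix.SpecialLinearGroup (Fin 2) F) := by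
  have hm' : 3 ≤ Nat.card α := by rwa [Nat.card_eq_fintype_card]
  have z : Z3 G α := ⟨mt_le h3 hm' (by norm_num), fun g a b c h1 h2 h3 ha hb hc => hfix g (by
    rw [Nat.card_coe_set_eq, ← Set.ncard_eq_three.2 ⟨a, b, c, h1, h3, h2, rfl⟩]
    exact Set.ncard_le_ncard (by simp [Set.insert_subset_iff, ha, hb, hc]))⟩
  obtain ⟨a, b, c, hab, -⟩ := exists_three hm'
  have h1 := card_St_of_three h3 hab
  obtain ⟨F, k⟩ := z.exists_ker hm' a
  obtain ⟨p, f, hp, hf, -, h2⟩ := k.elementary z hab.symm hm' (by omega)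
  rw [Nat.card_eq_fintype_card] at h2
  obtain rfl : p = 2 := by
    by_contra e
    obtain ⟨u, hu⟩ := (hp.odd_of_ne_two e).pow (n := f)
    obtain ⟨v, hv⟩ := hodd
    omega
  obtain ⟨K, _, _, hK⟩ := exists_field_two (m := f) (by omega)
  refine ⟨f, hf, h2, K, _, _, hK, (z.psl_two K (by rw [hK, Nat.card_eq_fintype_card, h2])
    (by rw [hK]; exact (Nat.even_pow' (by omega)).2 even_two) ?_).2⟩
  have h4 := Nat.le_of_dvd (by omega) (z.card_St_dvd hab)
  rw [z.card_eq hab, le_antisymm h4 h1, Nat.card_eq_fintype_card, h2, hK]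
  obtain ⟨q, hq⟩ : ∃ q, 2 ^ f = q + 1 := ⟨2 ^ f - 1, by have := Nat.two_pow_pos f; omega⟩
  rw [hq, show (q + 1) ^ 2 - 1 = q * (q + 2) by rw [Nat.sub_eq_iff_eq_add (Nat.one_le_pow 2 (q + 1) q.succ_pos)]; ring]
  simp only [Nat.add_sub_cancel, show q + 1 + 1 - 2 = q by omega]
  ring

end Cfsg.Agent.S4702
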