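import Cfsg.Statements.S4706
import Mathlib
import Cfsg.Agent.H7.PD

set_option autoImplicit false
open Cfsg

namespace Cfsg.Agent.S4706

open H7 MulAction

/-- Let p > 2 be a prime and G a permutation group on p letters whose Sylow p-subgroup P has normalizer of order 2p. Then either P is normal in G, or p − 1 = 2^a for some a and G is isomorphic to SL(2, 2^a). -/
theorem result {α : Type*} [Fintype α] [DecidableEq α] {p : ℕ} [Fact p.Prime] (hp : 2 < p) (hα : Fintype.card α = p) (G : Subgroup (Equiv.Perm α)) (P : Sylow p G) (hN : Nat.card (Subgroup.normalizer ((P : Subgroup G) : Set G)) = 2 * p) : (P : Subgroup G).Normal ∨ ∃ (a : ℕ) (F : Type) (_ : Field F) (_ : Fintype F), p = 2 ^ a + 1 ∧ Fintype.card F = 2 ^ a ∧ Nonempty (G ≃* Matrix.SpecialLinearGroup (Fin 2) F) := by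
  have hp' : p.Prime := Fact.out
  refine or_iff_not_imp_left.2 fun hn => ?_
  have hα' : Nat.card α = p := by rw [Nat.card_eq_fintype_card, hα]
  have hP := card_sylow_of_normalizer P (fun h => by have := Nat.le_of_dvd two_pos h; omega) hN
  obtain ⟨x, hx, hx'⟩ := exists_zpowers_of_card_prime hp' hP
  obtain ⟨K, h, hK⟩ := exists_D1_one hx (centralizer_eq_zpowers_of_faithful hp' (α := α) (by omega) hx)
  haveI : IsPretransitive G α :=
    ⟨fun a b => ((trans_of_order hα' hx).exists_smul_eq a b).elim fun g hg => ⟨g, hg⟩⟩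
  haveI : IsPreprimitive G α := IsPreprimitive.of_prime_card (hα' ▸ hp')
  obtain ⟨a⟩ : Nonempty α := (Nat.card_pos_iff.1 (hα' ▸ hp'.pos)).1
  have he : Nat.card (Eg h) = 2 := by
    have := h.card_normalizer hK
    rw [hx', hN, mul_comm] at this
    exact (Nat.eq_of_mul_eq_mul_left hp'.pos this).symm
  obtain ⟨hs, hc⟩ := h.simple_of_prime hK (fun N _ h => by
    haveI := normal_trans (α := α) N h
    rw [card_eq_card_mul_card_stabilizer (G := N) a, hα']
    exact dvd_mul_right _ _) (fun e => hn (by
      haveI := (Nat.card_eq_one_iff_unique.1 e).1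
      exact Sylow.normal_of_subsingleton P)) (he ▸ Nat.prime_two)
  letI := Fintype.ofFinite G
  letI := Fintype.ofFinite K
  obtain ⟨X, Y, δ, ε, hB⟩ := h.exists_br
  obtain ⟨χ, -, h2, h3⟩ := (hB.prime_degree hK hα').resolve_left (hx' ▸ hn)
  have h4 : χ ∈ X := h2.resolve_right fun e => by
    have h4 := hB.cardY
    have h5 := Subgroup.card_le_card_group G
    rw [e, he] at h4
    rw [Nat.card_perm, hα', show p = 3 by omega] at h5
    refine hn (Subgroup.normalizer_eq_top_iff.1 (Subgroup.eq_top_of_le_card _ ?_))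
    rw [hN]
    exact h5.trans (by rw [show p = 3 by omega]; rfl)
  obtain ⟨m, h5, h6, h7⟩ := hB.thmE hc hK he h4 (by
    have := h3 1
    rw [← χ.2.cast_charDegree, fixedBy_one_eq_univ, Nat.card_univ, hα', add_comm] at this
    exact_mod_cast this.symm)
  obtain ⟨F, _, _, hF⟩ := exists_field_two (m := m) (by rintro rfl; omega)
  exact ⟨m, F, _, _, h5, hF, (h7 F hF).2⟩

end Cfsg.Agent.S4706
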