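import Cfsg.Statements.S4707
import Mathlib
import Cfsg.Agent.H7.PD
import Cfsg.Agent.H7.W2p

set_option autoImplicit false
open Cfsg

namespace Cfsg.Agent.S4707

open H7 H3 MulAction Finset

/-- Let p > 3 be a prime and G a primitive permutation group of degree 2p that is not doubly transitive. If a Sylow p-subgroup of G has normalizer of order 2p, then p = 5 and G is isomorphic to the alternating group of degree 5. -/
theorem result {α : Type*} [Fintype α] [DecidableEq α] {p : ℕ} [Fact p.Prime] (hp : 3 < p) (hα : Fintype.card α = 2 * p) (G : Subgroup (Equiv.Perm α)) (hprim : MulAction.IsPreprimitive G α) (hnot2 : ¬ MulAction.IsMultiplyPretransitive G α 2) (P : Sylow p G) (hN : Nat.card (Subgroup.normalizer ((P : Subgroup G) : Set G)) = 2 * p) : p = 5 ∧ Nonempty (G ≃* alternatingGroup (Fin 5)) := by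
  have hp' : p.Prime := Fact.out
  have hP := card_sylow_of_normalizer P (fun h => by have := Nat.le_of_dvd two_pos h; omega) hN
  obtain ⟨x, K, h, hx'⟩ := exists_D1_sylow P hP
  obtain ⟨a⟩ : Nonempty α := Fintype.card_pos_iff.1 (by omega)
  haveI : Nonempty α := ⟨a⟩
  have key : ∀ N : Subgroup G, N.Normal → N ≠ ⊥ → 2 * p ∣ Nat.card N := fun N _ h => by
    haveI := normal_trans (α := α) N h
    rw [card_eq_card_mul_card_stabilizer (G := N) a, Nat.card_eq_fintype_card, hα]
    exact dvd_mul_right _ _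
  have key' : ∀ N : Subgroup G, N.Normal → N ≠ ⊥ → p ∣ Nat.card N := fun N a b =>
    (dvd_mul_left p 2).trans (key N a b)
  have h1 := card_normalizer_eq_mul (Subgroup.zpowers x)
  rw [← h.card_Eg, centralizer_zpowers, h.card_cent, hx', hN] at h1
  have h2 : Nat.card (Eg h) * Nat.card K = 2 := Nat.eq_of_mul_eq_mul_left hp'.pos (by linarith)
  have he : Nat.card (Eg h) = 2 := ((Nat.dvd_prime Nat.prime_two).1 (Dvd.intro _ h2)).resolve_left fun e => by
    rw [h.card_Eg, hx', Subgroup.relIndex_eq_one] at e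
    have h3 := MonoidHom.ker_transferSylow_isComplement' P e
    refine P.not_dvd_index (h3.index_eq_card ▸ key' _ inferInstance fun e' => ?_)
    have h4 := h3.card_mul
    have h5 := Subgroup.card_le_card_group (Subgroup.normalizer ((P : Subgroup G) : Set G))
    rw [e', Subgroup.card_bot, hP] at h4
    omega
  have hK : Nat.card K = 1 := by rw [he] at h2; omega
  obtain ⟨hs, hc⟩ := h.simple_of_prime hK key' (fun e => by
      haveI := (Nat.card_eq_one_iff_unique.1 e).1
      have := Nat.le_of_dvd Nat.card_pos (key P (Sylow.normal_of_subsingleton P) fun e => by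
        rw [e, Subgroup.card_bot] at hP; omega)
      omega) (he ▸ Nat.prime_two)
  letI := Fintype.ofFinite G
  letI := Fintype.ofFinite K
  obtain ⟨X, Y, δ, ε, hB⟩ := h.exists_br
  obtain ⟨n, hn, hn', σ, h3, h4⟩ := H7.wielandt hα hnot2
  have h5 : Nat.card (orbitRel.Quotient G (α × α)) = 3 := by
    rw [show (3 : ℕ) = Nat.card (Option Bool) by simp]
    refine H7.card_quot_eq _ (fun z => if z.1 = z.2 then none else some (σ z.1 z.2)) ?_ ?_
    · rintro (_ | _ | _)
      · exact ⟨(a, a), by simp⟩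
      · obtain ⟨b, hb⟩ := Finset.card_pos.1 (lt_of_lt_of_eq (by positivity) (h4 a).2.symm)
        exact ⟨(a, b), by simp only [Finset.mem_filter] at hb; simp [hb.2.1.symm, hb.2.2]⟩
      · obtain ⟨b, hb⟩ := Finset.card_pos.1 (lt_of_lt_of_eq (by positivity) (h4 a).1.symm)
        exact ⟨(a, b), by simp only [Finset.mem_filter] at hb; simp [hb.2.1.symm, hb.2.2]⟩
    · rintro ⟨u, v⟩ ⟨y, z⟩
      rw [orbitRel_apply, mem_orbit_iff]
      simp only [Prod.smul_mk, Prod.mk.injEq]
      by_cases e : y = z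
      · subst e
        refine ⟨by rintro ⟨g, rfl, rfl⟩; simp, fun e => ?_⟩
        obtain rfl : u = v := by simpa using e
        simpa using exists_smul_eq G y u
      · by_cases f : u = v
        · subst f
          rw [if_pos rfl, if_neg e]
          exact ⟨fun ⟨g, a, b⟩ => absurd (MulAction.injective g (a.trans b.symm)) e, fun h => by simp at h⟩
        · rw [h3 _ _ _ _ e f]; simp [e, f, eq_comm]
  obtain ⟨k, m, a1, a2, a3, a4, a5⟩ := hB.dec_const (isCharacter_fixedBy α) (γ := 0) fun g hg => by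
    rw [Int.cast_zero, Nat.cast_eq_zero, Nat.card_eq_zero]
    refine Or.inl ⟨fun ⟨b, hb⟩ => ?_⟩
    obtain ⟨c, hc⟩ := exists_crd hα hnot2 (h.orderOf_eq hK hg)
    obtain ⟨⟨i, l⟩, rfl⟩ := c.surjective b
    simpa using (hc.smul i l).symm.trans hb
  rw [charDegree_fixedBy, Nat.card_eq_fintype_card, hα] at a3
  have a6 : k (oneI G) = 1 := by exact_mod_cast (a1 _).symm.trans inner_fixedBy_oneI
  have a7 := (isCharacter_fixedBy (G := G) α).isGen.inner_self_eq_sum_sq (fun χ => k χ) a1
  rw [classInner_fixedBy_fixedBy, h5] at a7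
  have a8 : ∑ χ, k χ ^ 2 = 3 := by exact_mod_cast a7.symm
  obtain ⟨χ, b1, b2, b3, -⟩ := hB.exists_pair he
  classical
  rw [show X = {oneI G, χ} by
    ext φ; simpa using ⟨b3 φ, by rintro (rfl | rfl); exacts [hB.one_mem, b2]⟩,
    Finset.sum_pair b1.symm, a6, hB.δ_one] at a5
  have hY := hB.cardY
  rw [he] at hY
  obtain ⟨θ, hθ⟩ := hB.nonempty
  obtain rfl : m = 0 := by
    by_contra hm
    rw [← Finset.sum_add_sum_compl (insert (oneI G) Y), Finset.sum_insert hB.one_not_mem, a6] at a3 a8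
    rw [Finset.sum_congr rfl (g := fun _ => m ^ 2) fun θ' h' => by rw [a4 θ' h'], Finset.sum_const,
      smul_eq_mul] at a8
    have c1 : 2 ≤ Y.card := by omega
    have c2 : 1 ≤ m ^ 2 := Nat.one_le_pow _ _ (Nat.pos_of_ne_zero hm)
    have c3 := Nat.mul_le_mul c1 c2
    have c5 := Nat.mul_le_mul_left Y.card c2
    have c4 : Y.card = 2 := by omega
    have c6 : ∑ i ∈ (insert (oneI G) Y)ᶜ, k i ^ 2 = 0 := by omega
    rw [Finset.sum_eq_zero (s := (insert (oneI G) Y)ᶜ) fun φ hφ => by
      rw [(pow_eq_zero_iff two_ne_zero).1 (Finset.sum_eq_zero_iff.1 c6 φ hφ), zero_mul], Finset.sum_congr rfl (g := fun _ => m * charDegree (θ : G → ℂ)) fun θ' h' => by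
        rw [a4 θ' h', hB.deg_const h' hθ], Finset.sum_const, c4, charDegree_oneI, smul_eq_mul] at a3
    omega
  obtain ⟨b4, b5⟩ : δ χ = -1 ∧ k χ = 1 := by rcases hB.sign χ b2 with e | e <;> rw [e] at a5 <;> omega
  obtain ⟨l, hl⟩ := hB.deg_X b2
  have b6 : charDegree (χ : G → ℂ) < 2 * p - 1 := by
    by_contra b6
    have f := (eq_sum_of_le (n := k) (T := {oneI G, χ}) (by simp [a6, b5]) (by
      rw [a3, Finset.sum_pair b1.symm, charDegree_oneI]; omega)).2.2
    rw [← a2, Finset.sum_pair b1.symm] at f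
    exact hnot2 (two_trans_of_irr b1 (congrFun f))
  obtain ⟨m, c1, -, c2⟩ := hB.thmE hc hK he b2 (by
    rcases l with _ | _ | l
    · omega
    · omega
    · push_cast at hl; rw [b4] at hl; nlinarith [show (0 : ℤ) ≤ p * l by positivity,
        show (charDegree (χ : G → ℂ) : ℤ) < 2 * p - 1 by omega])
  obtain rfl : n = 1 := by
    have c3 : n * (n + 1) ∣ 2 ^ m := ⟨2, by nlinarith⟩
    obtain ⟨i, -, hi⟩ := (Nat.dvd_prime_pow Nat.prime_two).1 ((dvd_mul_right _ _).trans c3)
    obtain ⟨j, -, hj⟩ := (Nat.dvd_prime_pow Nat.prime_two).1 ((dvd_mul_left _ _).trans c3)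
    rcases i with _ | i
    · exact hi
    · rcases j with _ | j <;> simp only [pow_succ] at hi hj <;> omega
  obtain rfl : m = 2 := Nat.pow_right_injective le_rfl (show 2 ^ m = 2 ^ 2 by omega)
  obtain ⟨F, _, _, hF⟩ := exists_field_two (m := 2) two_ne_zero
  obtain ⟨e⟩ := (c2 F hF).2
  exact ⟨hn', a5_of_card_60 (by rw [Nat.card_congr e.toEquiv, H4.card_SL_two, hF]; rfl)⟩

end Cfsg.Agent.S4707
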