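import Cfsg.Statements.S4708
import Cfsg.Agent.B.Cov4

set_option autoImplicit false
open Cfsg

namespace Cfsg.Agent.S4708

open Cfsg.Agent Cfsg.Agent.B Cfsg.Agent.H2 Cfsg.Agent.H3 Cfsg.Agent.L Subgroup MonoidAlgebra
open scoped Pointwise commutatorElement

/-- Let p be a prime, M a maximal ideal of the algebraic integers containing p, G a finite group and H a normal subgroup. Write λ(X) for the sum of the squares of the degrees of the irreducible characters in the principal p-block of a group X. Then λ(H) ≤ λ(G) ≤ [G : H]·λ(H). -/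
theorem result {G : Type*} [Group G] [Finite G] (p : ℕ) [Fact p.Prime] (M : Ideal Cfsg.AlgInt) (hM : Cfsg.IsPModular p M) (H : Subgroup G) [H.Normal] : (∑ᶠ θ ∈ Cfsg.principalBlock M H, Cfsg.charDegree (θ : H → ℂ) ^ 2) ≤ (∑ᶠ χ ∈ Cfsg.principalBlock M G, Cfsg.charDegree (χ : G → ℂ) ^ 2) ∧ (∑ᶠ χ ∈ Cfsg.principalBlock M G, Cfsg.charDegree (χ : G → ℂ) ^ 2) ≤ H.index * ∑ᶠ θ ∈ Cfsg.principalBlock M H, Cfsg.charDegree (θ : H → ℂ) ^ 2 := by
  have : PMod p M := ⟨hM⟩
  classical
  have := Fintype.ofFinite G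
  have := Fintype.ofFinite H
  have hB := isPBlock_principal (M := M) (G := G)
  have hb := isPBlock_principal (M := M) (G := H)
  have h0 := (covers_iff hB hb).1 ⟨_, oneIrr_mem, _, oneIrr_mem, by
    rw [show (fun n : H => (oneIrr G : G → ℂ) n) = oneIrr H from rfl, (oneIrr H).2.inner_self]
    exact one_ne_zero⟩
  have h1 : iB M H (principalBlock M H) ∈ cent (F M) G := mem_fix_iff_le.2 fun g _ =>
    (hb.cjI_mem_iff oneIrr_mem).1 oneIrr_mem
  choose m hm using fun (χ : IrrCharacter G) (θ : IrrCharacter H) =>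
    (χ.2.isCharacter.res H).exists_nat_inner θ.2.isCharacter
  have h2 : ∀ χ : IrrCharacter G, charDegree (χ : G → ℂ) = ∑ θ, m χ θ * charDegree (θ : H → ℂ) := fun χ => by
    have := (χ.2.isClassFunction.res H).apply_eq_sum_irr 1
    simp only [hm, OneMemClass.coe_one, ← IsIrrCharacter.cast_charDegree (Subtype.prop _)] at this
    exact_mod_cast this
  have h3 : ∀ θ : IrrCharacter H, H.index * charDegree (θ : H → ℂ) = ∑ χ, m χ θ * charDegree (χ : G → ℂ) := fun θ => by
    have := (isClassFunction_indFun H (θ : H → ℂ)).apply_eq_sum_irr 1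
    simp only [← conj_classInner (_ : IrrCharacter G).1, classInner_indFun_right _ (IsIrrCharacter.isClassFunction (Subtype.prop _)), hm, map_natCast, indFun_one, ← IsIrrCharacter.cast_charDegree (Subtype.prop _)] at this
    exact_mod_cast this
  have h4 : ∑ χ with χ ∈ principalBlock M G, charDegree (χ : G → ℂ) ^ 2 = ∑ θ with θ ∈ principalBlock M H,
      (∑ χ with χ ∈ principalBlock M G, m χ θ * charDegree (χ : G → ℂ)) * charDegree (θ : H → ℂ) := by
    simp only [Finset.sum_mul]
    rw [Finset.sum_comm]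
    refine Finset.sum_congr rfl fun χ hχ => ?_
    rw [sq, h2 χ, Finset.sum_mul, ← h2 χ, Finset.sum_filter]
    refine Finset.sum_congr rfl fun θ _ => ?_
    split_ifs with h
    · ring
    · rw [by_contra fun h5 : ¬ m χ θ = 0 => h (mem_of_under_of_stable hB hb h1 h0 (Finset.mem_filter.1 hχ).2
        (by rw [hm]; exact_mod_cast h5))]
      simp
  rw [finsum_mem_eq_ite, finsum_mem_eq_ite, ← Finset.sum_filter, ← Finset.sum_filter, h4, Finset.mul_sum]
  refine ⟨Finset.sum_le_sum fun θ hθ => ?_, Finset.sum_le_sum fun θ hθ => ?_⟩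
  · obtain ⟨χ, hχ, h5⟩ := exists_over_of_covers hB hb h0 (Finset.mem_filter.1 hθ).2
    have h6 : 0 < m χ θ := Nat.pos_of_ne_zero fun h => h5 (by rw [hm, h, Nat.cast_zero])
    rw [sq]
    refine Nat.mul_le_mul_right _ (le_trans ?_ (Finset.single_le_sum (f := fun χ => m χ θ * charDegree (χ : G → ℂ)) (fun _ _ => Nat.zero_le _) (a := χ) (by simpa using hχ)))
    refine le_trans ?_ (Nat.le_mul_of_pos_left _ h6)
    rw [h2 χ]
    exact le_trans (Nat.le_mul_of_pos_left _ h6) (Finset.single_le_sum (f := fun θ => m χ θ * charDegree (θ : H → ℂ)) (fun _ _ => Nat.zero_le _) (Finset.mem_univ θ))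
  · rw [sq, ← mul_assoc, h3]
    exact Nat.mul_le_mul_right _ (Finset.sum_le_sum_of_subset (Finset.filter_subset _ _))

end Cfsg.Agent.S4708
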