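import Cfsg.Statements.S4709
import Cfsg.Agent.B.Fpf

set_option autoImplicit false
open Cfsg

namespace Cfsg.Agent.S4709

open Cfsg.Agent Cfsg.Agent.B Cfsg.Agent.H2 Cfsg.Agent.H3 Subgroup MonoidAlgebra
open scoped Pointwise commutatorElement

/-- Let p be a prime, M a maximal ideal of the algebraic integers containing p, and G a finite group with a nontrivial abelian Sylow p-subgroup P; put N = N_G(P), C = C_G(P). Suppose N/C is cyclic of order m with 1 < m < #P − 1 (C has index m in N and N is generated by C and one element), and C_G(y) ∩ N = C for every non-identity y ∈ P. Put r = (#P − 1)/m. Then there is s ≤ m such that the principal p-block is the disjoint union of a set X of s characters containing the principal character and a set Y of r characters, with integers a_χ ≠ 0 (χ ∈ X), d and a sign δ = ±1, such that: every χ ∈ X takes the value a_χ at every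 element whose p-part is a non-identity element of P; there is a map ζ from the non-principal linear characters ψ of P onto Y, constant on N-conjugacy classes, with ζ_ψ(z) = d + δ·Σ ψ'(y) for every z whose p-part y is a non-identity element of P, the sum running over the N-conjugates ψ' of ψ; (d − δ)^2 + (r − 1) d^2 + Σ_{χ ∈ X} a_χ^2 = m + 1; all members of Y agree on p-regular elements; and (r d − δ) η(g) + Σ_{χ ∈ X} a_χ χ(g) = 0 for every η ∈ Y and every p-regular g. -/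
theorem result {G : Type*} [Group G] [Finite G] (p : ℕ) [Fact p.Prime] (M : Ideal Cfsg.AlgInt) (hM : Cfsg.IsPModular p M) (P : Sylow p G) (hab : IsMulCommutative P) (hP1 : Nat.card P ≠ 1) (m : ℕ) (hm1 : 1 < m) (hm2 : m + 1 < Nat.card P) (hCN : (Subgroup.centralizer ((P : Subgroup G) : Set G)).relIndex (Subgroup.normalizer ((P : Subgroup G) : Set G)) = m) (hcyc : ∃ g : G, g ∈ Subgroup.normalizer ((P : Subgroup G) : Set G) ∧ Subgroup.centralizer ((P : Subgroup G) : Set G) ⊔ Subgroup.zpowers g = Subgroup.normalizer ((P : Subgroup G) : Set G)) (hfrob : ∀ y : G, y ∈ (P : Subgroup G) → y ≠ 1 → Subgroup.centralizer ({y} : Set G) ⊓ Subgroup.normalizer ((P : Subgroup G) : Set G) = Subgroup.centralizer ((P : Subgroup G) : Set G)) : ∃ (s : ℕ) (X Y : Set (Cfsg.IrrCharacter G)), s ≤ m ∧ Cfsg.principalBlock M G = X ∪ Y ∧ Disjoint X Y ∧ Nat.card X = s ∧ Nat.card Y = (Nat.card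 P - 1) / m ∧ (∃ χ₁ ∈ X, (χ₁ : G → ℂ) = fun _ => 1) ∧ ∃ (a : Cfsg.IrrCharacter G → ℤ) (d δ : ℤ) (ζ : (↥(P : Subgroup G) →* ℂˣ) → Cfsg.IrrCharacter G), (δ = 1 ∨ δ = -1) ∧ (∀ χ ∈ X, a χ ≠ 0 ∧ ∀ z y : G, Cfsg.IsPPart p z y → y ∈ (P : Subgroup G) → y ≠ 1 → (χ : G → ℂ) z = (a χ : ℂ)) ∧ (∀ ψ : ↥(P : Subgroup G) →* ℂˣ, ψ ≠ 1 → ζ ψ ∈ Y) ∧ (∀ η ∈ Y, ∃ ψ : ↥(P : Subgroup G) →* ℂˣ, ψ ≠ 1 ∧ ζ ψ = η) ∧ (∀ ψ ψ' : ↥(P : Subgroup G) →* ℂˣ, ψ ≠ 1 → (∃ n : G, n ∈ Subgroup.normalizer ((P : Subgroup G) : Set G) ∧ ∀ w w' : ↥(P : Subgroup G), (w' : G) = n * w * n⁻¹ → ψ' w' = ψ w) → ζ ψ' = ζ ψ) ∧ (∀ ψ : ↥(P : Subgroup G) →* ℂˣ, ψ ≠ 1 → ∀ (z : G) (y : ↥(P : Subgroup G)), Cfsg.IsPPart p z (y : G) → (y : G) ≠ 1 → (ζ ψ : G → ℂ) z = (d : ℂ) + (δ : ℂ) * ∑ᶠ ψ' ∈ {ψ' : ↥(P : Subgroup G) →* ℂˣ | ∃ n : G, n ∈ Subgroup.normalizer ((P : Subgroup G) : Set G) ∧ ∀ w w' : ↥(P : Subgroup G), (w'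 : G) = n * w * n⁻¹ → ψ' w' = ψ w}, ((ψ' y : ℂˣ) : ℂ)) ∧ ((d - δ) ^ 2 + ((Nat.card P - 1) / m - 1 : ℤ) * d ^ 2 + ∑ᶠ χ ∈ X, a χ ^ 2 = (m : ℤ) + 1) ∧ (∀ η ∈ Y, ∀ η' ∈ Y, ∀ g : G, ¬ p ∣ orderOf g → (η : G → ℂ) g = (η' : G → ℂ) g) ∧ (∀ η ∈ Y, ∀ g : G, ¬ p ∣ orderOf g → ((((Nat.card P - 1) / m : ℕ) : ℂ) * d - δ) * (η : G → ℂ) g + ∑ᶠ χ ∈ X, (a χ : ℂ) * (χ : G → ℂ) g = 0) := by
  have : PMod p M := ⟨hM⟩
  classical
  have := Fintype.ofFinite G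
  have h := fb_of P hab hfrob
  rw [← card_aut] at hCN
  subst hCN
  obtain ⟨δ, d, ζ, w, h⟩ := h.exists_fd (M := M) hm2
  have hr : Nat.card (ζ '' {ψ | ψ ≠ 1}) = (Nat.card P - 1) / Nat.card (aut (P : Subgroup G)) := by
    rw [← h.cardY, Nat.add_sub_cancel, Nat.mul_div_cancel_left _ (by omega)]
  have h2 := h.two_le hm2
  obtain ⟨⟨_, ψ₀, hψ₀, rfl⟩⟩ : Nonempty (ζ '' {ψ | ψ ≠ 1}) := (Nat.card_pos_iff.1 (by omega)).1
  have hn := h.norm hψ₀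
  have hP : (P : Subgroup G) ≠ ⊥ := fun h0 => hP1 (card_eq_one.2 h0)
  have hr' : ((Nat.card P : ℤ) - 1) / Nat.card (aut (P : Subgroup G)) = Nat.card (ζ '' {ψ | ψ ≠ 1}) := by
    rw [← h.cardY]; push_cast; rw [add_sub_cancel_right, Int.mul_ediv_cancel_left _ (by omega)]
  refine ⟨_, principalBlock M G \ ζ '' {ψ | ψ ≠ 1}, ζ '' {ψ | ψ ≠ 1}, ?_, (Set.sdiff_union_of_subset h.sub).symm,
    Set.disjoint_sdiff_left, rfl, hr, ⟨oneIrr G, ⟨oneIrr_mem, h.one_not_mem hm2⟩, rfl⟩, w, d, δ, ζ, h.sgn,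
    fun χ hχ => ⟨h.w_ne hP hχ.1 hχ.2, fun z y h1 h2 h3 => ?_⟩, fun ψ hψ => ⟨ψ, hψ, rfl⟩, fun η hη => hη,
    fun ψ ψ' hψ h1 => ?_, fun ψ hψ z y h1 h2 => ?_, by rw [hr', hn], fun η h1 η' h2 g hg => h.Y_eq h1 h2 hg,
    fun η h1 g hg => by rw [← hr]; exact h.rel h1 hg⟩
  · have h3 : (Nat.card ↥(principalBlock M G \ ζ '' {ψ | ψ ≠ 1}) : ℤ) ≤
        ∑ᶠ χ ∈ principalBlock M G \ ζ '' {ψ | ψ ≠ 1}, w χ ^ 2 := by
      rw [finsum_mem_eq_finite_toFinset_sum _ (Set.toFinite _), Nat.card_eq_card_finite_toFinset (Set.toFinite _),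
        Finset.card_eq_sum_ones]
      push_cast
      exact Finset.sum_le_sum fun χ hχ => by
        have := h.w_ne hP ((Set.Finite.mem_toFinset _).1 hχ).1 ((Set.Finite.mem_toFinset _).1 hχ).2
        exact (one_le_sq_iff_one_le_abs _).2 (Int.one_le_abs this)
    have h4 : 1 ≤ (d - δ) ^ 2 + d ^ 2 := by rcases h.sgn with rfl | rfl <;> rcases le_or_gt d 0 <;> rcases le_or_gt 0 d <;> nlinarith
    have h5 : d ^ 2 ≤ ((Nat.card (ζ '' {ψ | ψ ≠ 1}) : ℤ) - 1) * d ^ 2 := le_mul_of_one_le_left (sq_nonneg _) (by omega)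
    omega
  · have h4 : (⟨y, h2⟩ : (P : Subgroup G)) ≠ 1 := by simpa using h3
    rw [h.apply_eq hχ.1 (y := ⟨y, h2⟩) h1 h4, h.val_X hχ.1 hχ.2 h4]
  · have h2 := rel_iff.1 h1
    exact ((h.inj ψ ψ' hψ (show Lin.mk ψ' ≠ 1 from h2.choose_spec ▸ h.la_ne hψ _)).2 h2).symm
  · have h4 : y ≠ 1 := by simpa using h2
    rw [h.apply_eq (h.mem ψ hψ) h1 h4, h.val_Y hψ h4, h.finsum_rel hψ]; rfl

end Cfsg.Agent.S4709
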