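import Cfsg.Statements.S4711
import Cfsg.Agent.S0938
import Cfsg.Agent.H2.BG1
import Cfsg.Agent.B.Rank
import Cfsg.Agent.B.Cov3

set_option autoImplicit false
open Cfsg

namespace Cfsg.Agent.S4711

open Cfsg.Agent Cfsg.Agent.B Cfsg.Agent.H2 Cfsg.Agent.H3 Subgroup MonoidAlgebra
open scoped Pointwise commutatorElement

/-- Let p be a prime, M a maximal ideal of the algebraic integers containing p, G a finite group, P a Sylow p-subgroup and N = N_G(P). Then G has p-length 1 (G = O_{p',p,p'}(G)) if and only if every irreducible character in the principal p-block of G restricts to an irreducible character of N. -/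
theorem result {G : Type*} [Group G] [Finite G] (p : ℕ) [Fact p.Prime] (M : Ideal Cfsg.AlgInt) (hM : Cfsg.IsPModular p M) (P : Sylow p G) : Cfsg.PLengthLE p 1 G ↔ ∀ χ ∈ Cfsg.principalBlock M G, Cfsg.IsIrrCharacter ↥(Subgroup.normalizer ((P : Subgroup G) : Set G)) (fun n : ↥(Subgroup.normalizer ((P : Subgroup G) : Set G)) => (χ : G → ℂ) n) := by
  have : PMod p M := ⟨hM⟩
  classical
  have hp : p.Prime := Fact.out
  have := Fintype.ofFinite G
  constructor
  · intro h χ hχ
    obtain ⟨ξ, a, b⟩ := χ.2.exists_quotient _ (le_charKer_of_mem_principal (H1.not_dvd_card_pPrimeCore p G) hχ)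
    have hq := QuotientGroup.mk'_surjective (pPrimeCore p G)
    have c : (P.mapSurjective hq).1 = pCore p _ := by
      refine le_antisymm ?_ (H1.pCore_le_sylow _)
      rw [plength1_iff', pPrimePCore, index_comap_of_surjective _ hq] at h
      exact ((((H1.isPGroup_pCore p _).toSylow h).is_maximal' (P.mapSurjective hq).2 (H1.pCore_le_sylow _))).le
    have d : pPrimePCore p G = P.1 ⊔ pPrimeCore p G := by
      rw [pPrimePCore, ← c]; exact (comap_map_eq _ _).trans (by rw [QuotientGroup.ker_mk'])
    have e : normalizer (P.1 : Set G) ⊔ pPrimePCore p G = ⊤ := Sylow.normalizer_sup_eq_top' P (d ▸ le_sup_left)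
    rw [d, ← sup_assoc, sup_eq_left.2 le_normalizer] at e
    simp only [← b]
    exact a.comp_of_surjective ((QuotientGroup.mk' _).comp (normalizer (P.1 : Set G)).subtype) fun x => by
      obtain ⟨x, rfl⟩ := hq x
      obtain ⟨y, hy, z, hz, rfl⟩ := mem_sup_of_normal_right.1 (e.ge (mem_top x))
      exact ⟨⟨y, hy⟩, by simp [(QuotientGroup.eq_one_iff z).2 hz]⟩
  intro h
  obtain ⟨K, _, hK, h1, -⟩ := S0938.result (G := G) p M hM _ isPBlock_principal _ oneIrr_mem
  have := Fintype.ofFinite P
  have h2 : ∀ χ ∈ principalBlock M G, classInner (fun x : P => (χ : G → ℂ) x) (fun _ => 1) ≠ 0 →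
      normalClosure (P : Set G) ≤ charKer (χ : G → ℂ) := fun χ hχ a => by
    have := χ.2.isClassFunction.charKer_normal
    have := Fintype.ofFinite (P.1.subgroupOf (normalizer (P.1 : Set G)))
    have b := ((h χ hχ).le_charKer_iff (N := P.1.subgroupOf _)).2 fun b => a (by
      rw [← b]; exact (classInner_comp_equiv (subgroupOfEquivOfLe (le_normalizer (H := P.1))) (fun x : P.1 => χ.1 x) fun _ => 1).symm)
    exact normalClosure_le_normal fun x hx => χ.2.mem_charKer_iff.2
      (apply_of_mem_charKer (χ := fun n : normalizer (P.1 : Set G) => χ.1 n) (b (show (⟨x, le_normalizer hx⟩ : normalizer (P.1 : Set G)) ∈ _ from hx)))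
  have h3 : ∀ l ∈ normalClosure (P : Set G), (orderOf l).Coprime p → l ∈ K := fun l hl a => by
    have := Fintype.ofFinite (zpowers l)
    refine hK.ge fun χ hχ => ?_
    have b : ∀ ξ : IrrCharacter (zpowers l), ξ ≠ oneIrr _ → classInner (fun x : zpowers l => (χ : G → ℂ) x) ξ = 0 :=
      fun ξ hξ => by
        choose m hm using fun ψ : IrrCharacter G => ξ.2.isCharacter.exists_nat_inner (ψ.2.isCharacter.res (zpowers l))
        have c := blockPart_eq' (principalBlock M G) (indFun _ ξ.1)
        simp only [fun ψ : IrrCharacter G => classInner_indFun_left ξ.1 ψ.2.isClassFunction, hm] at c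
        have d := card_mul_classInner (fun x : P => blockPart (principalBlock M G) (indFun _ ξ.1) x) fun _ => 1
        rw [Finset.sum_eq_single 1 (fun u _ hu => by
          rw [isPBlock_principal.closed.blockPart_sing (p := p) (fun g e => indFun_eq_zero_of_not_conj _ fun x f =>
            reg_iff_coprime.2 a (e.trans ((Agent.B.orderOf_conj g x).symm.dvd.trans (orderOf_dvd_of_mem_zpowers f))))
            ((pElt_of_mem P.2 u.2).dvd (by simpa using hu)), zero_mul]) (by simp), c] at d
        rw [show (fun x : P => (∑ χ ∈ Finset.univ.filter (· ∈ principalBlock M G), (m χ : ℂ) • χ.1) x) =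
          ∑ χ ∈ Finset.univ.filter (· ∈ principalBlock M G), (m χ : ℂ) • fun x : P => χ.1 x by ext; simp,
          classInner_sum_left, Finset.sum_eq_zero fun ψ e => ?_] at d
        · have e : ∑ χ ∈ Finset.univ.filter (· ∈ principalBlock M G), m χ * charDegree χ.1 = 0 := by
            simp only [Finset.sum_apply, Pi.smul_apply, OneMemClass.coe_one, ← IsIrrCharacter.cast_charDegree (Subtype.property _),
              smul_eq_mul, map_one, mul_one, mul_zero] at d
            exact_mod_cast d.symm
          rw [← conj_classInner, hm, (mul_eq_zero.1 (Finset.sum_eq_zero_iff.1 e χ (by simpa using hχ))).resolve_right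
            χ.2.charDegree_pos.ne', Nat.cast_zero, map_zero]
        rw [classInner_smul_left, mul_eq_zero, or_iff_not_imp_right]
        intro f
        rw [← hm, show (fun x : zpowers l => ψ.1 x) = ψ.1 1 • (oneIrr _).1 from funext fun x => by
          simpa [oneIrr] using apply_of_mem_charKer (h2 ψ (Finset.mem_filter.1 e).2 f (zpowers_le.2 hl x.2)),
          classInner_smul_right, not_not.1 fun e => hξ (Subtype.ext (ξ.2.eq_of_inner_ne_zero (oneIrr _).2 e)), mul_zero]
    have c := (χ.2.isCharacter.res (zpowers l)).isClassFunction.eq_sum_irr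
    rw [Finset.sum_eq_single (oneIrr _) (fun ξ _ a => by rw [b ξ a, zero_smul]) (by simp)] at c
    exact (congrFun c ⟨l, mem_zpowers l⟩).trans (congrFun c 1).symm
  refine plength1_iff'.2 fun a => P.not_dvd_index (a.trans (index_dvd_of_le (le_normalClosure.trans
    (le_pPrimePCore (pNil_of_mul fun x b y c d e => ?_)))))
  exact reg_iff_coprime.1 (reg_of_mem h1 (mul_mem (h3 x b d) (h3 y c e)))

end Cfsg.Agent.S4711
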