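import Cfsg.Statements.S4714
import Cfsg.Agent.B.PC

set_option autoImplicit false
open Cfsg

namespace Cfsg.Agent.S4714

open Cfsg.Agent Cfsg.Agent.B Cfsg.Agent.H2 Cfsg.Agent.H3 Cfsg.Agent.L Subgroup MonoidAlgebra
open scoped Pointwise commutatorElement

/-- Let p be a prime, M a maximal ideal of the algebraic integers containing p, D a p-subgroup of the finite group G with G = D·C_G(D), and B a p-block with defect group D. Let χ be a member of B having D in its kernel (there is exactly one, the canonical character of B). Then the irreducible characters in B are exactly the functions θ on G for which there is an irreducible character ζ of D such that θ(yx) = ζ(y)χ(x) whenever y ∈ D, x has order prime to p and x commutes with y, and θ(z) = 0 whenever the p-part of z does not lie in D. -/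
theorem result {G : Type*} [Group G] [Finite G] (p : ℕ) [Fact p.Prime] (M : Ideal Cfsg.AlgInt) (hM : Cfsg.IsPModular p M) (D : Subgroup G) (hD : IsPGroup p D) (hG : D ⊔ Subgroup.centralizer (D : Set G) = ⊤) (B : Set (Cfsg.IrrCharacter G)) (hB : Cfsg.IsPBlock M B) (hBD : Cfsg.IsDefectGroup p M B D) (χ : Cfsg.IrrCharacter G) (hχ : χ ∈ B) (hχD : ∀ y ∈ D, (χ : G → ℂ) y = (χ : G → ℂ) 1) : (∀ θ : Cfsg.IrrCharacter G, θ ∈ B ↔ ∃ ζ : Cfsg.IrrCharacter D, (∀ (y : D) (x : G), ¬ p ∣ orderOf x → Commute (y : G) x → (θ : G → ℂ) ((y : G) * x) = (ζ : D → ℂ) y * (χ : G → ℂ) x) ∧ (∀ z : G, (∀ y : G, Cfsg.IsPPart p z y → y ∉ D) → (θ : G → ℂ) z = 0)) ∧ ∀ ζ : Cfsg.IrrCharacter D, ∃ θ ∈ B, (∀ (y : D) (x : G), ¬ p ∣ orderOf x → Commute (y : G) x → (θ : G → ℂ) ((y : G) * x) = (ζ : D → ℂ) y * (χ : G → ℂ) x) ∧ (∀ z : G, (∀ y : G, Cfsg.IsPPart p z y → y ∉ D) → (θ : G → ℂ) z = 0) := by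
  have : PMod p M := ⟨hM⟩
  have := normal_of_sup_centralizer hG
  obtain ⟨ζ, h1, h2⟩ := hBD.exists_pc hB hG hχ fun x hx => χ.2.mem_charKer_iff.2 (hχD x hx)
  have h3 : ∀ θ ∈ B, ∀ z : G, (∀ y : G, IsPPart p z y → y ∉ D) → (θ : G → ℂ) z = 0 := fun θ hθ z h => by
    obtain ⟨u, hu⟩ := exists_isPPart (p := p) z
    exact hBD.apply_eq_zero hB hθ hu (h u hu)
  refine ⟨fun θ => ⟨fun hθ => ⟨ζ θ, fun y x hx _ => h2 θ hθ y x hx, h3 θ hθ⟩, fun ⟨η, h4, h5⟩ => ?_⟩,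
    fun η => ?_⟩
  · obtain ⟨θ', hθ', rfl⟩ := h1.2.2 (Set.mem_univ η)
    rwa [show θ = θ' from Subtype.ext (funext fun g => ?_)]
    obtain ⟨u, x, rfl, h6, h7, h8⟩ := exists_pdecomp (p := p) g
    by_cases hu : u ∈ D
    · exact (h4 ⟨u, hu⟩ x h8 h6).trans (h2 θ' hθ' ⟨u, hu⟩ x h8).symm
    · have h9 : ∀ y : G, IsPPart p (u * x) y → y ∉ D := fun y hy =>
        (isPPart_mul h7 h8 h6).unique hy ▸ hu
      rw [h5 _ h9, h3 θ' hθ' _ h9]
  · obtain ⟨θ, hθ, rfl⟩ := h1.2.2 (Set.mem_univ η)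
    exact ⟨θ, hθ, fun y x hx _ => h2 θ hθ y x hx, h3 θ hθ⟩

end Cfsg.Agent.S4714
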