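import Cfsg.Statements.S4715
import Cfsg.Agent.B.Cyclo

set_option autoImplicit false
open Cfsg

namespace Cfsg.Agent.S4715

open Cfsg.Agent Cfsg.Agent.B Cfsg.Agent.H2 Cfsg.Agent.H3 Subgroup MonoidAlgebra
open scoped Pointwise commutatorElement
theorem exists_of_central {p : ℕ} [hp : Fact p.Prime] {M : Ideal AlgInt} [PMod p M] {G : Type*} [Group G] [Finite G]
    {H P Q : Subgroup G} {b e : MonoidAlgebra (F M) G} (h : MP p H b P e) {g : G} (hg : BMor p H P e Q g)
    (hC : P ≤ centralizer (Q : Set G)) (hC' : P ≤ centralizer (cj g Q : Set G)) :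
    ∃ c ∈ CH H (cj g Q), c * g ∈ NS H P e := by
  obtain ⟨hgH, f, h1, h2⟩ := hg
  have h3 := h2.nl h.bp (hC'.trans (centralizer_le_normalizer _))
  have h4 := (h1.nl h.bp (hC.trans (centralizer_le_normalizer _))).conj (le_normalizer hgH)
  obtain ⟨y, hy, h6⟩ := h3.l.exists_conj_above le_rfl h3.l.CH_le_NS h4
    (le_inf h4.r.le (by rw [← cj_centralizer]; exact cj_mono g hC)) h3
    ⟨le_inf h.bp.le hC', h.bp.pgrp, h3.br_ne, fun R hR hRp h0 => by
      obtain ⟨x, -, -, h7⟩ := h.exists_conj_of_br h3.l (h.br_of_ple h2) (hR.trans h3.l.CH_le_NS)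
        hRp h0
      rw [← card_cj x]; exact card_le_of_le h7⟩
  obtain ⟨h7, h8⟩ := h.of_ple h6 (by rw [card_cj, card_cj])
  exact ⟨y, hy, ⟨H.mul_mem hy.1 hgH, mem_normalizer_iff_cj.2 (by rw [cj_mul, h7])⟩,
    mem_stab.2 (by rw [cA_mul, h8])⟩

/-- Let p be a prime, M a maximal ideal of the algebraic integers containing p, B a p-block of the finite group G with defect group D of order p^d, H = D·C_G(D), b a block of H inducing B, T the stabilizer of b in N_G(D) and e = [T : H] the inertial index of B; let n be the integer with p^n ≤ e < p^(n+1) and p^c the order of the centre of D. Then every irreducible character in B has height h with h + c ≤ n + d. -/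
theorem result {G : Type*} [Group G] [Finite G] (p : ℕ) [Fact p.Prime] (M : Ideal Cfsg.AlgInt) (hM : Cfsg.IsPModular p M) (B : Set (Cfsg.IrrCharacter G)) (hB : Cfsg.IsPBlock M B) (D : Subgroup G) (hBD : Cfsg.IsDefectGroup p M B D) (d : ℕ) (hDd : Nat.card D = p ^ d) (H : Subgroup G) (hH : H = D ⊔ Subgroup.centralizer (D : Set G)) (b : Set (Cfsg.IrrCharacter H)) (hind : Cfsg.IsInducedBlock M H b B) (T : Subgroup G) (hT : ∀ g : G, g ∈ T ↔ (g ∈ Subgroup.normalizer (D : Set G) ∧ ∀ θ ∈ b, ∀ θ' : Cfsg.IrrCharacter H, (∀ h h' : H, (h' : G) = g * h * g⁻¹ → (θ' : H → ℂ) h' = (θ : H → ℂ) h) → θ' ∈ b)) (e : ℕ) (he : H.relIndex T = e) (n : ℕ) (hn : p ^ n ≤ e ∧ e < p ^ (n + 1)) (c : ℕ) (hc : Nat.card (Subgroup.center D) = p ^ c) : ∀ χ ∈ B, Cfsg.blockHeight p B (χ : G → ℂ) + c ≤ n + d := by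
  have : PMod p M := ⟨hM⟩
  classical
  have := Fintype.ofFinite G
  intro χ hχ
  subst hH
  have h := mp_of_induced' hind hBD
  set f := iB M _ b with hf
  have hp := (Fact.out : p.Prime)
  have hN : normalizer (D : Set G) ≤ normalizer ((D ⊔ centralizer (D : Set G) : Subgroup G) : Set G) := fun g hg => by
    have := mem_normalizer_iff_cj.1 (normalizer_le_nc D hg)
    rw [mem_normalizer_iff_cj] at hg ⊢
    rw [cj_sup, hg, this]
  have h1 : NS ⊤ D f ≤ T := fun g hg => (hT g).2 ⟨hg.1.2, fun θ hθ θ' h2 => by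
    obtain ⟨θ'', h3, h4⟩ := (hind.1.closed.stabilizesBlock_iff.2 ⟨hN hg.1.2, hg.2⟩).2 θ hθ
    rwa [show θ' = θ'' from Subtype.ext (funext fun c => by
      obtain ⟨c, rfl⟩ := (cjE g (cj_eq_of_mem_normalizer (hN hg.1.2))).surjective c
      rw [h2 c _ rfl, h4 c _ rfl])]⟩
  have hZ : ∀ z : center D, D ≤ centralizer {((z : D) : G)} := fun z y hy =>
    mem_centralizer_singleton_iff.2 (congrArg Subtype.val (mem_center_iff.1 z.2 ⟨y, hy⟩))
  let K : center D → Set G := fun z => fcl p D f z (iB M _ (sb p D f z))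
  have h2 : ∀ u : D, (Finset.univ.filter fun z => (u : G) ∈ K z).card ≤ e := fun u => by
    rcases (Finset.univ.filter fun z => (u : G) ∈ K z).eq_empty_or_nonempty with h3 | ⟨z, h3⟩
    · simp [h3]
    have h4 := ncard_conj_image (NS ⊤ D f) ((z : D) : G)
    have h5 : (centralizer {((z : D) : G)}).relIndex (NS ⊤ D f) ≤ e :=
      (relIndex_le_of_le_left (sup_le (hZ z) (centralizer_le (Set.singleton_subset_iff.2 z.1.2)))
        index_ne_zero_of_finite).trans (he ▸ relIndex_le_of_le_right h1 index_ne_zero_of_finite)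
    rw [← Set.ncard_coe_finset]
    refine le_trans (Set.ncard_le_ncard_of_injOn (fun w => ((w : D) : G)) (fun w hw => ?_)
      (fun _ _ _ _ e => Subtype.ext (Subtype.ext e))) (h4.trans_le h5)
    have h6 : ((w : D) : G) ∈ K z := by
      have e1 := h.bp.fcl_eq (Finset.mem_filter.1 h3).2
      have e2 := h.bp.fcl_eq (Finset.mem_filter.1 hw).2
      exact (e2.symm.trans e1).subset (h.bp.self_mem_fcl w.1.2)
    obtain ⟨g, h7, h8⟩ := (h.bp.mem_fcl_iff z.1.2).1 h6
    obtain ⟨c, h9, h10⟩ := exists_of_central h h7 (by rw [Agent.B.centralizer_zpowers]; exact hZ z)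
      (by rw [cj_zpowers, h8, Agent.B.centralizer_zpowers]; exact hZ w)
    refine ⟨_, h10, ?_⟩
    have := h9.2 _ (conj_mem_cj g (mem_zpowers _))
    calc _ = c * (g * z * g⁻¹) * c⁻¹ := by group
      _ = _ := by rw [← this, h8]; group
  have hd : blockDefect p B = d := Nat.pow_right_injective hp.two_le ((h.card_eq_pow hB).symm.trans hDd)
  have hu : ∀ u : D, PElt p (u : G) := fun u => pElt_of_mem h.bp.pgrp u.2
  have h3 := card_le_of_galois Finset.univ (fun z : center D => (p : ℂ) ^ blockDefect p B *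
      ctr p ((z : D) : G) (sb p D f z) χ χ / p ^ blockHeight p B (χ : G → ℂ)) (fun z _ => by
      obtain ⟨k, hk⟩ := hu z
      exact Rz.isIntegral (pow_ne_zero (k + 1) hp.ne_zero) (IsInducedBlock.ctr_div_mem_Rz (hu z)
        (h.induced_sb hB z.1.2) (h.defect_sb hB z.1.2 (hZ z)) (hk ▸ pow_dvd_pow p k.le_succ) hχ hχ))
    (fun z _ => div_ne_zero (mul_ne_zero (pow_ne_zero _ p_ne_zero) (IsInducedBlock.ctr_self_ne_zero (hu z)
        (h.induced_sb hB z.1.2) (h.defect_sb hB z.1.2 (hZ z)) hχ)) (pow_ne_zero _ p_ne_zero))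
    (N := p ^ d * e / p ^ blockHeight p B (χ : G → ℂ)) fun σ => by
      let w : D → ℝ := fun u => (nF p D f u : ℝ)⁻¹ * ‖σ (ctr p (u : G) (sb p D f u) χ χ)‖
      have h4 : ∑ u, w u = 1 := by
        have := congrArg σ (h.inner_eq_sum_ctr hB (blockPart_of_mem hχ) χ.2.isClassFunction)
        rw [χ.2.inner_self, map_one, map_sum] at this
        apply Complex.ofReal_injective
        rw [Complex.ofReal_sum, Complex.ofReal_one, this]
        refine Finset.sum_congr rfl fun u _ => ?_
        have e := norm_galois_ctr (hu u) (h.bp.isPBlock_sb u.2).closed σ χ 1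
        simp only [Nat.cast_one, one_mul] at e
        simp [w, e]
      have h5 : ∀ z : center D, ‖σ (ctr p ((z : D) : G) (sb p D f z) χ χ)‖ = ∑ u : D, if (u : G) ∈ K z then w u else 0 :=
        fun z => by
          have e1 : ∀ u : D, (u : G) ∈ K z → w u = ((K z).ncard : ℝ)⁻¹ * ‖σ (ctr p ((z : D) : G) (sb p D f z) χ χ)‖ :=
            fun u hu => by
              obtain ⟨g, e2, e3⟩ := id hu
              rw [ctr_conj e2 (h.bp.isPBlock_sb z.1.2).closed (h.bp.isPBlock_sb u.2).closed (e3.eq_sb h.bp)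
                χ.2.isClassFunction χ.2.isClassFunction, ← h.bp.nF_eq hu]
          have e2 : (Finset.univ.filter fun u : D => (u : G) ∈ K z).card = (K z).ncard := by
            rw [← Set.ncard_coe_finset, ← Set.ncard_image_of_injective _ Subtype.val_injective]
            congr 1
            ext v
            simpa using fun hv => fcl_subset hv
          rw [← Finset.sum_filter, Finset.sum_congr rfl fun u hu => e1 u (Finset.mem_filter.1 hu).2,
            Finset.sum_const, e2, nsmul_eq_mul, mul_inv_cancel_left₀ (Nat.cast_ne_zero.2 (h.bp.nF_pos z.1.2).ne')]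
      simp only [map_div₀, map_mul, map_pow, map_natCast, norm_div, norm_mul, norm_pow, Complex.norm_natCast, hd,
        ← Finset.sum_div, ← Finset.mul_sum, h5]
      gcongr
      rw [Finset.sum_comm, ← mul_one (e : ℝ), ← h4, Finset.mul_sum]
      refine Finset.sum_le_sum fun u _ => ?_
      rw [← Finset.sum_filter, Finset.sum_const, nsmul_eq_mul]
      exact mul_le_mul_of_nonneg_right (by exact_mod_cast h2 u) (by positivity)
  rw [Finset.card_univ, ← Nat.card_eq_fintype_card, hc, le_div_iff₀ (pow_pos (by exact_mod_cast hp.pos) _)] at h3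
  have h4 : p ^ c * p ^ blockHeight p B (χ : G → ℂ) ≤ p ^ d * e := by exact_mod_cast h3
  have h5 := h4.trans_lt (Nat.mul_lt_mul_of_pos_left hn.2 (pow_pos hp.pos d))
  rw [← pow_add, ← pow_add, pow_lt_pow_iff_right₀ hp.one_lt] at h5
  omega

end Cfsg.Agent.S4715
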