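import Cfsg.Statements.S4717
import Cfsg.Agent.B.Cov3

set_option autoImplicit false
open Cfsg

namespace Cfsg.Agent.S4717

open Cfsg.Agent Cfsg.Agent.B Cfsg.Agent.H2 Cfsg.Agent.H3 Cfsg.Agent.L Subgroup MonoidAlgebra
open scoped Pointwise commutatorElement

/-- Let p be a prime, M a maximal ideal of the algebraic integers containing p, and r a natural number; say that a finite group X has deficiency class r when X has no non-principal p-block of defect ≥ r. If G has deficiency class r then so does the centralizer of every p-element of G; conversely, if r > 0 and the centralizer of every element of order p has deficiency class r, then G has deficiency class r. -/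
theorem result {G : Type*} [Group G] [Finite G] (p : ℕ) [Fact p.Prime] (M : Ideal Cfsg.AlgInt) (hM : Cfsg.IsPModular p M) (r : ℕ) : ((∀ B' : Set (Cfsg.IrrCharacter G), Cfsg.IsPBlock M B' → B' ≠ Cfsg.principalBlock M G → Cfsg.blockDefect p B' < r) → ∀ y : G, (∃ k : ℕ, orderOf y = p ^ k) → (∀ B' : Set (Cfsg.IrrCharacter ↥(Subgroup.centralizer ({y} : Set G))), Cfsg.IsPBlock M B' → B' ≠ Cfsg.principalBlock M ↥(Subgroup.centralizer ({y} : Set G)) → Cfsg.blockDefect p B' < r)) ∧ (0 < r → (∀ y : G, orderOf y = p → (∀ B' : Set (Cfsg.IrrCharacter ↥(Subgroup.centralizer ({y} : Set G))), Cfsg.IsPBlock M B' → B' ≠ Cfsg.principalBlock M ↥(Subgroup.centralizer ({y} : Set G)) → Cfsg.blockDefect p B' < r)) → (∀ B' : Set (Cfsg.IrrCharacter G), Cfsg.IsPBlock M B' → B' ≠ Cfsg.principalBlock M G → Cfsg.blockDefect p B' < r)) := by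
  have : PMod p M := ⟨hM⟩
  constructor
  · intro h y hy b hb h1
    obtain ⟨B, hB⟩ := inducedBlockDefined_centralizer hy hb
    exact hB.defect_le.trans_lt (h B hB.2.1 (mt hB.principal_iff.1 h1))
  · intro hr h B hB h1
    by_contra! h2
    obtain ⟨D, hD⟩ := hB.exists_defectGroup
    have hD' := hB.isDefectGroup_iff_top.1 hD
    have h3 : D ≠ ⊥ := fun h0 => by rw [hD.eq_bot_iff hB.closed] at h0; omega
    obtain ⟨y, hy, h4, h5⟩ : ∃ y ∈ D, orderOf y = p ∧ y ∈ centralizer (D : Set G) := by
      have := (nontrivial_iff_ne_bot D).2 h3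
      have := hD'.pgrp.center_nontrivial
      obtain ⟨k, hk, h4⟩ := (hD'.pgrp.to_subgroup (center D)).nontrivial_iff_card.1 this
      obtain ⟨z, hz⟩ := exists_prime_orderOf_dvd_card' (G := center D) p
        (h4 ▸ dvd_pow_self p hk.ne')
      exact ⟨z.1.1, z.1.2, by rw [orderOf_coe, orderOf_coe, hz], fun d hd =>
        congrArg Subtype.val (Subgroup.mem_center_iff.1 z.2 ⟨d, hd⟩)⟩
    obtain ⟨e, he⟩ := hD'.exists_mp hB.isBI_top
    obtain ⟨f, hf⟩ := he.bp.exists_ple (zpowers_le_of_mem hy)
    have h6 := he.centralizer hf (le_centralizer_comm (zpowers_le_of_mem h5))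
    have h7 := (hf.bp he.bp).aug_iff hB.isBI_top (he.br_of_ple hf)
    rw [CH_top, centralizer_zpowers] at h6
    obtain ⟨b, hb, rfl⟩ := h6.bi.exists_iB
    have h8 := h y h4 b hb (by
      rw [Ne, hb.eq_principal_iff_push (Subgroup.subtype _), ← h7, ← hB.eq_principal_iff]
      exact h1)
    rw [← ((hb.isDefectGroup_iff h6.dg.le).2 h6.dg).factorization_card hb.closed,
      H1.card_subgroupOf h6.dg.le, hD.factorization_card hB.closed] at h8
    omega

end Cfsg.Agent.S4717
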