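import Cfsg.Statements.S4719
import Cfsg.Agent.C3.Landau

set_option autoImplicit false
universe u
open Cfsg

namespace Cfsg.Agent.S4719

open H3 H2 C3 B Subgroup Finset

/-- For every natural number a there is a bound N with the following property. Let G be a finite group with Sylow 2-subgroups of order 2^a and r ≥ 0 such that G has no non-principal 2-block (relative to a maximal ideal of the algebraic integers containing 2) of defect ≥ r, and suppose a Sylow 2-subgroup of G contains an elementary abelian subgroup of order 2^(r+1). Then the order of G is at most N. -/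
theorem result (a : ℕ) : ∃ N : ℕ, ∀ (G : Type u) [Group G] [Finite G] (M : Ideal Cfsg.AlgInt) (r : ℕ) (P : Sylow 2 G), Cfsg.IsPModular 2 M → Nat.card P = 2 ^ a → (∀ B : Set (Cfsg.IrrCharacter G), Cfsg.IsPBlock M B → B ≠ Cfsg.principalBlock M G → Cfsg.blockDefect 2 B < r) → (∃ E : Subgroup G, E ≤ (P : Subgroup G) ∧ IsMulCommutative E ∧ (∀ x ∈ E, x * x = 1) ∧ Nat.card E = 2 ^ (r + 1)) → Nat.card G ≤ N := by
  have key : ∀ j : ℕ, ∃ N : ℕ, ∀ (G : Type u) [Group G] [Finite G] (M : Ideal AlgInt) [PMod 2 M] (r : ℕ),
      (Nat.card G).factorization 2 = a → (∀ B : Set (IrrCharacter G), IsPBlock M B → B ≠ principalBlock M G →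
      blockDefect 2 B < r) → ∀ E : Subgroup G, IsMulCommutative E → (∀ x ∈ E, x * x = 1) → Nat.card E = 2 ^ (r + 1) →
      ∀ D ≤ E, D.relIndex E = 2 ^ (j + 1) → Nat.card (centralizer (D : Set G)) ≤ N := fun j => by
    induction j with
    | zero =>
      obtain ⟨N, h⟩ := one_block_bound.{u} 2 a
      refine ⟨N, fun G _ _ M _ r b c E _ d e D f i => h _ M (b ▸ (Nat.factorization_le_iff_dvd Nat.card_pos.ne'
        Nat.card_pos.ne').2 (card_subgroup_dvd_card _) 2) fun β j => ?_⟩
      have k : Nat.card D = 2 ^ r := by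
        have := H1.card_mul_relIndex f
        rw [i, e, pow_succ 2 r] at this
        omega
      have l : IsPGroup 2 D := .of_card k
      have m : D ≤ centralizer (D : Set G) := fun x m y n => setLike_mul_comm (f n) (f m)
      obtain ⟨B, n⟩ := inducedBlockDefined_of_le l m le_rfl (centralizer_le_normalizer _) j
      obtain ⟨Q, o⟩ := j.exists_defectGroup
      have := normal_subgroupOf_of_le_normalizer (centralizer_le_normalizer (D : Set G))
      have s := card_le_of_le (o.normal_le (Q := D.subgroupOf _) j.closed (l.comap_subtype (K := centralizer (D : Set G))))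
      rw [o.card_eq_pow j.closed, Nat.card_congr (subgroupOfEquivOfLe m).toEquiv, k,
        pow_le_pow_iff_right₀ one_lt_two] at s
      exact n.principal_iff.1 (by_contra fun t => (c B n.2.1 t).not_ge (s.trans n.defect_le))
    | succ j ih =>
      obtain ⟨c, ih⟩ := ih
      obtain ⟨N, h⟩ := klein_bound.{u} c (a + 1)
      refine ⟨N, fun G _ _ M _ r b k E _ d e D f i => ?_⟩
      have l : ∀ v ∈ E, v ∉ D → (D ⊔ zpowers v).relIndex E = 2 ^ (j + 1) := fun v l m => by
        have n := relIndex_mul_relIndex _ _ _ (le_sup_left : D ≤ D ⊔ zpowers v) (sup_le f (zpowers_le.2 l))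
        have o : D.relIndex (zpowers v) ∣ 2 := ord2_of (d v l) (by rintro rfl; exact m D.one_mem) ▸
          Nat.card_zpowers v ▸ relIndex_dvd_card ..
        rw [sup_comm D, H1.relIndex_sup_norm (zpowers_le.2 (H1.le_normalizer_of_isMulCommutative f l)), i,
          ((Nat.dvd_prime Nat.prime_two).1 o).resolve_left fun t => m (relIndex_eq_one.1 t (mem_zpowers v)),
          pow_succ, sup_comm] at n
        omega
      obtain ⟨x, m, n⟩ := SetLike.not_le_iff_exists.1 fun t => (Nat.one_lt_two_pow (by omega)).ne'
        (i.symm.trans (relIndex_eq_one.2 t))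
      obtain ⟨y, o, s⟩ := SetLike.not_le_iff_exists.1 fun t => (Nat.one_lt_two_pow (by omega)).ne'
        ((l x m n).symm.trans (relIndex_eq_one.2 t))
      have t : E ≤ centralizer (D : Set G) := fun x m y n => setLike_mul_comm (f n) m
      have v : ∀ v ∈ E, v ∉ D → Nat.card ↥(centralizer (D : Set G) ⊓ centralizer ({v} : Set G)) ≤ c := fun v w z =>
        (card_le_of_le (le_centralizer_iff.1 (sup_le (le_centralizer_iff.1 inf_le_left) (zpowers_le.2
          fun g i => mem_centralizer_singleton_iff.1 i.2)))).trans (ih G M r b k E ‹_› d e _ (sup_le f (zpowers_le.2 w)) (l v w z))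
      refine h G _ x y ⟨d x m, d y o, setLike_mul_comm m o, le_normalizer (t m), le_normalizer (t o), ?_⟩ fun w => ?_
      · rintro _ (rfl | rfl | rfl)
        · exact v _ m n
        · exact v _ o fun w => s (mem_sup_left w)
        · exact v _ (mul_mem m o) fun w => s ((mul_mem_cancel_left (mem_sup_right (mem_zpowers x))).1 (mem_sup_left w))
      · have := (Nat.prime_two.pow_dvd_iff_le_factorization Nat.card_pos.ne').1 (w.trans (card_subgroup_dvd_card _))
        omega
  choose N h using key
  refine ⟨(range a).sup N, fun G _ _ M r P hM b c ⟨E, d, e, f, i⟩ => ?_⟩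
  have : PMod 2 M := ⟨hM⟩
  have j := h r G M r (Nat.pow_right_injective le_rfl (P.card_eq_multiplicity.symm.trans b)) c E e f i ⊥ bot_le
    (by rw [relIndex_bot_left, i])
  rw [centralizer_eq_top_iff_subset.2 (by simp), Subgroup.card_top] at j
  exact j.trans (le_sup (mem_range.2 ((pow_le_pow_iff_right₀ one_lt_two).1 (i ▸ b ▸ card_le_of_le d))))

end Cfsg.Agent.S4719
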