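import Cfsg.Statements.S4720
import Cfsg.Agent.B.Prin

set_option autoImplicit false
open Cfsg

namespace Cfsg.Agent.S4720

open Cfsg.Agent Cfsg.Agent.B Cfsg.Agent.H2 Cfsg.Agent.H3 Subgroup MonoidAlgebra
open scoped Pointwise commutatorElement
open Classical in
theorem key {G : Type*} [Group G] [Finite G] (p : ℕ) [Fact p.Prime] (M : Ideal Cfsg.AlgInt) [PMod p M] (P : Subgroup G) (hP : IsPGroup p P) (N : Subgroup G) [Fintype N] (U : Set G) (hUP : U ⊆ (P : Set G)) (hfus : ∀ u ∈ U, ∀ g : G, g * u * g⁻¹ ∈ (P : Set G) → ∃ n ∈ N, n * u * n⁻¹ = g * u * g⁻¹) (w : ℚ) (hw : ∀ y ∈ U, ((∑ᶠ ψ ∈ Cfsg.principalBlock M ↥(Subgroup.centralizer ({y} : Set G)), Cfsg.charDegree (ψ : ↥(Subgroup.centralizer ({y} : Set G)) → ℂ) ^ 2) : ℚ) = w * Nat.card ↥(N ⊓ Subgroup.centralizer ({y} : Set G))) {y z : G} (hy : y ∈ U) (hz : z ∈ P) :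
    ∑ χ : IrrCharacter G, (if χ ∈ principalBlock M G then (χ : G → ℂ) z * (χ : G → ℂ) y⁻¹ else 0) =
      w * ∑ x : N, if (x : G) * y * (x : G)⁻¹ = z then 1 else 0 := by
  classical
  have hyp : PElt p y := pElt_of_mem hP (hUP hy)
  have hzp : PElt p z := pElt_of_mem hP hz
  have hB : Closed M (principalBlock M G) := (isPBlock_principal (M := M) (G := G)).closed
  by_cases hc : IsConj y z
  · obtain ⟨g, hg⟩ := isConj_iff.1 hc
    obtain ⟨n, hn, hn'⟩ := hfus y hy g (by rw [hg]; exact hz)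
    rw [hg] at hn'
    have h1 := hB.sum_mul_eq_roots hyp (y := 1) (y' := 1) reg_one reg_one
    rw [roots_principal_centralizer hyp] at h1
    simp only [OneMemClass.coe_one, mul_one, inv_one] at h1
    have h2 : ∀ χ : IrrCharacter G, (χ : G → ℂ) z = (χ : G → ℂ) y := fun χ =>
      (χ.2.isCharacter.isClassFunction.eq_of_isConj hc).symm
    simp only [h2]
    rw [h1]
    have h3 := congrArg (fun q : ℚ => (q : ℂ)) (hw y hy)
    rw [finsum_mem_eq_ite] at h3
    push_cast at h3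
    have h4 : (∑ x : N, if (x : G) * y * (x : G)⁻¹ = z then (1 : ℂ) else 0) =
        Nat.card ↥(N ⊓ Subgroup.centralizer ({y} : Set G)) := by
      rw [Finset.sum_boole, ← Fintype.card_subtype, ← Nat.card_eq_fintype_card]
      congr 1
      refine Nat.card_congr ⟨fun x => ⟨n⁻¹ * x.1, N.mul_mem (N.inv_mem hn) x.1.2, ?_⟩,
        fun c => ⟨⟨n * c.1, N.mul_mem hn c.2.1⟩, ?_⟩, fun x => ?_, fun c => ?_⟩
      · refine mem_centralizer_singleton_iff.2 ?_
        have := x.2.trans hn'.symm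
        calc n⁻¹ * x.1 * y = n⁻¹ * ((x.1 : G) * y * (x.1 : G)⁻¹) * x.1 := by group
          _ = _ := by rw [this]; group
      · have := mem_centralizer_singleton_iff.1 c.2.2
        rw [← hn']
        calc n * c.1 * y * (n * c.1)⁻¹ = n * (c.1 * y) * (n * c.1)⁻¹ := by group
          _ = _ := by rw [this]; group
      · ext; simp
      · ext; simp
    rw [h4, ← h3]
    refine Finset.sum_congr rfl fun ξ _ => ?_
    split_ifs
    · push_cast; rw [ξ.2.cast_charDegree]; ring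
    · simp
  · rw [hB.orth hzp.isPPart_self hyp.isPPart_self (fun h => hc h.symm)]
    rw [Finset.sum_eq_zero, mul_zero]
    intro x _
    rw [if_neg]
    intro h
    exact hc (isConj_iff.2 ⟨x, h⟩)

/-- Let p be a prime, M a maximal ideal of the algebraic integers containing p, P a p-subgroup of the finite group G, N a subgroup with P ≤ N ≤ N_G(P), and U a nonempty subset of P normalized by N such that an element of U and an element of P that are conjugate in G are already conjugate in N, and such that λ(C_G(y)) = w·#C_N(y) for every y ∈ U with one rational number w, where λ(X) denotes the sum of the squares of the degrees of the irreducible characters in the principal p-block of X. For a complex function θ on P and χ in the principal block of G put a_χ(θ) = #P⁻¹ Σ_{y ∈ P} χ(y) θ(y⁻¹). Then for generalized characters θ, η of P with θ vanishing outside U, Σ_χ a_χ(θ)·conj(a_χ(η)) = (w/#P²)·Σ_{y ∈ P} θ(y)·conj(Σ_{x ∈ N} η(x y x⁻¹))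 (η extended by zero off P; the conjugates lie in P), the first sum over the principal p-block of G. -/
theorem result {G : Type*} [Group G] [Finite G] (p : ℕ) [Fact p.Prime] (M : Ideal Cfsg.AlgInt) (hM : Cfsg.IsPModular p M) (P : Subgroup G) (hP : IsPGroup p P) (N : Subgroup G) (hPN : P ≤ N) (hNN : N ≤ Subgroup.normalizer (P : Set G)) (U : Set G) (hUne : U.Nonempty) (hUP : U ⊆ (P : Set G)) (hUN : ∀ n ∈ N, ∀ u ∈ U, n * u * n⁻¹ ∈ U) (hfus : ∀ u ∈ U, ∀ g : G, g * u * g⁻¹ ∈ (P : Set G) → ∃ n ∈ N, n * u * n⁻¹ = g * u * g⁻¹) (w : ℚ) (hw : ∀ y ∈ U, ((∑ᶠ ψ ∈ Cfsg.principalBlock M ↥(Subgroup.centralizer ({y} : Set G)), Cfsg.charDegree (ψ : ↥(Subgroup.centralizer ({y} : Set G)) → ℂ) ^ 2) : ℚ) = w * Nat.card ↥(N ⊓ Subgroup.centralizer ({y} : Set G))) (θ η : ↥P → ℂ) (hθ : Cfsg.IsGeneralizedCharacter ↥P θ) (hη : Cfsg.IsGeneralizedCharacter ↥P η) (hθU : ∀ y : ↥P, (y : G) ∉ U → θ y = 0) : ∑ᶠ χ ∈ Cfsg.principalBlock M G, ((Nat.card ↥P : ℂ)⁻¹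 * ∑ᶠ y : ↥P, (χ : G → ℂ) (y : G) * θ y⁻¹) * (starRingEnd ℂ) ((Nat.card ↥P : ℂ)⁻¹ * ∑ᶠ y : ↥P, (χ : G → ℂ) (y : G) * η y⁻¹) = ((w : ℂ) / ((Nat.card ↥P : ℂ) ^ 2)) * ∑ᶠ y : ↥P, θ y * (starRingEnd ℂ) (∑ᶠ x : ↥N, Cfsg.extendByZero P η ((x : G) * (y : G) * (x : G)⁻¹)) := by
  have : PMod p M := ⟨hM⟩
  classical
  have := Fintype.ofFinite G
  rw [finsum_mem_eq_ite]
  simp only [finsum_eq_sum_of_fintype]
  have e1 : ∀ (f : P → ℂ) (χ : IrrCharacter G), ∑ y : P, (χ : G → ℂ) y * f y⁻¹ = ∑ y : P, (χ : G → ℂ) (y : G)⁻¹ * f y := fun f χ => by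
    rw [← Equiv.sum_comp (Equiv.inv P)]
    simp
  have e2 : ∀ y : P, ∑ x : N, extendByZero P η ((x : G) * y * (x : G)⁻¹) =
      ∑ z : P, η z * ∑ x : N, if (x : G) * y * (x : G)⁻¹ = z then 1 else 0 := fun y => by
    simp only [Finset.mul_sum]
    rw [Finset.sum_comm]
    refine Finset.sum_congr rfl fun x _ => ?_
    have hx : (x : G) * y * (x : G)⁻¹ ∈ P := (mem_normalizer_iff.1 (hNN x.2) y).1 y.2
    rw [Finset.sum_eq_single ⟨_, hx⟩]
    · simp only [if_true, mul_one]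
      exact Subtype.val_injective.extend_apply η 0 ⟨_, hx⟩
    · intro z _ hz
      rw [if_neg, mul_zero]
      intro h
      exact hz (Subtype.ext h.symm)
    · simp
  have e3 : ∀ χ : IrrCharacter G, (if χ ∈ principalBlock M G then ((Nat.card ↥P : ℂ)⁻¹ * ∑ y : ↥P, (χ : G → ℂ) (y : G) * θ y⁻¹) * (starRingEnd ℂ) ((Nat.card ↥P : ℂ)⁻¹ * ∑ y : ↥P, (χ : G → ℂ) (y : G) * η y⁻¹) else 0) =
      ((Nat.card P : ℂ) ^ 2)⁻¹ * ∑ y : P, ∑ z : P, θ y * (starRingEnd ℂ) (η z) *
        (if χ ∈ principalBlock M G then (χ : G → ℂ) z * (χ : G → ℂ) (y : G)⁻¹ else 0) := fun χ => by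
    split_ifs
    · rw [e1, e1, map_mul, map_sum, map_inv₀, map_natCast, mul_mul_mul_comm, Finset.sum_mul_sum]
      congr 1
      · rw [sq, mul_inv]
      · refine Finset.sum_congr rfl fun y _ => Finset.sum_congr rfl fun z _ => ?_
        rw [map_mul, ← χ.2.isCharacter.apply_inv, inv_inv]
        ring
    · simp
  simp only [e3]
  rw [← Finset.mul_sum, div_eq_mul_inv, mul_comm (w : ℂ), mul_assoc]
  congr 1
  rw [Finset.sum_comm, Finset.mul_sum]
  refine Finset.sum_congr rfl fun y _ => ?_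
  by_cases hy : (y : G) ∈ U
  · rw [Finset.sum_comm, e2, map_sum, Finset.mul_sum, Finset.mul_sum]
    refine Finset.sum_congr rfl fun z _ => ?_
    rw [← Finset.mul_sum, key p M P hP N U hUP hfus w hw hy z.2, map_mul, map_sum]
    simp only [apply_ite (starRingEnd ℂ), map_one, map_zero]
    ring
  · simp [hθU y hy]

end Cfsg.Agent.S4720
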