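import Cfsg.Statements.S4721
import Cfsg.Agent.B.Fpf
import Cfsg.Agent.H3.FS

set_option autoImplicit false
open Cfsg

namespace Cfsg.Agent.S4721

open Cfsg.Agent Cfsg.Agent.B Cfsg.Agent.H2 Cfsg.Agent.H3 Subgroup MonoidAlgebra
open scoped Pointwise commutatorElement
theorem sq_of {N u m : ℤ} (hu : u ≠ 0) (h : m ^ 2 = N * u ^ 2) : IsSquare N := by
  obtain ⟨k, rfl⟩ := (Int.pow_dvd_pow_iff two_ne_zero).1 (Dvd.intro_left _ h.symm)
  exact ⟨k, mul_right_cancel₀ (pow_ne_zero 2 hu) (by linear_combination -h)⟩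

theorem core1 {x y z u v : ℤ} (hx : 0 < x) (hy : 0 < y) (hu : u ≠ 0) (h1 : z = 1 + x + y)
    (h : u ^ 2 * y * z + v ^ 2 * x * z = (u + v) ^ 2 * x * y) : False := by
  subst h1
  have := mul_pos (pow_pos (abs_pos.2 hu) 2) hy
  rw [sq_abs] at this
  nlinarith [sq_nonneg (u * y - v * x), mul_nonneg (sq_nonneg v) hx.le]

theorem core0 {x y z u v w : ℤ} (hx : 0 < x) (hy : 0 < y) (hz : 0 < z) (hu : u ≠ 0)
    (h : u ^ 2 * y * z + v ^ 2 * x * z + w ^ 2 * x * y = 0) : False := by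
  have := mul_pos (mul_pos (pow_pos (abs_pos.2 hu) 2) hy) hz
  rw [sq_abs] at this
  nlinarith [mul_nonneg (mul_nonneg (sq_nonneg v) hx.le) hz.le, mul_nonneg (mul_nonneg (sq_nonneg w) hx.le) hy.le]

theorem core2 {x y z u v : ℤ} (hv : v ≠ 0) (h1 : x = y + z - 1)
    (h : (u + v) ^ 2 * y * z = u ^ 2 * x * z + v ^ 2 * x * y) : IsSquare (x * y * z) :=
  sq_of (m := z * (y - x) * u + y * z * v) hv (by subst h1; linear_combination (z * (y - (y + z - 1))) * h)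

theorem core {a b c x y z r s t : ℤ} (ha : a = 1 ∨ a = -1) (hb : b = 1 ∨ b = -1) (hc : c = 1 ∨ c = -1)
    (hx : 0 < x) (hy : 0 < y) (hz : 0 < z) (hr : r ≠ x) (hs : s ≠ y) (ht : t ≠ z)
    (h1 : 1 + a * x + b * y + c * z = 0) (h2 : 1 + a * r + b * s + c * t = 0)
    (h3 : x * y * z + a * r ^ 2 * y * z + b * s ^ 2 * x * z + c * t ^ 2 * x * y = 0) :
    a + b + c = -1 ∧ IsSquare (x * y * z) := by
  obtain ⟨u, rfl⟩ : ∃ u, r = x + u := ⟨r - x, by ring⟩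
  obtain ⟨v, rfl⟩ : ∃ u, s = y + u := ⟨s - y, by ring⟩
  obtain ⟨w, rfl⟩ : ∃ u, t = z + u := ⟨t - z, by ring⟩
  have hu : u ≠ 0 := by simpa using hr
  have hv : v ≠ 0 := by simpa using hs
  have hw : w ≠ 0 := by simpa using ht
  have h4 : a * u + b * v + c * w = 0 := by linear_combination h2 - h1
  have h5 : a * u ^ 2 * y * z + b * v ^ 2 * x * z + c * w ^ 2 * x * y = 0 := by
    linear_combination h3 - x * y * z * h1 - 2 * x * y * z * h4
  rcases ha with rfl | rfl <;> rcases hb with rfl | rfl <;> rcases hc with rfl | rfl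
  · omega
  · exact (core1 hx hy hu (z := z) (v := v) (by omega) (by rw [show u + v = w by omega]; linear_combination h5)).elim
  · exact (core1 hx hz hu (z := y) (v := w) (by omega) (by rw [show u + w = v by omega]; linear_combination h5)).elim
  · exact ⟨rfl, core2 hw (u := v) (by omega) (by rw [show v + w = u by omega]; linear_combination h5)⟩
  · exact (core1 hy hz hv (z := x) (v := w) (by omega) (by rw [show v + w = u by omega]; linear_combination h5)).elim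
  · exact ⟨rfl, by
      rw [mul_comm x]; exact core2 hw (u := u) (by omega) (by rw [show u + w = v by omega]; linear_combination h5)⟩
  · exact ⟨rfl, by
      rw [mul_comm, ← mul_assoc]
      exact core2 hv (u := u) (by omega) (by rw [show u + v = w by omega]; linear_combination h5)⟩
  · exact (core0 hx hy hz hu (v := v) (w := w) (by linear_combination -h5)).elim

theorem core_two {a b δ x y z k : ℤ} (ha : a = 1 ∨ a = -1) (hb : b = 1 ∨ b = -1) (hc : δ = 1 ∨ δ = -1)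
    (hx : 15 ≤ x) (hy : 15 ≤ y) (hz : 0 < z) (hk : δ * z = 16 * k + 3)
    (h : z * (x * y + a * y + b * x) = 9 * δ * x * y) : False := by
  have h1 : 7 * (x + y) ≤ x * y := by nlinarith
  have h2 : 5 * (x * y) ≤ 7 * (x * y + a * y + b * x) := by
    rcases ha with rfl | rfl <;> rcases hb with rfl | rfl <;> nlinarith
  have h3 : 7 * (x * y + a * y + b * x) ≤ 9 * (x * y) := by
    rcases ha with rfl | rfl <;> rcases hb with rfl | rfl <;> nlinarith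
  have h4 : 0 < x * y := by positivity
  rcases hc with rfl | rfl
  · rcases (show z = 3 ∨ 19 ≤ z by omega) with rfl | h5 <;> nlinarith
  · nlinarith

open Classical in
theorem sec {G : Type*} [Group G] [Finite G] {p : ℕ} [Fact p.Prime] (M : Ideal Cfsg.AlgInt) [PMod p M] {t y : G}
    (hy : PElt p y) (hinv : ∀ a b, IsConj t a → IsConj t b → ¬ IsPPart p (a * b)⁻¹ y) :
    ∑ χ : IrrCharacter G, (if χ ∈ principalBlock M G then (χ : G → ℂ) t ^ 2 / (χ : G → ℂ) 1 * (χ : G → ℂ) y else 0) = 0 := by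
  have := Fintype.ofFinite G
  have hB : Closed M (principalBlock M G) := (isPBlock_principal (M := M) (G := G)).closed
  have h1 := hB.blockPart_section (isClassFunction_sum_irr fun χ : IrrCharacter G => (χ : G → ℂ) t ^ 2 / (χ : G → ℂ) 1)
    hy.isPPart_self (fun v hv => by
      have h2 := card_class_mul_eq_sum t t v⁻¹
      have h3 : IsEmpty {p : G × G // IsConj t p.1 ∧ IsConj t p.2 ∧ p.1 * p.2 = v⁻¹} :=
        ⟨fun ⟨⟨a, b⟩, ha, hb, hab⟩ => hinv a b ha hb (by rwa [show a * b = v⁻¹ from hab, inv_inv])⟩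
      rw [Nat.card_of_isEmpty, Nat.cast_zero, eq_comm, mul_eq_zero] at h2
      have h4 : (Nat.card {x : G // IsConj t x} : ℂ) ≠ 0 := by
        have : Nonempty {x : G // IsConj t x} := ⟨⟨t, IsConj.refl t⟩⟩
        exact_mod_cast Nat.card_pos.ne'
      rcases h2 with h2 | h2
      · exact absurd h2 (div_ne_zero (mul_ne_zero h4 h4) card_ne_zero)
      · rw [← h2, Finset.sum_apply]
        refine Finset.sum_congr rfl fun χ _ => ?_
        rw [← χ.2.apply_inv, inv_inv, Pi.smul_apply, smul_eq_mul]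
        ring)
  rw [blockPart_eq] at h1
  refine Eq.trans ?_ h1
  refine Finset.sum_congr rfl fun χ _ => ?_
  rw [classInner_sum_irr]

variable {G : Type*} [Group G] [Fintype G] {p : ℕ} [hp : Fact p.Prime] {M : Ideal Cfsg.AlgInt} [PMod p M]
  {P : Subgroup G} {δ d : ℤ} {ζ : Lin P → IrrCharacter G} {w : IrrCharacter G → ℤ}

open Classical in
theorem sum_Y (h : FD p M P δ d ζ w) (f : IrrCharacter G → ℂ) :
    Nat.card (aut P) * ∑ χ with χ ∈ ζ '' {ψ | ψ ≠ 1}, f χ = ∑ ψ ∈ Finset.univ.erase 1, f (ζ ψ) := by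
  rw [← Finset.sum_fiberwise_of_maps_to (s := Finset.univ.erase 1) (t := Finset.univ.filter (· ∈ ζ '' {ψ | ψ ≠ 1}))
    (g := ζ) (fun ψ hψ => Finset.mem_filter.2 ⟨Finset.mem_univ _, ψ, (Finset.mem_erase.1 hψ).1, rfl⟩), Finset.mul_sum]
  refine Finset.sum_congr rfl fun χ hχ => ?_
  obtain ⟨ψ, hψ, rfl⟩ := (Finset.mem_filter.1 hχ).2
  rw [Finset.sum_congr rfl fun _ h => by rw [(Finset.mem_filter.1 h).2], Finset.sum_const, nsmul_eq_mul,
    Nat.card_eq_fintype_card, ← Finset.card_univ, ← Finset.card_image_of_injective _ (h.inj_lin hψ)]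
  congr 3
  ext ψ'
  simp only [Finset.mem_filter, Finset.mem_erase, Finset.mem_univ, and_true, Finset.mem_image, true_and]
  exact ⟨fun h2 => by
      have : ψ' ≠ 1 := h2.choose_spec ▸ h.la_ne hψ _
      exact ⟨this, ((h.inj _ _ hψ this).2 h2).symm⟩, fun h2 => (h.inj _ _ hψ h2.1).1 h2.2.symm⟩

theorem sum_erase (h : FB p P) {y : P} (hy : y ≠ 1) : ∑ ψ ∈ (Finset.univ : Finset (Lin P)).erase 1, ψ y = -1 := by
  have := h.ab
  have h1 := sum_lin hy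
  rw [← Finset.add_sum_erase _ _ (Finset.mem_univ 1)] at h1
  exact eq_neg_of_add_eq_zero_right h1

theorem w_one (h : FD p M P δ d ζ w) (hm : Nat.card (aut P) + 1 < Nat.card P) :
    w (oneIrr G) = 1 ∧ ∃ ψ : Lin P, ψ ≠ 1 := by
  have h2 := h.two_le hm
  obtain ⟨⟨_, ψ, hψ, rfl⟩⟩ : Nonempty (ζ '' {ψ | ψ ≠ 1}) := (Nat.card_pos_iff.1 (by omega)).1
  have := h.coef_one hψ
  rw [if_neg fun h3 => h.one_not_mem hm ⟨ψ, hψ, h3.symm⟩] at this
  exact ⟨by omega, ψ, hψ⟩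

theorem fs_eq (h : FD p M P δ d ζ w) (hm : Nat.card (aut P) + 1 < Nat.card P) :
    ∃ s : Finset (IrrCharacter G), (∀ χ, χ ∈ s ↔ χ ∈ principalBlock M G \ ζ '' {ψ | ψ ≠ 1} ∧ χ ≠ oneIrr G) ∧
      ∀ {R : Type} [AddCommMonoid R] (f : IrrCharacter G → R),
        ∑ᶠ χ ∈ principalBlock M G \ ζ '' {ψ | ψ ≠ 1}, f χ = f (oneIrr G) + ∑ χ ∈ s, f χ := by
  classical
  refine ⟨(Set.toFinite (principalBlock M G \ ζ '' {ψ | ψ ≠ 1})).toFinset.erase (oneIrr G), fun χ => by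
    rw [Finset.mem_erase, Set.Finite.mem_toFinset, and_comm], fun f => ?_⟩
  rw [finsum_mem_eq_finite_toFinset_sum _ (Set.toFinite _), Finset.add_sum_erase]
  exact (Set.Finite.mem_toFinset _).2 ⟨oneIrr_mem, h.one_not_mem hm⟩

theorem exists_zero (h : FD p M P δ d ζ w) (h3 : Nat.card (aut P) = 3) (hm : 4 < Nat.card P) :
    ∃ δ ζ w, FD p M P δ 0 ζ w := by
  by_cases hd : d = 0
  · exact ⟨_, _, _, hd ▸ h⟩
  obtain ⟨h1, ψ, hψ⟩ := w_one h (by omega)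
  obtain ⟨s, -, hs⟩ := fs_eq h (by omega)
  have hn := h.norm hψ
  have h2 := h.two_le (by omega)
  have hc := h.cardY
  have h4 : 0 ≤ ∑ χ ∈ s, w χ ^ 2 := Finset.sum_nonneg fun _ _ => sq_nonneg _
  rw [hs, h1, h3] at hn
  rw [h3] at hc
  push_cast at hn
  have hr := h.rel ⟨ψ, hψ, rfl⟩ reg_one
  generalize hr0 : Nat.card (ζ '' {ψ | ψ ≠ 1}) = r at *
  have h5 : d ^ 2 ≤ ((r : ℤ) - 1) * d ^ 2 := le_mul_of_one_le_left (sq_nonneg _) (by omega)
  have h6 : d = δ := by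
    have h7 : -2 < d ∧ d < 2 := by
      have : d ^ 2 ≤ 3 := by linarith [sq_nonneg (d - δ)]
      constructor <;> nlinarith
    rcases (show d = 1 ∨ d = -1 by omega) with rfl | rfl <;> rcases h.sgn with rfl | rfl <;> omega
  subst h6
  have h7 : d ^ 2 = 1 := by rcases h.sgn with rfl | rfl <;> rfl
  rw [h7, sub_self] at hn
  rcases (show r = 2 ∨ r = 3 ∨ r = 4 by omega) with rfl | rfl | rfl
  · obtain ⟨ζ', w', h8⟩ := h.swap hr0
    exact ⟨_, _, _, sub_self d ▸ h8⟩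
  · obtain ⟨k, hk⟩ := h.syl.pgrp.exists_card_eq
    have h8 := (Nat.prime_dvd_prime_iff_eq Nat.prime_two hp.out).1 (Nat.prime_two.dvd_of_dvd_pow (n := k) (by omega))
    have h9 := (Nat.prime_dvd_prime_iff_eq Nat.prime_five hp.out).1 (Nat.prime_five.dvd_of_dvd_pow (n := k) (by omega))
    omega
  · have h8 := (Finset.sum_eq_zero_iff_of_nonneg fun _ _ => sq_nonneg _).1 (show ∑ χ ∈ s, w χ ^ 2 = 0 by omega)
    rw [hs, Finset.sum_eq_zero fun χ hχ => by simp [pow_eq_zero_iff two_ne_zero |>.1 (h8 χ hχ)], h1,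
      ← (ζ ψ).2.cast_charDegree, show (oneIrr G).1 1 = 1 from rfl] at hr
    norm_cast at hr
    exfalso
    rcases h.sgn with rfl | rfl <;> push_cast at hr <;> omega

theorem no_real (h : FB p P) (h3 : Nat.card (aut P) = 3) {y : P} (hy : IsConj (y : G) (y⁻¹ : P)) : y * y = 1 := by
  by_contra h1
  have h0 : y ≠ 1 := fun h2 => h1 (by simp [h2])
  obtain ⟨σ, h2⟩ := h.fus.1 hy
  have h4 := h.free (σ * σ) y h0 (by simp [h2])
  have h5 : σ ^ 3 = 1 := h3 ▸ pow_card_eq_one'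
  rw [pow_succ, sq, h4, one_mul] at h5
  subst h5
  exact h1 (by simpa [eq_inv_iff_mul_eq_one] using h2)

theorem inverts {a b y : G} (ha : a * a = 1) (hb : b * b = 1) (h : IsPPart p (a * b)⁻¹ y) : a * y * a⁻¹ = y⁻¹ := by
  obtain ⟨n, rfl⟩ := IsPPart.exists_pow h
  rw [← conj_pow, ← inv_pow, mul_inv_rev, inv_eq_of_mul_eq_one_right ha, inv_eq_of_mul_eq_one_right hb, mul_inv_rev,
    inv_eq_of_mul_eq_one_right ha, inv_eq_of_mul_eq_one_right hb, mul_assoc, mul_assoc, ha, mul_one]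

theorem conj_two {a b y : G} (ha : a * a = 1) (hb : b * b = 1) (h : IsPPart 2 (a * b)⁻¹ y) (hy : y * y = 1)
    (h1 : y ≠ 1) : IsConj b (a * y) := by
  obtain ⟨x, s, h2, hc, hx, hs⟩ := exists_pdecomp (p := 2) (a * b)⁻¹
  obtain rfl := IsPPart.unique h (h2 ▸ isPPart_mul hx hs hc)
  obtain ⟨k, hk⟩ : Odd (orderOf s) := Nat.not_even_iff_odd.1 fun h => hs h.two_dvd
  have h3 : (a * b)⁻¹ ^ (2 * k + 1) = y := by
    rw [← h2, hc.mul_pow, ← hk, pow_orderOf_eq_one, hk, pow_succ, pow_mul, sq, hy]; simp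
  have h4 : (a * b) ^ (2 * k + 1) = y := by
    rw [← inv_inj, ← inv_pow, h3, inv_eq_of_mul_eq_one_right hy]
  have h5 : ∀ n : ℕ, b * ((a * b) ^ n)⁻¹ = (a * b) ^ n * b := fun n => by
    have : b * (a * b)⁻¹ * b⁻¹ = a * b := by
      rw [mul_inv_rev, inv_eq_of_mul_eq_one_right ha, inv_eq_of_mul_eq_one_right hb, ← mul_assoc, hb, one_mul]
    rw [← inv_pow, ← mul_inv_eq_iff_eq_mul, ← conj_pow, this]
  have h6 : a * y = y * a := by
    rw [← mul_inv_eq_iff_eq_mul, inverts ha hb h, inv_eq_of_mul_eq_one_right hy]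
  refine isConj_iff.2 ⟨(a * b) ^ (k + 1), ?_⟩
  rw [mul_assoc, h5, ← mul_assoc, ← pow_add, h6, ← h4, show k + 1 + (k + 1) = 2 * k + 1 + 1 by ring, pow_succ, mul_assoc,
    mul_assoc, hb, mul_one]

theorem struct (h : FD p M P δ 0 ζ w) (h3 : Nat.card (aut P) = 3) (hm : 4 < Nat.card P) :
    ∃ χ₁ χ₂ : IrrCharacter G, χ₁ ≠ χ₂ ∧ χ₁ ≠ oneIrr G ∧ χ₂ ≠ oneIrr G ∧
      principalBlock M G \ ζ '' {ψ | ψ ≠ 1} = {oneIrr G, χ₁, χ₂} ∧ (w χ₁ = 1 ∨ w χ₁ = -1) ∧ (w χ₂ = 1 ∨ w χ₂ = -1) := by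
  obtain ⟨h1, ψ, hψ⟩ := w_one h (by omega)
  obtain ⟨s, hs0, hs⟩ := fs_eq h (by omega)
  have hn := h.norm hψ
  have h7 : (0 - δ) ^ 2 = 1 := by rcases h.sgn with rfl | rfl <;> rfl
  rw [hs, h1, h3, h7] at hn
  have hP : P ≠ ⊥ := fun h0 => by simp [h0] at hm
  have h2 : ∀ χ ∈ s, w χ = 1 ∨ w χ = -1 := fun χ hχ => by
    have h4 := h.w_ne hP ((hs0 χ).1 hχ).1.1 ((hs0 χ).1 hχ).1.2
    have h5 := Finset.single_le_sum (f := fun χ => w χ ^ 2) (fun _ _ => sq_nonneg _) hχ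
    have h6 : w χ ^ 2 ≤ 2 := by omega
    have h7 : -2 < w χ ∧ w χ < 2 := by constructor <;> nlinarith
    omega
  rw [Finset.sum_congr rfl (g := fun _ => 1) fun χ hχ => by rcases h2 χ hχ with h | h <;> simp [h], Finset.sum_const,
    nsmul_eq_mul] at hn
  obtain ⟨a, b, hab, rfl⟩ := Finset.card_eq_two.1 (show s.card = 2 by omega)
  refine ⟨a, b, hab, ((hs0 a).1 (by simp)).2, ((hs0 b).1 (by simp)).2, Set.ext fun χ => ?_, h2 a (by simp), h2 b (by simp)⟩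
  have := hs0 χ
  by_cases h4 : χ = oneIrr G
  · subst h4; exact iff_of_true ⟨oneIrr_mem, h.one_not_mem (by omega)⟩ (by simp)
  · simpa [h4] using this.symm

theorem sum_B (h : FD p M P δ d ζ w) {χ₁ χ₂ : IrrCharacter G} (h1 : χ₁ ≠ χ₂) (h2 : χ₁ ≠ oneIrr G) (h3 : χ₂ ≠ oneIrr G)
    (h4 : principalBlock M G \ ζ '' {ψ | ψ ≠ 1} = {oneIrr G, χ₁, χ₂}) (f : IrrCharacter G → ℂ) :
    ∑ᶠ χ ∈ principalBlock M G \ ζ '' {ψ | ψ ≠ 1}, f χ = f (oneIrr G) + f χ₁ + f χ₂ := by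
  rw [h4, finsum_mem_insert _ (by simp [h2.symm, h3.symm]) (Set.toFinite _), finsum_mem_pair h1, add_assoc]

open Classical in
theorem sec_eq (h : FD p M P δ 0 ζ w) {χ₁ χ₂ : IrrCharacter G} (h1 : χ₁ ≠ χ₂) (h2 : χ₁ ≠ oneIrr G) (h3 : χ₂ ≠ oneIrr G)
    (h4 : principalBlock M G \ ζ '' {ψ | ψ ≠ 1} = {oneIrr G, χ₁, χ₂}) {t : G} {y : P} (hy : y ≠ 1)
    (hinv : ∀ a b, IsConj t a → IsConj t b → ¬ IsPPart p (a * b)⁻¹ y) :
    Nat.card (aut P) * (1 + χ₁.1 t ^ 2 / χ₁.1 1 * w χ₁ + χ₂.1 t ^ 2 / χ₂.1 1 * w χ₂) +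
      ∑ ψ ∈ Finset.univ.erase 1, (ζ ψ).1 t ^ 2 / (ζ ψ).1 1 * (δ * ∑ σ : aut P, la ψ σ y) = 0 := by
  have h5 := sec M (pElt_of_mem h.syl.pgrp y.2) hinv
  have h6 : χ₁ ∈ principalBlock M G \ ζ '' {ψ | ψ ≠ 1} := by simp [h4]
  have h7 : χ₂ ∈ principalBlock M G \ ζ '' {ψ | ψ ≠ 1} := by simp [h4]
  rw [h.sum_split _ fun χ hχ => if_neg hχ, sum_B h h1 h2 h3 h4, if_pos oneIrr_mem, if_pos h6.1, if_pos h7.1,
    h.val_X h6.1 h6.2 hy, h.val_X h7.1 h7.2 hy] at h5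
  have h8 := congrArg ((Nat.card (aut P) : ℂ) * ·) h5
  simp only [mul_add, sum_Y h] at h8
  rw [Finset.sum_congr rfl fun ψ hψ => by
    rw [if_pos (h.mem ψ (Finset.mem_erase.1 hψ).1), h.val_Y (Finset.mem_erase.1 hψ).1 hy, Int.cast_zero, zero_add]] at h8
  simp only [show ∀ g, (oneIrr G).1 g = 1 from fun _ => rfl] at h8
  linear_combination h8

theorem ne_deg {t : G} (ht : ∀ K : Subgroup G, K.Normal → t ∈ K → K = ⊤) {χ : IrrCharacter G} (h : χ ≠ oneIrr G) :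
    χ.1 t ≠ χ.1 1 := fun h1 =>
  h (Subtype.ext (χ.2.eq_one_of_charKer_eq_top (ht _ χ.2.isClassFunction.charKer_normal (χ.2.mem_charKer_iff.2 h1))))

theorem dvd_X (h : FD p M P δ d ζ w) {χ : IrrCharacter G} (h1 : χ ∈ principalBlock M G \ ζ '' {ψ | ψ ≠ 1}) :
    (Nat.card P : ℤ) ∣ charDegree χ.1 - w χ := by
  classical
  have := Fintype.ofFinite P
  obtain ⟨n, hn⟩ := (χ.2.isCharacter.res P).isGen.exists_int_inner (1 : Lin P).isGen
  rw [classInner_def, ← Finset.add_sum_erase _ _ (Finset.mem_univ 1), Finset.sum_congr rfl fun y hy => by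
    rw [h.val_X h1.1 h1.2 (Finset.mem_erase.1 hy).1, Lin.one_apply], Finset.sum_const, Finset.card_erase_of_mem
    (Finset.mem_univ _), Finset.card_univ, ← Nat.card_eq_fintype_card, nsmul_eq_mul, Nat.cast_sub Nat.card_pos,
    OneMemClass.coe_one, ← χ.2.cast_charDegree, inv_mul_eq_iff_eq_mul₀ (by simp)] at hn
  refine ⟨n - w χ, Int.cast_injective (α := ℂ) ?_⟩
  simp only [map_one, Lin.one_apply, mul_one] at hn
  push_cast at hn ⊢
  linear_combination hn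

theorem odd_case (h : FD p M P δ 0 ζ w) (h3 : Nat.card (aut P) = 3) (hm : 4 < Nat.card P)
    {χ₁ χ₂ : IrrCharacter G} (h1 : χ₁ ≠ χ₂) (h2 : χ₁ ≠ oneIrr G) (h2' : χ₂ ≠ oneIrr G)
    (h4 : principalBlock M G \ ζ '' {ψ | ψ ≠ 1} = {oneIrr G, χ₁, χ₂}) (h5 : w χ₁ = 1 ∨ w χ₁ = -1)
    (h6 : w χ₂ = 1 ∨ w χ₂ = -1) {t : G} (ht : orderOf t = 2) (ht' : ∀ K : Subgroup G, K.Normal → t ∈ K → K = ⊤)
    (hp2 : p ≠ 2) {η : IrrCharacter G} (hη : η ∈ ζ '' {ψ | ψ ≠ 1}) :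
    w χ₁ + w χ₂ + -δ = -1 ∧ IsSquare ((charDegree χ₁.1 : ℤ) * charDegree χ₂.1 * charDegree η.1) := by
  classical
  have : Nontrivial P := Finite.one_lt_card_iff_nontrivial.1 (by omega)
  obtain ⟨y, hy⟩ := exists_ne (1 : P)
  have htt : ∀ a, IsConj t a → a * a = 1 := fun a ha => by rw [← sq, ← ht, orderOf_eq_of_isConj ha, pow_orderOf_eq_one]
  have hr : ¬ p ∣ orderOf t := by rwa [ht, Nat.prime_dvd_prime_iff_eq hp.out Nat.prime_two]
  have h7 := sec_eq h h1 h2 h2' h4 hy (t := t) fun a b ha hb h7 => by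
    have h8 := no_real h.toFB h3 (isConj_iff.2 ⟨a, inverts (htt a ha) (htt b hb) h7⟩)
    have h9 := (pElt_of_mem h.syl.pgrp y.2).dvd (by simpa using hy)
    rw [orderOf_coe, orderOf_eq_prime (p := 2) (by rwa [sq]) hy, Nat.prime_dvd_prime_iff_eq hp.out Nat.prime_two] at h9
    exact hp2 h9
  rw [Finset.sum_congr rfl fun ψ hψ => by
    rw [h.Y_eq ⟨ψ, (Finset.mem_erase.1 hψ).1, rfl⟩ hη hr, h.Y_eq ⟨ψ, (Finset.mem_erase.1 hψ).1, rfl⟩ hη reg_one],
    ← Finset.mul_sum, ← Finset.mul_sum, Finset.sum_comm, Finset.sum_congr rfl fun σ _ =>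
      sum_erase h.toFB (y := σ.1 y) (by simpa using hy), Finset.sum_const, Finset.card_univ, ← Nat.card_eq_fintype_card,
      h3] at h7
  have h8 := h.rel hη hr
  have h9 := h.rel hη reg_one
  rw [sum_B h h1 h2 h2' h4, (w_one h (by omega)).1] at h8 h9
  have h10 := ne_deg ht' h2
  have h11 := ne_deg ht' h2'
  have h12 := ne_deg ht' (χ := η) fun h0 => h.one_not_mem (by omega) (h0 ▸ hη)
  obtain ⟨r, hr⟩ := exists_int_of_mul_self χ₁.2.isGen (htt t (IsConj.refl t))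
  obtain ⟨s, hs⟩ := exists_int_of_mul_self χ₂.2.isGen (htt t (IsConj.refl t))
  obtain ⟨u, hu⟩ := exists_int_of_mul_self η.2.isGen (htt t (IsConj.refl t))
  have p1 := χ₁.2.apply_one_ne_zero
  have p2 := χ₂.2.apply_one_ne_zero
  have p3 := η.2.apply_one_ne_zero
  simp only [show ∀ g, (oneIrr G).1 g = 1 from fun _ => rfl, hr, hs, hu, ← χ₁.2.cast_charDegree, ← χ₂.2.cast_charDegree,
    ← η.2.cast_charDegree] at h7 h8 h9 h10 h11 h12 p1 p2 p3
  refine core h5 h6 (by have := h.sgn; omega) (by norm_cast at p1 ⊢; omega) (by norm_cast at p2 ⊢; omega)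
    (by norm_cast at p3 ⊢; omega) (r := r) (s := s) (t := u) (by exact_mod_cast h10) (by exact_mod_cast h11)
    (by exact_mod_cast h12) (Int.cast_injective (α := ℂ) ?_) (Int.cast_injective (α := ℂ) ?_)
    (Int.cast_injective (α := ℂ) ?_) <;> push_cast at h7 h8 h9 ⊢
  · linear_combination h9
  · linear_combination h8
  · simp only [nsmul_eq_mul] at h7
    field_simp at h7
    push_cast at h7
    linear_combination h7 / 3

theorem two_case [PMod 2 M] (h : FD 2 M P δ 0 ζ w) (h3 : Nat.card (aut P) = 3) (hm : 4 < Nat.card P)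
    {χ₁ χ₂ : IrrCharacter G} (h1 : χ₁ ≠ χ₂) (h2 : χ₁ ≠ oneIrr G) (h2' : χ₂ ≠ oneIrr G)
    (h4 : principalBlock M G \ ζ '' {ψ | ψ ≠ 1} = {oneIrr G, χ₁, χ₂}) (h5 : w χ₁ = 1 ∨ w χ₁ = -1)
    (h6 : w χ₂ = 1 ∨ w χ₂ = -1) {t : G} (ht : orderOf t = 2) (ht' : ∀ K : Subgroup G, K.Normal → t ∈ K → K = ⊤) :
    False := by
  classical
  have := h.ab
  have := Fintype.ofFinite P
  obtain ⟨c, -, hc⟩ := h.syl.exists_conj_mem (mem_top t) (k := 1) ht
  let t' : P := ⟨_, hc⟩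
  have hc' : IsConj t t' := isConj_iff.2 ⟨c, rfl⟩
  have htt : ∀ a, IsConj t a → a * a = 1 := fun a ha => by rw [← sq, ← ht, orderOf_eq_of_isConj ha, pow_orderOf_eq_one]
  have ht1 : t' ≠ 1 := fun h0 => by
    rw [h0, OneMemClass.coe_one, isConj_one_left] at hc'
    simp [hc'] at ht
  have ht2 : ∀ σ : aut P, σ.1 t' * σ.1 t' = 1 := fun σ => by
    rw [← map_mul, show t' * t' = 1 from Subtype.ext (htt _ hc'), map_one]
  obtain ⟨y, hy⟩ : ∃ y : P, ∀ σ τ : aut P, σ.1 t' * τ.1 t' ≠ y := by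
    obtain ⟨a, b, d, -, -, -, h7⟩ := Finset.card_eq_three.1
      (show (Finset.univ : Finset (aut P)).card = 3 by rw [Finset.card_univ, ← Nat.card_eq_fintype_card, h3])
    obtain ⟨y, -, hy⟩ := Finset.exists_mem_notMem_of_card_lt_card (t := Finset.univ)
      (s := {1, a.1 t' * b.1 t', a.1 t' * d.1 t', b.1 t' * d.1 t'}) (Finset.card_le_four.trans_lt (by
        rwa [Finset.card_univ, ← Nat.card_eq_fintype_card]))
    refine ⟨y, fun σ τ h8 => hy ?_⟩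
    have h9 : ∀ σ : aut P, σ = a ∨ σ = b ∨ σ = d := fun σ => by simpa using h7.subset (Finset.mem_univ σ)
    subst h8
    have hcm := h.ab.is_comm.comm
    rcases h9 σ with rfl | rfl | rfl <;> rcases h9 τ with rfl | rfl | rfl <;>
      simp only [ht2, Finset.mem_insert, Finset.mem_singleton, true_or, or_true] <;> simp [hcm (σ.1 t')]
  have hy1 : y ≠ 1 := fun h0 => hy 1 1 (h0 ▸ ht2 1)
  have h7 := sec_eq h h1 h2 h2' h4 hy1 (t := t) fun a b ha hb h7 => by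
    have h8 := inverts (htt a ha) (htt b hb) h7
    have h9 : (y : G) * y = 1 := congrArg Subtype.val (no_real h.toFB h3 (isConj_iff.2 ⟨a, h8⟩))
    have h10 := hb.trans (conj_two (htt a ha) (htt b hb) h7 h9 (by simpa using hy1))
    rw [inv_eq_of_mul_eq_one_right h9, mul_inv_eq_iff_eq_mul] at h8
    obtain ⟨e, he, h11⟩ := (h.sylC y).exists_conj_mem (x := a) (k := 1) (mem_centralizer_singleton_iff.2 h8)
      (by rw [← orderOf_eq_of_isConj ha, ht]; rfl)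
    obtain ⟨σ, hσ⟩ := h.fus.1 (hc'.symm.trans (ha.trans (isConj_iff.2 ⟨e, rfl⟩)) : IsConj (t' : G) (⟨_, h11⟩ : P))
    obtain ⟨τ, hτ⟩ := h.fus.1 (hc'.symm.trans (h10.trans (isConj_iff.2 ⟨e, by
      rw [← mul_assoc, mul_assoc _ (y : G), ← mem_centralizer_singleton_iff.1 (inv_mem he), ← mul_assoc]; rfl⟩)) :
        IsConj (t' : G) (⟨_, h11⟩ * y : P))
    exact hy σ τ (by rw [hτ, ← hσ, ← mul_assoc, ht2, one_mul])
  obtain ⟨-, ψ₀, hψ₀⟩ := w_one h (by omega)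
  have hη : ζ ψ₀ ∈ ζ '' {ψ | ψ ≠ 1} := ⟨ψ₀, hψ₀, rfl⟩
  have hδ : (δ : ℂ) ^ 2 = 1 := by rcases h.sgn with rfl | rfl <;> simp
  have hX1 : χ₁ ∈ principalBlock M G \ ζ '' {ψ | ψ ≠ 1} := by simp [h4]
  have hX2 : χ₂ ∈ principalBlock M G \ ζ '' {ψ | ψ ≠ 1} := by simp [h4]
  have key : ∑ ψ ∈ (Finset.univ : Finset (Lin P)).erase 1, (∑ σ : aut P, la ψ σ t') * (∑ σ : aut P, la ψ σ t') *
      (∑ σ : aut P, la ψ σ y) = -27 := by
    simp only [Finset.sum_mul, Finset.mul_sum, Lin.comp_apply, ← map_mul]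
    rw [Finset.sum_comm]
    simp only [Finset.sum_comm (s := Finset.erase _ _)]
    rw [Finset.sum_congr rfl fun ρ _ => Finset.sum_congr rfl fun τ _ => Finset.sum_congr rfl fun σ _ =>
      sum_erase h.toFB fun h0 => ?_]
    · simp only [Finset.sum_const, Finset.card_univ, ← Nat.card_eq_fintype_card, h3]; norm_num
    · refine hy (ρ⁻¹ * τ) (ρ⁻¹ * σ) (ρ.1.injective ?_)
      refine Eq.trans ?_ (eq_inv_of_mul_eq_one_right h0).symm
      simp [inv_eq_of_mul_eq_one_right (ht2 _)]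
  rw [Finset.sum_congr rfl (g := fun ψ => δ / (ζ ψ₀).1 1 * ((∑ σ : aut P, la ψ σ t') * (∑ σ : aut P, la ψ σ t') *
      (∑ σ : aut P, la ψ σ y))) fun ψ hψ => by
    rw [(ζ ψ).2.isClassFunction.eq_of_isConj hc', h.val_Y (Finset.mem_erase.1 hψ).1 ht1,
      h.Y_eq ⟨ψ, (Finset.mem_erase.1 hψ).1, rfl⟩ hη reg_one, Int.cast_zero, zero_add, mul_pow, hδ]
    ring, ← Finset.mul_sum, key, h3] at h7
  have h9 := h.rel hη reg_one
  rw [sum_B h h1 h2 h2' h4, (w_one h (by omega)).1] at h9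
  have h10 := ne_deg ht' h2
  have h11 := ne_deg ht' h2'
  rw [χ₁.2.isClassFunction.eq_of_isConj hc', h.val_X hX1.1 hX1.2 ht1] at h10 h7
  rw [χ₂.2.isClassFunction.eq_of_isConj hc', h.val_X hX2.1 hX2.2 ht1] at h11 h7
  have p1 := χ₁.2.apply_one_ne_zero
  have p2 := χ₂.2.apply_one_ne_zero
  have p3 := (ζ ψ₀).2.apply_one_ne_zero
  simp only [show ∀ g, (oneIrr G).1 g = 1 from fun _ => rfl, ← χ₁.2.cast_charDegree, ← χ₂.2.cast_charDegree,
    ← (ζ ψ₀).2.cast_charDegree] at h7 h9 h10 h11 p1 p2 p3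
  have h16 : (16 : ℤ) ∣ Nat.card P := by
    obtain ⟨k, hk⟩ := h.syl.pgrp.exists_card_eq
    have hc := h.cardY
    rw [h3, hk] at hc
    rw [hk] at hm ⊢
    obtain _ | _ | _ | _ | k := k
    on_goal 5 => exact ⟨2 ^ k, by push_cast; ring⟩
    all_goals omega
  obtain ⟨k₁, hk₁⟩ := h16.trans (dvd_X h hX1)
  obtain ⟨k₂, hk₂⟩ := h16.trans (dvd_X h hX2)
  field_simp at h7
  norm_cast at h7 h9 h10 h11 p1 p2 p3
  refine core_two h5 h6 h.sgn (x := charDegree χ₁.1) (y := charDegree χ₂.1) (z := charDegree (ζ ψ₀).1)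
    (k := w χ₁ * k₁ + w χ₂ * k₂) (by omega) (by omega) (by omega) ?_ ?_ <;>
    rcases h5 with h5 | h5 <;> rcases h6 with h6 | h6 <;> simp only [h5, h6] at * <;> push_cast at h7 h9 <;> linarith


/-- Let p be a prime, M a maximal ideal of the algebraic integers containing p, and G a finite group with a nontrivial abelian Sylow p-subgroup P, N = N_G(P), C = C_G(P), such that N/C is cyclic of order 3, #P > 4, and C_G(y) ∩ N = C for every non-identity y ∈ P. Then the principal p-block is the disjoint union of a set X of exactly 3 characters containing the principal character and a set Y of (#P − 1)/3 characters, with signs a_χ = ±1 (χ ∈ X, a = 1 at the principal character) and δ = ±1 such that every χ ∈ X takes the value a_χ at every element whose p-part is a non-identity element of P, and there is a map ζ from the non-principal linear characters of P onto Y, constant on N-conjugacy classes,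 with ζ_ψ(z) = δ·Σ ψ'(y) over the N-orbit of ψ, for z with p-part y ≠ 1 in P. If moreover G has an involution lying in no proper normal subgroup of G, then exactly two of the three numbers −δ and a_χ (χ ∈ X non-principal) equal −1, and the product of the degrees of the two non-principal members of X and of any member of Y is a perfect square. -/
theorem result {G : Type*} [Group G] [Finite G] (p : ℕ) [Fact p.Prime] (M : Ideal Cfsg.AlgInt) (hM : Cfsg.IsPModular p M) (P : Sylow p G) (hab : IsMulCommutative P) (hP1 : Nat.card P ≠ 1) (hCN : (Subgroup.centralizer ((P : Subgroup G) : Set G)).relIndex (Subgroup.normalizer ((P : Subgroup G) : Set G)) = 3) (hcyc : ∃ g : G, g ∈ Subgroup.normalizer ((P : Subgroup G) : Set G) ∧ Subgroup.centralizer ((P : Subgroup G) : Set G) ⊔ Subgroup.zpowers g = Subgroup.normalizer ((P : Subgroup G) : Set G)) (hm2 : 3 + 1 < Nat.card P) (hfrob : ∀ y : G, y ∈ (P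 : Subgroup G) → y ≠ 1 → Subgroup.centralizer ({y} : Set G) ⊓ Subgroup.normalizer ((P : Subgroup G) : Set G) = Subgroup.centralizer ((P : Subgroup G) : Set G)) : ∃ (X Y : Set (Cfsg.IrrCharacter G)), Cfsg.principalBlock M G = X ∪ Y ∧ Disjoint X Y ∧ Nat.card X = 3 ∧ Nat.card Y = (Nat.card P - 1) / 3 ∧ (∃ χ₁ ∈ X, (χ₁ : G → ℂ) = fun _ => 1) ∧ ∃ (a : Cfsg.IrrCharacter G → ℤ) (δ : ℤ) (ζ : (↥(P : Subgroup G) →* ℂˣ) → Cfsg.IrrCharacter G), (δ = 1 ∨ δ = -1) ∧ (∀ χ ∈ X, (a χ = 1 ∨ a χ = -1) ∧ ∀ z y : G, Cfsg.IsPPart p z y → y ∈ (P : Subgroup G) → y ≠ 1 → (χ : G → ℂ) z = (a χ : ℂ)) ∧ (∀ ψ : ↥(P : Subgroup G) →* ℂˣ, ψ ≠ 1 → ζ ψ ∈ Y) ∧ (∀ η ∈ Y, ∃ ψ : ↥(P : Subgroup G) →* ℂˣ, ψ ≠ 1 ∧ ζ ψ = η) ∧ (∀ ψ ψ' : ↥(P : Subgroup G) →* ℂˣ, ψ ≠ 1 → (∃ n : G, n ∈ Subgroup.normalizer ((P : Subgroup G) : Set G) ∧ ∀ w w' : ↥(P : Subgroup G), (w' : G) = n * w * n⁻¹ → ψ' w' = ψ w) → ζ ψ' = ζ ψ) ∧ (∀ ψ : ↥(P : Subgroup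 G) →* ℂˣ, ψ ≠ 1 → ∀ (z : G) (y : ↥(P : Subgroup G)), Cfsg.IsPPart p z (y : G) → (y : G) ≠ 1 → (ζ ψ : G → ℂ) z = (δ : ℂ) * ∑ᶠ ψ' ∈ {ψ' : ↥(P : Subgroup G) →* ℂˣ | ∃ n : G, n ∈ Subgroup.normalizer ((P : Subgroup G) : Set G) ∧ ∀ w w' : ↥(P : Subgroup G), (w' : G) = n * w * n⁻¹ → ψ' w' = ψ w}, ((ψ' y : ℂˣ) : ℂ)) ∧ ((∃ t : G, orderOf t = 2 ∧ ∀ K : Subgroup G, K.Normal → t ∈ K → K = ⊤) → Nat.card {χ : Cfsg.IrrCharacter G // χ ∈ X ∧ (χ : G → ℂ) ≠ (fun _ => 1) ∧ a χ = -1} + (if δ = 1 then 1 else 0) = 2 ∧ ∀ η ∈ Y, IsSquare (Cfsg.charDegree (η : G → ℂ) * ∏ᶠ χ ∈ {χ : Cfsg.IrrCharacter G | χ ∈ X ∧ (χ : G → ℂ) ≠ fun _ => 1}, Cfsg.charDegree (χ : G → ℂ))) := by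
  have : PMod p M := ⟨hM⟩
  classical
  have := Fintype.ofFinite G
  have h := fb_of P hab hfrob
  rw [← card_aut] at hCN
  obtain ⟨δ, d, ζ, w, h⟩ := h.exists_fd (M := M) (by omega)
  obtain ⟨δ, ζ, w, h⟩ := exists_zero h hCN hm2
  obtain ⟨χ₁, χ₂, h1, h2, h3, h4, h5, h6⟩ := struct h hCN hm2
  have hr : Nat.card (ζ '' {ψ | ψ ≠ 1}) = (Nat.card P - 1) / 3 := by have := h.cardY; rw [hCN] at this; omega
  have hne : ∀ χ : IrrCharacter G, (χ.1 ≠ fun _ => 1) ↔ χ ≠ oneIrr G := fun χ => (Subtype.ext_iff (a2 := oneIrr G)).not.symm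
  have hw := (w_one h (by omega)).1
  refine ⟨principalBlock M G \ ζ '' {ψ | ψ ≠ 1}, ζ '' {ψ | ψ ≠ 1}, (Set.sdiff_union_of_subset h.sub).symm,
    Set.disjoint_sdiff_left, ?_, hr, ⟨oneIrr G, ⟨oneIrr_mem, h.one_not_mem (by omega)⟩, rfl⟩, w, δ, ζ, h.sgn,
    fun χ hχ => ⟨?_, fun z y h1 h2 h3 => ?_⟩, fun ψ hψ => ⟨ψ, hψ, rfl⟩, fun η hη => hη,
    fun ψ ψ' hψ h1 => ?_, fun ψ hψ z y h1 h2 => ?_, fun ⟨t, ht, ht'⟩ => ?_⟩
  · rw [h4, Nat.card_coe_set_eq, Set.ncard_eq_three]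
    exact ⟨_, _, _, h2.symm, h3.symm, h1, rfl⟩
  · rw [h4] at hχ
    rcases hχ with rfl | rfl | rfl
    exacts [Or.inl hw, h5, h6]
  · have h4 : (⟨y, h2⟩ : (P : Subgroup G)) ≠ 1 := by simpa using h3
    rw [h.apply_eq hχ.1 (y := ⟨y, h2⟩) h1 h4, h.val_X hχ.1 hχ.2 h4]
  · have h2 := rel_iff.1 h1
    exact ((h.inj ψ ψ' hψ (show Lin.mk ψ' ≠ 1 from h2.choose_spec ▸ h.la_ne hψ _)).2 h2).symm
  · have h4 : y ≠ 1 := by simpa using h2
    rw [h.apply_eq (h.mem ψ hψ) h1 h4, h.val_Y hψ h4, h.finsum_rel hψ, Int.cast_zero, zero_add]; rfl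
  · have hp : p ≠ 2 := by rintro rfl; exact two_case h hCN hm2 h1 h2 h3 h4 h5 h6 ht ht'
    obtain ⟨-, ψ₀, hψ₀⟩ := w_one h (by omega)
    simp only [hne]
    rw [h4]
    refine ⟨?_, fun η hη => ?_⟩
    · have h7 := (odd_case h hCN hm2 h1 h2 h3 h4 h5 h6 ht ht' hp ⟨ψ₀, hψ₀, rfl⟩).1
      change Nat.card {χ : IrrCharacter G | _} + _ = _
      rw [Nat.card_coe_set_eq]
      rcases h5 with h5 | h5 <;> rcases h6 with h6 | h6 <;> rcases h.sgn with rfl | rfl <;> try omega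
      · rw [Set.ncard_eq_one.2 ⟨χ₂, Set.ext fun χ => ⟨?_, ?_⟩⟩, if_pos rfl]
        · rintro ⟨rfl | rfl | rfl, h8, h9⟩ <;> first | rfl | omega
        · rintro rfl; simp [h3, h6]
      · rw [Set.ncard_eq_one.2 ⟨χ₁, Set.ext fun χ => ⟨?_, ?_⟩⟩, if_pos rfl]
        · rintro ⟨rfl | rfl | rfl, h8, h9⟩ <;> first | rfl | omega
        · rintro rfl; simp [h2, h5]
      · rw [Set.ncard_eq_two.2 ⟨χ₁, χ₂, h1, Set.ext fun χ => ⟨?_, ?_⟩⟩, if_neg (by decide)]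
        · rintro ⟨rfl | rfl | rfl, h8, h9⟩ <;> first | omega | simp
        · rintro (rfl | rfl) <;> simp [h2, h3, h5, h6]
    · rw [show {χ : IrrCharacter G | χ ∈ ({oneIrr G, χ₁, χ₂} : Set _) ∧ χ ≠ oneIrr G} = {χ₁, χ₂} from Set.ext fun χ =>
        ⟨by rintro ⟨rfl | rfl | rfl, h8⟩ <;> simp at h8 ⊢, by rintro (rfl | rfl) <;> simp [h2, h3]⟩, finprod_mem_pair h1,
        ← Int.isSquare_natCast_iff, mul_comm]
      exact_mod_cast (odd_case h hCN hm2 h1 h2 h3 h4 h5 h6 ht ht' hp hη).2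

end Cfsg.Agent.S4721
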