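import Cfsg.Statements.S4722
import Cfsg.Agent.B.Prin
import Cfsg.Agent.H3.FS

set_option autoImplicit false
open Cfsg

namespace Cfsg.Agent.S4722

open Cfsg.Agent Cfsg.Agent.B Cfsg.Agent.H2 Cfsg.Agent.H3 Subgroup MonoidAlgebra
open scoped Pointwise commutatorElement
theorem real_aux {ι : Type*} [Fintype ι] (a x z : ι → ℝ) (hx : ∀ i, 0 < x i) (h1 : ∑ i, a i * x i = 0)
    (h2 : ∑ i, a i * z i = 0) (h3 : ∑ i, a i * z i ^ 2 / x i = 0)
    (h : ∀ i j, 0 < a i → 0 < a j → i = j) : ∃ c : ℝ, ∀ i, a i ≠ 0 → z i = c * x i := by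
  have key : ∀ c : ℝ, ∑ i, a i * (z i - c * x i) ^ 2 / x i = 0 := fun c => by
    have : ∀ i, a i * (z i - c * x i) ^ 2 / x i =
        a i * z i ^ 2 / x i - 2 * c * (a i * z i) + c ^ 2 * (a i * x i) := fun i => by
      have := (hx i).ne'
      field_simp
      ring
    simp only [this, Finset.sum_add_distrib, Finset.sum_sub_distrib, ← Finset.mul_sum, h1, h2, h3]
    ring
  have fin : ∀ c : ℝ, (∀ i, 0 < a i → z i = c * x i) → ∀ i, a i ≠ 0 → z i = c * x i := by
    intro c hc i hi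
    have h0 := (Finset.sum_eq_zero_iff_of_nonpos (s := Finset.univ)
      (f := fun i => a i * (z i - c * x i) ^ 2 / x i) (fun j _ => by
        rcases lt_or_ge 0 (a j) with hj | hj
        · simp [hc j hj]
        · exact div_nonpos_of_nonpos_of_nonneg (mul_nonpos_of_nonpos_of_nonneg hj (sq_nonneg _)) (hx j).le)).1
      (key c) i (Finset.mem_univ _)
    rw [div_eq_zero_iff, mul_eq_zero] at h0
    rcases h0 with (h0 | h0) | h0
    · exact absurd h0 hi
    · exact sub_eq_zero.1 (pow_eq_zero_iff two_ne_zero |>.1 h0)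
    · exact absurd h0 (hx i).ne'
  by_cases h0 : ∃ i, 0 < a i
  · obtain ⟨i, hi⟩ := h0
    refine ⟨z i / x i, fin _ fun j hj => ?_⟩
    rw [h j i hj hi, div_mul_cancel₀ _ (hx i).ne']
  · exact ⟨0, fin _ fun j hj => absurd ⟨j, hj⟩ h0⟩

open Classical in
theorem sec {G : Type*} [Group G] [Finite G] (M : Ideal Cfsg.AlgInt) [PMod 2 M] {t y : G} (ht : orderOf t = 2)
    (hy : PElt 2 y) (hinv : ∀ g : G, (g * t * g⁻¹) * y * (g * t * g⁻¹)⁻¹ ≠ y⁻¹) :
    ∑ χ : IrrCharacter G, (if χ ∈ principalBlock M G then (χ : G → ℂ) y * (χ : G → ℂ) t ^ 2 / (χ : G → ℂ) 1 else 0) = 0 := by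
  have := Fintype.ofFinite G
  have hB : Closed M (principalBlock M G) := (isPBlock_principal (M := M) (G := G)).closed
  have h1 := hB.blockPart_section (isClassFunction_sum_irr fun χ : IrrCharacter G => (χ : G → ℂ) t ^ 2 / (χ : G → ℂ) 1)
    hy.isPPart_self (fun v hv => by
      have h2 := card_class_mul_eq_sum t t v⁻¹
      have h3 : IsEmpty {p : G × G // IsConj t p.1 ∧ IsConj t p.2 ∧ p.1 * p.2 = v⁻¹} := by
        refine ⟨fun ⟨⟨a, b⟩, ha, hb, hab⟩ => ?_⟩
        have ha2 : a * a = 1 := by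
          rw [← sq, ← ht, orderOf_eq_of_isConj ha, pow_orderOf_eq_one]
        have hb2 : b * b = 1 := by
          rw [← sq, ← ht, orderOf_eq_of_isConj hb, pow_orderOf_eq_one]
        obtain ⟨g, hg⟩ := isConj_iff.1 ha
        obtain ⟨n, hn⟩ := IsPPart.exists_pow hv
        apply hinv g
        rw [hg, ← hn, ← conj_pow, ← inv_pow]
        congr 1
        dsimp only at hab
        have hv' : v = b * a := by
          rw [← inv_inv v, ← hab, mul_inv_rev, inv_eq_of_mul_eq_one_right ha2, inv_eq_of_mul_eq_one_right hb2]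
        rw [← hab, hv']
        group
      rw [Nat.card_of_isEmpty, Nat.cast_zero, eq_comm, mul_eq_zero] at h2
      have h4 : (Nat.card {x : G // IsConj t x} : ℂ) ≠ 0 := by
        have : Nonempty {x : G // IsConj t x} := ⟨⟨t, IsConj.refl t⟩⟩
        exact_mod_cast Nat.card_pos.ne'
      rcases h2 with h2 | h2
      · exact absurd h2 (div_ne_zero (mul_ne_zero h4 h4) card_ne_zero)
      · rw [← h2, Finset.sum_apply]
        refine Finset.sum_congr rfl fun χ _ => ?_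
        rw [← χ.2.apply_inv, inv_inv, Pi.smul_apply, smul_eq_mul]
        ring)
  rw [blockPart_eq] at h1
  refine Eq.trans ?_ h1
  refine Finset.sum_congr rfl fun χ _ => ?_
  rw [classInner_sum_irr]
  split_ifs
  · ring
  · rfl

/-- Let M be a maximal ideal of the algebraic integers containing 2, P a 2-subgroup of the finite group G, U a subset of P, and t an involution of G such that no element of U is inverted by any conjugate of t. Let θ be a generalized character of P vanishing outside U, and for χ in the principal 2-block B₀ put a_χ = #P⁻¹ Σ_{y ∈ P} χ(y) θ(y⁻¹). Then Σ_{χ ∈ B₀} a_χ χ(t)^2/χ(1) = 0, Σ_{χ ∈ B₀} a_χ χ(1) = 0 and Σ_{χ ∈ B₀} a_χ χ(t) = 0. If moreover #P⁻¹ Σ_{y ∈ P} θ(y) ≠ 0, then either at least two of the a_χ have positive real part and at least two have negative real part, or G has a proper normal subgroup containing O_2'(G) and t. -/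
theorem result {G : Type*} [Group G] [Finite G] (M : Ideal Cfsg.AlgInt) (hM : Cfsg.IsPModular 2 M) (P : Subgroup G) (hP : IsPGroup 2 P) (U : Set G) (hUP : U ⊆ (P : Set G)) (t : G) (ht : orderOf t = 2) (hinv : ∀ u ∈ U, ∀ g : G, (g * t * g⁻¹) * u * (g * t * g⁻¹)⁻¹ ≠ u⁻¹) (θ : ↥P → ℂ) (hθ : Cfsg.IsGeneralizedCharacter ↥P θ) (hθU : ∀ y : ↥P, (y : G) ∉ U → θ y = 0) : (∑ᶠ χ ∈ Cfsg.principalBlock M G, ((Nat.card ↥P : ℂ)⁻¹ * ∑ᶠ y : ↥P, (χ : G → ℂ) (y : G) * θ y⁻¹) * (χ : G → ℂ) t ^ 2 / (χ : G → ℂ) 1 = 0) ∧ (∑ᶠ χ ∈ Cfsg.principalBlock M G, ((Nat.card ↥P : ℂ)⁻¹ * ∑ᶠ y : ↥P, (χ : G → ℂ) (y : G) * θ y⁻¹) * (χ : G → ℂ) 1 = 0) ∧ (∑ᶠ χ ∈ Cfsg.principalBlock M G, ((Nat.card ↥P : ℂ)⁻¹ * ∑ᶠ y : ↥P, (χ : G → ℂ) (y : G) * θ y⁻¹) * (χ : G → ℂ) t = 0) ∧ ((Nat.card ↥P : ℂ)⁻¹ * ∑ᶠ y : ↥P, θ y ≠ 0 → (2 ≤ Nat.card {χ : Cfsg.IrrCharacter G // χ ∈ Cfsg.principalBlock M G ∧ 0 < (((Nat.card ↥P : ℂ)⁻¹ * ∑ᶠ y : ↥P, (χ : G → ℂ) (y : G) * θ y⁻¹)).re} ∧ 2 ≤ Nat.card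 {χ : Cfsg.IrrCharacter G // χ ∈ Cfsg.principalBlock M G ∧ (((Nat.card ↥P : ℂ)⁻¹ * ∑ᶠ y : ↥P, (χ : G → ℂ) (y : G) * θ y⁻¹)).re < 0}) ∨ ∃ K : Subgroup G, K.Normal ∧ K ≠ ⊤ ∧ Cfsg.pPrimeCore 2 G ≤ K ∧ t ∈ K) := by
  have : PMod 2 M := ⟨hM⟩
  classical
  have := Fintype.ofFinite G
  have hB : Closed M (principalBlock M G) := (isPBlock_principal (M := M) (G := G)).closed
  have ht2 : t * t = 1 := by rw [← sq, ← ht, pow_orderOf_eq_one]
  have htp : PElt 2 t := ⟨1, by simpa using ht⟩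
  have main : ∀ f : IrrCharacter G → ℂ, (∀ y : P, (y : G)⁻¹ ∈ U → ∑ χ : IrrCharacter G,
      (if χ ∈ principalBlock M G then (χ : G → ℂ) y * f χ else 0) = 0) →
      ∑ χ : IrrCharacter G, (if χ ∈ principalBlock M G then ((Nat.card ↥P : ℂ)⁻¹ * ∑ y : ↥P, (χ : G → ℂ) (y : G) * θ y⁻¹) * f χ else 0) = 0 := by
    intro f hf
    have e : ∀ χ : IrrCharacter G, (if χ ∈ principalBlock M G then ((Nat.card ↥P : ℂ)⁻¹ * ∑ y : ↥P, (χ : G → ℂ) (y : G) * θ y⁻¹) * f χ else 0) =
        ∑ y : P, (Nat.card ↥P : ℂ)⁻¹ * θ y⁻¹ * (if χ ∈ principalBlock M G then (χ : G → ℂ) y * f χ else 0) := fun χ => by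
      split_ifs
      · rw [Finset.mul_sum, Finset.sum_mul]
        exact Finset.sum_congr rfl fun y _ => by ring
      · simp
    simp only [e]
    rw [Finset.sum_comm]
    refine Finset.sum_eq_zero fun y _ => ?_
    rw [← Finset.mul_sum]
    by_cases hy : (y : G)⁻¹ ∈ U
    · rw [hf y hy, mul_zero]
    · rw [hθU y⁻¹ hy, mul_zero, zero_mul]
  have s1 := main (fun χ => (χ : G → ℂ) t ^ 2 / (χ : G → ℂ) 1) fun y hy => by
    have := sec M ht (pElt_of_mem hP y.2) (fun g h => hinv _ hy g (by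
      rw [inv_inv, ← inv_inj]; exact Eq.trans (by group) h))
    simpa only [mul_div_assoc] using this
  have s2 := main (fun χ => (χ : G → ℂ) 1) fun y hy => by
    have := hB.orth (pElt_of_mem hP y.2).isPPart_self (pElt_one (p := 2) (G := G)).isPPart_self (fun h => by
      have h1 : (y : G) = 1 := isConj_one_left.1 h
      exact hinv _ hy 1 (by simp [h1]))
    simpa only [inv_one] using this
  have s3 := main (fun χ => (χ : G → ℂ) t) fun y hy => by
    have := hB.orth (pElt_of_mem hP y.2).isPPart_self htp.isPPart_self (fun h => by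
      obtain ⟨g, hg⟩ := isConj_iff.1 h.symm
      refine hinv _ hy g ?_
      rw [hg]
      have : (y : G) * y = 1 := by
        rw [← hg]
        calc g * t * g⁻¹ * (g * t * g⁻¹) = g * (t * t) * g⁻¹ := by group
          _ = 1 := by rw [ht2]; group
      rw [inv_inv, mul_inv_cancel, one_mul, inv_eq_of_mul_eq_one_right this])
    simpa only [inv_eq_of_mul_eq_one_right ht2] using this
  rw [finsum_mem_eq_ite, finsum_mem_eq_ite, finsum_mem_eq_ite]
  simp only [finsum_eq_sum_of_fintype]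
  refine ⟨by simpa only [mul_div_assoc] using s1, s2, s3, fun h0 => ?_⟩
  have hint : ∀ χ : IrrCharacter G, ∃ n : ℤ, ((Nat.card ↥P : ℂ)⁻¹ * ∑ y : ↥P, (χ : G → ℂ) (y : G) * θ y⁻¹) = n := fun χ => by
    rw [← classInner_eq_inv _ hθ]
    exact (χ.2.isGen.res P).exists_int_inner hθ
  choose a ha using hint
  choose z hz using fun χ : IrrCharacter G => exists_int_of_mul_self χ.2.isGen ht2
  choose x hx0 hx using fun χ : IrrCharacter G => χ.2.exists_pos_degree
  simp only [ha, hz, hx] at s1 s2 s3 ⊢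
  set b : IrrCharacter G → ℝ := fun χ => if χ ∈ principalBlock M G then (a χ : ℝ) else 0 with hb
  have r1 : ∑ χ, b χ * (z χ : ℝ) ^ 2 / (x χ : ℝ) = 0 := by
    rw [← Complex.ofReal_inj, Complex.ofReal_zero, ← s1]
    push_cast
    refine Finset.sum_congr rfl fun χ _ => ?_
    simp only [hb]
    split_ifs <;> simp [mul_div_assoc]
  have r2 : ∑ χ, b χ * (x χ : ℝ) = 0 := by
    rw [← Complex.ofReal_inj, Complex.ofReal_zero, ← s2]
    push_cast
    refine Finset.sum_congr rfl fun χ _ => ?_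
    simp only [hb]
    split_ifs <;> simp
  have r3 : ∑ χ, b χ * (z χ : ℝ) = 0 := by
    rw [← Complex.ofReal_inj, Complex.ofReal_zero, ← s3]
    push_cast
    refine Finset.sum_congr rfl fun χ _ => ?_
    simp only [hb]
    split_ifs <;> simp
  have hxp : ∀ χ, (0 : ℝ) < x χ := fun χ => by exact_mod_cast hx0 χ
  have b1 : b (oneIrr G) ≠ 0 := by
    simp only [hb, if_pos (oneIrr_mem (M := M) (G := G))]
    intro h
    apply h0
    have h' : a (oneIrr G) = 0 := by exact_mod_cast h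
    have := ha (oneIrr G)
    rw [h', Int.cast_zero] at this
    rw [← this, ← Equiv.sum_comp (Equiv.inv P)]
    simp [oneIrr]
  have fin : (∃ c : ℝ, ∀ χ, b χ ≠ 0 → (z χ : ℝ) = c * x χ) → ∃ K : Subgroup G, K.Normal ∧ K ≠ ⊤ ∧ Cfsg.pPrimeCore 2 G ≤ K ∧ t ∈ K := by
    rintro ⟨c, hc⟩
    have c1 : c = 1 := by
      have e1 : z (oneIrr G) = 1 := by have : (1 : ℂ) = z (oneIrr G) := hz (oneIrr G); exact_mod_cast this.symm
      have e2 : x (oneIrr G) = 1 := by have : (1 : ℂ) = x (oneIrr G) := hx (oneIrr G); exact_mod_cast this.symm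
      have := hc _ b1
      rw [e1, e2] at this
      simpa using this.symm
    obtain ⟨χ, h1, h2⟩ : ∃ χ, χ ≠ oneIrr G ∧ b χ ≠ 0 := by
      by_contra hcon
      push Not at hcon
      rw [Finset.sum_eq_single (oneIrr G) (fun χ _ h => by rw [hcon χ h, zero_mul]) (by simp)] at r2
      exact mul_ne_zero b1 (hxp _).ne' r2
    have h3 : χ ∈ principalBlock M G := by
      by_contra h; exact h2 (by simp only [hb, if_neg h])
    refine ⟨charKer (χ : G → ℂ), χ.2.isClassFunction.charKer_normal, fun h => h1 (Subtype.ext (χ.2.eq_one_of_charKer_eq_top h)),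
      le_charKer_of_mem_principal (H1.not_dvd_card_pPrimeCore 2 G) h3, χ.2.mem_charKer_iff.2 ?_⟩
    have := hc χ h2
    rw [c1, one_mul] at this
    rw [hz, hx]
    exact_mod_cast this
  by_cases hp : 2 ≤ Nat.card {χ : Cfsg.IrrCharacter G // χ ∈ Cfsg.principalBlock M G ∧ 0 < (a χ : ℂ).re}
  · by_cases hn : 2 ≤ Nat.card {χ : Cfsg.IrrCharacter G // χ ∈ Cfsg.principalBlock M G ∧ (a χ : ℂ).re < 0}
    · exact Or.inl ⟨hp, hn⟩
    · right
      apply fin
      have hs := Finite.card_le_one_iff_subsingleton.1 (Nat.le_of_lt_succ (not_le.1 hn))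
      have hm : ∀ i, 0 < -b i → i ∈ Cfsg.principalBlock M G ∧ (a i : ℂ).re < 0 := fun i hi => by
        simp only [hb] at hi
        split_ifs at hi with h
        · exact ⟨h, by simpa using hi⟩
        · simp at hi
      obtain ⟨c, hc⟩ := real_aux (fun χ => -b χ) (fun χ => x χ) (fun χ => z χ) hxp
        (by simp only [neg_mul, Finset.sum_neg_distrib, r2, neg_zero])
        (by simp only [neg_mul, Finset.sum_neg_distrib, r3, neg_zero])
        (by simp only [neg_mul, neg_div, Finset.sum_neg_distrib, r1, neg_zero])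
        (fun i j hi hj => congrArg Subtype.val (hs.elim ⟨i, hm i hi⟩ ⟨j, hm j hj⟩))
      exact ⟨c, fun χ h => hc χ (neg_ne_zero.2 h)⟩
  · right
    apply fin
    have hs := Finite.card_le_one_iff_subsingleton.1 (Nat.le_of_lt_succ (not_le.1 hp))
    have hm : ∀ i, 0 < b i → i ∈ Cfsg.principalBlock M G ∧ 0 < (a i : ℂ).re := fun i hi => by
      simp only [hb] at hi
      split_ifs at hi with h
      · exact ⟨h, by simpa using hi⟩
      · simp at hi
    exact real_aux b (fun χ => x χ) (fun χ => z χ) hxp r2 r3 r1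
      (fun i j hi hj => congrArg Subtype.val (hs.elim ⟨i, hm i hi⟩ ⟨j, hm j hj⟩))

end Cfsg.Agent.S4722
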