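import Cfsg.Statements.S4723
import Cfsg.Agent.B.Cov4

set_option autoImplicit false
open Cfsg

namespace Cfsg.Agent.S4723

open Cfsg.Agent Cfsg.Agent.B Cfsg.Agent.H2 Cfsg.Agent.H3 Cfsg.Agent.L Subgroup MonoidAlgebra
open scoped Pointwise commutatorElement

/-- Let p be a prime, M a maximal ideal of the algebraic integers containing p, H a normal subgroup of the finite group G and b a p-block of H. Let T be the stabilizer of b in G. Then b contains a character θ of height zero whose own stabilizer in G (the elements g with θ(g h g⁻¹) = θ(h) for all h ∈ H) has index prime to p in T, i.e. contains a Sylow p-subgroup of T. -/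
theorem result {G : Type*} [Group G] [Finite G] (p : ℕ) [Fact p.Prime] (M : Ideal Cfsg.AlgInt) (hM : Cfsg.IsPModular p M) (H : Subgroup G) [H.Normal] (b : Set (Cfsg.IrrCharacter ↥H)) (hb : Cfsg.IsPBlock M b) (T : Subgroup G) (hT : (∀ g : G, g ∈ T ↔ ∀ θ ∈ b, ∀ θ' : Cfsg.IrrCharacter ↥H, (∀ h h' : ↥H, (h' : G) = g * h * g⁻¹ → (θ' : ↥H → ℂ) h' = (θ : ↥H → ℂ) h) → θ' ∈ b)) : ∃ θ ∈ b, Cfsg.blockHeight p b (θ : ↥H → ℂ) = 0 ∧ ∃ S : Subgroup G, S ≤ T ∧ (∀ g : G, g ∈ S ↔ (g ∈ T ∧ ∀ h h' : ↥H, (h' : G) = g * h * g⁻¹ → (θ : ↥H → ℂ) h' = (θ : ↥H → ℂ) h)) ∧ ¬ p ∣ S.relIndex T := by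
  have : PMod p M := ⟨hM⟩
  obtain rfl : T = stab (iB M H b) := by
    ext g
    rw [← inv_mem_iff, hb.closed.eq_stab' (T := T) fun g => ?_, inv_mem_iff]
    rw [← inv_mem_iff, hT]
    refine forall₃_congr fun θ _ θ' => imp_congr_left ⟨fun h n => h _ _ (by simp [mul_assoc]), fun h x y e => ?_⟩
    rw [h]; exact congrArg _ (Subtype.ext (by simp [e, mul_assoc]))
  obtain ⟨θ, h1, h2, h3⟩ := hb.exists_height_zero_inertia (p := p)
  refine ⟨θ, h1, h2, _, IsPBlock.inertia_le hb h1, fun g => ⟨fun h => ⟨IsPBlock.inertia_le hb h1 h, fun x y e => ?_⟩,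
    fun h => mem_inertia'.2 fun n => h.2 _ _ rfl⟩, h3⟩
  rw [← mem_inertia'.1 h x]; exact congrArg _ (Subtype.ext e)

end Cfsg.Agent.S4723
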