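import Cfsg.Statements.S4725
import Cfsg.Agent.B.Fong
import Cfsg.Agent.S4430

set_option autoImplicit false
open Cfsg

namespace Cfsg.Agent.S4725

open Cfsg.Agent Cfsg.Agent.B Cfsg.Agent.H2 Cfsg.Agent.H3 Cfsg.Agent.L Subgroup MonoidAlgebra
open scoped Pointwise commutatorElement

/-- Let p be a prime, M a maximal ideal of the algebraic integers containing p, H a subgroup of the finite group G, and b a p-block of H inducing the p-block B of G, with b and B of the same defect. Then for every height-zero ζ ∈ b there is a height-zero χ ∈ B whose multiplicity in the character induced from ζ is not divisible by p. -/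
theorem result {G : Type*} [Group G] [Fintype G] (p : ℕ) [Fact p.Prime] (M : Ideal Cfsg.AlgInt) (hM : Cfsg.IsPModular p M) (H : Subgroup G) (b : Set (Cfsg.IrrCharacter ↥H)) (B : Set (Cfsg.IrrCharacter G)) (hind : Cfsg.IsInducedBlock M H b B) (hdef : Cfsg.blockDefect p b = Cfsg.blockDefect p B) (ζ : Cfsg.IrrCharacter ↥H) (hζ : ζ ∈ b) (hζ0 : Cfsg.blockHeight p b (ζ : ↥H → ℂ) = 0) : ∃ χ ∈ B, Cfsg.blockHeight p B (χ : G → ℂ) = 0 ∧ ∃ a : ℕ, Cfsg.classInner (Cfsg.indFun H (ζ : ↥H → ℂ)) (χ : G → ℂ) = (a : ℂ) ∧ ¬ p ∣ a := by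
  have : PMod p M := ⟨hM⟩
  classical
  haveI : Fintype H := Fintype.ofFinite _
  obtain ⟨⟨n, h1, h2, h3⟩, -⟩ := S4430.result p M hM H b B hind ζ hζ
  choose a ha using fun χ : IrrCharacter G => (ζ.2.isCharacter.ind (G := G)).exists_nat_inner χ.2.isCharacter
  by_contra h
  push Not at h
  have h4 : n.factorization p + blockDefect p B = (Nat.card G).factorization p := by
    have h5 := nu_ind (p := p) ζ
    have h6 := nu_add_blockDefect (p := p) hζ
    have h7 := factorization_index_add (p := p) H
    unfold nu at h5 h6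
    omega
  have h5 : n = ∑ χ : IrrCharacter G, if χ ∈ B then a χ * charDegree (χ : G → ℂ) else 0 := by
    rw [blockPart_eq] at h1
    apply Nat.cast_injective (R := ℂ)
    rw [← h1]
    push_cast
    refine Finset.sum_congr rfl fun χ _ => ?_
    rw [ha, χ.2.cast_charDegree]
  have h6 : p ^ (n.factorization p + 1) ∣ n := by
    conv_rhs => rw [h5]
    refine Finset.dvd_sum fun χ _ => ?_
    split_ifs with hχ
    · have h7 := nu_add_blockDefect (p := p) hχ
      have h8 := Nat.ordProj_dvd (charDegree (χ : G → ℂ)) p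
      unfold nu at h7
      by_cases h0 : blockHeight p B (χ : G → ℂ) = 0
      · rw [pow_succ']
        exact mul_dvd_mul (h χ hχ h0 _ (ha χ)) ((pow_dvd_pow p (by omega)).trans h8)
      · exact ((pow_dvd_pow p (by omega)).trans h8).mul_left _
    · exact dvd_zero _
  exact Nat.pow_succ_factorization_not_dvd h2 Fact.out h6

end Cfsg.Agent.S4725
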