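import Cfsg.Statements.S4726
import Cfsg.Agent.B.Cov2

set_option autoImplicit false
open Cfsg

namespace Cfsg.Agent.S4726

open Cfsg.Agent Cfsg.Agent.B Cfsg.Agent.H2 Cfsg.Agent.H3 Cfsg.Agent.L Subgroup MonoidAlgebra
open scoped Pointwise commutatorElement

/-- Let p be a prime, M a maximal ideal of the algebraic integers containing p, H a subgroup of the finite group G and b a p-block of H with defect group D₀ such that C_G(D₀) ≤ H. Then b induces a block of G, and for every block B of G induced by b there is a defect group D of B with Z(D) ≤ Z(D₀) ≤ D₀ ≤ D (as subgroups of G). In particular, if the defect groups of B are abelian then D₀ is a defect group of B. -/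
theorem result {G : Type*} [Group G] [Finite G] (p : ℕ) [Fact p.Prime] (M : Ideal Cfsg.AlgInt) (hM : Cfsg.IsPModular p M) (H : Subgroup G) (b : Set (Cfsg.IrrCharacter ↥H)) (hb : Cfsg.IsPBlock M b) (D₀ : Subgroup ↥H) (hD₀ : Cfsg.IsDefectGroup p M b D₀) (hC : Subgroup.centralizer ((D₀.map H.subtype : Subgroup G) : Set G) ≤ H) : Cfsg.InducedBlockDefined M H b ∧ ∀ B : Set (Cfsg.IrrCharacter G), Cfsg.IsInducedBlock M H b B → (∃ D : Subgroup G, Cfsg.IsDefectGroup p M B D ∧ (Subgroup.center ↥D).map D.subtype ≤ ((Subgroup.center ↥D₀).map D₀.subtype).map H.subtype ∧ ((Subgroup.center ↥D₀).map D₀.subtype).map H.subtype ≤ D₀.map H.subtype ∧ D₀.map H.subtype ≤ D) ∧ (∀ D : Subgroup G, Cfsg.IsDefectGroup p M B D → IsMulCommutative ↥D → Cfsg.IsDefectGroup p M B (D₀.map H.subtype)) := by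
  have : PMod p M := ⟨hM⟩
  have hD := hb.isDefectGroup_iff_map.1 hD₀
  set D := D₀.map H.subtype
  refine ⟨?_, fun B hB => ?_⟩
  · obtain ⟨B, hB, h⟩ := exists_br_mul_ne (φ := MonoidHom.id G) D hD.br
    rw [push_id] at h
    exact ⟨B, isInducedBlock_of_br hD.pgrp hD.le hC hb hB h⟩
  have h1 := hB.br_mul hD.pgrp hD.le hC
  obtain ⟨β, hβ, h2⟩ := hb.isBI.exists_bp hD.le hD.pgrp hD.br
  have e : CH H D = CH ⊤ D := by rw [CH_top, CH, inf_eq_right.2 hC]
  have hβ' := hβ.congr e le_top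
  obtain ⟨P, ε, h3, h4⟩ := hβ'.exists_mp hB.2.1.isBI_top (by rw [← h2, ← mul_assoc, h1])
  have h5 : P ⊓ centralizer (D : Set G) ≤ D := by
    obtain ⟨g, h6, -⟩ := h3.exists_nl h4.bp (R := D ⊔ P ⊓ centralizer (D : Set G)) le_sup_left
      (sup_le h3.le inf_le_left) (sup_le le_normalizer
        (inf_le_right.trans (centralizer_le_normalizer _)))
    have h7 := h6.congr e.symm (sup_le hD.le (inf_le_right.trans hC))
    have h8 := (h7.br_iff hb.isBI.mem hb.isBI.idem).2 h2
    exact le_sup_right.trans (hD.eq_of_le h7.r.le h7.r.pgrp (h7.r.br_ne_of h8) le_sup_left).le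
  have h6 := hB.2.1.isDefectGroup_iff_top.2 h4.dg
  refine ⟨⟨P, h6, ?_, map_mono (map_subtype_le _), h3.le⟩, fun E hE hc => ?_⟩
  · rintro _ ⟨z, hz, rfl⟩
    have h7 : (z : G) ∈ centralizer (D : Set G) := fun d hd =>
      congrArg Subtype.val (Subgroup.mem_center_iff.1 hz ⟨d, h3.le hd⟩)
    obtain ⟨y, hy, h8⟩ := h5 ⟨z.2, h7⟩
    refine ⟨y, ⟨⟨y, hy⟩, Subgroup.mem_center_iff.2 fun d => Subtype.ext (Subtype.ext ?_), rfl⟩, h8⟩
    have := h7 d ⟨d, d.2, rfl⟩
    rw [← show (y : G) = z from h8] at this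
    exact this
  · obtain ⟨x, rfl⟩ := hE.exists_cj_eq hB.2.1.closed h6
    have h7 : cj x E ≤ centralizer (D : Set G) := by
      refine le_trans ?_ (centralizer_anti h3.le)
      rw [← cj_centralizer]
      exact cj_mono x (le_centralizer_iff_isMulCommutative.2 hc)
    rwa [le_antisymm h3.le ((le_inf le_rfl h7).trans h5)]

end Cfsg.Agent.S4726
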