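import Cfsg.Statements.S4727
import Cfsg.Agent.B.Ker

set_option autoImplicit false
open Cfsg

namespace Cfsg.Agent.S4727

open Cfsg.Agent Cfsg.Agent.B Cfsg.Agent.H2 Cfsg.Agent.H3 Cfsg.Agent.L Subgroup MonoidAlgebra
open scoped Pointwise commutatorElement

/-- Let p be a prime, π a set of primes containing p, M a maximal ideal of the algebraic integers containing p, and B a p-block of the finite group G with defect group D; let B₁ be the block of N_G(D) with defect group D that induces B (the Brauer correspondent of B). Suppose every element of O_π'(N_G(D)), the largest normal subgroup of N_G(D) whose order has no prime divisor in π, lies in the kernel of every member of B₁. If y is a p-element whose centralizer C has a normal Hall π'-subgroup (every element of C whose order has no prime divisor in π lies in O_π'(C)), then χ(y x) = χ(y) for every χ ∈ B and every x ∈ C whose order has no prime divisor in π. -/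
theorem result {G : Type*} [Group G] [Finite G] (p : ℕ) [Fact p.Prime] (M : Ideal Cfsg.AlgInt) (hM : Cfsg.IsPModular p M) (π : Set ℕ) (hpπ : p ∈ π) (B : Set (Cfsg.IrrCharacter G)) (hB : Cfsg.IsPBlock M B) (D : Subgroup G) (hBD : Cfsg.IsDefectGroup p M B D) (B₁ : Set (Cfsg.IrrCharacter ↥(Subgroup.normalizer (D : Set G)))) (hB₁ : Cfsg.IsInducedBlock M (Subgroup.normalizer (D : Set G)) B₁ B) (hB₁D : Cfsg.IsDefectGroup p M B₁ (D.subgroupOf (Subgroup.normalizer (D : Set G)))) (hker : ∀ n : ↥(Subgroup.normalizer (D : Set G)), n ∈ Cfsg.piCore {q | q ∉ π} ↥(Subgroup.normalizer (D : Set G)) → n ∈ Cfsg.blockKer B₁) (y : G) (hy : ∃ k : ℕ, orderOf y = p ^ k) (hC : ∀ x : ↥(Subgroup.centralizer ({y} : Set G)), (∀ q : ℕ, q.Prime → q ∣ orderOf x → q ∉ π) → x ∈ Cfsg.piCore {q | q ∉ π} ↥(Subgroup.centralizer ({y} : Set G))) : ∀ χ ∈ B, ∀ x : G, x ∈ Subgroup.centralizer ({y} : Set G) → (∀ q : ℕ, q.Prime → q ∣ orderOf x → q ∉ π) → (χ : G → ℂ) (y * x) = (χ : G → ℂ) y := by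
  have : PMod p M := ⟨hM⟩
  have hρ : p ∉ {q | q ∉ π} := fun h => h hpπ
  obtain ⟨e, he, h1⟩ := exists_mp_kerPi hBD hB₁ hρ hker
  intro χ hχ x hx h2
  have := Fintype.ofFinite (centralizer ({y} : Set G))
  have h3 := hB.closed.blockPart_mul hy χ.2.isClassFunction (y := ⟨x, hx⟩)
    (fun h => h2 p Fact.out (by simpa using h) hpπ)
  have h4 := hB.closed.blockPart_mul hy χ.2.isClassFunction (y := 1) reg_one
  rw [blockPart_of_mem hχ] at h3 h4
  simp only [OneMemClass.coe_one, mul_one] at h4
  rw [h3, h4, blockPart_eq, blockPart_eq]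
  refine Finset.sum_congr rfl fun ψ _ => ?_
  split_ifs with h5
  · have hb := isPBlock_blockOf (M := M) ψ
    rw [mem_roots_iff (inducedBlockDefined_centralizer hy hb) hB (self_mem_blockOf ψ),
      isInducedBlock_iff_br (PElt.isPGroup hy) (zpowers_le_of_mem (self_mem_centralizer y))
        (centralizer_zpowers y).le ((centralizer_zpowers y).ge.trans (centralizer_le_normalizer _))
        hb hB] at h5
    have h6 := he.kerPi_of_pair hρ h1 ⟨le_top, PElt.isPGroup hy, by
      rw [CH_top, centralizer_zpowers]; exact hb.isBI⟩ h5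
    rw [CH_top, centralizer_zpowers, kerPi_iff hb hρ] at h6
    rw [h6 _ (hC _ fun q hq h => h2 q hq (by simpa using h)) ψ (self_mem_blockOf ψ)]
  · rfl

end Cfsg.Agent.S4727
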