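import Cfsg.Statements.S4728
import Cfsg.Agent.B.Ker

set_option autoImplicit false
open Cfsg

namespace Cfsg.Agent.S4728

open Cfsg.Agent Cfsg.Agent.B Cfsg.Agent.H2 Cfsg.Agent.H3 Cfsg.Agent.L Subgroup MonoidAlgebra
open scoped Pointwise commutatorElement

/-- Let p be a prime, π a set of primes containing p, M a maximal ideal of the algebraic integers containing p, B a p-block of the finite group G with defect group D, and B₁ the block of N_G(D) with defect group D inducing B. Let D₀ be a p-subgroup, H₀ = D₀·C_G(D₀), and b a block of H₀ inducing B. Write O_π'(X) for the largest normal subgroup of X whose order has no prime divisor in π. Suppose that O_π'(C_G(D₀)) is a normal Hall π'-subgroup of C_G(D₀) (it contains every element of C_G(D₀) whose order has no prime divisor in π) and that every element of it lies in the kernel of every member of b. Then every element of O_π'(N_G(D)) lies in the kernel of every member of B₁. -/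
theorem result {G : Type*} [Group G] [Finite G] (p : ℕ) [Fact p.Prime] (M : Ideal Cfsg.AlgInt) (hM : Cfsg.IsPModular p M) (π : Set ℕ) (hpπ : p ∈ π) (B : Set (Cfsg.IrrCharacter G)) (hB : Cfsg.IsPBlock M B) (D : Subgroup G) (hBD : Cfsg.IsDefectGroup p M B D) (B₁ : Set (Cfsg.IrrCharacter ↥(Subgroup.normalizer (D : Set G)))) (hB₁ : Cfsg.IsInducedBlock M (Subgroup.normalizer (D : Set G)) B₁ B) (hB₁D : Cfsg.IsDefectGroup p M B₁ (D.subgroupOf (Subgroup.normalizer (D : Set G)))) (D₀ : Subgroup G) (hD₀ : IsPGroup p D₀) (H₀ : Subgroup G) (hH₀ : H₀ = D₀ ⊔ Subgroup.centralizer (D₀ : Set G)) (b : Set (Cfsg.IrrCharacter ↥H₀)) (hb : Cfsg.IsInducedBlock M H₀ b B) (hcompl : ∀ x : ↥(Subgroup.centralizer (D₀ : Set G)), (∀ q : ℕ, q.Prime → q ∣ orderOf x → q ∉ π) → x ∈ Cfsg.piCore {q | q ∉ π} ↥(Subgroup.centralizer (D₀ : Set G))) (hkerb : ∀ x : ↥(Subgroup.centralizer (D₀ : Set G)), x ∈ Cfsg.piCore {q | q ∉ π} ↥(Subgroup.centralizer (D₀ : Set G)) → ∀ θ ∈ b,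 ∀ h : ↥H₀, (h : G) = (x : G) → (θ : ↥H₀ → ℂ) h = (θ : ↥H₀ → ℂ) 1) : ∀ n : ↥(Subgroup.normalizer (D : Set G)), n ∈ Cfsg.piCore {q | q ∉ π} ↥(Subgroup.normalizer (D : Set G)) → n ∈ Cfsg.blockKer B₁ := by
  have : PMod p M := ⟨hM⟩
  have hρ : p ∉ {q | q ∉ π} := fun h => h hpπ
  subst hH₀
  have h1 : IsBI (D₀ ⊔ CH ⊤ D₀) (iB M _ b) := by rw [CH_top]; exact hb.1.isBI
  have h2 := h1.bp_of_sup hD₀ le_top
  have h3 := (isInducedBlock_iff_br hD₀ le_sup_left le_sup_right
    (sup_le le_normalizer (centralizer_le_normalizer _)) hb.1 hB).1 hb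
  have hD' := hB.isDefectGroup_iff_top.1 hBD
  obtain ⟨e, he⟩ := hD'.exists_mp hB.isBI_top
  obtain ⟨x, -, h4⟩ := he.exists_conj_le h2 h3
  have h5 := (isInducedBlock_iff_br hD'.pgrp le_normalizer (centralizer_le_normalizer _) le_rfl
    hB₁.1 hB).1 hB₁
  have h6 := hD'.isBI_br hB.isBI_top
  rw [top_inf_eq] at h6
  have h7 := h6.eq_of_mul hB₁.1.isBI (by rw [h5]; exact hB₁.1.isBI.ne)
  rw [← kerPi_iff hB₁.1 hρ, ← h7, he.br_eq_osum, top_inf_eq]
  intro L h8 h9 h10
  refine KerA.osum (fun l hl => ?_) h9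
  have h11 : L ≤ centralizer (D : Set G) := by
    refine BG.le_cent_of_norm_of_coprime h8 (le_normalizer.trans h9) ?_
    obtain ⟨k, hk⟩ := IsPGroup.iff_card.1 hD'.pgrp
    rw [hk]
    exact Nat.Coprime.pow_right k (Nat.coprime_comm.1 ((Fact.out : p.Prime).coprime_iff_not_dvd.2
      fun h => h10 p Fact.out h hpπ))
  refine h4.of_mul_up (h11 hl) ?_
  have h12 : x⁻¹ * l * x ∈ centralizer (D₀ : Set G) := by
    have := centralizer_anti h4.le (h11 hl)
    rwa [← cj_centralizer, mem_cj] at this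
  have h13 := of_mul_iB (M := M) (l := ⟨x⁻¹ * l * x, mem_sup_right h12⟩) fun θ hθ =>
    hkerb ⟨_, h12⟩ (hcompl _ fun q hq h => h10 q hq (dvd_trans (by
      rwa [← orderOf_coe, show ((⟨x⁻¹ * l * x, h12⟩ : centralizer (D₀ : Set G)) : G) =
        x⁻¹ * l * x⁻¹⁻¹ by simp, Agent.B.orderOf_conj] at h) (L.orderOf_dvd_natCard hl))) θ hθ _ rfl
  have h14 := congrArg (cA x) h13
  rwa [map_mul, push_of, show (MulAut.conj x).toMonoidHom (x⁻¹ * l * x) = l by simp [mul_assoc]] at h14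

end Cfsg.Agent.S4728
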