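import Cfsg.Statements.S4729
import Cfsg.Agent.B.Defect
import Cfsg.Agent.H3.Det
import Cfsg.Agent.H3.CTI0

set_option autoImplicit false
open Cfsg

namespace Cfsg.Agent.S4729

open Cfsg.Agent Cfsg.Agent.B Cfsg.Agent.H2 Cfsg.Agent.H3 Subgroup MonoidAlgebra
open scoped Pointwise commutatorElement

/-- Let p be a prime, M a maximal ideal of the algebraic integers containing p, G a finite perfect group and P a Sylow p-subgroup. If the principal p-block of G contains a faithful irreducible character of degree less than 2p, then the centralizer of P is a p-group. -/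
theorem result {G : Type*} [Group G] [Finite G] (p : ℕ) [Fact p.Prime] (M : Ideal Cfsg.AlgInt) (hM : Cfsg.IsPModular p M) (hperf : commutator G = ⊤) (P : Sylow p G) (χ : Cfsg.IrrCharacter G) (hχ : χ ∈ Cfsg.principalBlock M G) (hfaith : ∀ g : G, (χ : G → ℂ) g = (χ : G → ℂ) 1 → g = 1) (hdeg : Cfsg.charDegree (χ : G → ℂ) < 2 * p) : IsPGroup p ↥(Subgroup.centralizer ((P : Subgroup G) : Set G)) := by
  have : PMod p M := ⟨hM⟩
  classical
  have hp : p.Prime := Fact.out
  have key : ∀ y ∈ centralizer ((P : Subgroup G) : Set G), ¬ p ∣ orderOf y → y = 1 := fun y hy h1 => by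
    let A := zpowers y
    have := Fintype.ofFinite A
    have hA : ¬ p ∣ Nat.card A := by rwa [Nat.card_zpowers]
    have hφ := χ.2.isCharacter.res A
    choose m hm using fun ξ : IrrCharacter A => hφ.exists_nat_inner ξ.2.isCharacter
    have h2 : ∀ ξ : IrrCharacter A, ξ ≠ oneIrr A → p ∣ m ξ := fun ξ hξ => by
      have a : ∀ a : A, ∃ n : ℕ, P.1.index = n * (centralizer {(a : G)}).index := fun a => ⟨_, (relIndex_mul_index
        (H := P.1) (K := centralizer {(a : G)}) fun x hx => mem_centralizer_singleton_iff.2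
          ((zpowers_le.2 hy a.2) x hx)).symm⟩
      choose n hn using a
      have b := card_mul_classInner (fun a : A => (χ : G → ℂ) a) ξ
      have c := card_mul_classInner (oneIrr A).1 ξ
      rw [not_not.1 fun e => hξ (Subtype.ext ((oneIrr A).2.eq_of_inner_ne_zero ξ.2 e).symm), mul_zero] at c
      have hO : ∀ a, (starRingEnd ℂ) (ξ.1 a) ∈ O M := fun a => by
        rw [← ξ.2.apply_inv]; exact mem_O_of_isIntegral (ξ.2.isCharacter.isIntegral _)
      have d : ((P.1.index * Nat.card A * m ξ : ℕ) : ℂ) = charDegree χ.1 *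
          ∑ a : A, n a * (centralChar χ.1 a * (starRingEnd ℂ) (ξ.1 a)) := by
        rw [Nat.cast_mul, Nat.cast_mul, ← hm, mul_assoc, b, Finset.mul_sum, Finset.mul_sum, χ.2.cast_charDegree]
        refine Finset.sum_congr rfl fun a _ => ?_
        have := χ.2.apply_one_ne_zero
        rw [hn a, centralChar]
        push_cast
        field_simp
      have e : ∀ {φ : G → ℂ}, IsIrrCharacter G φ → ∀ a : A, n a * (centralChar φ a * (starRingEnd ℂ) (ξ.1 a)) ∈ O M :=
        fun h a => mul_mem (natCast_mem _ _) (mul_mem (centralChar_mem_O h _) (hO a))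
      have f : red M (∑ a : A, n a * (centralChar χ.1 a * (starRingEnd ℂ) (ξ.1 a))) =
          red M (∑ a : A, n a * (centralChar (oneIrr G).1 a * (starRingEnd ℂ) (ξ.1 a))) := by
        rw [red_sum _ _ fun a _ => e χ.2 a, red_sum _ _ fun a _ => e (oneIrr G).2 a]
        refine Finset.sum_congr rfl fun a _ => ?_
        rw [red_mul (natCast_mem _ _) (mul_mem (centralChar_mem_O χ.2 _) (hO a)), red_mul (natCast_mem _ _)
          (mul_mem (centralChar_mem_O (oneIrr G).2 _) (hO a)), red_mul (centralChar_mem_O χ.2 _) (hO a),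
          red_mul (centralChar_mem_O (oneIrr G).2 _) (hO a), (sameBlock_iff (oneIrr G).2 χ.2).1 hχ]
      rw [show ∑ a : A, n a * (centralChar (oneIrr G).1 a * (starRingEnd ℂ) (ξ.1 a)) = P.1.index * 0 by
        rw [c, Finset.mul_sum]
        exact Finset.sum_congr rfl fun a _ => by rw [hn a]; simp [centralChar, oneIrr, mul_assoc], mul_zero, red_zero] at f
      by_contra g
      refine red_natCast_ne_zero (M := M) (n := P.1.index * Nat.card A * m ξ) (by
        simp only [hp.dvd_mul, not_or]; exact ⟨⟨P.not_dvd_index, hA⟩, g⟩) ?_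
      rw [d, red_mul (natCast_mem _ _) (sum_mem fun a _ => e χ.2 a), f, mul_zero]
    have h3 : (fun a : A => (χ : G → ℂ) a) = ∑ ξ : IrrCharacter A, (m ξ : ℂ) • ξ.1 := by
      simpa only [hm] using hφ.isClassFunction.eq_sum_irr
    have h4 : ∀ ξ : IrrCharacter A, ξ.1 1 = 1 := fun ξ => by
      obtain ⟨i, e⟩ := Lin.exists_of_irr ξ.2
      rw [e, map_one]
    have h5 : ∑ ξ, m ξ = charDegree χ.1 := by
      have := congrFun h3 1
      simp only [Finset.sum_apply, Pi.smul_apply, h4, smul_eq_mul, mul_one, OneMemClass.coe_one] at this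
      exact_mod_cast this.symm.trans χ.2.cast_charDegree.symm
    by_cases h6 : ∀ ξ, ξ ≠ oneIrr A → m ξ = 0
    · rw [Finset.sum_eq_single (oneIrr A) (fun ξ _ a => by simp [h6 ξ a]) (by simp)] at h3
      exact hfaith y ((congrFun h3 ⟨y, mem_zpowers y⟩).trans (congrFun h3 1).symm)
    push Not at h6
    obtain ⟨ξ, a, b⟩ := h6
    have c := Nat.le_of_dvd (Nat.pos_of_ne_zero b) (h2 ξ a)
    have d : m ξ = p := by
      obtain ⟨t, e⟩ := h2 ξ a
      have := Finset.single_le_sum (f := m) (fun _ _ => Nat.zero_le _) (Finset.mem_univ ξ)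
      have : t < 2 := by nlinarith
      interval_cases t <;> simp_all
    rw [Finset.sum_eq_add ξ (oneIrr A) a (fun η _ e => by
      by_cases f : m η = 0
      · simp [f]
      have := Nat.le_of_dvd (Nat.pos_of_ne_zero f) (h2 η e.2)
      have := Finset.add_le_sum (f := m) (fun _ _ => Nat.zero_le _) (Finset.mem_univ ξ) (Finset.mem_univ η) e.1.symm
      omega) (by simp) (by simp), d] at h3
    obtain ⟨δ, e⟩ := χ.2.isCharacter.exists_det
    obtain ⟨i, f⟩ := Lin.exists_of_irr ξ.2
    refine (a (Subtype.ext (funext fun x => ?_))).elim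
    have g := χ.2.isCharacter.detChar_res A x
    rw [h3, (ξ.2.isCharacter.natCast_smul _).detChar_add ((oneIrr A).2.isCharacter.natCast_smul _),
      ξ.2.isCharacter.detChar_natCast_smul, (oneIrr A).2.isCharacter.detChar_natCast_smul,
      ξ.2.isCharacter.detChar_of_degree_one (h4 _), (oneIrr A).2.isCharacter.detChar_of_degree_one (h4 _), e] at g
    have h7 : δ x = 1 := Abelianization.commutator_subset_ker δ (hperf.ge (mem_top _))
    have h8 : i x ^ p = 1 := by simpa [h7, f, oneIrr] using g
    have h9 : i x ^ Nat.card A = 1 := by rw [← map_pow, pow_card_eq_one', map_one]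
    rw [f]
    exact (pow_eq_one_iff_of_coprime ((Nat.Prime.coprime_iff_not_dvd hp).2 hA)).1 ⟨h8, h9⟩
  intro c
  refine ⟨(orderOf (c : G)).factorization p, Subtype.ext (key _ (pow_mem c.2 _) ?_)⟩
  rw [coe_pow, orderOf_pow' _ (pow_ne_zero _ hp.ne_zero), Nat.gcd_eq_right (Nat.ordProj_dvd _ _)]
  exact Nat.not_dvd_ordCompl hp (orderOf_pos _).ne'

end Cfsg.Agent.S4729
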