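import Cfsg.Statements.S4730
import Cfsg.Agent.B.Fong

set_option autoImplicit false
open Cfsg

namespace Cfsg.Agent.S4730

open Cfsg.Agent Cfsg.Agent.B Cfsg.Agent.H2 Cfsg.Agent.H3 Cfsg.Agent.L Subgroup MonoidAlgebra
open scoped Pointwise commutatorElement

/-- Let p be a prime, M a maximal ideal of the algebraic integers containing p, and G a finite group with trivial centre, Sylow p-subgroup P of order p^a and centre Z(P) of order p^b. If χ is a faithful irreducible character of G whose degree is a power of p, then the p-block of χ has defect at most a − b; in particular, if P is abelian then χ lies in a block of defect zero. -/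
theorem result {G : Type*} [Group G] [Finite G] (p : ℕ) [Fact p.Prime] (M : Ideal Cfsg.AlgInt) (hM : Cfsg.IsPModular p M) (hZ : Subgroup.center G = ⊥) (P : Sylow p G) (a b : ℕ) (ha : Nat.card P = p ^ a) (hb : Nat.card (Subgroup.center ↥(P : Subgroup G)) = p ^ b) (χ : Cfsg.IrrCharacter G) (hfaith : ∀ g : G, (χ : G → ℂ) g = (χ : G → ℂ) 1 → g = 1) (n : ℕ) (hdeg : Cfsg.charDegree (χ : G → ℂ) = p ^ n) : Cfsg.blockDefect p (Cfsg.blockOf M (χ : G → ℂ)) ≤ a - b ∧ (IsMulCommutative ↥(P : Subgroup G) → Cfsg.blockDefect p (Cfsg.blockOf M (χ : G → ℂ)) = 0) := by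
  have : PMod p M := ⟨hM⟩
  classical
  haveI : Fintype (center (P : Subgroup G)) := Fintype.ofFinite _
  have hB := isPBlock_blockOf (M := M) χ
  obtain ⟨ψ, hψ, h0⟩ := exists_height_zero p (IsPBlock.nonempty hB)
  let f : center (P : Subgroup G) →* G := (P : Subgroup G).subtype.comp (center (P : Subgroup G)).subtype
  have hidx : ∀ z : center (P : Subgroup G), ¬ p ∣ (centralizer ({f z} : Set G)).index := by
    intro z h
    refine P.not_dvd_index (h.trans (index_dvd_of_le fun y hy => ?_))
    rintro _ rfl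
    exact (congrArg Subtype.val (mem_center_iff.1 z.2 ⟨y, hy⟩)).symm
  have h1 : ∀ z : center (P : Subgroup G), z ≠ 1 → (ψ : G → ℂ) (f z) / (ψ : G → ℂ) 1 ∈ O M ∧
      red M ((ψ : G → ℂ) (f z) / (ψ : G → ℂ) 1) = 0 := by
    intro z hz
    have h2 : (χ : G → ℂ) (f z) = 0 := by
      refine (χ.2.eq_zero_or_mem_charCenter (f z) ?_).resolve_right fun h => hz ?_
      · rw [hdeg]
        exact Nat.Coprime.pow_left _ ((Nat.Prime.coprime_iff_not_dvd Fact.out).2 (hidx z))
      · rw [χ.2.charCenter_eq_center (eq_bot_iff.2 fun g hg => hfaith g (apply_of_mem_charKer hg)), hZ] at h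
        exact Subtype.ext (Subtype.ext h)
    have h3 := congrArg (fun l => l (cls (F M) (f z))) (IsPBlock.lam_eq hB (self_mem_blockOf χ) hψ)
    rw [lam_cls χ.2.isClassFunction, lam_cls ψ.2.isClassFunction, ← om_cls χ.2.isClassFunction, om_apply,
      ev_cls χ.2.isClassFunction, h2, mul_zero, zero_div, red_zero] at h3
    have h4 := centralChar_mem_O (M := M) ψ.2 (f z)
    have h5 : (ψ : G → ℂ) (f z) / (ψ : G → ℂ) 1 = centralChar (ψ : G → ℂ) (f z) *
        ((centralizer ({f z} : Set G)).index : ℂ)⁻¹ := by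
      rw [← om_cls ψ.2.isClassFunction, om_apply, ev_cls ψ.2.isClassFunction]
      have : ((centralizer ({f z} : Set G)).index : ℂ) ≠ 0 := Nat.cast_ne_zero.2 index_ne_zero_of_finite
      field_simp
    have h6 := inv_natCast_mem_O (M := M) (hidx z)
    rw [h5, red_mul h4 h6, ← h3, zero_mul]
    exact ⟨mul_mem h4 h6, rfl⟩
  obtain ⟨m, hm⟩ := (ψ.2.isCharacter.comp f).exists_nat_inner isCharacter_one
  have h2 : ((p ^ b * m : ℕ) : ℂ) / (charDegree (ψ : G → ℂ) : ℕ) =
      ∑ z : center (P : Subgroup G), (ψ : G → ℂ) (f z) / (ψ : G → ℂ) 1 := by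
    rw [Nat.cast_mul, ← hb, ← hm, card_mul_classInner, ψ.2.cast_charDegree, Finset.sum_div]
    simp
  have h3 : red M (((p ^ b * m : ℕ) : ℂ) / (charDegree (ψ : G → ℂ) : ℕ)) = 1 := by
    rw [h2, red_sum, Finset.sum_eq_single 1 (fun z _ hz => (h1 z hz).2) (by simp), map_one,
      div_self ψ.2.apply_one_ne_zero, red_one]
    intro z _
    by_cases hz : z = 1
    · rw [hz, map_one, div_self ψ.2.apply_one_ne_zero]
      exact one_mem _
    · exact (h1 z hz).1
  have h4 := factorization_eq_of_red_natDiv (M := M) ψ.2.charDegree_pos.ne' (by rw [h3]; exact one_ne_zero)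
  have hm0 : m ≠ 0 := by
    rintro rfl
    simp at h3
  rw [Nat.factorization_mul (pow_ne_zero _ (Fact.out : p.Prime).ne_zero) hm0, Finsupp.add_apply,
    Nat.Prime.factorization_pow Fact.out, Finsupp.single_eq_same] at h4
  have h5 := nu_add_blockDefect (p := p) hψ
  have h6 : (Nat.card G).factorization p = a := by
    have := P.card_eq_multiplicity
    rw [ha] at this
    exact (Nat.pow_right_injective (Fact.out : p.Prime).two_le this).symm
  unfold nu at h5
  refine ⟨by omega, fun hc => ?_⟩
  have h7 : b = a := by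
    rw [center_eq_top_iff.2 hc, card_top] at hb
    exact Nat.pow_right_injective (Fact.out : p.Prime).two_le (hb.symm.trans ha)
  omega

end Cfsg.Agent.S4730
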