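import Cfsg.Statements.S4733
import Cfsg.Agent.B.Rank2

set_option autoImplicit false
open Cfsg

namespace Cfsg.Agent.S4733

open Cfsg.Agent Cfsg.Agent.B Cfsg.Agent.H2 Cfsg.Agent.H3 Cfsg.Agent.L Subgroup MonoidAlgebra
open scoped Pointwise commutatorElement

/-- Let p be a prime, M a maximal ideal of the algebraic integers containing p, and B a p-block of the finite group G with k irreducible characters and p-regular rank l (the number of irreducible Brauer characters). Then l ≤ k, and the following are equivalent: B has defect 0; k = l = 1; k = l. -/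
theorem result {G : Type*} [Group G] [Finite G] (p : ℕ) [Fact p.Prime] (M : Ideal Cfsg.AlgInt) (hM : Cfsg.IsPModular p M) (B : Set (Cfsg.IrrCharacter G)) (hB : Cfsg.IsPBlock M B) : Cfsg.blockRank p B ≤ Nat.card B ∧ (Cfsg.blockDefect p B = 0 ↔ (Nat.card B = 1 ∧ Cfsg.blockRank p B = 1)) ∧ (Cfsg.blockDefect p B = 0 ↔ Nat.card B = Cfsg.blockRank p B) := by
  have : PMod p M := ⟨hM⟩
  have h1 : blockDefect p B = 0 → Nat.card B = 1 ∧ blockRank p B = 1 := fun h => by
    obtain ⟨χ, hχ⟩ := hB.nonempty
    rw [hB.eq_singleton h hχ]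
    exact ⟨by simp, blockRank_singleton χ⟩
  have h2 : Nat.card B = blockRank p B → blockDefect p B = 0 := fun h => hB.defect_eq_zero_of_rank h
  exact ⟨blockRank_le B, ⟨h1, fun h => h2 (h.1.trans h.2.symm)⟩,
    ⟨fun h => (h1 h).1.trans (h1 h).2.symm, h2⟩⟩

end Cfsg.Agent.S4733
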