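import Cfsg.Statements.S4734
import Cfsg.Agent.B.Ker

set_option autoImplicit false
open Cfsg

namespace Cfsg.Agent.S4734

open Cfsg.Agent Cfsg.Agent.B Cfsg.Agent.H2 Cfsg.Agent.H3 Cfsg.Agent.L Subgroup MonoidAlgebra
open scoped Pointwise commutatorElement

/-- Let p be a prime, π a set of primes containing p, M a maximal ideal of the algebraic integers containing p, B a p-block of the finite group G with defect group D, and B₁ the block of N_G(D) with defect group D inducing B. Write O_π'(X) for the largest normal subgroup of X whose order has no prime divisor in π, and suppose every element of O_π'(N_G(D)) lies in the kernel of every member of B₁. Let G₀ be a subgroup and B₀ a block of G₀ with defect group D₀ such that C_G(D₀) ≤ G₀ and B₀ induces B. Then every element of O_π'(G₀) lies in the kernel of every member of B₀. -/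
theorem result {G : Type*} [Group G] [Finite G] (p : ℕ) [Fact p.Prime] (M : Ideal Cfsg.AlgInt) (hM : Cfsg.IsPModular p M) (π : Set ℕ) (hpπ : p ∈ π) (B : Set (Cfsg.IrrCharacter G)) (hB : Cfsg.IsPBlock M B) (D : Subgroup G) (hBD : Cfsg.IsDefectGroup p M B D) (B₁ : Set (Cfsg.IrrCharacter ↥(Subgroup.normalizer (D : Set G)))) (hB₁ : Cfsg.IsInducedBlock M (Subgroup.normalizer (D : Set G)) B₁ B) (hB₁D : Cfsg.IsDefectGroup p M B₁ (D.subgroupOf (Subgroup.normalizer (D : Set G)))) (hker : ∀ n : ↥(Subgroup.normalizer (D : Set G)), n ∈ Cfsg.piCore {q | q ∉ π} ↥(Subgroup.normalizer (D : Set G)) → n ∈ Cfsg.blockKer B₁) (G₀ : Subgroup G) (B₀ : Set (Cfsg.IrrCharacter ↥G₀)) (hB₀ : Cfsg.IsInducedBlock M G₀ B₀ B) (D₀ : Subgroup ↥G₀) (hD₀ : Cfsg.IsDefectGroup p M B₀ D₀) (hC : Subgroup.centralizer ((D₀.map G₀.subtype : Subgroup G) : Set G) ≤ G₀) : ∀ x : ↥G₀, x ∈ Cfsg.piCore {q | q ∉ π} ↥G₀ → x ∈ Cfsg.blockKer B₀ := by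
  have : PMod p M := ⟨hM⟩
  have hρ : p ∉ {q | q ∉ π} := fun h => h hpπ
  obtain ⟨e, he, h1⟩ := exists_mp_kerPi hBD hB₁ hρ hker
  have hD := hB₀.1.isDefectGroup_iff_map.1 hD₀
  have h2 := hB₀.br_mul hD.pgrp hD.le hC
  obtain ⟨β, hβ, h3⟩ := hB₀.1.isBI.exists_bp hD.le hD.pgrp hD.br
  have e : CH G₀ (D₀.map G₀.subtype) = CH ⊤ (D₀.map G₀.subtype) := by
    rw [CH_top, CH, inf_eq_right.2 hC]
  have h4 := he.kerPi_of_pair hρ h1 (hβ.congr e le_top) (by rw [← h3, ← mul_assoc, h2])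
  rw [← kerPi_iff hB₀.1 hρ]
  exact KerPi.of_br hρ hB₀.1.isBI hD.pgrp (hD.le.trans le_normalizer)
    (fix_anti hD.le hB₀.1.isBI.fx) h3 hβ.bi.ne (e ▸ h4)

end Cfsg.Agent.S4734
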