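import Cfsg.Statements.S4735
import Cfsg.Agent.B.Fong
import Cfsg.Agent.C3.Canon

set_option autoImplicit false
open Cfsg

namespace Cfsg.Agent.S4735

open Cfsg.Agent Cfsg.Agent.B Cfsg.Agent.H2 Cfsg.Agent.H3 Cfsg.Agent.L Cfsg.Agent.C3 Subgroup MonoidAlgebra
open scoped Pointwise commutatorElement

/-- Let p be a prime, M a maximal ideal of the algebraic integers containing p, G a finite group, H = O_p'(G) and Ḡ = G/H. For x ∈ G write λ(G, x) for the sum of |χ(x)|^2 over the irreducible characters χ in the principal p-block of G. Then λ(G, x) is a positive integer, λ(G, x) = λ(Ḡ, x̄) where x̄ is the image of x, and λ(G, x) ≤ #C_Ḡ(x̄). Moreover λ(G, 1) = [G : H] if and only if the principal block is the only p-block of Ḡ. -/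
theorem result {G : Type*} [Group G] [Finite G] (p : ℕ) [Fact p.Prime] (M : Ideal Cfsg.AlgInt) (hM : Cfsg.IsPModular p M) (x : G) : (∃ n : ℕ, 0 < n ∧ ∑ᶠ χ ∈ Cfsg.principalBlock M G, Complex.normSq ((χ : G → ℂ) x) = n) ∧ ∑ᶠ χ ∈ Cfsg.principalBlock M G, Complex.normSq ((χ : G → ℂ) x) = ∑ᶠ ψ ∈ Cfsg.principalBlock M (G ⧸ Cfsg.pPrimeCore p G), Complex.normSq ((ψ : G ⧸ Cfsg.pPrimeCore p G → ℂ) (QuotientGroup.mk x)) ∧ ∑ᶠ χ ∈ Cfsg.principalBlock M G, Complex.normSq ((χ : G → ℂ) x) ≤ (Nat.card ↥(Subgroup.centralizer ({(QuotientGroup.mk x : G ⧸ Cfsg.pPrimeCore p G)} : Set (G ⧸ Cfsg.pPrimeCore p G))) : ℝ) ∧ ((∑ᶠ χ ∈ Cfsg.principalBlock M G, Cfsg.charDegree (χ : G → ℂ) ^ 2) = (Cfsg.pPrimeCore p G).index ↔ ∀ B : Set (Cfsg.IrrCharacter (G ⧸ Cfsg.pPrimeCore p G)), Cfsg.IsPBlock M B → B = Cfsg.principalBlock M (G ⧸ Cfsg.pPrimeCore p G)) := by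
  have : PMod p M := ⟨hM⟩
  classical
  haveI : Fintype G := Fintype.ofFinite G
  set N := pPrimeCore p G with hN
  have hf := QuotientGroup.mk'_surjective N
  have hk : ¬ p ∣ Nat.card (QuotientGroup.mk' N).ker := by
    rw [QuotientGroup.ker_mk']
    exact (Nat.Prime.coprime_iff_not_dvd Fact.out).1 (H8.Opp_top p (G := G) ▸ H8.Opp_coprime p ⊤).symm
  have hb : principalBlock M G = infl _ hf '' principalBlock M (G ⧸ N) := by
    have h1 : ∀ ψ, infl _ hf ψ ∈ principalBlock M G ↔ ψ ∈ principalBlock M (G ⧸ N) := fun ψ => by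
      rw [IsPBlock.mem_iff isPBlock_principal oneIrr_mem, IsPBlock.mem_iff isPBlock_principal oneIrr_mem,
        ← lam_infl_eq_iff_of_not_dvd _ hf hk]
      rfl
    ext χ
    refine ⟨fun h => ?_, ?_⟩
    · obtain ⟨ψ, rfl⟩ := exists_infl_eq _ hf (le_charKer_of_mem_principal hk h)
      exact ⟨ψ, (h1 ψ).1 h, rfl⟩
    · rintro ⟨ψ, h, rfl⟩
      exact (h1 ψ).2 h
  have h2 : ∑ᶠ χ ∈ principalBlock M G, Complex.normSq ((χ : G → ℂ) x) =
      ∑ᶠ ψ ∈ principalBlock M (G ⧸ N), Complex.normSq ((ψ : G ⧸ N → ℂ) (QuotientGroup.mk x)) := by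
    rw [hb, finsum_mem_image (infl_injective _ hf).injOn]
    rfl
  refine ⟨?_, h2, ?_, ?_⟩
  · rw [finsum_mem_eq_ite]
    have h3 : ((∑ χ : IrrCharacter G, if χ ∈ principalBlock M G then Complex.normSq ((χ : G → ℂ) x) else 0 : ℝ) : ℂ) =
        ∑ χ : IrrCharacter G, if χ ∈ principalBlock M G then (χ : G → ℂ) x * (χ : G → ℂ) x⁻¹ else 0 := by
      push_cast
      refine Finset.sum_congr rfl fun χ _ => ?_
      split_ifs
      · rw [χ.2.apply_inv, Complex.mul_conj]
      · rfl
    obtain ⟨n, hn⟩ := exists_int_of_fixed (x := ∑ χ : IrrCharacter G,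
        if χ ∈ principalBlock M G then (χ : G → ℂ) x * (χ : G → ℂ) x⁻¹ else 0) (IsIntegral.sum _ fun χ _ => by
      split_ifs
      · exact (χ.2.isCharacter.isIntegral _).mul (χ.2.isCharacter.isIntegral _)
      · exact isIntegral_zero) fun σ => by
      obtain ⟨k, hk, h⟩ := exists_pow_galois G σ.toRingHom
      have hbij : Function.Bijective (sg hk : IrrCharacter G → _) :=
        Finite.injective_iff_bijective.1 (sg_injective hk)
      have h4 : ∀ χ, sg hk χ ∈ principalBlock M G ↔ χ ∈ principalBlock M G := by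
        have := Set.Finite.eq_of_subset_of_encard_le (s := principalBlock M G) (t := sg hk ⁻¹' principalBlock M G)
          (Set.toFinite _) (fun χ => sg_mem_principal hk) (Set.encard_preimage_of_bijective hbij _).le
        exact fun χ => (Set.ext_iff.1 this χ).symm
      rw [map_sum]
      conv_rhs => rw [← hbij.sum_comp]
      refine Finset.sum_congr rfl fun χ _ => ?_
      simp only [h4]
      split_ifs
      · rw [map_mul, sg_apply, sg_apply]
        exact congrArg₂ (· * ·) (h _ χ.2.isGen _) (h _ χ.2.isGen _)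
      · exact map_zero σ
    rw [← h3] at hn
    have h5 : (∑ χ : IrrCharacter G, if χ ∈ principalBlock M G then Complex.normSq ((χ : G → ℂ) x) else 0 : ℝ) = n := by
      exact_mod_cast hn
    have h6 : (0 : ℝ) < n := by
      rw [← h5]
      refine Finset.sum_pos' (fun χ _ => ?_) ⟨oneIrr G, Finset.mem_univ _, ?_⟩
      · split_ifs
        · exact Complex.normSq_nonneg _
        · exact le_rfl
      · rw [if_pos oneIrr_mem]
        change 0 < Complex.normSq 1
        simp
    obtain ⟨m, rfl⟩ := Int.eq_ofNat_of_zero_le (show 0 ≤ n by exact_mod_cast h6.le)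
    exact ⟨m, by exact_mod_cast h6, by convert h5; simp⟩
  · rw [h2, ← sum_irr_norm_sq, finsum_mem_eq_ite]
    refine Finset.sum_le_sum fun χ _ => ?_
    split_ifs
    · rw [Complex.normSq_eq_norm_sq]
    · positivity
  · rw [hb, finsum_mem_image (infl_injective _ hf).injOn, finsum_mem_eq_ite, index_eq_card, ← sum_irr_charDegree_sq]
    have h3 : ∀ ψ : IrrCharacter (G ⧸ N), charDegree (infl _ hf ψ : G → ℂ) = charDegree (ψ : G ⧸ N → ℂ) :=
      fun ψ => charDegree_eq (by rw [infl_apply, map_one, ψ.2.cast_charDegree])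
    simp only [h3]
    constructor
    · intro h B hB
      obtain ⟨χ, hχ⟩ := IsPBlock.nonempty hB
      refine IsPBlock.eq_of_mem hB isPBlock_principal hχ ?_
      by_contra h4
      refine (Finset.sum_lt_sum (fun ψ _ => ?_) ⟨χ, Finset.mem_univ _, ?_⟩).ne h
      · split_ifs
        · exact le_rfl
        · exact Nat.zero_le _
      · rw [if_neg h4]
        exact pow_pos χ.2.charDegree_pos 2
    · intro h
      exact Finset.sum_congr rfl fun ψ _ => if_pos (h _ (isPBlock_blockOf ψ) ▸ self_mem_blockOf ψ)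

end Cfsg.Agent.S4735
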