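import Cfsg.Statements.S4736
import Cfsg.Agent.B.Ito
import Cfsg.Agent.S4439

set_option autoImplicit false
open Cfsg

namespace Cfsg.Agent.S4736

open Cfsg.Agent Cfsg.Agent.B Cfsg.Agent.H2 Cfsg.Agent.H3 Cfsg.Agent.L Subgroup MonoidAlgebra
open scoped Pointwise commutatorElement

/-- Let p be a prime, M a maximal ideal of the algebraic integers containing p, and G a finite p-solvable group with Sylow p-subgroup P. Then P is abelian if and only if every irreducible character in the principal p-block of G has height zero. -/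
theorem result {G : Type*} [Group G] [Finite G] (p : ℕ) [Fact p.Prime] (M : Ideal Cfsg.AlgInt) (hM : Cfsg.IsPModular p M) (hsolv : Cfsg.IsPSolvable p G) (P : Sylow p G) : IsMulCommutative P ↔ ∀ χ ∈ Cfsg.principalBlock M G, Cfsg.blockHeight p (Cfsg.principalBlock M G) (χ : G → ℂ) = 0 := by
  have : PMod p M := ⟨hM⟩
  refine ⟨fun h χ hχ => ?_, fun h => ?_⟩
  · have h1 := S4439.result p M hM hsolv _ isPBlock_principal P (isDefectGroup_principal_iff.2 (sylIn_top P)) χ hχ
    rwa [center_eq_top_iff.2 h, index_top, Nat.factorization_one, Finsupp.zero_apply, Nat.le_zero] at h1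
  have := Fintype.ofFinite (pPrimeCore p G)
  have hf := QuotientGroup.mk'_surjective (pPrimeCore p G)
  obtain ⟨h1, -⟩ := fong_block (M := M) rfl (H8.PLay_top_eq_bot_of_isPSolvable hsolv) (θ := oneIrr _)
    (fun g => rfl) (B := {χ | _}) fun _ => Iff.rfl
  have h2 := h1.eq_of_mem isPBlock_principal (χ := oneIrr G) ((oneIrr G).2.le_charKer_iff.1 fun x _ =>
    (oneIrr G).2.mem_charKer_iff.2 rfl) oneIrr_mem
  have h3 := (sylIn_top P).map (QuotientGroup.mk' (pPrimeCore p G))
  rw [map_top_of_surjective _ hf] at h3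
  have h4 := ((ito_iff (H9.pSolv_map _ hf hsolv) h3).2 fun χ hχ => by
    have h4 : infl _ hf χ ∈ principalBlock M G := h2 ▸ (infl _ hf χ).2.le_charKer_iff.1 fun x hx =>
      (infl _ hf χ).2.mem_charKer_iff.2 (by simp [infl_apply, (QuotientGroup.eq_one_iff x).2 hx])
    have h5 := (blockHeight_eq_zero_iff ⟨_, h4⟩).1 (h _ h4) _ oneIrr_mem
    rw [show nu p (oneIrr G).1 = 0 from Nat.factorization_eq_zero_of_not_dvd (by
      rw [show charDegree (oneIrr G).1 = 1 from Nat.cast_injective (R := ℂ) (by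
        rw [(oneIrr G).2.cast_charDegree, Nat.cast_one]; rfl), Nat.dvd_one]
      exact (Fact.out : p.Prime).ne_one), Nat.le_zero] at h5
    exact ((Fact.out : p.Prime).factorization_pos_of_dvd χ.2.charDegree_pos.ne' hχ).ne' h5).2
  refine ⟨⟨fun a b => Subtype.ext ?_⟩⟩
  have h5 := congrArg Subtype.val (mul_comm' (⟨_, mem_map_of_mem _ b.2⟩ : (P : Subgroup G).map (QuotientGroup.mk' (pPrimeCore p G)))
    ⟨_, mem_map_of_mem _ a.2⟩)
  have h6 := (pElt_of_mem P.2 ((b * a)⁻¹ * (a * b)).2).eq_one (reg_of_mem ((Fact.out : p.Prime).coprime_iff_not_dvd.1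
    (L.pPrimeCore_coprime p).symm) (QuotientGroup.eq.1 h5))
  exact (inv_mul_eq_one.1 h6).symm

end Cfsg.Agent.S4736
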