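import Cfsg.Statements.S4955
import Cfsg.Agent.C3.Deg
import Cfsg.Agent.H1.Misc

set_option autoImplicit false
open Cfsg

namespace Cfsg.Agent.S4955

open H3 C3 Finset Subgroup

/-- Let X be a finite group with an abelian normal Sylow p-subgroup V (a normal p-subgroup of index prime to p in which any two elements commute), and let G be a complement to V in X. Then for every v in V, writing C for the centralizer of v in G, the number k(X) of conjugacy classes of X satisfies k(X) ≤ (order of C)·(order of V) − ((order of G) − k(G)); the statement is written with the subtracted term moved to the left. In particular, if some v in V is centralized by no nonidentity element of G, then k(X) is at most the order of V. -/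
theorem result {X : Type*} [Group X] [Finite X] (p : ℕ) [Fact p.Prime] (V : Subgroup X) [V.Normal] (hVp : IsPGroup p V) (hidx : ¬ p ∣ V.index) (hab : ∀ a ∈ V, ∀ b ∈ V, a * b = b * a) (G : Subgroup X) (hGV : Subgroup.IsComplement' V G) (v : X) (hv : v ∈ V) : Nat.card (ConjClasses X) + Nat.card G ≤ Nat.card ↥(G ⊓ Subgroup.centralizer ({v} : Set X)) * Nat.card V + Nat.card (ConjClasses G) := by
  classical
  have hp : p.Prime := Fact.out
  have a := card_le_sum_irr (univ.filter fun χ : IrrCharacter X => ¬ V ≤ charKer χ.1) v
    (fun σ χ a => by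
      simp only [mem_filter, mem_univ, true_and] at a ⊢
      exact fun b => a fun x c => mem_charKer.2 fun y => σ.injective (mem_charKer.1 (b c) y))
    fun χ _ b => by
      obtain ⟨M, hM⟩ := exists_isPModular hp
      obtain ⟨j, hj⟩ := hVp ⟨v, hv⟩
      have := χ.2.isGen.inM_sub hM (Commute.one_right v) (k := j) (congrArg Subtype.val hj)
      rw [mul_one, b, zero_sub, ← χ.2.cast_charDegree] at this
      exact hidx (((inM_nat_iff hM).1 (by simpa using this.neg)).trans (χ.2.degree_dvd_index_of_comm hab))
  have b := sum_irr_norm_sq v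
  have e : X ⧸ V ≃* G := (H1.nonempty_equiv_quotient (by rw [inf_comm]; exact hGV.disjoint.eq_bot)
    (by rw [sup_comm]; exact hGV.sup_eq_top)).some.symm
  have c : ∑ χ ∈ univ.filter (fun χ : IrrCharacter X => V ≤ charKer χ.1), ‖χ.1 v‖ ^ 2 = Nat.card G := by
    rw [← Nat.card_congr e.toEquiv, ← sum_irr_charDegree_sq, sum_subtype (p := fun χ : IrrCharacter X =>
      V ≤ charKer χ.1) _ (by simp), ← (irrQuotEquiv V).sum_comp, Nat.cast_sum]
    refine sum_congr rfl fun φ _ => ?_
    rw [apply_of_mem_charKer ((irrQuotEquiv V φ).2 hv), ← (irrQuotEquiv V φ).1.2.cast_charDegree]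
    simp only [Complex.norm_natCast, Nat.cast_pow]; rfl
  rw [← sum_filter_add_sum_filter_not _ (fun χ : IrrCharacter X => V ≤ charKer χ.1), c] at b
  have d := card_irr_split fun χ : IrrCharacter X => V ≤ charKer χ.1
  rw [card_irr_le_charKer, card_conjClasses_congr e, card_irr_eq_card_conjClasses,
    Nat.card_eq_fintype_card (α := {χ // _}), Fintype.card_subtype] at d
  have f : Nat.card (centralizer ({v} : Set X)) = Nat.card ↥(G ⊓ centralizer ({v} : Set X)) * Nat.card V := by
    have i : V ≤ centralizer ({v} : Set X) := fun x i => mem_centralizer_singleton_iff.2 (hab x i v hv)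
    rw [← H1.card_sup_of_disjoint le_normalizer_of_normal (le_bot_iff.1 ((inf_le_inf_right _ inf_le_left).trans
      hGV.symm.disjoint.le_bot)), ← H1.sup_inf_assoc_norm' le_normalizer_of_normal i, hGV.symm.sup_eq_top,
      top_inf_eq]
  rw [← f, ← d]
  rify; linarith

end Cfsg.Agent.S4955
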