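import Cfsg.Statements.S4956
import Mathlib
import Cfsg.Agent.S1496

set_option autoImplicit false
open Cfsg

namespace Cfsg.Agent.S4956

/-- Let X be a finite group, V an abelian normal subgroup of X (any two elements of V commute) and G a complement to V in X whose order is coprime to that of V. Let S be a set of representatives of the orbits of G on V under conjugation: S lies in V and every element of V is conjugate under G to exactly one member of S. Then the number of conjugacy classes of X equals the sum, over s in S, of the number of conjugacy classes of the centralizer of s in G. -/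
theorem result {X : Type*} [Group X] [Finite X] (V : Subgroup X) [V.Normal] (hab : ∀ a ∈ V, ∀ b ∈ V, a * b = b * a) (G : Subgroup X) (hGV : Subgroup.IsComplement' V G) (hcop : (Nat.card V).Coprime (Nat.card G)) (S : Finset X) (hSV : ∀ s ∈ S, s ∈ V) (hrep : ∀ v ∈ V, ∃! s, s ∈ S ∧ ∃ g ∈ G, g * v * g⁻¹ = s) : Nat.card (ConjClasses X) = ∑ s ∈ S, Nat.card (ConjClasses ↥(G ⊓ Subgroup.centralizer ({s} : Set X))) := by
  classical
  have hdis : ∀ x, x ∈ V → x ∈ G → x = 1 := by
    intro x h1 h2
    have : x ∈ V ⊓ G := ⟨h1, h2⟩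
    rw [hGV.disjoint.eq_bot] at this
    exact this
  have hdec : ∀ x : X, ∃ v ∈ V, ∃ g ∈ G, x = v * g := by
    intro x
    obtain ⟨⟨v, g⟩, h⟩ := hGV.2 x
    exact ⟨v, v.2, g, g.2, h.symm⟩
  let C : X → Subgroup X := fun s => G ⊓ Subgroup.centralizer ({s} : Set X)
  have hC : ∀ s g, g ∈ C s ↔ g ∈ G ∧ s * g = g * s := by
    intro s g
    simp only [C, Subgroup.mem_inf, Subgroup.mem_centralizer_iff, Set.mem_singleton_iff, forall_eq]
  let f : ∀ s : X, ConjClasses (C s) → ConjClasses X := fun s =>
    Quotient.lift (s := IsConj.setoid (C s)) (fun g : C s => ConjClasses.mk (s * (g : X))) (by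
      intro a b hab'
      obtain ⟨c, hc⟩ := isConj_iff.1 (hab' : IsConj a b)
      apply ConjClasses.mk_eq_mk_iff_isConj.2
      refine isConj_iff.2 ⟨(c : X), ?_⟩
      have h1 := ((hC s c).1 c.2).2
      have h2 : (c : X) * a * (c : X)⁻¹ = b := by
        have := congrArg (fun z : C s => (z : X)) hc
        simpa using this
      rw [← h2]
      calc (c : X) * (s * a) * (c : X)⁻¹ = ((c : X) * s) * a * (c : X)⁻¹ := by group
        _ = (s * c) * a * (c : X)⁻¹ := by rw [h1]
        _ = _ := by group)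
  have hf : ∀ s (g : C s), f s (ConjClasses.mk g) = ConjClasses.mk (s * (g : X)) := fun s g => rfl
  let F : (Σ s : S, ConjClasses (C s)) → ConjClasses X := fun p => f p.1 p.2
  obtain ⟨N, hN1, hN2⟩ : ∃ N : ℕ, N ≡ 1 [MOD Nat.card V] ∧ N ≡ 0 [MOD Nat.card G] :=
    ⟨_, (Nat.chineseRemainder hcop 1 0).2⟩
  have hpV : ∀ v ∈ V, v ^ N = v := by
    intro v hv
    have h1 : orderOf v ∣ Nat.card V := Subgroup.orderOf_dvd_natCard V hv
    have := pow_eq_pow_iff_modEq.2 (hN1.of_dvd h1)
    simpa using this
  have hpG : ∀ v ∈ G, v ^ N = 1 := by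
    intro v hv
    have h1 : orderOf v ∣ Nat.card G := Subgroup.orderOf_dvd_natCard G hv
    have := pow_eq_pow_iff_modEq.2 (hN2.of_dvd h1)
    simpa using this
  have hF : Function.Bijective F := by
    constructor
    · rintro ⟨s, a⟩ ⟨t, b⟩ h
      obtain ⟨a, rfl⟩ := ConjClasses.mk_surjective a
      obtain ⟨b, rfl⟩ := ConjClasses.mk_surjective b
      have h' : ConjClasses.mk ((s : X) * (a : X)) = ConjClasses.mk ((t : X) * (b : X)) := h
      obtain ⟨x, hx⟩ := isConj_iff.1 (ConjClasses.mk_eq_mk_iff_isConj.1 h')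
      obtain ⟨ha1, ha2⟩ := (hC s a).1 a.2
      obtain ⟨hb1, hb2⟩ := (hC t b).1 b.2
      have hsV := hSV s s.2
      have htV := hSV t t.2
      have e1 : x * s * x⁻¹ = t := by
        have h3 := congrArg (fun z => z ^ N) hx
        simp only [conj_pow] at h3
        rw [Commute.mul_pow (show Commute (s : X) a from ha2),
          Commute.mul_pow (show Commute (t : X) b from hb2), hpV _ hsV, hpV _ htV, hpG _ ha1,
          hpG _ hb1] at h3
        simpa using h3
      have e2 : x * a * x⁻¹ = b := by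
        have : (t : X) * (x * a * x⁻¹) = t * b := by
          rw [← hx, ← e1]; group
        exact mul_left_cancel this
      obtain ⟨v, hv, g, hg, rfl⟩ := hdec x
      have hgs : g * s * g⁻¹ ∈ V := Subgroup.Normal.conj_mem inferInstance _ hsV g
      have e3 : g * s * g⁻¹ = t := by
        rw [← e1]
        have := hab v hv _ hgs
        calc g * s * g⁻¹ = (g * s * g⁻¹) * v * v⁻¹ := by group
          _ = v * (g * s * g⁻¹) * v⁻¹ := by rw [this]
          _ = _ := by group
      have hst : s = t := by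
        obtain ⟨u, -, hu⟩ := hrep s hsV
        apply Subtype.ext
        rw [hu s ⟨s.2, 1, G.one_mem, by simp⟩, hu t ⟨t.2, g, hg, e3⟩]
      subst hst
      have hgC : g ∈ C s := (hC s g).2 ⟨hg, by
        calc (s : X) * g = (g * s * g⁻¹) * g := by rw [e3]
          _ = g * s := by group⟩
      have e4 : g * a * g⁻¹ = b := by
        have hm : g * a * g⁻¹ ∈ G := G.mul_mem (G.mul_mem hg ha1) (G.inv_mem hg)
        have h5 : (b : X) * (g * a * g⁻¹)⁻¹ = 1 := by
          apply hdis
          · have : (b : X) * (g * a * g⁻¹)⁻¹ = v * ((g * a * g⁻¹) * v⁻¹ * (g * a * g⁻¹)⁻¹) := by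
              rw [← e2]; group
            rw [this]
            exact V.mul_mem hv (Subgroup.Normal.conj_mem inferInstance _ (V.inv_mem hv) _)
          · exact G.mul_mem hb1 (G.inv_mem hm)
        exact (mul_inv_eq_one.1 h5).symm
      congr 1
      apply ConjClasses.mk_eq_mk_iff_isConj.2
      exact isConj_iff.2 ⟨⟨g, hgC⟩, Subtype.ext (by simpa using e4)⟩
    · intro c
      obtain ⟨x, rfl⟩ := ConjClasses.mk_surjective c
      obtain ⟨v, hv, g, hg, rfl⟩ := hdec x
      have hn : g ∈ Subgroup.normalizer (V : Set X) := by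
        rw [Subgroup.normalizer_eq_top]; trivial
      obtain ⟨y, hy, c, hc, hcg, hyc⟩ := Cfsg.Agent.S1496.result V g hn
        (Nat.Coprime.coprime_dvd_left (Subgroup.orderOf_dvd_natCard G hg) hcop.symm) v hv
      obtain ⟨s, ⟨hs, h, hh, hhs⟩, -⟩ := hrep c hc
      have hm : h * g * h⁻¹ ∈ C s := (hC s _).2 ⟨G.mul_mem (G.mul_mem hh hg) (G.inv_mem hh), by
        rw [← hhs]
        calc h * c * h⁻¹ * (h * g * h⁻¹) = h * (c * g) * h⁻¹ := by group
          _ = h * (g * c) * h⁻¹ := by rw [hcg]
          _ = _ := by group⟩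
      refine ⟨⟨⟨s, hs⟩, ConjClasses.mk ⟨_, hm⟩⟩, ?_⟩
      show ConjClasses.mk (s * (h * g * h⁻¹)) = ConjClasses.mk (v * g)
      apply ConjClasses.mk_eq_mk_iff_isConj.2
      refine IsConj.symm (isConj_iff.2 ⟨h * y, ?_⟩)
      rw [← hhs]
      calc h * y * (v * g) * (h * y)⁻¹ = h * (y * (v * g) * y⁻¹) * h⁻¹ := by group
        _ = h * (c * g) * h⁻¹ := by rw [hyc]
        _ = _ := by group
  rw [← Nat.card_eq_of_bijective F hF, Nat.card_sigma]
  exact Finset.sum_coe_sort S (fun s => Nat.card (ConjClasses (C s)))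

end Cfsg.Agent.S4956
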