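import Cfsg.Statements.S4964
import Cfsg.Agent.B.Fong
import Cfsg.Agent.H1.Coprime
import Cfsg.Agent.L.Frattini

set_option autoImplicit false
open Cfsg

namespace Cfsg.Agent.S4964

open Cfsg.Agent Cfsg.Agent.B Cfsg.Agent.H2 Cfsg.Agent.H3 Cfsg.Agent.L Subgroup MonoidAlgebra
open scoped Pointwise commutatorElement

/-- Let D be a normal p-subgroup of the finite group G, let D′ be its commutator subgroup (normal in G), and fix a maximal ideal M of the algebraic integers containing p. Then (i) two irreducible characters of G ⧸ D′ lie in the same p-block if and only if their inflations to G do, and (ii) every p-block of G contains the inflation of some irreducible character of G ⧸ D′; so inflation induces a bijection between the p-blocks of G ⧸ D′ and the p-blocks of G. -/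
theorem result {G : Type*} [Group G] [Finite G] (p : ℕ) [Fact p.Prime] (M : Ideal Cfsg.AlgInt) (hM : Cfsg.IsPModular p M) (D : Subgroup G) [D.Normal] (hD : IsPGroup p D) : (∀ χ ψ : Cfsg.IrrCharacter (G ⧸ ⁅D, D⁆), Cfsg.SameBlock M (χ : G ⧸ ⁅D, D⁆ → ℂ) (ψ : G ⧸ ⁅D, D⁆ → ℂ) ↔ Cfsg.SameBlock M ((χ : G ⧸ ⁅D, D⁆ → ℂ) ∘ QuotientGroup.mk) ((ψ : G ⧸ ⁅D, D⁆ → ℂ) ∘ QuotientGroup.mk)) ∧ ∀ B : Set (Cfsg.IrrCharacter G), Cfsg.IsPBlock M B → ∃ χ : Cfsg.IrrCharacter (G ⧸ ⁅D, D⁆), ∃ θ ∈ B, (θ : G → ℂ) = (χ : G ⧸ ⁅D, D⁆ → ℂ) ∘ QuotientGroup.mk := by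
  have : PMod p M := ⟨hM⟩
  classical
  have hf := QuotientGroup.mk'_surjective ⁅D, D⁆
  have hDD : ⁅D, D⁆ ≤ D := commutator_le_right D D
  have hk : IsPGroup p (QuotientGroup.mk' ⁅D, D⁆).ker := by
    rw [QuotientGroup.ker_mk']
    exact hD.to_le hDD
  constructor
  · intro χ ψ
    rw [sameBlock_iff_lam χ.2 ψ.2]
    refine Iff.trans ?_ (sameBlock_iff_lam (infl _ hf χ).2 (infl _ hf ψ).2).symm
    refine ⟨lam_infl_eq _ hf, lam_eq_of_infl _ hf ?_⟩
    refine cent_induction (P := fun b => ∃ a ∈ cent (F M) G, push (QuotientGroup.mk' ⁅D, D⁆) a = b) (eB_mem _)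
      ⟨0, zero_mem _, map_zero _⟩ ?_ fun y hy => ?_
    · rintro _ _ ⟨a, ha, rfl⟩ ⟨b, hb, rfl⟩
      exact ⟨a + b, add_mem ha hb, map_add _ _ _⟩
    · obtain ⟨x, rfl⟩ := hf y
      have hcl := IsPBlock.closed (isPBlock_blockOf (M := M) χ)
      obtain ⟨z, hz, e⟩ := exists_reg_lift x (hcl.reg_of_coeff_eB hy)
      haveI : (D.map (QuotientGroup.mk' ⁅D, D⁆)).Normal := Subgroup.Normal.map inferInstance _ hf
      have h1 := hcl.mem_centralizer_of_coeff_eB (hD.map (QuotientGroup.mk' ⁅D, D⁆)) hy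
      rw [← e] at h1
      have h2 : zpowers z ≤ centralizer (D : Set G) := by
        refine H1.le_centralizer_of_commutator_le_frattini le_normalizer_of_normal ?_ ?_
        · obtain ⟨k, hk⟩ := (hD.to_subgroup (frattini D)).exists_card_eq
          rw [hk, Nat.card_zpowers]
          exact Nat.Coprime.pow_right _ (reg_iff_coprime.1 hz)
        · refine le_trans ?_ (map_mono (L.commutator_le_frattini hD))
          rw [map_subtype_commutator, ← QuotientGroup.ker_mk' ⁅D, D⁆, ← Subgroup.map_eq_bot_iff, map_commutator,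
            commutator_eq_bot_iff_le_centralizer]
          refine le_centralizer_comm ?_
          rw [MonoidHom.map_zpowers]
          exact zpowers_le.2 h1
      have h3 : z ∈ centralizer ((QuotientGroup.mk' ⁅D, D⁆).ker : Set G) := by
        rw [QuotientGroup.ker_mk']
        exact centralizer_anti hDD (h2 (mem_zpowers z))
      exact ⟨_, Subalgebra.smul_mem _ (cls_mem z) _, by rw [map_smul, push_cls_of_reg _ hf hk hz h3, e]⟩
  · intro B hB
    obtain ⟨χ, hχ⟩ := (IsPBlock.closed hB).exists_infl_mem _ hf hk (IsPBlock.nonempty hB)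
    exact ⟨χ, _, hχ, rfl⟩

end Cfsg.Agent.S4964
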