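import Cfsg.Statements.S4965
import Cfsg.Agent.H2.PNil

set_option autoImplicit false
open Cfsg

namespace Cfsg.Agent.S4965

open Cfsg.Agent Cfsg.Agent.H2 Subgroup
open scoped Pointwise commutatorElement

/-- Let X be a finite group with an abelian normal subgroup V (any two elements of V commute), and let φ be the action of X ⧸ V on V induced by conjugation (well defined because V is abelian; the hypothesis hφ says that the class of x acts as conjugation by x). Then X has at most as many conjugacy classes as the semidirect product of V by X ⧸ V formed with this action: the split extension has the largest class number among extensions with the given action. -/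
theorem result {X : Type*} [Group X] [Finite X] (V : Subgroup X) [V.Normal] (hab : ∀ a ∈ V, ∀ b ∈ V, a * b = b * a) (φ : X ⧸ V →* MulAut ↥V) (hφ : ∀ (x : X) (v : ↥V), ((φ (QuotientGroup.mk x) v : ↥V) : X) = x * v * x⁻¹) : Nat.card (ConjClasses X) ≤ Nat.card (ConjClasses (SemidirectProduct ↥V (X ⧸ V) φ)) := by
  classical
  have e1 := card_comm_eq_card_conjClasses_mul_card X
  have e2 := card_comm_eq_card_conjClasses_mul_card (SemidirectProduct V (X ⧸ V) φ)
  have e3 : Nat.card (SemidirectProduct V (X ⧸ V) φ) = Nat.card X := by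
    rw [SemidirectProduct.card, mul_comm, ← card_eq_card_quotient_mul_card_subgroup]
  haveI : Finite (SemidirectProduct V (X ⧸ V) φ) := Finite.of_equiv _ SemidirectProduct.equivProd.symm
  have hc : ∀ q : (X ⧸ V) × (X ⧸ V), ∃ r : X × X, (∃ s : X × X, Commute s.1 s.2 ∧ (s.1 : X ⧸ V) = q.1 ∧
      (s.2 : X ⧸ V) = q.2) → Commute r.1 r.2 ∧ (r.1 : X ⧸ V) = q.1 ∧ (r.2 : X ⧸ V) = q.2 := by
    intro q
    by_cases h : ∃ s : X × X, Commute s.1 s.2 ∧ (s.1 : X ⧸ V) = q.1 ∧ (s.2 : X ⧸ V) = q.2
    · obtain ⟨s, hs⟩ := h; exact ⟨s, fun _ => hs⟩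
    · exact ⟨1, fun h' => absurd h' h⟩
  choose r hr using hc
  have hr' : ∀ s : {p : X × X // Commute p.1 p.2}, Commute (r (s.1.1, s.1.2)).1 (r (s.1.1, s.1.2)).2 ∧
      ((r (s.1.1, s.1.2)).1 : X ⧸ V) = s.1.1 ∧ ((r (s.1.1, s.1.2)).2 : X ⧸ V) = s.1.2 :=
    fun s => hr _ ⟨s.1, s.2, rfl, rfl⟩
  have hm : ∀ a b : X, (b : X ⧸ V) = a → a * b⁻¹ ∈ V := fun a b h => by
    have := ‹V.Normal›.conj_mem _ (QuotientGroup.eq.1 h) b
    simpa [mul_assoc] using this
  let f : {p : X × X // Commute p.1 p.2} →
      {p : SemidirectProduct V (X ⧸ V) φ × SemidirectProduct V (X ⧸ V) φ // Commute p.1 p.2} := fun s =>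
    ⟨(⟨⟨_, hm _ _ (hr' s).2.1⟩, s.1.1⟩, ⟨⟨_, hm _ _ (hr' s).2.2⟩, s.1.2⟩), by
      obtain ⟨h1, h2, h3⟩ := hr' s
      refine SemidirectProduct.ext ?_ ?_
      · apply Subtype.ext
        simp only [SemidirectProduct.mul_left, coe_mul]
        have k : ∀ a b : X, (b : X ⧸ V) = a → ∀ v : V, ((φ (a : X ⧸ V) v : V) : X) = b * v * b⁻¹ :=
          fun a b h v => by rw [← h, hφ]
        rw [k _ _ h2, k _ _ h3]
        simp only
        generalize (r (s.1.1, s.1.2)).1 = a at *
        generalize (r (s.1.1, s.1.2)).2 = b at *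
        calc _ = s.1.1 * s.1.2 * (a * b)⁻¹ := by group
          _ = s.1.2 * s.1.1 * (b * a)⁻¹ := by rw [s.2.eq, h1.eq]
          _ = _ := by group
      · simp only [SemidirectProduct.mul_right]
        rw [← QuotientGroup.mk_mul, s.2.eq, QuotientGroup.mk_mul]⟩
  have hf : Function.Injective f := by
    intro s t h
    have h1 := congrArg (fun z => z.1.1.right) h
    have h2 := congrArg (fun z => z.1.2.right) h
    have h3 := congrArg (fun z => (z.1.1.left : X)) h
    have h4 := congrArg (fun z => (z.1.2.left : X)) h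
    simp only [f] at h1 h2 h3 h4
    rw [h1, h2] at h3 h4
    exact Subtype.ext (Prod.ext (mul_right_cancel h3) (mul_right_cancel h4))
  have := Nat.card_le_card_of_injective f hf
  rw [e1, e2, e3] at this
  exact Nat.le_of_mul_le_mul_right this Nat.card_pos

end Cfsg.Agent.S4965
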