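import Cfsg.Statements.S5014
import Cfsg.Agent.C3.RO

set_option autoImplicit false
open Cfsg

namespace Cfsg.Agent.S5014

open H2 C3 Subgroup BG

/-- Let X = ⟨A, B⟩ be a rank one group with unipotent subgroups A and B and let Ω be the set of conjugates of A under X. Then Ω has at least three members, X acts doubly transitively on Ω by conjugation (any two ordered pairs of distinct members are carried to one another by a single element of X), and A acts regularly on Ω with A removed: for C, D in Ω different from A there is exactly one element of A conjugating C to D. -/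
theorem result {G : Type*} [Group G] {A B : Subgroup G} (h : Cfsg.IsRankOnePair A B) :
    (∃ C₁ ∈ Cfsg.unipotentSubgroups A B, ∃ C₂ ∈ Cfsg.unipotentSubgroups A B, ∃ C₃ ∈ Cfsg.unipotentSubgroups A B,
      C₁ ≠ C₂ ∧ C₁ ≠ C₃ ∧ C₂ ≠ C₃) ∧
    (∀ C₁ ∈ Cfsg.unipotentSubgroups A B, ∀ C₂ ∈ Cfsg.unipotentSubgroups A B, ∀ D₁ ∈ Cfsg.unipotentSubgroups A B,
      ∀ D₂ ∈ Cfsg.unipotentSubgroups A B, C₁ ≠ C₂ → D₁ ≠ D₂ →
        ∃ x ∈ A ⊔ B, Cfsg.conjBy C₁ x = D₁ ∧ Cfsg.conjBy C₂ x = D₂) ∧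
    (∀ C ∈ Cfsg.unipotentSubgroups A B, ∀ D ∈ Cfsg.unipotentSubgroups A B, C ≠ A → D ≠ A →
      ∃! a : G, a ∈ A ∧ Cfsg.conjBy C a = D) := by
  refine ⟨?_, fun C hC D hD C' hC' D' hD' h1 h2 => ?_, fun C hC D hD h1 h2 => ?_⟩
  · obtain ⟨a, ha, h1⟩ := h.exists_ne
    exact ⟨A, un_left, B, h.un_right, a ⋆ B, un_cj h.un_right (mem_sup_left ha), h.ne,
      fun e => h.ne (cj_inj.1 ((cj_eq_of_mem ha).trans e)), (h.sup_cj ha h1).1.ne⟩
  · obtain ⟨x, hx, rfl, rfl⟩ := h.pair hC hD h1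
    obtain ⟨y, hy, rfl, rfl⟩ := h.pair hC' hD' h2
    exact ⟨y * x⁻¹, mul_mem hy (inv_mem hx), (cj_mul _ _ _).trans (congrArg _ (cj_inv_cj _ _)),
      (cj_mul _ _ _).trans (congrArg _ (cj_inv_cj _ _))⟩
  · obtain ⟨c, hc, rfl⟩ := (h.mem_iff.1 hC).resolve_left h1
    obtain ⟨d, hd, rfl⟩ := (h.mem_iff.1 hD).resolve_left h2
    exact ⟨d * c⁻¹, ⟨mul_mem hd (inv_mem hc), (cj_mul _ _ _).trans (congrArg _ (cj_inv_cj _ _))⟩, fun a ⟨ha, e⟩ =>
      eq_mul_inv_of_mul_eq (h.eq_of_cj (mul_mem ha hc) hd ((cj_mul _ _ _).trans e))⟩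

end Cfsg.Agent.S5014
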