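import Cfsg.Statements.S5015
import Cfsg.Agent.C3.RO

set_option autoImplicit false
open Cfsg

namespace Cfsg.Agent.S5015

open H2 C3 Subgroup BG

/-- Let a group Y act doubly transitively on a set Ω with at least three points, and suppose that the stabilizer of a point α contains a nilpotent subgroup A, normalized by that stabilizer, which acts regularly on the points other than α. Then for any y in Y moving α, the subgroups A and y A y⁻¹ are the unipotent subgroups of a rank one group, and the normal closure of A in Y (the subgroup generated by all conjugates of A) is generated by A and y A y⁻¹ alone. -/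
theorem result {Y Ω : Type*} [Group Y] [MulAction Y Ω]
    (h2 : MulAction.IsMultiplyPretransitive Y Ω 2) (hΩ : 3 ≤ ENat.card Ω) (α : Ω) (A : Subgroup Y)
    (hA : A ≤ MulAction.stabilizer Y α) (hAn : ∀ y ∈ MulAction.stabilizer Y α, Cfsg.conjBy A y = A)
    (hnil : Group.IsNilpotent A) (hreg : ∀ β γ : Ω, β ≠ α → γ ≠ α → ∃! a : Y, a ∈ A ∧ a • β = γ)
    (y : Y) (hy : y ∉ MulAction.stabilizer Y α) :
    Cfsg.IsRankOnePair A (Cfsg.conjBy A y) ∧ Subgroup.normalClosure (A : Set Y) = A ⊔ Cfsg.conjBy A y := by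
  have h1 : ∀ g g' : Y, g • α = g' • α → g ⋆ A = g' ⋆ A := fun g g' e => by
    rw [cj_eq_iff, ← cj_mul]
    exact (hAn _ (by rw [MulAction.mem_stabilizer_iff, mul_smul, ← e, inv_smul_smul])).symm
  have h3 : ∀ (g : Y) β γ, β ≠ g • α → γ ≠ g • α → ∃ a ∈ g ⋆ A, a • β = γ := fun g β γ e e' => by
    obtain ⟨a, ⟨ha, h⟩, -⟩ := hreg (g⁻¹ • β) (g⁻¹ • γ) (mt inv_smul_eq_iff.1 e) (mt inv_smul_eq_iff.1 e')
    exact ⟨_, conj_mem_cj g ha, by rw [mul_smul, mul_smul, h, smul_inv_smul]⟩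
  have h4 : ∀ (g : Y) β, β ≠ g • α → ∀ a ∈ g ⋆ A, a • β = β → a = 1 := fun g β e a ha e' => by
    have := (hreg (g⁻¹ • β) (g⁻¹ • β) (mt inv_smul_eq_iff.1 e) (mt inv_smul_eq_iff.1 e)).unique
      ⟨mem_cj.1 ha, by rw [mul_smul, mul_smul, smul_inv_smul, e']⟩ ⟨one_mem _, one_smul _ _⟩
    simpa [mul_assoc, inv_mul_eq_one] using this
  have h5 : ∀ g : Y, ∀ a ∈ g ⋆ A, a • g • α = g • α := fun g a ha => by
    simpa [mul_smul, inv_smul_eq_iff] using hA (mem_cj.1 ha)
  have h6 : ∀ g g' : Y, g • α ≠ g' • α → RankOneCondition (g ⋆ A) (g' ⋆ A) := fun g g' e a ha h => by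
    obtain ⟨b, hb, h7⟩ := h3 g' (g • α) (a⁻¹ • g' • α) e fun e' => h (inv_eq_one.1 (h4 g _ e.symm _ (inv_mem ha) e'))
    refine ⟨b⁻¹, inv_mem hb, fun e' => e ?_, ?_⟩
    · rw [inv_eq_one.1 e', one_smul, eq_inv_smul_iff, h5 g a ha] at h7
      exact h7
    · rw [inv_inv]
      exact (cj_mul _ _ _).symm.trans ((h1 _ _ (by rw [mul_smul, mul_smul, h7])).trans (cj_mul _ _ _))
  have h7 : (1 : Y) • α ≠ y • α := by rw [one_smul]; exact Ne.symm hy
  refine ⟨⟨fun e => ?_, hnil, H1.isNilpotent_map _ hnil, by simpa [cj_one] using h6 1 y h7, by simpa [cj_one] using h6 y 1 h7.symm⟩,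
    le_antisymm (closure_le _ |>.2 fun x hx => ?_) (sup_le le_normalClosure (cj_le_iff_forall.2 fun x hx =>
      normalClosure_normal.conj_mem _ (subset_normalClosure hx) _))⟩
  · obtain ⟨γ, hγ⟩ : ∃ γ, γ ∉ ({α, y • α} : Set Ω) := by
      by_contra! e
      rw [← Set.encard_univ, ← Set.eq_univ_of_forall e] at hΩ
      exact absurd (hΩ.trans ((Set.encard_insert_le _ _).trans_eq (by rw [Set.encard_singleton]))) (by norm_num)
    simp only [Set.mem_insert_iff, Set.mem_singleton_iff, not_or] at hγ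
    obtain ⟨a, ⟨ha, h⟩, -⟩ := hreg (y • α) γ hy hγ.1
    exact hγ.2 (h.symm.trans (h5 y a (e.le ha)))
  · obtain ⟨a, ha, hx⟩ := Group.mem_conjugatesOfSet_iff.1 hx
    obtain ⟨g, rfl⟩ := isConj_iff.1 hx
    by_cases e : g • α = α
    · exact mem_sup_left (hAn g e ▸ conj_mem_cj g ha)
    obtain ⟨c, ⟨hc, h⟩, -⟩ := hreg (y • α) (g • α) hy e
    exact cj_le_of_le le_sup_right (mem_sup_left hc) (by
      rw [← cj_mul, h1 (c * y) g (by rw [mul_smul, h])]; exact conj_mem_cj g ha)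

end Cfsg.Agent.S5015
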