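import Cfsg.Statements.S5016
import Cfsg.Agent.C3.LR2

set_option autoImplicit false
open Cfsg

namespace Cfsg.Agent.S5016

open H2 C3 C3.QP C3.LR Subgroup BG Module H4

/-- For any field k, the special linear group SL₂(k) is a special rank one group with abelian unipotent subgroups, the unipotent subgroups being the group of lower unitriangular matrices and the group of upper unitriangular matrices. -/
theorem result (k : Type*) [Field k] :
    Cfsg.IsRankOneGroup (Matrix.SpecialLinearGroup (Fin 2) k) (Cfsg.lowerUnipotentSL2 k) (Cfsg.upperUnipotentSL2 k) ∧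
    Cfsg.IsSpecialRankOnePair (Cfsg.lowerUnipotentSL2 k) (Cfsg.upperUnipotentSL2 k) ∧
    Cfsg.HasAbelianUnipotents (Cfsg.lowerUnipotentSL2 k) (Cfsg.upperUnipotentSL2 k) := by
  have h1 : ∀ i j : Fin 2, i ≠ j → Fl (rs k (jS k (Fin 2))) (el k i j) := fun i j h => rn_fl jS_dt _ (el_mem h)
  have h2 : lowerUnipotentSL2 k = LA (rs k (jS k (Fin 2))) (el k 1 0) := congrArg Subgroup.closure (Set.ext fun g =>
    ⟨fun h => ⟨g 1 0, el_eq.2 (by ext i j; fin_cases i <;> fin_cases j <;> simp [Matrix.transvection, h.1, h.2.1, h.2.2])⟩,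
      fun ⟨c, h⟩ => by simp [el_eq.1 h, Matrix.transvection]⟩)
  have h3 : upperUnipotentSL2 k = LA (rs k (jS k (Fin 2))) (el k 0 1) := congrArg Subgroup.closure (Set.ext fun g =>
    ⟨fun h => ⟨g 0 1, el_eq.2 (by ext i j; fin_cases i <;> fin_cases j <;> simp [Matrix.transvection, h.1, h.2.1, h.2.2])⟩,
      fun ⟨c, h⟩ => by simp [el_eq.1 h, Matrix.transvection]⟩)
  have h4 := LA_special (rs_inj k jS_inj) (h1 1 0 (by decide)) (h1 0 1 (by decide)) one_ne_zero (LinearMap.ext fun v => by simp)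
    (LinearMap.ext fun v => by simp)
  refine ⟨⟨?_, h2 ▸ h3 ▸ h4.1⟩, h2 ▸ h3 ▸ h4, ?_, ?_⟩
  · exact H4.SL2_eq_top (fun c => mem_sup_right (Subgroup.subset_closure (by exact ⟨rfl, rfl, rfl⟩)))
      fun c => mem_sup_left (Subgroup.subset_closure (by exact ⟨rfl, rfl, rfl⟩))
  · rw [h2]; exact ⟨⟨fun x y => Subtype.ext (cm (LA_comm (rs_inj k jS_inj) rfl) x.2 y.2)⟩⟩
  · rw [h3]; exact ⟨⟨fun x y => Subtype.ext (cm (LA_comm (rs_inj k jS_inj) rfl) x.2 y.2)⟩⟩

end Cfsg.Agent.S5016
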