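import Cfsg.Statements.S5017
import Cfsg.Agent.C3.RO

set_option autoImplicit false
open Cfsg

namespace Cfsg.Agent.S5017

open H2 C3 Subgroup BG

/-- Let X be a rank one group with unipotent subgroups A and B and N a normal subgroup of X. Then either X = N A or N lies in the centre of X. Consequently a perfect rank one group is quasisimple. -/
theorem result {X : Type*} [Group X] {A B : Subgroup X} (h : Cfsg.IsRankOneGroup X A B) :
    (∀ N : Subgroup X, N.Normal → N ⊔ A = ⊤ ∨ N ≤ Subgroup.center X) ∧
    (Group.IsPerfect X → Cfsg.IsQuasisimple X) := by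
  refine ⟨fun N hN => (h.2.normal_cases (N := N) (normalizer_eq_top N ▸ le_top)).imp (fun ⟨n, hn, e⟩ => top_unique ?_) fun e => ?_,
    fun hp => H8.qs_of_equiv ((MulEquiv.subgroupCongr h.1).trans topEquiv) (h.2.quasisimple (by rw [h.1]; exact hp.commutator_eq_top))⟩
  · rwa [h.1, inf_top_eq, coe_top, centralizer_univ] at e
  · exact h.1 ▸ h.2.le_sup_of_cj hn.1 (normalizer_eq_top N ▸ le_top) e

end Cfsg.Agent.S5017
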