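import Cfsg.Statements.S5018
import Cfsg.Agent.C3.RO

set_option autoImplicit false
open Cfsg

namespace Cfsg.Agent.S5018

open H2 C3 Subgroup BG

/-- A rank one group is not nilpotent, and its second centre equals its centre. -/
theorem result {X : Type*} [Group X] {A B : Subgroup X} (h : Cfsg.IsRankOneGroup X A B) :
    Subgroup.upperCentralSeries X 2 = Subgroup.center X ∧ ¬ Group.IsNilpotent X := by
  refine ⟨le_antisymm ?_ (Subgroup.upperCentralSeries_one X ▸ Subgroup.upperCentralSeries_mono X one_le_two), fun hn => h.2.not_nilp inferInstance⟩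
  obtain ⟨n, hn, e⟩ | e := h.2.normal_cases (N := Subgroup.upperCentralSeries X 2) (normalizer_eq_top (Subgroup.upperCentralSeries X 2) ▸ le_top)
  · obtain ⟨a, ha, h1⟩ := h.2.exists_ne
    have h2 := Subgroup.mem_upperCentralSeries_succ_iff.1 hn.1 a
    rw [Subgroup.upperCentralSeries_one] at h2
    refine absurd (h.2.symm.eq_one (e ▸ conj_mem_cj n ha) ?_) (by simpa [mul_inv_eq_one] using h1)
    rw [← inv_mul_cancel_right (n * a * n⁻¹) a, cj_mul, cj_eq_of_mem ha]
    exact cj_of_cent (center_le_centralizer _ h2)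
  · rwa [h.1, inf_top_eq, coe_top, centralizer_univ] at e

end Cfsg.Agent.S5018
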