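import Cfsg.Statements.S5023
import Cfsg.Agent.C3.RO

set_option autoImplicit false
open Cfsg

namespace Cfsg.Agent.S5023

open H2 C3 Subgroup BG

/-- Let X be a rank one group with unipotent subgroups A and B that acts faithfully on an abelian group V (written additively) with A acting quadratically: a' • (a • v − v) = a • v − v for all a, a' in A and v in V. Then A is either torsion-free or an elementary abelian p-group for some prime p. -/
theorem result {X : Type*} [Group X] {A B : Subgroup X} (h : Cfsg.IsRankOneGroup X A B)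
    {V : Type*} [AddCommGroup V] [DistribMulAction X V] (hf : ∀ x : X, (∀ v : V, x • v = v) → x = 1)
    (hq : ∀ a ∈ A, ∀ a' ∈ A, ∀ v : V, a' • (a • v - v) = a • v - v) :
    (∀ a ∈ A, a ≠ 1 → ¬ IsOfFinOrder a) ∨ ∃ p : ℕ, p.Prime ∧ Cfsg.IsElementaryAbelian p A := by
  have k : ∀ K : Subgroup X, (∀ a ∈ K, ∀ a' ∈ K, ∀ v : V, a' • (a • v - v) = a • v - v) → ∀ a ∈ K, ∀ c ∈ K, a * c = c * a :=
    fun K hK a ha c hc => inv_mul_eq_one.1 (hf _ fun v => by
      have e1 := hK a ha c hc v
      have e2 := hK c hc a ha v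
      rw [smul_sub, sub_eq_iff_eq_add] at e1 e2
      rw [mul_smul, inv_smul_eq_iff, mul_smul, mul_smul, e1, e2]
      abel)
  obtain hs | e := h.2.quad_special' hq
  · haveI : IsMulCommutative A := ⟨⟨fun a c => Subtype.ext (k A hq a a.2 c c.2)⟩⟩
    exact (hs.dichotomy.imp_right And.left).symm
  · exact absurd (comm_iff.2 fun a ha b hb => k _ (fun x hx y hy v => e x hx v y hy) b (mem_sup_right hb) a (mem_sup_left ha)) h.2.not_comm

end Cfsg.Agent.S5023
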