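import Cfsg.Statements.S5024
import Cfsg.Agent.C3.RS

set_option autoImplicit false
open Cfsg

namespace Cfsg.Agent.S5024

open H2 C3 Subgroup BG

/-- Let S be a set of abstract root subgroups of G, A and C members of S, B a rank one partner of A in S and D a rank one partner of C in S. If the rank one group ⟨A, B⟩ is contained in ⟨C, D⟩ then the two coincide, and C and D are conjugates of A inside ⟨A, B⟩. -/
theorem result {G : Type*} [Group G] {S : Set (Subgroup G)} (hS : Cfsg.IsRootSubgroupSet S)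
    {A B C D : Subgroup G} (hA : A ∈ S) (hC : C ∈ S) (hB : B ∈ Cfsg.rankOnePartners S A) (hD : D ∈ Cfsg.rankOnePartners S C)
    (hle : A ⊔ B ≤ C ⊔ D) : A ⊔ B = C ⊔ D ∧ C ∈ Cfsg.unipotentSubgroups A B ∧ D ∈ Cfsg.unipotentSubgroups A B := by
  have h : Om S C D := ⟨hS, hC, hD.1, hD.2⟩
  have h1 := (h.mem_or_cent hA (le_sup_left.trans hle)).resolve_right fun k => hB.2.not_comm (cmono k le_rfl (le_sup_right.trans hle))
  have h2 := (h.mem_or_cent hB.1 (le_sup_right.trans hle)).resolve_right fun k =>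
    hB.2.symm.not_comm (cmono k le_rfl (le_sup_left.trans hle))
  have h3 := (h.o.of_un h1 h2 hB.2.ne).2
  exact ⟨h3, h.o.un_eq h1 h3 ▸ un_left, h.o.un_eq h1 h3 ▸ h.o.un_right⟩

end Cfsg.Agent.S5024
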