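import Cfsg.Statements.S5026
import Cfsg.Agent.C3.RS

set_option autoImplicit false
open Cfsg

namespace Cfsg.Agent.S5026

open H2 C3 Subgroup BG

/-- Let S be a degenerate set of abstract root subgroups of G (a set of abstract transvection groups) and let a, b be commuting non-identity elements of members of S with a b ≠ 1. Then the members of S centralizing a b are exactly those centralizing both a and b. -/
theorem result {G : Type*} [Group G] {S : Set (Subgroup G)} (hS : Cfsg.IsRootSubgroupSet S) (hdeg : Cfsg.IsDegenerateRootSet S)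
    {a b : G} (ha : a ∈ Cfsg.rootElements S) (hb : b ∈ Cfsg.rootElements S) (hab : a * b = b * a) (hab1 : a * b ≠ 1) :
    Cfsg.centralizingMembers S (Subgroup.zpowers (a * b)) =
      Cfsg.centralizingMembers S (Subgroup.zpowers a) ∩ Cfsg.centralizingMembers S (Subgroup.zpowers b) := by
  obtain ⟨h1, A, hA, ha⟩ := ha
  obtain ⟨h2, B, hB, hb⟩ := hb
  have k : ∀ {C : Subgroup G} {x : G}, C ≤ 𝒞 (zpowers x) ↔ x ∈ 𝒞 C := by
    intro C x
    rw [le_centralizer_iff, zpowers_le]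
  refine Set.ext fun C => ⟨fun ⟨hC, h3⟩ => ?_, fun ⟨⟨hC, h3⟩, _, h4⟩ => ⟨hC, k.2 (mul_mem (k.1 h3) (k.1 h4))⟩⟩
  have h4 : a ∈ 𝒞 C := by
    obtain e | e | e := hS.tri hA hC
    · exact comm_iff.1 e ha
    · have h5 : b⁻¹ ⋆ C = a ⋆ C := by rw [← inv_mul_cancel_left b a, cj_mul b⁻¹, ← hab, cj_of_cent (k.1 h3)]
      have h6 := e.mem_of_cj hB (inv_mem hb) ha h1 h5
      obtain rfl := e.eq_of_cj hB (inv_mem hb) ha h1 h5 (e.ni.eq (hS.cj hA _) ha (by rw [mem_cj, inv_inv, ← hab]; simpa) h1)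
      exact absurd (e.o.eq_one (mul_mem ha hb) (cj_of_cent (k.1 h3))) hab1
    · exact absurd e.rcc (hdeg A hA C hC)
  exact ⟨⟨hC, k.2 h4⟩, hC, k.2 ((mul_mem_cancel_left h4).1 (k.1 h3))⟩

end Cfsg.Agent.S5026
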