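import Cfsg.Statements.S5027
import Cfsg.Agent.C3.RS

set_option autoImplicit false
open Cfsg

namespace Cfsg.Agent.S5027

open H2 C3 Subgroup BG

/-- Let S be a set of abstract root subgroups of G such that every member of S has a rank one partner in S (the graph of rank one pairs on S has no isolated vertex). Then the second centre of G equals its centre. -/
theorem result {G : Type*} [Group G] {S : Set (Subgroup G)} (hS : Cfsg.IsRootSubgroupSet S)
    (hF : ∀ A ∈ S, ¬ Cfsg.IsIsolatedIn (Cfsg.FAdj S) S A) : Subgroup.upperCentralSeries G 2 = Subgroup.center G := by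
  refine le_antisymm (fun n hn => mem_center_iff.2 (hS.ind (fun A hA a ha => ?_) (by simp) fun x y hx hy => by
    rw [mul_assoc, hy, ← mul_assoc, hx, mul_assoc])) (Subgroup.upperCentralSeries_one G ▸ Subgroup.upperCentralSeries_mono G one_le_two)
  obtain rfl | h1 := eq_or_ne a 1
  · simp
  obtain ⟨B, hB⟩ := ni_of hS hA (hF A hA)
  have h2 := Subgroup.mem_upperCentralSeries_succ_iff.1 hn a
  rw [Subgroup.upperCentralSeries_one] at h2
  exact (commutatorElement_eq_one_iff_mul_comm.1 (hB.eq_one (hS.cj hA n) (center_le_centralizer _ h2) ha h1 (by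
    simpa [commutatorElement_def] using conj_mem_cj n ha))).symm

end Cfsg.Agent.S5027
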