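import Cfsg.Statements.S5028
import Cfsg.Agent.C3.RS

set_option autoImplicit false
open Cfsg

namespace Cfsg.Agent.S5028

open H2 C3 Subgroup BG

/-- Let S be a set of abstract root subgroups of G and A a member of S having a rank one partner in S. Then A meets every other member of S trivially. -/
theorem result {G : Type*} [Group G] {S : Set (Subgroup G)} (hS : Cfsg.IsRootSubgroupSet S)
    {A : Subgroup G} (hA : ¬ Cfsg.IsIsolatedIn (Cfsg.FAdj S) S A) (hAS : A ∈ S) : ∀ B ∈ S, A ⊓ B = ⊥ ∨ A = B := by
  exact fun B hB => or_iff_not_imp_right.2 fun h => (eq_bot_iff_forall _).2 fun x hx => by_contra fun h1 =>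
    h ((ni_of hS hAS hA).eq hB hx.1 hx.2 h1).symm

end Cfsg.Agent.S5028
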