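import Cfsg.Statements.S5029
import Cfsg.Agent.C3.RS

set_option autoImplicit false
open Cfsg

namespace Cfsg.Agent.S5029

open H2 C3 Subgroup BG
open scoped commutatorElement

/-- Let S be a set of abstract root subgroups of G, A ∈ S having a rank one partner in S, and B ∈ S with C = ⁅A, B⁆ ∈ S. Then the members of S contained in AC are the conjugates of A by elements of B together with C, they partition AC, the members of S inside AC partition AC so that A is a line partner of C, and for every non-identity a ∈ A the map b ↦ a⁻¹ b⁻¹ a b is an isomorphism from B onto C. -/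
theorem result {G : Type*} [Group G] {S : Set (Subgroup G)} (hS : Cfsg.IsRootSubgroupSet S)
    {A B : Subgroup G} (hA : ¬ Cfsg.IsIsolatedIn (Cfsg.FAdj S) S A) (hAS : A ∈ S) (hB : B ∈ S) (hC : ⁅A, B⁆ ∈ S) :
    Cfsg.membersIn S (A ⊔ ⁅A, B⁆) = (fun b : G => Cfsg.conjBy A b) '' (B : Set G) ∪ {⁅A, B⁆} ∧
    Cfsg.IsSubgroupPartition (A ⊔ ⁅A, B⁆) (Cfsg.membersIn S (A ⊔ ⁅A, B⁆)) ∧
    A ∈ Cfsg.linePartners S ⁅A, B⁆ ∧
    ∀ a ∈ A, a ≠ 1 → ∃ φ : ↥B ≃* ↥⁅A, B⁆, ∀ b : ↥B, (φ b : G) = a⁻¹ * (b : G)⁻¹ * a * b := by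
  have h : Ps S A B := ⟨hS, hAS, hB, hC⟩
  have h1 := ni_of hS hAS hA
  refine ⟨Set.ext fun E => ⟨fun hE => ?_, ?_⟩, h.part h1, (h.ln h1).symm.m, fun a ha h2 => ?_⟩
  · obtain e | ⟨b, hb, e⟩ := h.line h1 hE.1 hE.2
    exacts [.inr e, .inl ⟨b, hb, e.symm⟩]
  · rintro (⟨b, hb, rfl⟩ | rfl)
    exacts [⟨hS.cj hAS b, h.cj_le hb⟩, ⟨hC, le_sup_right⟩]
  · let f : B →* ↥⁅A, B⁆ := MonoidHom.mk' (fun b => ⟨⁅a⁻¹, (b : G)⁻¹⁆, commutator_mem_commutator (inv_mem ha) (inv_mem b.2)⟩)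
      fun b c => Subtype.ext (by
        change ⁅a⁻¹, ((b : G) * c)⁻¹⁆ = _
        rw [cm (hS.ab hB) b.2 c.2, mul_inv_rev]
        exact h.mul (inv_mem ha) (inv_mem b.2) (inv_mem c.2))
    refine ⟨MulEquiv.ofBijective f ⟨(injective_iff_map_eq_one f).2 fun b hb => Subtype.ext (inv_eq_one.1 (h.symm.inj h1
      (inv_mem b.2) (inv_mem ha) (commutatorElement_eq_one_iff_mul_comm.1 (congrArg Subtype.val hb)).symm (inv_ne_one.2 h2))),
      fun c => ?_⟩, fun b => by simp [f, commutatorElement_def]⟩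
    obtain ⟨b, hb, e⟩ := h.left (inv_mem ha) (inv_ne_one.2 h2) c.2
    exact ⟨⟨b⁻¹, inv_mem hb⟩, Subtype.ext (by simp [f, e])⟩

end Cfsg.Agent.S5029
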