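import Cfsg.Statements.S5030
import Cfsg.Agent.C3.RS2

set_option autoImplicit false
open Cfsg

namespace Cfsg.Agent.S5030

open H2 C3 Subgroup BG
open scoped commutatorElement

theorem zr {G : Type*} [Group G] {A B C K : Subgroup G} {n : ℕ} (hK : K ≤ A ⊔ B ⊔ C)
    (h1 : ⁅A, K⁆ ≤ (Subgroup.upperCentralSeries ↥(A ⊔ B ⊔ C) n).map (A ⊔ B ⊔ C).subtype)
    (h2 : ⁅B, K⁆ ≤ (Subgroup.upperCentralSeries ↥(A ⊔ B ⊔ C) n).map (A ⊔ B ⊔ C).subtype)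
    (h3 : ⁅C, K⁆ ≤ (Subgroup.upperCentralSeries ↥(A ⊔ B ⊔ C) n).map (A ⊔ B ⊔ C).subtype) :
    K ≤ (Subgroup.upperCentralSeries ↥(A ⊔ B ⊔ C) (n + 1)).map (A ⊔ B ⊔ C).subtype := fun x hx => by
  have h4 := H8.le_normalizer_map_subtype_of_normal (Subgroup.upperCentralSeries ↥(A ⊔ B ⊔ C) n)
  have h5 := H8.commutator_sup_le_of_norm (H8.commutator_sup_le_of_norm h1 h2 (le_sup_left.trans h4)) h3 h4
  refine ⟨⟨x, hK hx⟩, Subgroup.mem_upperCentralSeries_succ_iff.2 fun y => ?_, rfl⟩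
  obtain ⟨z, hz, e⟩ := h5 (commutator_comm_le _ _ (commutator_mem_commutator hx y.2))
  exact (show z = ⁅(⟨x, hK hx⟩ : ↥(A ⊔ B ⊔ C)), y⁆ from Subtype.ext e) ▸ hz

/-- Let S be a set of abstract root subgroups of G and A, B, C ∈ S with ⁅A, B⁆ ∈ S and ⁅B, C⁆ ∈ S, where A and C are different and commute. For a non-identity b ∈ B put X = ⟨A, b⁻¹ C b⟩ and Y = ⟨b⁻¹ A b, C⟩ and R = ⟨A, B, C⟩. Then X and Y are either both abelian or both nilpotent of class exactly two; X and Y commute elementwise; XY is normal in R with R = (XY) B; and R is nilpotent. -/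
theorem result {G : Type*} [Group G] {S : Set (Subgroup G)} (hS : Cfsg.IsRootSubgroupSet S)
    {A B C : Subgroup G} (hA : A ∈ S) (hB : B ∈ S) (hC : C ∈ S) (hAB : ⁅A, B⁆ ∈ S) (hBC : ⁅B, C⁆ ∈ S)
    (hAC : C ∈ Cfsg.commutingPartners S A)
    {b : G} (hb : b ∈ B) (hb1 : b ≠ 1) :
    ((IsMulCommutative ↥(A ⊔ Cfsg.conjBy C b⁻¹) ∧ IsMulCommutative ↥(Cfsg.conjBy A b⁻¹ ⊔ C)) ∨
      ((¬ IsMulCommutative ↥(A ⊔ Cfsg.conjBy C b⁻¹) ∧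
          ⁅⁅A ⊔ Cfsg.conjBy C b⁻¹, A ⊔ Cfsg.conjBy C b⁻¹⁆, A ⊔ Cfsg.conjBy C b⁻¹⁆ = ⊥) ∧
        (¬ IsMulCommutative ↥(Cfsg.conjBy A b⁻¹ ⊔ C) ∧
          ⁅⁅Cfsg.conjBy A b⁻¹ ⊔ C, Cfsg.conjBy A b⁻¹ ⊔ C⁆, Cfsg.conjBy A b⁻¹ ⊔ C⁆ = ⊥))) ∧
    ⁅A ⊔ Cfsg.conjBy C b⁻¹, Cfsg.conjBy A b⁻¹ ⊔ C⁆ = ⊥ ∧
    (∀ r ∈ A ⊔ B ⊔ C, Cfsg.conjBy ((A ⊔ Cfsg.conjBy C b⁻¹) ⊔ (Cfsg.conjBy A b⁻¹ ⊔ C)) r =
      (A ⊔ Cfsg.conjBy C b⁻¹) ⊔ (Cfsg.conjBy A b⁻¹ ⊔ C)) ∧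
    ((A ⊔ Cfsg.conjBy C b⁻¹) ⊔ (Cfsg.conjBy A b⁻¹ ⊔ C)) ⊔ B = A ⊔ B ⊔ C ∧
    Group.IsNilpotent ↥(A ⊔ B ⊔ C) := by
  have p1 : Ps S A B := ⟨hS, hA, hB, hAB⟩
  have p2 : Ps S C B := Ps.symm ⟨hS, hB, hC, hBC⟩
  have c0 : ⁅A, C⁆ = ⊥ := hAC.2.2
  have hb' := inv_mem hb
  have s1 := p1.sup_cj hb' (inv_ne_one.2 hb1)
  have s2 := p2.sup_cj hb' (inv_ne_one.2 hb1)
  have c1 := hS.comm_cj hB hA p1.symm.not_om hb'
  have c2 := hS.comm_cj hB hC p2.symm.not_om hb'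
  change ⁅b⁻¹ ⋆ A, A⁆ = ⊥ at c1
  change ⁅b⁻¹ ⋆ C, C⁆ = ⊥ at c2
  have c3 : ⁅A ⊔ b⁻¹ ⋆ C, b⁻¹ ⋆ A ⊔ C⁆ = ⊥ := csup (csup' (cs c1) c0) (csup' (cj_comm (cs c0) _) c2)
  have k : ∀ {A C D : Subgroup G}, Ps S A B → D ∈ S → ⁅b⁻¹ ⋆ A, A ⊔ D⁆ = ⊥ → ¬ IsRankOnePair A D := fun {A C D} p hD e k => by
    refine hb1 (p.symm.not_cent hb fun a ha => by_contra fun k' => ?_)
    have := Om.eq_one ⟨hS, p.l, hD, k⟩ p.m (comm_iff.1 e (conj_mem_cj b⁻¹ ha)) (inv_mem ha) (fun e => k' (by simp [inv_eq_one.1 e]))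
      (commutator_comm_le _ _ (commutator_mem_commutator hb' ha))
    exact k' (by simp [show a = 1 by simpa [mul_assoc, inv_mul_eq_one] using this])
  have n1 := k (C := A) p1 (hS.cj hC b⁻¹) (cs (cmono c3 le_rfl le_sup_left))
  have n2 := k (C := A) p2 (hS.cj hA b⁻¹) (cmono c3 le_sup_right (sup_comm _ _).le)
  have k2 : ∀ {A D : Subgroup G}, A ∈ S → D ∈ S → ¬ IsRankOnePair A D →
      ⁅⁅A ⊔ D, A ⊔ D⁆, A ⊔ D⁆ = ⊥ ∧ (IsMulCommutative ↥(A ⊔ D) ↔ ⁅A, D⁆ = ⊥) := fun {A D} hA hD e => by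
    have e1 := hS.cent_of_not hA hD e
    have e2 := H8.le_normalizer_of_commutator_eq_bot (cs e1)
    have e3 : ∀ {X Y : Subgroup G}, ⁅X, Y⁆ ≤ ⁅A, D⁆ → ⁅Y, X⁆ ≤ ⁅A, D⁆ := fun k => (commutator_comm_le _ _).trans k
    refine ⟨cmono e1 (H8.commutator_sup_le_of_norm (e3 (H8.commutator_sup_le_of_norm ((hS.ab hA).trans_le bot_le) (e3 le_rfl) e2))
      (e3 (H8.commutator_sup_le_of_norm le_rfl ((hS.ab hD).trans_le bot_le) e2)) e2) le_rfl, ?_⟩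
    rw [← commutator_self_eq_bot_iff]
    exact ⟨fun k => cmono k le_sup_left le_sup_right, fun k => csup (csup' (hS.ab hA) k) (csup' (cs k) (hS.ab hD))⟩
  obtain ⟨x1, x2⟩ := k2 hA (hS.cj hC b⁻¹) n1
  obtain ⟨y1, y2⟩ := k2 (hS.cj hA b⁻¹) hC (mt IsRankOnePair.symm n2)
  have k3 : ∀ {A C : Subgroup G}, Ps S A B → Ps S C B → ⁅A, C⁆ = ⊥ → ⁅A, b⁻¹ ⋆ C⁆ = ⊥ → ⁅b⁻¹ ⋆ A, C⁆ = ⊥ :=
    fun {A C} p1 p2 e1 e2 => cmono (csup e1 (commutator_commutator_eq_bot_of_rotate (cs (cmono (csup' e1 e2) le_rfl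
      ((commutator_comm_le _ _).trans (le_sup_right.trans_eq (p2.sup_cj hb' (inv_ne_one.2 hb1)).symm))))
      (by rw [cs e1, commutator_bot_left]))) (p1.cj_le hb') le_rfl
  have hM : (A ⊔ b⁻¹ ⋆ C) ⊔ (b⁻¹ ⋆ A ⊔ C) = (A ⊔ ⁅A, B⁆) ⊔ (C ⊔ ⁅C, B⁆) := by rw [← s1, ← s2]; ac_rfl
  have hD : ⁅A, B⁆ ≤ A ⊔ B ⊔ C := (commutator_le_sup _ _).trans le_sup_left
  have hE : ⁅C, B⁆ ≤ A ⊔ B ⊔ C := (commutator_le_sup _ _).trans (sup_le le_sup_right (le_sup_right.trans le_sup_left))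
  refine ⟨?_, c3, fun r hr => cj_eq_of_mem_normalizer (sup_le (sup_le (le_trans ?_ le_normalizer) ?_) (le_trans ?_ le_normalizer) hr),
    ?_, ?_⟩
  · by_cases e : ⁅A, b⁻¹ ⋆ C⁆ = ⊥
    · exact .inl ⟨x2.2 e, y2.2 (k3 p1 p2 c0 e)⟩
    · exact .inr ⟨⟨mt x2.1 e, x1⟩, mt y2.1 fun e' => e (cs (k3 p2 p1 (cs c0) (cs e'))), y1⟩
  · exact le_sup_left.trans le_sup_left
  · exact hM ▸ H8.le_normalizer_sup p1.norm p2.norm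
  · exact le_sup_right.trans le_sup_right
  · refine le_antisymm (sup_le (hM.trans_le (sup_le (sup_le (le_sup_left.trans le_sup_left) hD) (sup_le le_sup_right hE)))
      (le_sup_right.trans le_sup_left)) (sup_le (sup_le ?_ le_sup_right) ?_)
    exacts [le_sup_left.trans (le_sup_left.trans le_sup_left), le_sup_right.trans (le_sup_right.trans le_sup_left)]
  have hW : ⁅⁅(A ⊔ ⁅A, B⁆) ⊔ (C ⊔ ⁅C, B⁆), (A ⊔ ⁅A, B⁆) ⊔ (C ⊔ ⁅C, B⁆)⁆, (A ⊔ ⁅A, B⁆) ⊔ (C ⊔ ⁅C, B⁆)⁆ = ⊥ := by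
    rw [← hM]
    generalize A ⊔ b⁻¹ ⋆ C = X at *
    generalize b⁻¹ ⋆ A ⊔ C = Y at *
    have e1 := csup (csup' x1 (cmono c3 (commutator_le_self _) le_rfl)) (csup' (cmono (cs c3) (commutator_le_self _) le_rfl) y1)
    have e2 := H8.le_normalizer_of_commutator_eq_bot (cs e1)
    have e3 : ∀ {U V : Subgroup G}, ⁅U, V⁆ ≤ ⁅X, X⁆ ⊔ ⁅Y, Y⁆ → ⁅V, U⁆ ≤ ⁅X, X⁆ ⊔ ⁅Y, Y⁆ := fun k => (commutator_comm_le _ _).trans k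
    exact cmono e1 (H8.commutator_sup_le_of_norm (e3 (H8.commutator_sup_le_of_norm le_sup_left ((cs c3).trans_le bot_le) e2))
      (e3 (H8.commutator_sup_le_of_norm (c3.trans_le bot_le) le_sup_right e2)) e2) le_rfl
  have mA : A ≤ (A ⊔ ⁅A, B⁆) ⊔ (C ⊔ ⁅C, B⁆) := le_sup_left.trans le_sup_left
  have mD : ⁅A, B⁆ ≤ (A ⊔ ⁅A, B⁆) ⊔ (C ⊔ ⁅C, B⁆) := le_sup_right.trans le_sup_left
  have mC : C ≤ (A ⊔ ⁅A, B⁆) ⊔ (C ⊔ ⁅C, B⁆) := le_sup_left.trans le_sup_right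
  have mE : ⁅C, B⁆ ≤ (A ⊔ ⁅A, B⁆) ⊔ (C ⊔ ⁅C, B⁆) := le_sup_right.trans le_sup_right
  have w : ∀ {U V T Z : Subgroup G}, U ≤ _ → V ≤ _ → T ≤ _ → ⁅T, ⁅U, V⁆⁆ ≤ Z := fun h1 h2 h3 =>
    (cs (cmono hW (commutator_mono h1 h2) h3)).trans_le bot_le
  have rA : A ≤ A ⊔ B ⊔ C := le_sup_left.trans le_sup_left
  have rB : B ≤ A ⊔ B ⊔ C := le_sup_right.trans le_sup_left
  have rc : ∀ {U V : Subgroup G}, U ≤ A ⊔ B ⊔ C → V ≤ A ⊔ B ⊔ C → ⁅U, V⁆ ≤ A ⊔ B ⊔ C := fun h1 h2 =>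
    (commutator_le_sup _ _).trans (sup_le h1 h2)
  have hN := H8.le_normalizer_map_subtype_of_normal (Subgroup.upperCentralSeries ↥(A ⊔ B ⊔ C) (0 + 1))
  have z1 := zr (n := 0) (rc hD hE) (w mD mE mA) ((ccomm p1.cr p2.cr).trans_le bot_le) (w mD mE mC)
  have z2 := zr (rc rA hE) (w mA mE mA) ((commutator_comm_le _ _).trans (H8.three_subgroups (rA.trans hN) (hE.trans hN) (rB.trans hN)
    (by rw [cs p2.cr, commutator_bot_left]; exact bot_le) (commutator_comm B A ▸ z1))) (w mA mE mC)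
  have z3 := zr (rc le_sup_right hD) (w mC mD mA) ((commutator_comm_le _ _).trans (H8.three_subgroups (le_sup_right.trans hN)
    (hD.trans hN) (rB.trans hN) (by rw [cs p1.cr, commutator_bot_left]; exact bot_le)
    (by rw [commutator_comm, commutator_comm B]; exact z1))) (w mC mD mC)
  have z4 := zr hD (p1.cl.trans_le bot_le) (p1.cr.trans_le bot_le) z3
  have z5 := zr hE z2 (p2.cr.trans_le bot_le) (p2.cl.trans_le bot_le)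
  exact ⟨⟨_, H8.map_subtype_eq_self_iff.1 ((map_subtype_le _).antisymm (sup_le (sup_le
    (zr rA ((hS.ab hA).trans_le bot_le) ((commutator_comm_le _ _).trans z4) ((cs c0).trans_le bot_le))
    (zr rB z4 ((hS.ab hB).trans_le bot_le) z5))
    (zr le_sup_right (c0.trans_le bot_le) ((commutator_comm_le _ _).trans z5) ((hS.ab hC).trans_le bot_le))))⟩⟩

end Cfsg.Agent.S5030
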