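import Cfsg.Statements.S5032
import Cfsg.Agent.C3.RS2

set_option autoImplicit false
open Cfsg

namespace Cfsg.Agent.S5032

open H2 C3 Subgroup BG

/-- Let S be a set of abstract root subgroups of G with more than one member. Then the graph of rank one pairs on S is connected if and only if S is a single conjugacy class of G and some member of S has a rank one partner in S. -/
theorem result {G : Type*} [Group G] {S : Set (Subgroup G)} (hS : Cfsg.IsRootSubgroupSet S) (h2 : ∃ A ∈ S, ∃ B ∈ S, A ≠ B) :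
    Cfsg.IsConnectedFamily (Cfsg.FAdj S) S ↔
      (Cfsg.IsConjClassOfSubgroups S ∧ ∃ A ∈ S, ¬ Cfsg.IsIsolatedIn (Cfsg.FAdj S) S A) := by
  obtain ⟨A, hA, B, hB, h⟩ := h2
  exact ⟨fun k => ⟨⟨⟨A, hA⟩, fun C hC D hD => Re.conj (k C hC D hD)⟩, A, hA, (Re.ni hS (k A hA B hB) h).not_iso⟩,
    fun ⟨k, C, hC, k'⟩ => conn ⟨hS, k⟩ (ni_of hS hC k')⟩

end Cfsg.Agent.S5032
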