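import Cfsg.Statements.S5033
import Cfsg.Agent.C3.RS2

set_option autoImplicit false
open Cfsg

namespace Cfsg.Agent.S5033

open H2 C3 Subgroup BG
open scoped commutatorElement

/-- Quasisimplicity criterion for groups generated by abstract root subgroups. Let S be a set of abstract root subgroups of G with more than one member such that: the graph of rank one pairs on S is connected; no two different members of S have the same set of commuting members of S; if S is degenerate then every member of S has more than three elements; and every rank one pair in S is special. Then for every A ∈ S one has G = G' A with A ∩ G' ≠ 1, and the commutator subgroup G' is quasisimple. Moreover G is perfect if S is non-degenerate, or if some rank one pair A, B in S generates a perfect group. -/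
theorem result {G : Type*} [Group G] {S : Set (Subgroup G)} (hS : Cfsg.IsRootSubgroupSet S) (h2 : ∃ A ∈ S, ∃ B ∈ S, A ≠ B)
    (h1 : Cfsg.IsConnectedFamily (Cfsg.FAdj S) S)
    (h2' : ∀ A ∈ S, ∀ C ∈ S, A ≠ C → Cfsg.centralizingMembers S A ≠ Cfsg.centralizingMembers S C)
    (h3 : Cfsg.IsDegenerateRootSet S → ∀ A ∈ S, 3 < ENat.card A)
    (h4 : ∀ A ∈ S, ∀ B ∈ Cfsg.rankOnePartners S A, Cfsg.IsSpecialRankOnePair A B) :
    (∀ A ∈ S, commutator G ⊔ A = ⊤ ∧ A ⊓ commutator G ≠ ⊥) ∧ Cfsg.IsQuasisimple ↥(commutator G) ∧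
    (Cfsg.IsNondegenerateRootSet S → commutator G = ⊤) ∧
    ((∃ A ∈ S, ∃ B ∈ Cfsg.rankOnePartners S A, Group.IsPerfect ↥(A ⊔ B)) → commutator G = ⊤) := by
  obtain ⟨A₀, hA₀, B₀, hB₀, hne⟩ := h2
  have hc : ∀ N : Subgroup G, N.Normal → ∀ A ∈ S, A ≤ N → N = ⊤ := fun N hN A hA h => hS.eq_top fun B hB => by
    obtain ⟨g, rfl⟩ := Re.conj (h1 A hA B hB)
    exact (cj_mono g h).trans_eq (cj_eq_of_normal g N)
  have hS' : IsRootSubgroupClass S := ⟨hS, ⟨A₀, hA₀⟩, fun C hC D hD => Re.conj (h1 C hC D hD)⟩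
  have hn := ni_all hS'.2 (Re.ni hS (h1 _ hA₀ _ hB₀) hne)
  have hp : ∀ {A B}, IsDegenerateRootSet S → Om S A B → ⁅A ⊔ B, A ⊔ B⁆ = A ⊔ B := fun hd h =>
    haveI := hS.commutative _ h.l
    (h4 _ h.l _ ⟨h.r, h.o⟩).perfect (h3 hd _ h.l)
  have hd : ¬ IsDegenerateRootSet S → ∃ P Q, Ps S P Q := fun h => by
    by_contra! k
    exact h fun A hA B hB e => k A B ⟨hS, hA, hB, e.1⟩
  have hG : commutator G = ⊤ := by
    by_cases h : IsDegenerateRootSet S
    · obtain ⟨B, k⟩ := hn _ hA₀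
      exact hc _ inferInstance _ hA₀ (le_sup_left.trans ((hp h k).ge.trans (commutator_mono le_top le_top)))
    · obtain ⟨P, Q, k⟩ := hd h
      exact hc _ inferInstance _ k.m (commutator_mono le_top le_top)
  refine ⟨fun A hA => ⟨by rw [hG, top_sup_eq], by rw [hG, inf_top_eq]; exact hS.ne_bot A hA⟩, H8.qs_of_equiv
    ((MulEquiv.subgroupCongr hG).trans topEquiv).symm (H8.isQuasisimple_iff.2 ⟨hG, ?_, fun N hN => or_iff_not_imp_left.2 fun hT => ?_⟩),
    fun _ => hG, fun _ => hG⟩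
  · obtain ⟨a, -, h⟩ := hS.exists_ne hA₀
    exact ⟨a, 1, h⟩
  have k1 : ∀ n ∈ N, ∀ {A D : Subgroup G}, ⁅D, A⁆ = ⊥ → ⁅D, n ⋆ A⁆ ≤ N := fun n hn' A D e => by
    rw [← QuotientGroup.ker_mk' N, ← Subgroup.map_eq_bot_iff, map_commutator, map_cj, (QuotientGroup.eq_one_iff n).2 hn' |> (show QuotientGroup.mk' N n = 1 from ·),
      cj_one, ← map_commutator, e, Subgroup.map_bot]
  have k2 : ∀ n ∈ N, ∀ A ∈ S, ¬ IsRankOnePair A (n ⋆ A) := fun n hn' A hA e => by
    have e' : Om S A (n ⋆ A) := ⟨hS, hA, hS.cj hA n, e⟩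
    by_cases h : IsDegenerateRootSet S
    · refine hT (hc N hN A hA (le_sup_left.trans ((hp h e').ge.trans ?_)))
      have l := k1 n hn' (hS.ab hA)
      have l' : ∀ K : Subgroup G, K ≤ 𝒩 N := fun K => normalizer_eq_top N ▸ le_top
      exact H8.commutator_sup_le_of_norm ((commutator_comm_le _ _).trans (H8.commutator_sup_le_of_norm ((hS.ab hA).trans_le bot_le)
        ((commutator_comm_le _ _).trans l) (l' _))) ((commutator_comm_le _ _).trans (H8.commutator_sup_le_of_norm l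
        ((hS.ab e'.r).trans_le bot_le) (l' _))) (l' _)
    · obtain ⟨P, Q, k⟩ := hd h
      obtain ⟨C, l1, l2⟩ := e'.exists_ln_ps hS' hn k
      exact hT (hc N hN _ l2.m (k1 n hn' (cs l1.comm)))
  have k3 : ∀ n ∈ N, ∀ A ∈ S, ∀ D ∈ S, ⁅D, A⁆ = ⊥ → ⁅D, n ⋆ A⁆ = ⊥ := fun n hn' A hA D hD e => by
    have l : ∀ n ∈ N, ∀ A ∈ S, ⁅A, n ⋆ A⁆ = ⊥ := fun n hn' A hA => ((hS.tri hA (hS.cj hA n)).resolve_right fun k => k.elim
      (fun k => k2 n hn' A hA k.o) fun k => hT (hc N hN _ k.m (k1 n hn' (hS.ab hA))))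
    obtain k | k | k := hS.tri hD (hS.cj hA n)
    · exact k
    · obtain ⟨d, hd, l1⟩ := k.o.exists_ne
      refine absurd ?_ (k.o.sup_cj hd l1).1.not_comm
      have := l (d * n * d⁻¹ * n⁻¹) (mul_mem (hN.conj_mem n hn' d) (inv_mem hn')) _ (hS.cj hA n)
      rwa [cj_mul _ n⁻¹, cj_inv_cj, cj_mul _ d⁻¹, cj_of_comm e (inv_mem hd), cj_mul] at this
    · exact absurd (hc N hN _ k.m (k1 n hn' e)) hT
  have k4 : ∀ n ∈ N, ∀ A ∈ S, n ⋆ A = A := fun n hn' A hA => by_contra fun e => h2' _ (hS.cj hA n) A hA e (Set.ext fun D =>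
    and_congr_right fun hD => ⟨fun k => comm_iff.1 (by simpa only [cj_inv_cj] using k3 _ (inv_mem hn') _ (hS.cj hA n) D hD (comm_iff.2 k)),
      fun k => comm_iff.1 (k3 n hn' A hA D hD (comm_iff.2 k))⟩)
  intro n hn'
  rw [← centralizer_univ, ← coe_top, ← zpowers_le, ← le_centralizer_iff, hS.eq_top (K := 𝒞 (zpowers n)) fun A hA => ?_]
  obtain ⟨B, k⟩ := hn A hA
  exact le_centralizer_iff.1 (zpowers_le.2 (cent_sup.1 (k.o.cent_of_fix fun E hE => k4 n hn' E (k.un_mem hE))).1)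

end Cfsg.Agent.S5033
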