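import Cfsg.Statements.S5034
import Cfsg.Agent.C3.RS2

set_option autoImplicit false
open Cfsg

namespace Cfsg.Agent.S5034

open H2 C3 Subgroup BG

/-- Let S be a non-degenerate class of abstract root subgroups of G, A ∈ S and B a rank one partner of A. Then some line partner C of A has ⁅B, C⁆ ∈ S, and the rank one pair A, B is special. -/
theorem result {G : Type*} [Group G] {S : Set (Subgroup G)} (hS : Cfsg.IsRootSubgroupClass S) (hnd : Cfsg.IsNondegenerateRootSet S)
    {A B : Subgroup G} (hA : A ∈ S) (hB : B ∈ Cfsg.rankOnePartners S A) :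
    (∃ C ∈ Cfsg.linePartners S A, C ∈ Cfsg.commutatorPartners S B) ∧ Cfsg.IsSpecialRankOnePair A B := by
  obtain ⟨hn, P, Q, hp⟩ := nd_setup hS hnd
  have h : Om S A B := ⟨hS.1, hA, hB.1, hB.2⟩
  obtain ⟨C, h1, h2⟩ := h.exists_ln_ps hS hn hp
  exact ⟨⟨C, h1.m, h2.l, h2.symm.m⟩, h1.special h⟩

end Cfsg.Agent.S5034
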