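import Cfsg.Statements.S5035
import Cfsg.Agent.C3.RS2

set_option autoImplicit false
open Cfsg

namespace Cfsg.Agent.S5035

open H2 C3 Subgroup BG

/-- Let S be a set of abstract root subgroups of G whose graph of rank one pairs is connected, and f a homomorphism from G onto a group H. Then either the images of the members of S form a set of abstract root subgroups of H whose graph of rank one pairs is again connected, or H equals the image of a member of S. -/
theorem result {G H : Type*} [Group G] [Group H] {S : Set (Subgroup G)} (hS : Cfsg.IsRootSubgroupSet S)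
    (hc : Cfsg.IsConnectedFamily (Cfsg.FAdj S) S) (f : G →* H) (hf : Function.Surjective f) :
    (Cfsg.IsRootSubgroupSet ((fun A : Subgroup G => A.map f) '' S) ∧
      Cfsg.IsConnectedFamily (Cfsg.FAdj ((fun A : Subgroup G => A.map f) '' S)) ((fun A : Subgroup G => A.map f) '' S)) ∨
    ∃ A ∈ S, A.map f = ⊤ := by
  refine or_iff_not_imp_right.2 fun h => ?_
  have hg : ⨆ A ∈ (fun A : Subgroup G => A.map f) '' S, A = ⊤ := by
    rw [iSup_image, ← map_top_of_surjective f hf, ← hS.generates]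
    simp only [Subgroup.map_iSup]
  have k : ∀ {A B}, IsRankOnePair A B → A.map f = B.map f ∨ IsRankOnePair (A.map f) (B.map f) := fun {A B} e => by
    obtain ⟨n, hn, rfl⟩ | k := e.normal_cases (N := f.ker) (normalizer_eq_top f.ker ▸ le_top)
    · exact .inl (by rw [map_cj, show f n = 1 from hn.1, cj_one])
    · exact or_iff_not_imp_left.2 (e.map f (fun a ha e' => e.eq_one ha (cj_of_cent (cent_sup.1 (k ⟨e', mem_sup_left ha⟩)).2))
        fun a ha e' => e.symm.eq_one ha (cj_of_cent (cent_sup.1 (k ⟨e', mem_sup_right ha⟩)).1))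
  have k' : ∀ {A B : Subgroup G} {φ : G → G} {ψ : H → H}, (∀ x, f (φ x) = ψ (f x)) → closure (φ '' B) = A →
      closure (ψ '' (B.map f)) = A.map f := fun e e' => by
    rw [← e', MonoidHom.map_closure, coe_map, Set.image_image, Set.image_image]
    simp only [e]
  refine ⟨⟨?_, ?_, hg, ?_, ?_⟩, ?_⟩
  · rintro _ ⟨A, hA, rfl⟩
    exact commutator_self_eq_bot_iff.1 (by rw [← map_commutator, hS.ab hA, Subgroup.map_bot])
  · rintro _ ⟨A, hA, rfl⟩ e
    refine h ⟨A, hA, top_unique (hg.ge.trans (iSup₂_le ?_))⟩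
    rintro _ ⟨B, hB, rfl⟩
    obtain ⟨g, rfl⟩ := Re.conj (hc A hA B hB)
    beta_reduce at e ⊢
    rw [map_cj, e, cj_bot]
  · rintro _ ⟨A, hA, rfl⟩ g
    obtain ⟨g, rfl⟩ := hf g
    exact ⟨_, hS.cj hA g, map_cj f g A⟩
  · rintro _ ⟨A, hA, rfl⟩ _ ⟨B, hB, rfl⟩
    beta_reduce
    obtain e | e | ⟨e1, e2, e3, e4⟩ := hS.pair A hA B hB
    · exact .inl (by rw [← map_commutator, e, Subgroup.map_bot])
    · exact (k e).imp (fun e => by rw [← e, ← map_commutator, hS.ab hA, Subgroup.map_bot]) .inl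
    refine .inr (.inr ?_)
    rw [RootCommutatorCase, ← map_commutator, ← Subgroup.map_sup]
    refine ⟨⟨_, e1, rfl⟩, ?_, ?_, ?_⟩
    · rintro _ ⟨c, hc, rfl⟩ _ ⟨x, hx, rfl⟩
      rw [← map_mul, e2 c hc x hx, map_mul]
    · rintro _ ⟨a, ha, rfl⟩ e
      exact k' (by simp) (e3 a ha fun e' => e (by rw [e', map_one]))
    · rintro _ ⟨a, ha, rfl⟩ e
      exact k' (by simp) (e4 a ha fun e' => e (by rw [e', map_one]))
  · rintro _ ⟨A, hA, rfl⟩ _ ⟨B, hB, rfl⟩
    have l := hc A hA B hB
    clear hB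
    induction l with
    | refl => exact .refl
    | tail _ l ih =>
      obtain e | e := k l.2.2
      exacts [by simpa only [e] using ih, ih.tail ⟨⟨_, l.1, rfl⟩, ⟨_, l.2.1, rfl⟩, e⟩]

end Cfsg.Agent.S5035
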