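import Cfsg.Statements.S5036
import Cfsg.Agent.C3.RS2

set_option autoImplicit false
open Cfsg

namespace Cfsg.Agent.S5036

open H2 C3 Subgroup BG

/-- Let S be a set of abstract root subgroups of G, A, B ∈ S with C = ⁅A, B⁆ ∈ S, and D ∈ S with ⁅D, C⁆ = A. Put X = ⟨B, D⟩ and N = AC. Then B, D form a rank one pair; the conjugates of A under X are the conjugates of C under X, namely the conjugates of A by elements of B together with C, equally the conjugates of C by elements of D together with A, and they partition N; and the centralizer of N in X is central in X. -/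
theorem result {G : Type*} [Group G] {S : Set (Subgroup G)} (hS : Cfsg.IsRootSubgroupSet S)
    {A B D : Subgroup G} (hA : A ∈ S) (hB : B ∈ S) (hC : ⁅A, B⁆ ∈ S) (hD : D ∈ S) (hDC : ⁅D, ⁅A, B⁆⁆ = A) :
    Cfsg.IsRankOnePair B D ∧
    {E | ∃ x ∈ B ⊔ D, E = Cfsg.conjBy A x} = {E | ∃ x ∈ B ⊔ D, E = Cfsg.conjBy ⁅A, B⁆ x} ∧
    {E | ∃ x ∈ B ⊔ D, E = Cfsg.conjBy A x} = (fun b : G => Cfsg.conjBy A b) '' (B : Set G) ∪ {⁅A, B⁆} ∧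
    {E | ∃ x ∈ B ⊔ D, E = Cfsg.conjBy A x} = (fun d : G => Cfsg.conjBy ⁅A, B⁆ d) '' (D : Set G) ∪ {A} ∧
    Cfsg.IsSubgroupPartition (A ⊔ ⁅A, B⁆) {E | ∃ x ∈ B ⊔ D, E = Cfsg.conjBy A x} ∧
    ∀ x ∈ (B ⊔ D) ⊓ Subgroup.centralizer ((A ⊔ ⁅A, B⁆ : Subgroup G) : Set G), ∀ y ∈ B ⊔ D, x * y = y * x := by
  have h : Ps S A B := ⟨hS, hA, hB, hC⟩
  have h' : Ps S D ⁅A, B⁆ := ⟨hS, hD, hC, hDC.symm ▸ hA⟩
  have ho := (h.om rfl h' hDC).o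
  have hN := h.norm_dual rfl h' hDC
  have p1 : ∀ x ∈ B ⊔ D, x ⋆ ⁅A, B⁆ = (A ⊔ ⁅A, B⁆) ⊓ 𝒞 (x ⋆ B) := fun x hx => h.pt rfl (hN hx)
  have p2 : ∀ x ∈ B ⊔ D, x ⋆ A = (A ⊔ ⁅A, B⁆) ⊓ 𝒞 (x ⋆ D) := fun x hx => by
    rw [sup_comm] at hN ⊢
    exact h'.symm.pt ((commutator_comm _ _).trans hDC) (by rw [sup_comm]; exact hN (sup_comm B D ▸ hx))
  have q1 := p1 1 (one_mem _)
  have q2 := p2 1 (one_mem _)
  rw [cj_one, cj_one] at q1 q2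
  obtain ⟨w, hw, w1, w2⟩ := ho.exists_swap
  have w3 : w ⋆ A = ⁅A, B⁆ := by rw [p2 w hw, w2, ← q1]
  have w4 : w ⋆ ⁅A, B⁆ = A := by rw [p1 w hw, w1, ← q2]
  refine ⟨ho, Set.ext fun E => ⟨?_, ?_⟩, Set.ext fun E => ⟨?_, ?_⟩, Set.ext fun E => ⟨?_, ?_⟩, ⟨?_, fun x hx _ => ?_, ?_⟩, ?_⟩
  · rintro ⟨x, hx, rfl⟩
    exact ⟨x * w, mul_mem hx hw, ((cj_mul _ _ _).trans (by rw [w4])).symm⟩
  · rintro ⟨x, hx, rfl⟩
    exact ⟨x * w, mul_mem hx hw, ((cj_mul _ _ _).trans (by rw [w3])).symm⟩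
  · rintro ⟨x, hx, rfl⟩
    obtain e | ⟨b, hb, e⟩ := ho.mem_iff.1 (un_cj ho.un_right hx)
    · exact .inr ((p2 x hx).trans (by rw [e, ← q1]))
    · exact .inl ⟨b, hb, (p2 b (mem_sup_left hb)).trans (by rw [← e, ← p2 x hx])⟩
  · rintro (⟨b, hb, rfl⟩ | rfl)
    exacts [⟨b, mem_sup_left hb, rfl⟩, ⟨w, hw, w3.symm⟩]
  · rintro ⟨x, hx, rfl⟩
    obtain e | ⟨b, hb, e⟩ := ho.symm.mem_iff.1 (un_cj un_left (sup_comm B D ▸ hx))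
    · exact .inr ((p2 x hx).trans (by rw [e, ← q2]))
    · exact .inl ⟨b, hb, (p1 b (mem_sup_right hb)).trans (by rw [← e, ← p2 x hx])⟩
  · rintro (⟨b, hb, rfl⟩ | rfl)
    exacts [⟨b * w, mul_mem (mem_sup_right hb) hw, ((cj_mul _ _ _).trans (by rw [w3])).symm⟩, ⟨1, one_mem _, (cj_one _).symm⟩]
  · rintro _ ⟨x, hx, rfl⟩
    exact (p2 x hx).trans_le inf_le_left
  · obtain e | ⟨b, hb, e⟩ := h.mem_cj hx
    exacts [⟨_, ⟨w, hw, w3.symm⟩, e⟩, ⟨_, ⟨b, mem_sup_left hb, rfl⟩, e⟩]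
  · rintro _ ⟨x, hx, rfl⟩ _ ⟨y, hy, rfl⟩ e
    refine (eq_bot_iff_forall _).2 fun z hz => ?_
    have k1 := (p2 x hx).le hz.1
    have k2 := cent_sup.2 ⟨k1.2, ((p2 y hy).le hz.2).2⟩
    rw [(ho.of_un (un_cj ho.un_right hx) (un_cj ho.un_right hy) fun k => e ((p2 x hx).trans (by rw [k, ← p2 y hy]))).2, cent_sup] at k2
    exact h.eq_one (q2.ge ⟨k1.1, k2.2⟩) (q1.ge ⟨k1.1, k2.1⟩)
  · obtain ⟨n, hn, e⟩ | e := ho.normal_cases (H8.le_normalizer_centralizer hN)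
    · exact absurd (q2.trans (by rw [← e, ← p1 n hn.2, cj_of_cent (cent_sup.1 hn.1).2])) h.ne
    · exact fun x hx y hy => (e ⟨hx.2, hx.1⟩ y hy).symm

end Cfsg.Agent.S5036
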