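import Cfsg.Statements.S5037
import Cfsg.Agent.C3.RS2

set_option autoImplicit false
open Cfsg

namespace Cfsg.Agent.S5037

open H2 C3 Subgroup BG

/-- Let S be a class of abstract root subgroups of G that is either degenerate or non-degenerate (so either the commutator case never occurs, or all three cases occur), and A ≠ C members of S. If every member of S commuting with A commutes with C, then A and C have the same commuting members of S; and if every rank one partner of A is a rank one partner of C, then A and C commute and have the same rank one partners. -/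
theorem result {G : Type*} [Group G] {S : Set (Subgroup G)} (hS : Cfsg.IsRootSubgroupClass S)
    (hdn : Cfsg.IsDegenerateRootSet S ∨ Cfsg.IsNondegenerateRootSet S)
    {A C : Subgroup G} (hA : A ∈ S) (hC : C ∈ S) (hAC : A ≠ C) :
    (Cfsg.centralizingMembers S A ⊆ Cfsg.centralizingMembers S C →
      Cfsg.centralizingMembers S A = Cfsg.centralizingMembers S C) ∧
    (Cfsg.rankOnePartners S A ⊆ Cfsg.rankOnePartners S C →
      ⁅A, C⁆ = ⊥ ∧ Cfsg.rankOnePartners S A = Cfsg.rankOnePartners S C) := by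
  have h1 : NI S A := hdn.elim (fun hd => by_contra fun k => by
    obtain ⟨g, rfl⟩ := hS.2.2 A hA C hC
    refine hAC (cj_of_cent ?_).symm
    rw [hS.1.eq_top (K := 𝒞 A) fun D hD => comm_iff'.1 ((deg_tri hS.1 hd hA hD).resolve_right fun e => k e.ni)]
    trivial) fun hd => (nd_setup hS hd).1 A hA
  have hn := ni_all hS.2 h1
  refine ⟨fun h => h.antisymm ?_, fun h => ?_⟩
  · have k : ∀ {D}, D ∈ S → ⁅D, A⁆ = ⊥ → ⁅D, C⁆ = ⊥ := fun hD e => comm_iff.2 (h ⟨hD, comm_iff.1 e⟩).2
    obtain ⟨D, hD⟩ := hn C hC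
    have k1 := k hA (hS.1.ab hA)
    obtain e | e | e := hS.1.tri hA hD.r
    · exact absurd (cs (k hD.r (cs e))) hD.o.not_comm
    · obtain ⟨g, g1, g2⟩ := tri_swap e hD k1
      refine fun E hE => ⟨hE.1, comm_iff.1 ?_⟩
      simpa only [cj_cj_inv, g2] using cj_comm (k (hS.1.cj hE.1 g⁻¹) (by
        simpa only [← g1, cj_inv_cj] using cj_comm (comm_iff.2 hE.2) g⁻¹)) g
    · exact absurd (k e.m (cs e.cl)) (hD.K1 (cs k1) e).1.not_comm
  · have k : ∀ {D}, Om S A D → Om S C D := fun e => ⟨hS.1, hC, e.r, (h ⟨e.r, e.o⟩).2⟩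
    have k1 : ⁅A, C⁆ = ⊥ := by
      obtain e | e | e := hS.1.tri hC hA
      · exact cs e
      · exact absurd rfl (k e.symm).o.ne
      · obtain ⟨F, l1, l2⟩ := (e.ln (hn C hC)).symm.exists_comm hn
        exact absurd (by rw [← l2]; exact cs l1.cr) (k (e.om rfl l1.symm ((commutator_comm _ _).trans l2))).o.not_comm
    obtain ⟨D, hD⟩ := h1
    obtain ⟨g, g1, g2⟩ := tri_swap hD (k hD) k1
    refine ⟨k1, h.antisymm fun E hE => ⟨hE.1, ?_⟩⟩
    simpa only [cj_cj_inv, g2] using ((k (D := g⁻¹ ⋆ E) (by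
      simpa only [← g1, cj_inv_cj] using Om.cj ⟨hS.1, hC, hE.1, hE.2⟩ g⁻¹)).cj g).o

end Cfsg.Agent.S5037
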