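import Cfsg.Statements.S5039
import Cfsg.Agent.C3.RS2

set_option autoImplicit false
universe u
open Cfsg

namespace Cfsg.Agent.S5039

open H2 C3 Subgroup BG

/-- Let S be a class of abstract root subgroups of G containing two different commuting members. Suppose that, in case S is degenerate and every element of every member of S has order at most 3, the following holds: for every A ∈ S and every rank one partner B of A there are subgroups A₀ ≤ A and B₀ ≤ B generating an image of SL₂(k) with central kernel, k a field with at least four elements, A₀ and B₀ being the images of the unitriangular subgroups. Then every rank one pair A, B in S is special. -/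
theorem result {G : Type u} [Group G] {S : Set (Subgroup G)} (hS : Cfsg.IsRootSubgroupClass S)
    (hcomm : ∃ A ∈ S, ∃ C ∈ S, A ≠ C ∧ ⁅A, C⁆ = ⊥)
    (hH : Cfsg.IsDegenerateRootSet S → (∀ A ∈ S, ∀ a ∈ A, 0 < orderOf a ∧ orderOf a ≤ 3) →
      ∀ A ∈ S, ∀ B ∈ Cfsg.rankOnePartners S A, ∃ A₀ B₀ : Subgroup G, A₀ ≤ A ∧ B₀ ≤ B ∧
        ∃ (k : Type u) (_ : Field k), 3 < ENat.card k ∧ Cfsg.IsPSL2PairOver k A₀ B₀)
    {A B : Subgroup G} (hA : A ∈ S) (hB : B ∈ Cfsg.rankOnePartners S A) : Cfsg.IsSpecialRankOnePair A B := by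
  have h : Om S A B := ⟨hS.1, hA, hB.1, hB.2⟩
  by_cases hd : IsDegenerateRootSet S
  · obtain ⟨P, hP, Q, hQ, h1, h2⟩ := hcomm
    exact deg_special hS hd h1 hP hQ h2 h
  obtain ⟨P, Q, hp⟩ : ∃ P Q, Ps S P Q := by
    by_contra! k
    exact hd fun A hA B hB e => k A B ⟨hS.1, hA, hB, e.1⟩
  exact (exists_ln hS (ni_all hS.2 h.ni) hp hA).choose_spec.special h

end Cfsg.Agent.S5039
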