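import Cfsg.Statements.S5040
import Cfsg.Agent.C3.RS2

set_option autoImplicit false
open Cfsg

namespace Cfsg.Agent.S5040

open H2 C3 Subgroup BG

/-- Let S be a non-degenerate class of abstract root subgroups of G and Δ a weak TI-subset of S. Then the members of Δ commute with one another elementwise. -/
theorem result {G : Type*} [Group G] {S : Set (Subgroup G)} (hS : Cfsg.IsRootSubgroupClass S) (hnd : Cfsg.IsNondegenerateRootSet S)
    {Δ : Set (Subgroup G)} (hΔ : Cfsg.IsWeakTISubset S Δ) : Cfsg.IsAbelianFamily Δ := by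
  obtain ⟨hn, P, Q, hp⟩ := nd_setup hS hnd
  obtain ⟨h1, -, h2, h3⟩ := hΔ
  let T : Subgroup G :=
    { carrier := {g | ∀ X, g ⋆ X ∈ Δ ↔ X ∈ Δ}
      one_mem' := fun X => by rw [cj_one]
      mul_mem' := fun hx hy X => by rw [cj_mul, hx, hy]
      inv_mem' := fun {x} hx X => by rw [← hx, cj_cj_inv] }
  have k1 : ∀ X ∈ Δ, ∀ D ∈ S, ⁅X, D⁆ = ⊥ → D ≤ T := fun X hX D hD e d hd => by
    obtain rfl | k := eq_or_ne d 1
    · exact one_mem _
    have k' := (h3 d ⟨k, D, hD, hd⟩).resolve_right fun k' => Set.disjoint_left.1 k' ⟨X, hX, cj_of_comm (cs e) hd⟩ hX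
    exact fun Y => ⟨fun hY => by obtain ⟨Z, hZ, e⟩ := k'.ge hY; exact cj_inj.1 e ▸ hZ, fun hY => k'.le ⟨Y, hY, rfl⟩⟩
  have k2 : ∀ X ∈ Δ, ∀ Y ∈ Δ, ∀ D, Om S X D → ⁅Y, D⁆ ≠ ⊥ := fun X hX Y hY D e e' => h2 (h1.antisymm fun E hE => by
    obtain ⟨g, rfl⟩ := hS.2.2 X e.l E hE
    exact ((sup_le (iSup₂_le fun C hC => k1 X hX C hC.1.1 hC.1.2.2) (k1 Y hY D e.r e') : _ ≤ T)
      ((e.gen hS hn hp).ge (mem_top g)) X).2 hX)
  refine fun A hA B hB => H8.commutator_eq_bot_iff_forall.1 ?_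
  obtain e | e | e := hS.1.tri (h1 hA) (h1 hB)
  · exact e
  · exact absurd (hS.1.ab e.r) (k2 A hA B hB B e)
  · obtain ⟨F, l1, l2⟩ := (e.ln (hn A e.l)).symm.exists_comm hn
    exact absurd (by rw [← l2]; exact cs l1.cr) (k2 B hB A hA F (e.om rfl l1.symm ((commutator_comm _ _).trans l2)))

end Cfsg.Agent.S5040
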