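import Cfsg.Statements.S5041
import Cfsg.Agent.C3.RS2

set_option autoImplicit false
open Cfsg

namespace Cfsg.Agent.S5041

open H2 C3 Subgroup BG

/-- Let S be a non-degenerate class of abstract root subgroups of G. Then the graph on S joining A to its line partners, and the commuting graph on S, are both connected. -/
theorem result {G : Type*} [Group G] {S : Set (Subgroup G)} (hS : Cfsg.IsRootSubgroupClass S) (hnd : Cfsg.IsNondegenerateRootSet S) :
    Cfsg.IsConnectedFamily (Cfsg.EAdj S S) S ∧ Cfsg.IsConnectedFamily (Cfsg.DAdj S) S := by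
  obtain ⟨hn, P, Q, hp⟩ := nd_setup hS hnd
  exact ⟨econn hS hn hp, fun A hA B hB => Relation.ReflTransGen.mono (p := DAdj S)
    (fun _ _ (k : EAdj S S _ _) => ⟨k.1, k.2.1, k.2.2.1.2.1.symm, k.2.2.1.2.2⟩) A B (econn hS hn hp A hA B hB)⟩

end Cfsg.Agent.S5041
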