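import Cfsg.Statements.S5043
import Cfsg.Agent.C3.LR2

set_option autoImplicit false
open Matrix
open Cfsg

namespace Cfsg.Agent.S5043

open H2 C3 C3.QP C3.LR Subgroup BG Module H4

/-- Let k be a field and n a natural number. In SL_{n+3}(k) (so in every dimension at least 3) the conjugates of the root subgroup of elementary transvections 1 + c E₁₂ (c ∈ k) — that is, the groups of transvections attached to an incident point–hyperplane pair — form a non-degenerate class of abstract k-root subgroups of SL_{n+3}(k) whose graph of rank one pairs is connected. -/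
theorem result (k : Type*) [Field k] (n : ℕ) :
    Cfsg.IsRootSubgroupClass {A : Subgroup (Matrix.SpecialLinearGroup (Fin (n + 3)) k) |
        ∃ g : Matrix.SpecialLinearGroup (Fin (n + 3)) k,
          A = Cfsg.conjBy (Subgroup.closure {t : Matrix.SpecialLinearGroup (Fin (n + 3)) k |
            ∃ c : k, (t : Matrix (Fin (n + 3)) (Fin (n + 3)) k) = Matrix.transvection 0 1 c}) g} ∧
    Cfsg.IsNondegenerateRootSet {A : Subgroup (Matrix.SpecialLinearGroup (Fin (n + 3)) k) |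
        ∃ g : Matrix.SpecialLinearGroup (Fin (n + 3)) k,
          A = Cfsg.conjBy (Subgroup.closure {t : Matrix.SpecialLinearGroup (Fin (n + 3)) k |
            ∃ c : k, (t : Matrix (Fin (n + 3)) (Fin (n + 3)) k) = Matrix.transvection 0 1 c}) g} ∧
    Cfsg.IsKRootSubgroupSet k {A : Subgroup (Matrix.SpecialLinearGroup (Fin (n + 3)) k) |
        ∃ g : Matrix.SpecialLinearGroup (Fin (n + 3)) k,
          A = Cfsg.conjBy (Subgroup.closure {t : Matrix.SpecialLinearGroup (Fin (n + 3)) k |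
            ∃ c : k, (t : Matrix (Fin (n + 3)) (Fin (n + 3)) k) = Matrix.transvection 0 1 c}) g} ∧
    Cfsg.IsConnectedFamily (Cfsg.FAdj {A : Subgroup (Matrix.SpecialLinearGroup (Fin (n + 3)) k) |
        ∃ g : Matrix.SpecialLinearGroup (Fin (n + 3)) k,
          A = Cfsg.conjBy (Subgroup.closure {t : Matrix.SpecialLinearGroup (Fin (n + 3)) k |
            ∃ c : k, (t : Matrix (Fin (n + 3)) (Fin (n + 3)) k) = Matrix.transvection 0 1 c}) g})
      {A : Subgroup (Matrix.SpecialLinearGroup (Fin (n + 3)) k) |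
        ∃ g : Matrix.SpecialLinearGroup (Fin (n + 3)) k,
          A = Cfsg.conjBy (Subgroup.closure {t : Matrix.SpecialLinearGroup (Fin (n + 3)) k |
            ∃ c : k, (t : Matrix (Fin (n + 3)) (Fin (n + 3)) k) = Matrix.transvection 0 1 c}) g} := by
  have hι := rs_inj k (jS_inj (F := k) (n := Fin (n + 3)))
  have h1 := rn_fl (jS_dt (F := k) (n := Fin (n + 3)))
  have h2 := rn_conj (jS_dt (F := k) (n := Fin (n + 3))) (by simp)
  have h01 : (0 : Fin (n + 3)) ≠ 1 := zero_ne_one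
  have h02 : (0 : Fin (n + 3)) ≠ 2 := by simp [Fin.ext_iff, Nat.mod_eq_of_lt]
  have h12 : (1 : Fin (n + 3)) ≠ 2 := by simp [Fin.ext_iff, Nat.mod_eq_of_lt]
  generalize hS : {A : Subgroup (Matrix.SpecialLinearGroup (Fin (n + 3)) k) | _} = S
  obtain rfl : LA (rs k (jS k (Fin (n + 3)))) '' RN k _ = S := by
    simp only [← hS, ← el_eq]
    refine Set.ext fun A => ⟨?_, ?_⟩
    · rintro ⟨a, ha, rfl⟩
      obtain ⟨g, rfl⟩ := h2 _ (el_mem h01) a ha
      exact ⟨g, (cj_LA g).symm⟩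
    · rintro ⟨g, rfl⟩
      exact ⟨_, rn_cj _ (el_mem h01) g, (cj_LA g).symm⟩
  have h3 := LA_set hι h1 rn_cj rn_tri fun K hK => rn_top jS_inj jS_mem jS_dt fun g a ha e =>
    hK a ha (Subgroup.subset_closure ⟨1, by rw [e, one_smul]⟩)
  have h4 : IsRootSubgroupClass (LA (rs k (jS k (Fin (n + 3)))) '' RN k _) := ⟨h3.1, ⟨_, _, el_mem h01, rfl⟩, by
    rintro _ ⟨a, ha, rfl⟩ _ ⟨b, hb, rfl⟩
    obtain ⟨g, rfl⟩ := h2 a ha b hb
    exact ⟨g, (cj_LA g).symm⟩⟩
  have h5 := LA_ro hι (h1 _ (el_mem h01)) (h1 _ (el_mem h01.symm)) one_ne_zero (LinearMap.ext fun v => by simp)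
    (LinearMap.ext fun v => by simp)
  refine ⟨h4, ⟨⟨_, ⟨_, el_mem h01, rfl⟩, _, ⟨_, el_mem h02, rfl⟩, fun e => ?_, LA_comm hι (LinearMap.ext fun v => by simp [h02.symm])⟩,
    ⟨_, ⟨_, el_mem h01, rfl⟩, _, ⟨_, el_mem h01.symm, rfl⟩, h5⟩, _, ⟨_, el_mem h01, rfl⟩, _, ⟨_, el_mem h12, rfl⟩,
    LA_rcc hι (h1 _ (el_mem h01)) (h1 _ (el_mem h12)) (LinearMap.ext fun v => by simp [h02.symm])
      (LinearMap.ext fun v => by simp [h02.symm]) ⟨_, el_mem h02, congrArg _ (LinearMap.ext fun v => by simp [h02.symm])⟩⟩, h3,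
    conn h4 ⟨_, h3.1, ⟨_, el_mem h01, rfl⟩, ⟨_, el_mem h01.symm, rfl⟩, h5⟩⟩
  obtain ⟨g, hg⟩ := (h1 _ (el_mem h01)).ex 1
  obtain ⟨c, hc⟩ := (mem_LA (h1 _ (el_mem h02)).sq).1 (e.le (Subgroup.subset_closure ⟨1, hg⟩))
  simpa [h12.symm] using LinearMap.congr_fun (hg.symm.trans hc) (Pi.single 1 1)

end Cfsg.Agent.S5043
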