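import Cfsg.Statements.S5045
import Cfsg.Agent.C3.RI

set_option autoImplicit false
open Cfsg

namespace Cfsg.Agent.S5045

open H2 C3 C3.RI Subgroup

/-- Let G be a finite group generated by a set D of root involutions, and W the set of members of D whose product with every other member of D has even order or is trivial (the isolated vertices of the odd-order-product graph on D). Then W is conjugation-invariant and generates a normal 2-subgroup of G meeting D in exactly W; the commutator of two members of D lying in different connected components of that graph, each with more than one member, lies in the subgroup generated by W; and for a in such a component, every member of D commuting with a, different from a and with product with a in D, lies in that component or in W. -/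
theorem result {G : Type*} [Group G] [Finite G] {D : Set G} (hD : Cfsg.IsRootInvolutionSet D) :
    (∀ w ∈ {w | Cfsg.IsIsolatedElem (Cfsg.OddAdj D) D w}, ∀ g : G, g * w * g⁻¹ ∈ {w | Cfsg.IsIsolatedElem (Cfsg.OddAdj D) D w}) ∧
    (Subgroup.closure {w | Cfsg.IsIsolatedElem (Cfsg.OddAdj D) D w}).Normal ∧
    IsPGroup 2 ↥(Subgroup.closure {w | Cfsg.IsIsolatedElem (Cfsg.OddAdj D) D w}) ∧
    (Subgroup.closure {w | Cfsg.IsIsolatedElem (Cfsg.OddAdj D) D w} : Set G) ∩ D = {w | Cfsg.IsIsolatedElem (Cfsg.OddAdj D) D w} ∧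
    (∀ a ∈ D, ∀ b ∈ D, (∃ a' ∈ Cfsg.elemComponentOf (Cfsg.OddAdj D) D a, a' ≠ a) →
      (∃ b' ∈ Cfsg.elemComponentOf (Cfsg.OddAdj D) D b, b' ≠ b) →
      Cfsg.elemComponentOf (Cfsg.OddAdj D) D a ≠ Cfsg.elemComponentOf (Cfsg.OddAdj D) D b →
        a * b * a⁻¹ * b⁻¹ ∈ Subgroup.closure {w | Cfsg.IsIsolatedElem (Cfsg.OddAdj D) D w}) ∧
    (∀ a ∈ D, (∃ a' ∈ Cfsg.elemComponentOf (Cfsg.OddAdj D) D a, a' ≠ a) →
      Cfsg.productPartners D a ⊆ Cfsg.elemComponentOf (Cfsg.OddAdj D) D a ∪ {w | Cfsg.IsIsolatedElem (Cfsg.OddAdj D) D w}) := by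
  generalize hW : {w | Cfsg.IsIsolatedElem (Cfsg.OddAdj D) D w} = W
  have h0 : ∀ {w}, w ∈ W ↔ w ∈ D ∧ ∀ x, x ∉ oddPartners D w := fun {w} => hW ▸ and_congr_right fun h =>
    ⟨fun k x hx => (k x).1 ⟨h, hx.1, hx.2.1.symm, hx.2.2⟩, fun k x => ⟨fun e => k x ⟨e.2.1, e.2.2.1.symm, e.2.2.2⟩,
      fun e => k x (Od.symm e.1 ⟨h, e.2.2.1.symm, e.2.2.2⟩)⟩⟩
  have h1 : ∀ w ∈ W, ∀ g : G, g * w * g⁻¹ ∈ W := fun w hw g =>
    h0.2 ⟨hD.conj_mem _ (h0.1 hw).1 g, fun x hx => by obtain ⟨y, hy, -⟩ := (A_cj hD w g).le hx; exact (h0.1 hw).2 y hy⟩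
  haveI h2 : (closure W).Normal := ⟨fun n hn g => (show closure W ≤ (closure W).comap (MulAut.conj g).toMonoidHom from
    (closure_le _).2 fun w hw => subset_closure (h1 w hw g)) hn⟩
  have h3 := pgroup_closure (T := W) (fun t ht => sq1 hD (h0.1 ht).1) (fun t _ s hs => h1 s hs t)
    fun t ht s hs => four_of hD (h0.1 ht).1 (h0.1 hs).1 ((h0.1 ht).2 s)
  have h4 : ∀ {a x}, a ∈ D → x ∈ oddPartners D a → Relation.ReflTransGen (OddAdj D) a x := fun h k => .single ⟨h, k.1, k.2.1.symm, k.2.2⟩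
  have h5 : ∀ {a b}, Relation.ReflTransGen (OddAdj D) a b → Relation.ReflTransGen (OddAdj D) b a := fun h => by
    induction h with
    | refl => rfl
    | tail _ k ih => exact ih.head ⟨k.2.1, k.1, k.2.2.1.symm, by rw [ord_comm]; exact k.2.2.2⟩
  have h6 : ∀ a ∈ D, (∃ a' ∈ elemComponentOf (OddAdj D) D a, a' ≠ a) → productPartners D a ⊆ elemComponentOf (OddAdj D) D a ∪ W := by
    rintro a ha ⟨a', k1, k2⟩ b hb
    obtain ⟨x, k3, -⟩ := k1.2.cases_head.resolve_left k2.symm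
    have hx : x ∈ oddPartners D a := ⟨k3.2.1, k3.2.2.1.symm, k3.2.2.2⟩
    refine or_iff_not_imp_right.2 fun k => ⟨hb.1.1, ?_⟩
    obtain ⟨y, hy⟩ : ∃ y, y ∈ oddPartners D b := by simpa [h0, hb.1.1] using k
    rcases L2 hD ha hb hx with e | e
    · exact (h4 ha hx).trans (h5 (h4 hb.1.1 e))
    rcases L2 hD hb.1.1 (X_symm hD ha hb) hy with e' | e'
    · exact (h4 ha e').trans (h5 (h4 hb.1.1 hy))
    · exact ((h4 ha hx).trans (h5 (h4 hb.2 e))).trans ((h4 hb.2 (hb.1.2.1 ▸ e')).trans (h5 (h4 hb.1.1 hy)))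
  refine ⟨h1, h2, h3, Set.ext fun d => ⟨fun ⟨k1, k2⟩ => h0.2 ⟨k2, fun x hx => ?_⟩, fun h => ⟨subset_closure h, (h0.1 h).1⟩⟩,
    fun a ha b hb k1 k2 k3 => ?_, h6⟩
  · have k3 : d * x ∈ closure W := (QuotientGroup.eq_one_iff _).1 (one_of_odd (k := 1)
      (hx.2.2.of_dvd_nat (orderOf_map_dvd (QuotientGroup.mk' _) _)) (by
        rw [QuotientGroup.mk_mul, (QuotientGroup.eq_one_iff _).2 k1, one_mul, pow_one, sq, ← QuotientGroup.mk_mul, sq1 hD hx.1]; rfl))
    obtain ⟨k, e⟩ := h3 ⟨_, k3⟩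
    exact Od.ne hD k2 hx (one_of_odd hx.2.2 (congrArg Subtype.val e))
  have k4 : ¬ Relation.ReflTransGen (OddAdj D) a b := fun k => k3 (Set.ext fun c => and_congr_right fun _ => ⟨(h5 k).trans, k.trans⟩)
  by_cases e : a * b = b * a
  · rw [e, mul_inv_cancel_right, mul_inv_cancel]; exact one_mem _
  obtain ⟨z, e1, -, -, -, l1, l2⟩ := br hD ha hb (fo_of hD ha hb e fun k => k4 (h4 ha k))
  rw [inv1 hD ha, inv1 hD hb, ← e1]
  exact subset_closure ((h6 a ha k1 l1).elim (fun k => (h6 b hb k2 l2).resolve_left fun k' => k4 (k.2.trans (h5 k'.2))) id)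

end Cfsg.Agent.S5045
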