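import Cfsg.Statements.S5046
import Cfsg.Agent.C3.RI

set_option autoImplicit false
open Cfsg

namespace Cfsg.Agent.S5046

open H2 C3 C3.RI Subgroup

/-- Let G be a finite group generated by a set D of root involutions whose odd-order-product graph is connected, and d ∈ D. Then the members e of D with the same commuting members as d are exactly those for which the union of the commuting members of d and the members whose product with d has order 4 equals the corresponding union for e. -/
theorem result {G : Type*} [Group G] [Finite G] {D : Set G} (hD : Cfsg.IsRootInvolutionSet D)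
    (hc : Cfsg.IsConnectedSet (Cfsg.OddAdj D) D) {d : G} (hd : d ∈ D) :
    Cfsg.sameCommutingClass D d =
      {e | e ∈ D ∧ Cfsg.commutingMembers D d ∪ Cfsg.fourPartners D d = Cfsg.commutingMembers D e ∪ Cfsg.fourPartners D e} := by
  have h0 : ∀ {e x}, e ∈ D → (x ∈ oddPartners D e ↔ x ∈ D ∧ x ∉ commutingMembers D e ∪ fourPartners D e) := fun he =>
    ⟨fun h => ⟨h.1, fun k => k.elim (fun k => Od.not_cm hD he h k.2.symm) fun k => Od.not_fo hD he h k.2⟩,
      fun ⟨h, k⟩ => by_contra fun k' => k (.inr ⟨h, fo_of hD he h (fun e => k (.inl ⟨h, e.symm⟩)) k'⟩)⟩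
  have h1 : ∀ {e x}, e ∈ D → (x ∈ commutingMembers D e ∪ fourPartners D e ↔ x ∈ D ∧ x ∉ oddPartners D e) := fun he =>
    ⟨fun h => ⟨h.elim (·.1) (·.1), fun k => ((h0 he).1 k).2 h⟩, fun ⟨h, k⟩ => by_contra fun k' => k ((h0 he).2 ⟨h, k'⟩)⟩
  have h2 : ∀ a ∈ D, ∀ b ∈ D, IsConj a b := fun a ha b hb => isConj_of hD hc ha hb
  refine Set.ext fun e => and_congr_right fun he => ⟨fun h => Set.ext fun x => ?_, fun h => ?_⟩
  · rw [h1 hd, h1 he, (A_of_C hD hd he h.ge h.le).antisymm (A_of_C hD he hd h.le h.ge)]
  · have : oddPartners D d = oddPartners D e := Set.ext fun x => by rw [h0 hd, h0 he, h]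
    exact (C_of_A hD h2 hd he this).antisymm (C_of_A hD h2 he hd this.symm)

end Cfsg.Agent.S5046
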