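import Cfsg.Statements.S5047
import Cfsg.Agent.C3.RI

set_option autoImplicit false
open Cfsg

namespace Cfsg.Agent.S5047

open H2 C3 C3.RI Subgroup

/-- Let G be a finite group generated by a set D of root involutions whose odd-order-product graph is connected, a ∈ D, and b a member of D different from a, commuting with a, with ab ∈ D, but not having the same commuting members as a. Then some member x of D with bx of order 4 has ax of order 3. -/
theorem result {G : Type*} [Group G] [Finite G] {D : Set G} (hD : Cfsg.IsRootInvolutionSet D)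
    (hc : Cfsg.IsConnectedSet (Cfsg.OddAdj D) D) {a b : G} (ha : a ∈ D) (hb : b ∈ Cfsg.productPartners D a)
    (hbE : b ∉ Cfsg.sameCommutingClass D a) : ∃ x ∈ Cfsg.fourPartners D b, orderOf (a * x) = 3 := by
  have h2 : ∀ a ∈ D, ∀ b ∈ D, IsConj a b := fun a ha b hb => isConj_of hD hc ha hb
  obtain ⟨x, hx, k⟩ := exists_A hD h2 ha hb.1.1 fun e => hbE ⟨hb.1.1, e⟩
  obtain ⟨z, h3, h4, h5, h6⟩ := lift hD ha hx hb k
  have h7 : a * z * a = z * b := by
    calc _ = a * (z * a * z) * z := by simp only [mul_assoc, sq1 hD h3.1.1, mul_one]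
      _ = _ := by rw [h5, sq2 hD ha, h6]
  have h8 : z ∈ productPartners D b := ⟨⟨h3.1.1, h6, fun e => L1 hD ha hb hx (e ▸ h3.1.2.1)⟩, h7 ▸ cj1 hD ha h3.1.1⟩
  obtain ⟨y, hy, k'⟩ := exists_A hD h2 hb.1.1 h3.1.1 fun e => fo_not_cm hD ha h3.1.1 h4 (e.le ⟨ha, hb.1.2.1.symm⟩).2
  obtain ⟨r, l1, l2, l3, l4⟩ := lift hD hb.1.1 hy h8 k'
  obtain ⟨l5, l6⟩ := three hD ha l1.1.1 hb.1.1 h3.1.1 hb.1.2.1.symm h7 l4 l3 h6.symm
  refine ⟨r, ⟨l1.1.1, l2⟩, orderOf_eq_prime (by_contra fun e => L1 hD ha hb (x := a * (a * r) ^ 3) ⟨?_, fun e' => e (by simpa using e'), ?_⟩ ?_)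
    (Od.ne hD ha l5)⟩
  · convert hD.conj_mem r l1.1.1 (r * a) using 1
    simp only [pow_succ, pow_zero, one_mul, mul_inv_rev, inv1 hD ha, inv1 hD l1.1.1, mul_assoc, sq2 hD ha]
  · rw [sq2 hD ha]; exact l5.2.2.of_dvd_nat (orderOf_pow_dvd _)
  · rw [← mul_assoc, hb.1.2.1, mul_assoc, ← l6, mul_assoc]

end Cfsg.Agent.S5047
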