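import Cfsg.Statements.S5048
import Cfsg.Agent.C3.RI
import Cfsg.Agent.C3.Kaz

set_option autoImplicit false
open Cfsg

namespace Cfsg.Agent.S5048

open H2 C3 C3.RI Subgroup

/-- Let G be a finite group generated by a set D of root involutions whose odd-order-product graph is connected, with some product of two different commuting members of D again in D. Then the largest solvable normal subgroup of G is the preimage of the centre of G/O₂(G), and the quotient of G by it is a simple group. -/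
theorem result {G : Type*} [Group G] [Finite G] {D : Set G} (hD : Cfsg.IsRootInvolutionSet D)
    (hc : Cfsg.IsConnectedSet (Cfsg.OddAdj D) D) (hDD : (D ∩ Cfsg.commutingProducts D).Nonempty) :
    Cfsg.solvableRadical G = Cfsg.twoZCore G ∧ IsSimpleGroup (G ⧸ Cfsg.twoZCore G) := by
  have h2 : ∀ a ∈ D, ∀ b ∈ D, IsConj a b := fun a ha b hb => isConj_of hD hc ha hb
  obtain ⟨c, hc1, a₀, ha₀, b₀, hb₀, e0, e1, rfl⟩ := hDD
  have h3 : ∀ a ∈ D, ∃ b, b ∈ productPartners D a := fun a ha => by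
    obtain ⟨g, rfl⟩ := isConj_iff.1 (h2 _ hb₀ _ ha)
    exact ⟨g * a₀ * g⁻¹, ⟨hD.conj_mem _ ha₀ g, by rw [conj_mul, conj_mul, e0], fun e => e1 (by
      rw [show a₀ = b₀ by simpa using e, sq1 hD hb₀])⟩, by rw [conj_mul]; exact hD.conj_mem _ hc1 g⟩
  have h4 : ∀ N : Subgroup G, N.Normal → ∀ a ∈ D, a ∈ N → N = ⊤ := fun N hN a ha h =>
    eq_top_iff.2 (hD.generates ▸ (closure_le _).2 fun b hb => by obtain ⟨g, rfl⟩ := isConj_iff.1 (h2 _ ha _ hb); exact hN.conj_mem _ h g)
  have h5 : commutator G = ⊤ := h4 _ inferInstance _ hc1 (by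
    obtain ⟨g, e⟩ := isConj_iff.1 (h2 _ ha₀ _ hb₀)
    have := commutator_mem_commutator (mem_top a₀) (mem_top g)
    rwa [commutatorElement_def, inv1 hD ha₀, mul_assoc, mul_assoc, ← mul_assoc g, e] at this)
  have h6 : ∀ N : Subgroup G, N.Normal → N ≠ ⊤ → N ≤ twoZCore G := fun N hN h n hn => by
    have k0 : ∀ a ∈ D, a ∉ N := fun a ha k => h (h4 N hN a ha k)
    have k1 : ∀ a ∈ D, ∀ n ∈ N, ∀ b ∈ productPartners D a, n * a * n⁻¹ ∉ oddPartners D b := fun a ha n hn b hb k =>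
      k0 _ hb.2 ((QuotientGroup.eq_one_iff _).1 (one_of_odd (k := 1) (k.2.2.of_dvd_nat (by
        convert orderOf_map_dvd (QuotientGroup.mk' N) _ using 2
        simp [(QuotientGroup.eq_one_iff _).2 hn])) (by rw [pow_one, sq, ← QuotientGroup.mk_mul, sq1 hD hb.2]; rfl)))
    have k2 : ∀ a ∈ D, ∀ n ∈ N, a * (n * a * n⁻¹) ∈ N := fun a ha n hn => by
      simpa only [inv1 hD ha, mul_assoc] using mul_mem (hN.conj_mem n hn a) (inv_mem hn)
    have k3 : ∀ a ∈ D, ∀ n ∈ N, a * (n * a * n⁻¹) = n * a * n⁻¹ * a := fun a ha n hn => by_contra fun k => by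
      obtain ⟨b, hb⟩ := h3 a ha
      obtain ⟨z, e, -, -, -, l, -⟩ := br hD ha (hD.conj_mem a ha n) (fo_of hD ha (hD.conj_mem a ha n) k fun k' =>
        (L2 hD ha hb k').elim (k1 a ha n hn b hb) (k1 a ha n hn _ (X_mul hD ha hb)))
      exact k0 z l.1.1 (by rw [e, mul_assoc]; exact mul_mem (k2 a ha n hn) (k2 a ha n hn))
    refine mem_center_iff.2 fun g => ?_
    obtain ⟨g, rfl⟩ := QuotientGroup.mk_surjective g
    suffices k : closure D ≤ (centralizer {(n : G ⧸ pCore 2 G)}).comap (QuotientGroup.mk' _) from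
      mem_centralizer_singleton_iff.1 (k (hD.generates.ge (mem_top g)))
    refine (closure_le _).2 fun a ha => mem_centralizer_singleton_iff.2 ((QuotientGroup.eq).2 ?_)
    have k4 : ∀ a ∈ D, ∀ n ∈ N, a * (n * a * n⁻¹) ∈ pCore 2 G := fun a ha n hn => by
      let T := {t | ∃ n ∈ N, t = n * a * n⁻¹}
      have l1 : ∀ g ∈ N, ∀ t ∈ T, g * t * g⁻¹ ∈ T := fun g hg t ⟨n, hn, e⟩ => ⟨g * n, mul_mem hg hn, by simp only [e, mul_inv_rev, mul_assoc]⟩
      have l2 : ∀ t ∈ T, t ∈ D := fun t ⟨n, _, e⟩ => e ▸ hD.conj_mem a ha n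
      have l3 : ∀ t ∈ T, ∀ s ∈ T, t * s = s * t := by
        rintro _ ⟨n, hn, rfl⟩ _ ⟨m, hm, rfl⟩
        simpa [mul_assoc] using congrArg (n * · * n⁻¹) (k3 a ha _ (mul_mem (inv_mem hn) hm))
      have l4 := pgroup_closure (T := T) (fun t ht => sq1 hD (l2 t ht)) (fun t ht s hs => by rwa [l3 t ht s hs, mul_inv_cancel_right])
        fun t ht s hs => four_of_cm hD (l2 t ht) (l2 s hs) (l3 t ht s hs)
      refine L.le_pCore_of_isSubnormal (H := closure T ⊓ N) Nat.prime_two (.step _ N inf_le_right hN.isSubnormal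
        ⟨fun x hx g => ⟨?_, (g * x * g⁻¹).2⟩⟩) (l4.to_le inf_le_left)
        ⟨mul_mem (subset_closure ⟨1, one_mem _, by simp⟩) (subset_closure ⟨n, hn, rfl⟩), k2 a ha n hn⟩
      exact (show closure T ≤ (closure T).comap (MulAut.conj (g : G)).toMonoidHom from
        (closure_le _).2 fun w hw => subset_closure (l1 g g.2 w hw)) hx.1
    simpa [inv1 hD ha, mul_assoc] using (pCore_normal 2 G).conj_mem _ (k4 a ha n hn) n⁻¹
  have h7 : ∀ N : Subgroup G, Group.IsSolvable N → N ≠ ⊤ := fun N hN e => by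
    haveI : Group.IsSolvable G := H1.isSolvable_top_iff.1 (e ▸ hN)
    haveI : Nontrivial G := ⟨_, _, ne1 hD ha₀⟩
    exact (IsSolvable.commutator_lt_top_of_nontrivial G).ne h5
  have h8 : Group.IsSolvable (twoZCore G) := H1.isSolvable_comap_mk' _ (H1.isSolvable_of_isPGroup (L.pCore_isPGroup 2 G))
    (H1.isSolvable_of_isMulCommutative inferInstance)
  haveI := (QuotientGroup.nontrivial_iff (N := twoZCore G)).2 (h7 _ h8)
  refine ⟨(h6 _ (solvRad_spec G).1 (h7 _ (solvRad_spec G).2)).antisymm (le_solvRad h8), ⟨fun K hK => ?_⟩⟩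
  refine (em (K.comap (QuotientGroup.mk' _) = ⊤)).symm.imp (fun e => eq_bot_iff.2 fun x hx => ?_) fun e => eq_top_iff.2 fun x _ => ?_
  all_goals obtain ⟨x, rfl⟩ := QuotientGroup.mk_surjective x
  · exact (QuotientGroup.eq_one_iff _).2 (h6 _ (hK.comap _) e hx)
  · exact e.ge (mem_top x)

end Cfsg.Agent.S5048
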