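import Cfsg.Statements.S5049
import Cfsg.Agent.C3.RI

set_option autoImplicit false
open Cfsg

namespace Cfsg.Agent.S5049

open H2 C3 C3.RI Subgroup

/-- Let G be a finite group generated by a set D of odd transpositions (root involutions with no product of order 4), Q = O₂(G), and for a ∈ D let Q_a be the commutator subgroup of Q with a. Then every member of D commuting with a centralizes Q_a; and for b ∈ D with ab of odd order greater than 1, the centralizer of ab in Q is the intersection of the centralizers of a and b in Q. -/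
theorem result {G : Type*} [Group G] [Finite G] {D : Set G} (hD : Cfsg.IsOddTranspositionSet D) {a : G} (ha : a ∈ D) :
    (∀ e ∈ Cfsg.commutingMembers D a, ∀ q ∈ ⁅Cfsg.pCore 2 G, Subgroup.zpowers a⁆, e * q = q * e) ∧
    (∀ b ∈ Cfsg.oddPartners D a,
      Cfsg.pCore 2 G ⊓ Subgroup.centralizer {a * b} = Cfsg.pCore 2 G ⊓ Subgroup.centralizer {a} ⊓ Subgroup.centralizer {b}) := by
  have h0 : ∀ e ∈ D, e * a = a * e → ∀ q ∈ pCore 2 G, e * (q * a * q⁻¹) = q * a * q⁻¹ * e := fun e he h q hq => by_contra fun k => by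
    have k1 := ((hD.1.pair e he _ (hD.1.conj_mem a ha q)).resolve_left k).resolve_right fun k => hD.2 e he _ (hD.1.conj_mem a ha q) k.1
    obtain ⟨j, hj⟩ := L.pCore_isPGroup 2 G ⟨(e * (q * a * q⁻¹)) ^ 2, (QuotientGroup.eq_one_iff _).1 (by
      simp only [QuotientGroup.mk_pow, QuotientGroup.mk_mul, QuotientGroup.mk_inv, (QuotientGroup.eq_one_iff _).2 hq, one_mul, inv_one, mul_one]
      rw [← QuotientGroup.mk_mul, ← QuotientGroup.mk_pow, sq_of_cm hD.1 he ha h]; rfl)⟩
    have k2 := one_of_odd (k := j + 1) k1 (by rw [pow_succ', pow_mul]; exact congrArg Subtype.val hj)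
    exact k (by rw [k2, mul_eq_one_comm.1 k2])
  refine ⟨fun e he q hq => (mem_centralizer_singleton_iff.1 ((commutator_le.2 fun q hq g hg => ?_ : _ ≤ centralizer {e}) hq)).symm,
    fun b hb => le_antisymm (fun q ⟨h1, h2⟩ => ?_) fun q ⟨⟨h1, h2⟩, h3⟩ => ⟨h1, mem_centralizer_singleton_iff.2
      (Commute.mul_right (mem_centralizer_singleton_iff.1 h2) (mem_centralizer_singleton_iff.1 h3))⟩⟩
  · obtain ⟨k, rfl⟩ := hg
    rw [commutatorElement_def, ← conj_zpow]
    exact mul_mem (zpow_mem (mem_centralizer_singleton_iff.2 (h0 e he.1 he.2 q hq).symm) _)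
      (inv_mem (zpow_mem (mem_centralizer_singleton_iff.2 he.2.symm) _))
  have h3 : q * (a * b) * q⁻¹ = a * b := mul_inv_eq_iff_eq_mul.2 (mem_centralizer_singleton_iff.1 h2)
  have h4 := hD.1.conj_mem a ha q
  have h5 := inverts_left (sq1 hD.1 ha) (sq1 hD.1 hb.1)
  have h6 := inverts_left (sq1 hD.1 h4) (sq1 hD.1 (hD.1.conj_mem b hb.1 q))
  rw [conj_mul, h3] at h6
  have h7 := key hD.1 h4 hb.1 (u := q * a * q⁻¹ * a) (h := a * b) (by rw [mul_assoc _ a (a * b), sq2 hD.1 ha])
    (by rw [← sq, sq_of_cm hD.1 h4 ha (h0 a ha rfl q h1).symm]) (by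
      generalize q * a * q⁻¹ = c at *
      rw [← mul_inv_eq_iff_eq_mul]
      calc _ = c * (a * (a * b) * a⁻¹) * c⁻¹ := by group
        _ = (c * (a * b) * c⁻¹)⁻¹ := by rw [h5]; group
        _ = _ := by rw [h6, inv_inv]) hb.2.2 (Od.ne hD.1 ha hb)
  have h8 : q * a = a * q := by rw [← mul_inv_eq_iff_eq_mul, eq_inv_of_mul_eq_one_left h7, inv1 hD.1 ha]
  exact ⟨⟨h1, mem_centralizer_singleton_iff.2 h8⟩, mem_centralizer_singleton_iff.2 (mul_left_cancel (a := a) (by
    rw [← mul_assoc, ← h8, mul_assoc, mem_centralizer_singleton_iff.1 h2, mul_assoc]))⟩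

end Cfsg.Agent.S5049
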