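import Cfsg.Statements.S5058
import Cfsg.Agent.C3.LR2

set_option autoImplicit false
open Matrix
open Cfsg

namespace Cfsg.Agent.S5058

open H2 C3 C3.QP C3.LR Subgroup BG Module H4

/-- Let F be a finite field of characteristic 2 and n a natural number. Then the transvections of SL_{n+3}(F) (so in every dimension at least 3) (the conjugates of the elementary matrices 1 + c E₁₂, c ≠ 0) form a class of root involutions of SL_{n+3}(F); when F has two elements they form a class of {3,4}⁺-transpositions (every product of odd order has order 1 or 3). -/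
theorem result (F : Type*) [Field F] [Fintype F] [CharP F 2] (n : ℕ) :
    Cfsg.IsRootInvolutionClass {t : Matrix.SpecialLinearGroup (Fin (n + 3)) F | ∃ c : F, c ≠ 0 ∧
        ∃ g : Matrix.SpecialLinearGroup (Fin (n + 3)) F, ((g⁻¹ * t * g : Matrix.SpecialLinearGroup (Fin (n + 3)) F) :
          Matrix (Fin (n + 3)) (Fin (n + 3)) F) = Matrix.transvection 0 1 c} ∧
    (Fintype.card F = 2 → Cfsg.IsThreeFourPlusTranspositionSet {t : Matrix.SpecialLinearGroup (Fin (n + 3)) F | ∃ c : F, c ≠ 0 ∧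
        ∃ g : Matrix.SpecialLinearGroup (Fin (n + 3)) F, ((g⁻¹ * t * g : Matrix.SpecialLinearGroup (Fin (n + 3)) F) :
          Matrix (Fin (n + 3)) (Fin (n + 3)) F) = Matrix.transvection 0 1 c}) := by
  have hι := rs_inj F (jS_inj (F := F) (n := Fin (n + 3)))
  have h1 := rn_fl (jS_dt (F := F) (n := Fin (n + 3)))
  have h2 := rn_conj (jS_dt (F := F) (n := Fin (n + 3))) (by simp)
  have h01 : (0 : Fin (n + 3)) ≠ 1 := zero_ne_one
  have h3 := rn_top (jS_inj (F := F) (n := Fin (n + 3))) jS_mem jS_dt (K := Subgroup.closure {t | ∃ a ∈ RN F _, rs F (jS F _) t = 1 + a})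
    fun g a ha e => Subgroup.subset_closure ⟨a, ha, e⟩
  have h4 := rn_cj (j := jS F (Fin (n + 3)))
  generalize hS : {t : Matrix.SpecialLinearGroup (Fin (n + 3)) F | ∃ c : F, c ≠ 0 ∧ _} = D
  simp only [← el_eq] at hS
  unfold Cj at h2
  generalize rs F (jS F (Fin (n + 3))) = ι at *
  have h5 : ∀ {t a} g, ι t = 1 + a → ι (g * t * g⁻¹) = 1 + ι g * a * ι g⁻¹ := fun {t a} g e => by
    simpa using cj_val (ι := ι) (x := t) (a := a) (c := (1 : F)) (by simpa using e) g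
  obtain rfl : {t | ∃ a ∈ RN F _, ι t = 1 + a} = D := by
    rw [← hS]
    refine Set.ext fun t => ⟨fun ⟨a, ha, e⟩ => ?_, fun ⟨c, hc, g, e⟩ => ⟨_, h4 _ (rn_smul (el_mem h01) hc) g, by simpa [mul_assoc] using h5 g e⟩⟩
    obtain ⟨g, hg⟩ := h2 a ha _ (el_mem h01)
    exact ⟨1, one_ne_zero, g⁻¹, by rw [inv_inv, h5 g e, hg, one_smul]⟩
  have h6 : ∀ a : End F (Fin (n + 3) → F), a + a = 0 := fun a => by rw [← two_smul F, CharTwo.two_eq_zero, zero_smul]
  have h7 : ∀ {t a}, a ∈ RN F _ → ι t = 1 + a → t * t = 1 ∧ t ≠ 1 := fun {t a} ha e =>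
    ⟨hι (by rw [map_mul, e, map_one]; linear_combination (norm := noncomm_ring) h6 a + (h1 a ha).sq),
      fun e' => (h1 a ha).ne (left_eq_add.1 (by rw [← e, e', map_one]))⟩
  have h8 : ∀ {t x a b}, a ∈ RN F _ → ι t = 1 + a → b ∈ RN F _ → ι x = 1 + b → t * x = x * t ∨
      (∃ c : F, c ≠ 0 ∧ orderOf (t * x) = orderOf (xx 1 * yy c)) ∨ (orderOf (t * x) = 4 ∧ ∃ a ∈ RN F _, ι ((t * x) ^ 2) = 1 + a) := by
    intro t x a b ha e hb e'
    refine (rn_tri a ha b hb).imp (fun h => hι (by rw [map_mul, map_mul, e, e']; linear_combination (norm := noncomm_ring) h))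
      (Or.imp (fun ⟨c, hc, k1, k2⟩ => ⟨c, hc, ?_⟩) fun ⟨k1, k2, k3⟩ => ?_)
    · obtain ⟨φ, k3, k4, k5⟩ := LA_phi hι (h1 a ha) ((h1 b hb).smul (inv_ne_zero hc)) (by simp [k1, smul_smul, hc])
        (by simp [k2, smul_smul, hc])
      rw [← orderOf_injective φ k3, map_mul, hι (a₁ := φ (xx 1)) (a₂ := t) (by simp [k4, e]),
        hι (a₁ := φ (yy c)) (a₂ := x) (by simp [k5, e', hc])]
    · have k4 : ι ((t * x) ^ 2) = 1 + (a * b - b * a) := by
        simpa [inv_eq_of_mul_eq_one_right (h7 ha e).1, inv_eq_of_mul_eq_one_right (h7 hb e').1, sq, mul_assoc] using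
          br_val hι (g := t) (x := x) (s := 1) (t := 1) (h1 a ha).sq (h1 b hb).sq k1 k2 (by simpa) (by simpa)
      exact ⟨orderOf_eq_prime_pow (p := 2) (n := 1) (h7 k3 k4).2 (by rw [← (h7 k3 k4).1, ← pow_add]; rfl), _, k3, k4⟩
  have h9 : IsRootInvolutionSet {t | ∃ a ∈ RN F _, ι t = 1 + a} := ⟨fun t ⟨a, ha, e⟩ => orderOf_eq_prime (by rw [sq, (h7 ha e).1]) (h7 ha e).2,
    h3, fun t ⟨a, ha, e⟩ g => ⟨_, h4 a ha g, h5 g e⟩, fun t ⟨a, ha, e⟩ x ⟨b, hb, e'⟩ =>
      (h8 ha e hb e').imp_right (Or.imp_left fun ⟨c, hc, k⟩ => k ▸ odd_xx_yy one_ne_zero hc)⟩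
  obtain ⟨g, hg⟩ := (h1 _ (el_mem h01)).ex 1
  refine ⟨⟨h9, ⟨g, _, el_mem h01, by simpa using hg⟩, fun t ⟨a, ha, e⟩ x ⟨b, hb, e'⟩ =>
    (h2 a ha b hb).imp fun g hg => hι (by rw [h5 g e, hg, e'])⟩, fun hF => ⟨h9, fun t ⟨a, ha, e⟩ x ⟨b, hb, e'⟩ h => ?_⟩⟩
  rcases h8 ha e hb e' with k | ⟨c, hc, k⟩ | ⟨k, -⟩
  · refine .inl (((Nat.dvd_prime Nat.prime_two).1 (orderOf_dvd_of_pow_eq_one ?_)).resolve_right fun e => absurd (e ▸ h) (by decide))
    rw [Commute.mul_pow k, sq, sq, (h7 ha e).1, (h7 hb e').1, mul_one]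
  · obtain rfl : c = 1 := by simpa [hF] using FiniteField.pow_card_sub_one_eq_one c hc
    refine .inr (k.trans (orderOf_eq_prime (p := 3) (extE ?_ ?_ ?_ ?_) fun e => by simpa [mulE] using congrArg (· 0 1) e))
    all_goals simp [pow_succ, mulE, CharTwo.add_self_eq_zero]
  · exact absurd (k ▸ h) (by decide)

end Cfsg.Agent.S5058
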