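import Cfsg.Statements.S5059
import Cfsg.Agent.C3.QP6

set_option autoImplicit false
universe u
open Cfsg

namespace Cfsg.Agent.S5059

open H2 C3 C3.QP Subgroup BG Module

/-- Let k be a field of characteristic not 2 with k not of order 3, M a finite-dimensional k-vector space and G ≤ GL(M) such that (G, M) is a quadratic pair (M irreducible for G, and G generated by its quadratically acting elements σ whose scalar family 1 + c(σ − 1), c ∈ k, lies in G). Write 𝒬_d for the quadratic elements of G of minimal commutator rank, E(σ) for the subgroup generated by the members of 𝒬_d with the same fixed space and commutator space as σ, and Σ for the set of these subgroups. Then for σ ∈ 𝒬_d the subgroup E(σ) consists exactly of those members together with the identity, it is abelian, and if k has prime characteristic p every element of E(σ) has order dividing p. -/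
theorem result {k : Type u} [Field k] (hk2 : ringChar k ≠ 2) (hk3 : Nat.card k ≠ 3)
    {M : Type u} [AddCommGroup M] [Module k M] [FiniteDimensional k M]
    {G : Subgroup (LinearMap.GeneralLinearGroup k M)} (hG : Cfsg.IsQuadraticPair G)
    {σ : LinearMap.GeneralLinearGroup k M} (hσ : σ ∈ Cfsg.minimalQuadraticElements G) :
    (Cfsg.sameActionSubgroup G σ : Set (LinearMap.GeneralLinearGroup k M)) = Cfsg.sameActionClass G σ ∪ {1} ∧
    IsMulCommutative ↥(Cfsg.sameActionSubgroup G σ) ∧
    (∀ p : ℕ, p.Prime → ringChar k = p → ∀ x ∈ Cfsg.sameActionSubgroup G σ, x ^ p = 1) := by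
  have hA : Rt G (sameActionSubgroup G σ) := ⟨σ, hσ, rfl⟩
  refine ⟨Set.Subset.antisymm (fun g hg => or_iff_not_imp_right.2 fun e => ?_) (Set.union_subset subset_closure (by simp)),
    commutator_self_eq_bot_iff.1 hA.ab, fun p hp e x hx => Units.ext ?_⟩
  · have := ((mem_sas (min_iff.1 hσ)).1 hg).min (min_iff.1 hσ) (sub_ne_iff.2 e)
    exact ⟨min_iff.2 this.1, this.2.2, this.2.1⟩
  · have h1 : ∀ n : ℕ, (x : End k M) ^ n = 1 + (n : k) • ((x : End k M) - 1) := fun n => by
      induction n with
      | zero => simp
      | succ n ih =>
        rw [pow_succ, ih, Nat.cast_succ, add_smul, one_smul, add_mul, one_mul, smul_mul_assoc,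
          show ((x : End k M) - 1) * x = x - 1 by linear_combination (norm := noncomm_ring) (hA.qn (mem_aug hx)).1]
        abel
    rw [Units.val_pow_eq_pow_val, h1, ← e, ringChar.Nat.cast_ringChar, zero_smul, add_zero, Units.val_one]

end Cfsg.Agent.S5059
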