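import Cfsg.Statements.S5060
import Cfsg.Agent.C3.QP1

set_option autoImplicit false
open Cfsg

namespace Cfsg.Agent.S5060

open C3.QP Subgroup

/-- Let k ⊆ K be fields with the characteristic of k not 2 and k not of order 3, and let α ∈ K be a non-zero element algebraic over k. Then the subgroup of SL₂(K) generated by the upper unitriangular matrices with entry c and the lower unitriangular matrices with entry cα, c ranging over k, is exactly the group of matrices of SL₂(K) with all entries in k(α). -/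
theorem result {k K : Type*} [Field k] [Field K] [Algebra k K] (hk2 : ringChar k ≠ 2) (hk3 : Nat.card k ≠ 3)
    (α : K) (hα : IsAlgebraic k α) (hα0 : α ≠ 0) :
    (Subgroup.closure ({g : Matrix.SpecialLinearGroup (Fin 2) K | ∃ c : k, (g : Matrix (Fin 2) (Fin 2) K) = !![1, algebraMap k K c; 0, 1]} ∪
        {g : Matrix.SpecialLinearGroup (Fin 2) K | ∃ c : k, (g : Matrix (Fin 2) (Fin 2) K) = !![1, 0; algebraMap k K c * α, 1]}) :
      Set (Matrix.SpecialLinearGroup (Fin 2) K)) =
    {g : Matrix.SpecialLinearGroup (Fin 2) K | ∀ i j : Fin 2, (g : Matrix (Fin 2) (Fin 2) K) i j ∈ IntermediateField.adjoin k ({α} : Set K)} := by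
  let L := IntermediateField.adjoin k ({α} : Set K)
  let a : L := IntermediateField.AdjoinSimple.gen k α
  let n : Matrix.SpecialLinearGroup (Fin 2) K := xx 1 * yy (-1) * xx 1
  let f := (MulAut.conj n).toMonoidHom.comp (Matrix.SpecialLinearGroup.map (n := Fin 2) (algebraMap L K))
  have hm : ∀ x : K, x ∈ L ↔ x ∈ (algebraMap L K).range := fun x => ⟨fun h => ⟨⟨x, h⟩, rfl⟩, fun ⟨y, e⟩ => e ▸ y.2⟩
  refine Set.Subset.antisymm ?_ fun g hg => ?_
  · let T : Subgroup (Matrix.SpecialLinearGroup (Fin 2) K) := (Matrix.SpecialLinearGroup.map (n := Fin 2) (algebraMap L K)).range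
    refine Set.Subset.trans (b := T) ((closure_le _).2 ?_) ?_
    · rintro g (⟨c, e⟩ | ⟨c, e⟩)
      exacts [⟨xx (algebraMap k L c), (map_xx _ _).trans (Subtype.ext e.symm)⟩,
        ⟨yy (algebraMap k L c * a), (map_yy _ _).trans (Subtype.ext e.symm)⟩]
    · rintro _ ⟨g, rfl⟩ i j
      exact (g i j).2
  · have h1 := field_gen hk2 hk3 (z := a) (fun e => hα0 (congrArg Subtype.val e))
      ((IntermediateField.adjoin.powerBasis hα.isIntegral).isIntegral_gen)
      (IntermediateField.adjoin.powerBasis hα.isIntegral).adjoin_gen_eq_top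
      (Γ := (Subgroup.closure ({g : Matrix.SpecialLinearGroup (Fin 2) K | ∃ c : k, (g : Matrix (Fin 2) (Fin 2) K) = !![1, algebraMap k K c; 0, 1]} ∪
        {g : Matrix.SpecialLinearGroup (Fin 2) K | ∃ c : k, (g : Matrix (Fin 2) (Fin 2) K) = !![1, 0; algebraMap k K c * α, 1]})).comap f)
      (fun c => subset_closure (.inr ⟨-c, congrArg Subtype.val (show n * _ * n⁻¹ = yy _ by
        rw [map_xx]
        apply extE <;> simp [n, a, mulE, inv00, inv01, inv10, inv11, Algebra.smul_def])⟩))
      fun c => subset_closure (.inl ⟨-c, congrArg Subtype.val (show n * _ * n⁻¹ = xx _ by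
        rw [map_yy]
        apply extE <;> simp [n, a, mulE, inv00, inv01, inv10, inv11])⟩)
    let g' : Matrix.SpecialLinearGroup (Fin 2) L := ⟨!![⟨g 1 1, hg 1 1⟩, -⟨g 1 0, hg 1 0⟩; -⟨g 0 1, hg 0 1⟩, ⟨g 0 0, hg 0 0⟩],
      Subtype.ext (by simpa [Matrix.det_fin_two_of, mul_comm] using detE g)⟩
    have h2 : f g' = g := show n * _ * n⁻¹ = g by
      apply extE <;> simp [n, g', mulE, inv00, inv01, inv10, inv11] <;> first | rfl | exact neg_neg _
    exact h2 ▸ h1.ge (mem_top g')

end Cfsg.Agent.S5060
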