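import Cfsg.Statements.S5063
import Cfsg.Agent.C3.QP7

set_option autoImplicit false
universe u
open Cfsg

namespace Cfsg.Agent.S5063

open H2 C3 C3.QP Subgroup BG Module LinearMap

/-- Let k be a field of characteristic not 2 with k not of order 3, M a finite-dimensional k-vector space and G ≤ GL(M) such that (G, M) is a quadratic pair (M irreducible for G, and G generated by its quadratically acting elements σ whose scalar family 1 + c(σ − 1), c ∈ k, lies in G). Write 𝒬_d for the quadratic elements of G of minimal commutator rank, E(σ) for the subgroup generated by the members of 𝒬_d with the same fixed space and commutator space as σ, and Σ for the set of these subgroups. Then G is a central product of finitely many quasisimple normal subgroups G₁, …, G_s (pairwise commuting and together generating G), each generated by the quadratic elements of G it contains, and every quadratic element of G lies in one of them. -/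
theorem result {k : Type u} [Field k] (hk2 : ringChar k ≠ 2) (hk3 : Nat.card k ≠ 3)
    {M : Type u} [AddCommGroup M] [Module k M] [FiniteDimensional k M]
    {G : Subgroup (LinearMap.GeneralLinearGroup k M)} (hG : Cfsg.IsQuadraticPair G) :
    ∃ (s : ℕ) (Gi : Fin s → Subgroup (LinearMap.GeneralLinearGroup k M)),
      (∀ i, Gi i ≤ G ∧ ∀ g ∈ G, Cfsg.conjBy (Gi i) g = Gi i) ∧ (∀ i j, i ≠ j → ⁅Gi i, Gi j⁆ = ⊥) ∧ (⨆ i, Gi i) = G ∧
      (∀ i, Cfsg.IsQuasisimple ↥(Gi i) ∧ Subgroup.closure (Cfsg.quadraticElements G ∩ (Gi i : Set (LinearMap.GeneralLinearGroup k M))) = Gi i) ∧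
      Cfsg.quadraticElements G ⊆ ⋃ i, (Gi i : Set (LinearMap.GeneralLinearGroup k M)) := by
  obtain ⟨T, t1, t2, t3, t4, t5⟩ := decomp hk2 hk3 _ (nu_of_irr hG.1) hG.2 rfl
  have t6 : ∀ K ∈ T, K ≤ G := fun K hK => (le_biSup (fun K => K) hK).trans_eq t4
  have l : ∀ K ∈ T, ∀ K' ∈ T, ∀ s t, QN K s → QN K' t → s ≠ 0 → t ≠ 0 → s * t = 0 → K = K' := fun K hK K' hK' s t hs ht s0 t0 e => by
    by_contra hne
    have h1 : ∀ g ∈ G, ∃ x ∈ K, ∃ y ∈ 𝒞 K, g = x * y := fun g hg => H8.mem_sup_of_norm_right (K.le_normalizer.trans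
      (H8.normalizer_le_normalizer_centralizer K)) ((iSup₂_le fun L hL => (eq_or_ne L K).elim (fun e => e.trans_le le_sup_left)
        fun e => (comm_iff.1 (t3 hL hK e)).trans le_sup_right :  _ ≤ K ⊔ 𝒞 K) (t4.ge hg))
    have h2 : ∀ {x : GeneralLinearGroup k M} {L r}, QN L r → x ∈ 𝒞 L → r * x = x * r := fun {x L r} hr hx => by
      have := congrArg Units.val (hx _ (hr.mem (un_val hr.1)))
      simpa only [Units.val_mul, un_val, mul_add, add_mul, mul_one, one_mul, add_right_inj] using this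
    obtain h | h := hG.1.2 (⨅ g ∈ G, ker (s * (g : End k M))) fun g hg w hw => (Submodule.mem_iInf _).2 fun x =>
      (Submodule.mem_iInf _).2 fun hx => (Submodule.mem_iInf _).1 ((Submodule.mem_iInf _).1 hw (x * g)) (mul_mem hx hg)
    · refine t0 (range_eq_bot.1 (le_bot_iff.1 (le_trans (le_iInf₂ fun g hg => range_le_ker_iff.2 ?_) h.le)))
      obtain ⟨x, hx, y, hy, e'⟩ := h1 _ (inv_mem hg)
      obtain rfl : g = y⁻¹ * x⁻¹ := by rw [← mul_inv_rev, ← e', inv_inv]
      change s * _ * t = 0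
      rw [Units.val_mul, ← mul_assoc, h2 hs (inv_mem hy), mul_assoc, ← h2 ht (comm_iff.1 (t3 hK hK' hne) (inv_mem hx)), mul_assoc,
        ← mul_assoc s, e, zero_mul, mul_zero]
    · exact s0 (ker_eq_top.1 (top_unique (h.ge.trans (iInf₂_le_of_le 1 (one_mem _) (by simp)))))
  have l' : ∀ r, QN G r → r ≠ 0 → ∃ K ∈ T, QN K r := fun r hr r0 => by
    induction hd : rk r using Nat.strong_induction_on generalizing r with | _ d ih
    obtain ⟨K, hK, s, hs, s0, e1, e2, e3⟩ := t5 r hr r0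
    obtain e | e := eq_or_ne (r - s) 0
    · exact ⟨K, hK, sub_eq_zero.1 e ▸ hs⟩
    obtain ⟨K', hK', h⟩ := ih _ (hd ▸ e3) _ (hr.sub (hs.mono (t6 K hK)) e2 e1) e rfl
    have e4 : s * (r - s) = 0 := by rw [mul_sub, e1, hs.1, sub_zero]
    obtain rfl := l K hK K' hK' _ _ hs h s0 e e4
    exact ⟨K, hK, add_sub_cancel s r ▸ hs.add h e4 (by rw [sub_mul, e2, hs.1, sub_zero])⟩
  obtain ⟨r, f, h1, rfl⟩ := t1.fin_param
  refine ⟨r, f, fun i => ⟨t6 _ ⟨i, rfl⟩, fun g hg => cj_eq_of_mem_normalizer ((t2 _ ⟨i, rfl⟩).1 hg)⟩,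
    fun i j e => t3 ⟨i, rfl⟩ ⟨j, rfl⟩ (h1.ne e), (iSup_range (g := fun K => K)).symm.trans t4, fun i => (t2 _ ⟨i, rfl⟩).2, fun g hg => ?_⟩
  obtain ⟨_, ⟨i, rfl⟩, h⟩ := l' _ (quad_iff.1 hg).1 (quad_iff.1 hg).2
  exact Set.mem_iUnion.2 ⟨i, h.mem (by simp)⟩

end Cfsg.Agent.S5063
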