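import Cfsg.Statements.S5064
import Cfsg.Agent.C3.QP6

set_option autoImplicit false
universe u
open Cfsg

namespace Cfsg.Agent.S5064

open H2 C3 C3.QP Subgroup BG Module

/-- Let k be a field of characteristic not 2 with k not of order 3, M a finite-dimensional k-vector space and G ≤ GL(M) such that (G, M) is a quadratic pair (M irreducible for G, and G generated by its quadratically acting elements σ whose scalar family 1 + c(σ − 1), c ∈ k, lies in G). Write 𝒬_d for the quadratic elements of G of minimal commutator rank, E(σ) for the subgroup generated by the members of 𝒬_d with the same fixed space and commutator space as σ, and Σ for the set of these subgroups. If σ, τ ∈ 𝒬_d and the subgroup H generated by their two scalar families does not act unipotently on M, then H is isomorphic to SL₂ over a simple algebraic extension k(λ) of k. -/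
theorem result {k : Type u} [Field k] (hk2 : ringChar k ≠ 2) (hk3 : Nat.card k ≠ 3)
    {M : Type u} [AddCommGroup M] [Module k M] [FiniteDimensional k M]
    {G : Subgroup (LinearMap.GeneralLinearGroup k M)} (hG : Cfsg.IsQuadraticPair G)
    {σ τ : LinearMap.GeneralLinearGroup k M} (hσ : σ ∈ Cfsg.minimalQuadraticElements G) (hτ : τ ∈ Cfsg.minimalQuadraticElements G)
    (hH : ¬ Cfsg.IsUnipotentOn (Subgroup.closure (Cfsg.scalarFamily σ ∪ Cfsg.scalarFamily τ))) :
    ∃ (K : Type u) (_ : Field K) (_ : Algebra k K) (lam : K), IsAlgebraic k lam ∧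
      IntermediateField.adjoin k ({lam} : Set K) = ⊤ ∧
      Nonempty (↥(Subgroup.closure (Cfsg.scalarFamily σ ∪ Cfsg.scalarFamily τ)) ≃* Matrix.SpecialLinearGroup (Fin 2) K) := by
  have ha := min_iff.1 hσ
  have hb := min_iff.1 hτ
  have l : ∀ {σ : LinearMap.GeneralLinearGroup k M} {H}, σ ∈ Cfsg.minimalQuadraticElements G → scalarFamily σ ⊆ (H : Subgroup _) →
      QN H ((σ : End k M) - 1) := fun h e => ⟨(min_iff.1 h).q.1, fun c => ⟨un ((min_iff.1 h).q.smul c).1, e ⟨c, rfl⟩, rfl⟩⟩
  have ha' := l hσ (Set.subset_union_left.trans (subset_closure (k := scalarFamily σ ∪ scalarFamily τ)))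
  have hb' := l hτ (Set.subset_union_right.trans (subset_closure (k := scalarFamily σ ∪ scalarFamily τ)))
  have hH' : closure (scalarFamily σ ∪ scalarFamily τ) ≤ G := (closure_le _).2 (Set.union_subset hσ.1.2.2 hτ.1.2.2)
  have e : ((σ : End k M) - 1) * ((τ : End k M) - 1) * ((σ : End k M) - 1) ≠ 0 := fun e => by
    have l' : ∀ {σ : LinearMap.GeneralLinearGroup k M}, σ ∈ Cfsg.minimalQuadraticElements G →
        aug (closure (scalarFamily σ)) ≤ Submodule.span k {(σ : End k M) - 1} := fun {σ} h => by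
      have h1 : Submodule.span k {(σ : End k M) - 1} * Submodule.span k {(σ : End k M) - 1} = ⊥ := by
        rw [Submodule.span_mul_span, Set.singleton_mul_singleton, (min_iff.1 h).q.1, Submodule.span_zero_singleton]
      exact aug_le.2 ((closure_le (grp _ (h1.trans_le bot_le) ⟨2, (sq _).trans h1⟩)).2 fun g ⟨c, e⟩ =>
        Submodule.mem_span_singleton.2 ⟨c, (eq_sub_of_add_eq' e.symm :)⟩)
    rw [Subgroup.closure_union] at hH
    refine hH (unip_triple (S := {(σ : End k M) - 1, (τ : End k M) - 1}) ?_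
      ((l' hσ).trans (Submodule.span_mono (by simp))) ((l' hτ).trans (Submodule.span_mono (by simp))))
    rintro _ (rfl | rfl) _ (rfl | rfl) _ (rfl | rfl) <;> first
      | exact e | exact ha.symm hk2 hk3 hb e | simp only [ha.q.1, hb.q.1, zero_mul] | simp only [mul_assoc, ha.q.1, hb.q.1, mul_zero]
  obtain ⟨R, _, _, ⟨T⟩⟩ := exists_th ((σ : End k M) - 1) ((τ : End k M) - 1)
  obtain ⟨h1, h4⟩ := T.st hk2 hk3 ha hH' ha' hb'
  have hz : T.z ≠ 0 := fun e' => e (by simpa [T.one, e'] using T.mul 1 1)
  haveI : Nontrivial R := ⟨_, _, hz⟩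
  letI : Field R := (show IsField R from ⟨exists_pair_ne R, mul_comm, fun {p} hp => ((h4 p).resolve_left hp).exists_right_inv⟩).toField
  obtain ⟨ψ, h5, h6, h7, -⟩ := T.psi ha.q.1 hb.q.1 hz (sub_eq_zero.1 (zero_of_compl (ha.compl hk2 hk3 hb e).1.2 (by
    have := T.mul T.z⁻¹ 1
    rw [mul_one, inv_mul_cancel₀ hz, T.one] at this
    rw [sub_mul, mul_assoc, mul_assoc, ← mul_assoc (T.θ _), this, sub_self]) fun v hv => by simp [LinearMap.mem_ker.1 hv]))
  refine ⟨R, inferInstance, inferInstance, T.z, T.int.isAlgebraic, IntermediateField.adjoin_eq_top_of_algebra _ _ T.gen,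
    ⟨(MulEquiv.subgroupCongr (le_antisymm ((closure_le _).2 ?_) ?_)).trans (MonoidHom.ofInjective h5).symm⟩⟩
  · rintro g (⟨c, e⟩ | ⟨c, e⟩)
    exacts [⟨_, Units.ext ((h6 (c • 1)).trans (by rw [map_smul, T.one]; exact e.symm))⟩, ⟨_, Units.ext ((h7 c).trans e.symm)⟩]
  · rintro _ ⟨g, rfl⟩
    exact (field_gen hk2 hk3 hz T.int T.gen (Γ := comap ψ _) (fun c => mem_comap.2 ((h1 (c • 1)).mem (by simpa using h6 (c • 1))))
      fun c => mem_comap.2 ((hb'.smul c).mem (h7 c))).ge (mem_top g)

end Cfsg.Agent.S5064
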