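import Cfsg.Statements.S5067
import Cfsg.Agent.C3.RS

set_option autoImplicit false
open Cfsg

namespace Cfsg.Agent.S5067

open H2 C3 Subgroup BG

theorem aux {P : Type*} [Group P] [Group.IsNilpotent P] (hna : ¬ IsMulCommutative P) {E : Subgroup P} (hE : IsMulCommutative ↥E) :
    Group.nilpotencyClass ↥(Subgroup.normalClosure (E : Set P)) < Group.nilpotencyClass P := by
  have h1 : normalClosure (E : Set P) ≤ E ⊔ (⊤ : Subgroup P).lowerCentralSeries 1 := by
    haveI : (E ⊔ (⊤ : Subgroup P).lowerCentralSeries 1).Normal := Subgroup.Normal.of_commutator_le P le_sup_right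
    exact normalClosure_le_normal (le_sup_left (a := E))
  have h3 : ∀ X : Subgroup P, X ≤ 𝒩 ((⊤ : Subgroup P).lowerCentralSeries 2) := fun X => le_top.trans (H8.normal_iff_top_le.1 inferInstance)
  have h4 : ∀ X : Subgroup P, ⁅(⊤ : Subgroup P).lowerCentralSeries 1, X⁆ ≤ (⊤ : Subgroup P).lowerCentralSeries 2 :=
    fun X => commutator_mono le_rfl le_top
  have h5 : ∀ n, (normalClosure (E : Set P)).lowerCentralSeries (n + 1) ≤ (⊤ : Subgroup P).lowerCentralSeries (n + 2) := fun n => by
    induction n with
    | zero => exact (commutator_mono h1 h1).trans (H8.commutator_sup_le_of_norm ((commutator_comm_le _ _).trans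
        (H8.commutator_sup_le_of_norm ((commutator_self_eq_bot_iff.2 hE).trans_le bot_le) (h4 _) (h3 _))) (h4 _) (h3 _))
    | succ n ih => exact commutator_mono ih le_top
  obtain ⟨n, hn⟩ := Nat.exists_eq_add_of_lt (not_le.1 (mt Group.IsNilpotent.nilpotencyClass_le_one_iff.1 hna))
  have h6 := h5 n
  rw [show n + 2 = Group.nilpotencyClass P by omega, Subgroup.lowerCentralSeries_nilpotencyClass, ← top_subtype_lowerCentralSeries,
    le_bot_iff, H8.map_subtype_eq_bot_iff, Subgroup.lowerCentralSeries_eq_bot_iff_nilpotencyClass_le] at h6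
  omega

/-- Let P be a non-abelian nilpotent p-group (every element of p-power order; P possibly infinite) generated by two abelian subgroups E and F. Then the normal closure of E in P, and likewise that of F, has nilpotency class strictly smaller than that of P. -/
theorem result {P : Type*} [Group P] {p : ℕ} [Fact p.Prime] (hP : IsPGroup p P) [Group.IsNilpotent P]
    (hna : ¬ IsMulCommutative P) {E F : Subgroup P} (hE : IsMulCommutative ↥E) (hF : IsMulCommutative ↥F) (hgen : E ⊔ F = ⊤) :
    Group.nilpotencyClass ↥(Subgroup.normalClosure (E : Set P)) < Group.nilpotencyClass P ∧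
    Group.nilpotencyClass ↥(Subgroup.normalClosure (F : Set P)) < Group.nilpotencyClass P := by
  exact ⟨aux hna hE, aux hna hF⟩

end Cfsg.Agent.S5067
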