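import Cfsg.Statements.S5069
import Cfsg.Agent.C3.QP7

set_option autoImplicit false
universe u
open Cfsg

namespace Cfsg.Agent.S5069

open H2 C3 C3.QP Subgroup BG Module

/-- Let k be a field of characteristic not 2 with k not of order 3, M a finite-dimensional k-vector space and G ≤ GL(M) such that (G, M) is a quadratic pair (M irreducible for G, and G generated by its quadratically acting elements σ whose scalar family 1 + c(σ − 1), c ∈ k, lies in G). Write 𝒬_d for the quadratic elements of G of minimal commutator rank, E(σ) for the subgroup generated by the members of 𝒬_d with the same fixed space and commutator space as σ, and Σ for the set of these subgroups. Then Σ is a disjoint union of finitely many parts Σ₁, …, Σ_r such that the subgroups G_i generated by the Σ_i commute pairwise, each G_i is quasisimple, and inside G_i the members of Σ_i form a class of abstract root subgroups in which every rank one pair A, B contains subgroups A₀ ≤ A, B₀ ≤ B generating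 an image of SL₂(k₁) with central kernel on unitriangular subgroups for some field k₁ with at least four elements. -/
theorem result {k : Type u} [Field k] (hk2 : ringChar k ≠ 2) (hk3 : Nat.card k ≠ 3)
    {M : Type u} [AddCommGroup M] [Module k M] [FiniteDimensional k M]
    {G : Subgroup (LinearMap.GeneralLinearGroup k M)} (hG : Cfsg.IsQuadraticPair G) :
    ∃ (r : ℕ) (part : Fin r → Set (Subgroup (LinearMap.GeneralLinearGroup k M))),
      (⋃ i, part i) = Cfsg.quadraticRootSubgroups G ∧ (∀ i j, i ≠ j → Disjoint (part i) (part j)) ∧ (∀ i, (part i).Nonempty) ∧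
      (∀ i j, i ≠ j → ⁅(⨆ A ∈ part i, A), (⨆ A ∈ part j, A)⁆ = ⊥) ∧
      (∀ i, Cfsg.IsQuasisimple ↥(⨆ A ∈ part i, A) ∧
        Cfsg.IsRootSubgroupClass ((fun A : Subgroup (LinearMap.GeneralLinearGroup k M) => A.subgroupOf (⨆ B ∈ part i, B)) '' (part i)) ∧
        ∀ A ∈ part i, ∀ B ∈ Cfsg.rankOnePartners (part i) A, ∃ A₀ B₀ : Subgroup (LinearMap.GeneralLinearGroup k M), A₀ ≤ A ∧ B₀ ≤ B ∧
          ∃ (k₁ : Type u) (_ : Field k₁), 3 < ENat.card k₁ ∧ Cfsg.IsPSL2PairOver k₁ A₀ B₀) := by
  have hn := nu_of_irr hG.1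
  obtain ⟨r, f, h1, h2⟩ := (cp_finite hk2 hk3 hn).fin_param
  choose F hF e0 using fun i => h2.le ⟨i, rfl⟩
  obtain rfl := funext e0
  beta_reduce at h1 h2
  refine ⟨r, fun i => Cp G (F i), Set.Subset.antisymm (Set.iUnion_subset fun i => ?_) fun A hA => ?_, fun i j e => Set.disjoint_left.2 fun C hC hC' => ?_,
    fun i => ?_, fun i j e => ?_, fun i => ?_⟩
  · exact fun _ h => h.1
  · obtain ⟨i, e⟩ := h2.ge ⟨A, hA, rfl⟩
    exact Set.mem_iUnion.2 ⟨i, e.ge ⟨hA, .refl⟩⟩
  · exact e (h1 ((Cp.eq hC).symm.trans (Cp.eq hC')))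
  · exact ⟨_, hF i, .refl⟩
  · exact cp_comm hk2 hk3 hn fun l => e (h1 l)
  refine ⟨cp_qs hk2 hk3 hn (hF i), ⟨rootSet_of (fun _ h => Rt.ab h.1) (fun _ h => Rt.ne_bot h.1)
    (fun _ h _ hg => cp_cj hk2 hk3 hn (cp_le hg) h) fun B hB C hC => (Rt.tri hk2 hk3 hB.1 hC.1).imp_right
    (Or.imp (Rt.ro hk2 hk3 hB.1 hC.1) fun e => e.rcc hk2 hk3 hn (e.mem hk2 hk3 hn hB)), class_of ⟨_, hF i, .refl⟩ fun B hB C hC => ?_⟩,
    fun B hB C hC => Rt.psl2 hk2 hk3 hB.1 hC.1.1 (Rt.op_of hk2 hk3 hn hB.1 hC.1.1 hC.2)⟩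
  beta_reduce at hC ⊢
  rw [← Cp.eq hB] at hC ⊢
  exact cp_conj hB.1 hC

end Cfsg.Agent.S5069
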