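import Cfsg.Statements.S5070
import Cfsg.Agent.C3.LR2

set_option autoImplicit false
open Matrix
open Cfsg

namespace Cfsg.Agent.S5070

open H2 C3 C3.QP C3.LR Subgroup BG Module H4

/-- Let F be a field, m a natural number and V = F^{2(m+1)} with the standard non-degenerate alternating form f(u, v) = uᵀ J v. For a non-zero vector p let T(p) be the group of symplectic transvections v ↦ v + c f(v, p) p, c ∈ F. Then the subgroups T(p), p ≠ 0, generate the symplectic group Sp_{2(m+1)}(F) and form a degenerate class of abstract F-root subgroups of it (any two of them either commute elementwise or are the unipotent subgroups of a rank one group that is an image of SL₂(F) with central kernel, never the commutator case), and their graph of rank one pairs is connected. -/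
theorem result (F : Type*) [Field F] (m : ℕ) :
    Cfsg.IsRootSubgroupClass {A : Subgroup ↥(Matrix.symplecticGroup (Fin (m + 1)) F) | ∃ p : Fin (m + 1) ⊕ Fin (m + 1) → F, p ≠ 0 ∧
        A = Subgroup.closure {g : ↥(Matrix.symplecticGroup (Fin (m + 1)) F) | ∃ c : F, ∀ v : Fin (m + 1) ⊕ Fin (m + 1) → F,
          (g : Matrix (Fin (m + 1) ⊕ Fin (m + 1)) (Fin (m + 1) ⊕ Fin (m + 1)) F) *ᵥ v =
            v + (c * (v ⬝ᵥ (Matrix.J (Fin (m + 1)) F *ᵥ p))) • p}} ∧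
    Cfsg.IsDegenerateRootSet {A : Subgroup ↥(Matrix.symplecticGroup (Fin (m + 1)) F) | ∃ p : Fin (m + 1) ⊕ Fin (m + 1) → F, p ≠ 0 ∧
        A = Subgroup.closure {g : ↥(Matrix.symplecticGroup (Fin (m + 1)) F) | ∃ c : F, ∀ v : Fin (m + 1) ⊕ Fin (m + 1) → F,
          (g : Matrix (Fin (m + 1) ⊕ Fin (m + 1)) (Fin (m + 1) ⊕ Fin (m + 1)) F) *ᵥ v =
            v + (c * (v ⬝ᵥ (Matrix.J (Fin (m + 1)) F *ᵥ p))) • p}} ∧
    Cfsg.IsKRootSubgroupSet F {A : Subgroup ↥(Matrix.symplecticGroup (Fin (m + 1)) F) | ∃ p : Fin (m + 1) ⊕ Fin (m + 1) → F, p ≠ 0 ∧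
        A = Subgroup.closure {g : ↥(Matrix.symplecticGroup (Fin (m + 1)) F) | ∃ c : F, ∀ v : Fin (m + 1) ⊕ Fin (m + 1) → F,
          (g : Matrix (Fin (m + 1) ⊕ Fin (m + 1)) (Fin (m + 1) ⊕ Fin (m + 1)) F) *ᵥ v =
            v + (c * (v ⬝ᵥ (Matrix.J (Fin (m + 1)) F *ᵥ p))) • p}} ∧
    Cfsg.IsConnectedFamily (Cfsg.FAdj {A : Subgroup ↥(Matrix.symplecticGroup (Fin (m + 1)) F) | ∃ p : Fin (m + 1) ⊕ Fin (m + 1) → F, p ≠ 0 ∧
        A = Subgroup.closure {g : ↥(Matrix.symplecticGroup (Fin (m + 1)) F) | ∃ c : F, ∀ v : Fin (m + 1) ⊕ Fin (m + 1) → F,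
          (g : Matrix (Fin (m + 1) ⊕ Fin (m + 1)) (Fin (m + 1) ⊕ Fin (m + 1)) F) *ᵥ v =
            v + (c * (v ⬝ᵥ (Matrix.J (Fin (m + 1)) F *ᵥ p))) • p}})
      {A : Subgroup ↥(Matrix.symplecticGroup (Fin (m + 1)) F) | ∃ p : Fin (m + 1) ⊕ Fin (m + 1) → F, p ≠ 0 ∧
        A = Subgroup.closure {g : ↥(Matrix.symplecticGroup (Fin (m + 1)) F) | ∃ c : F, ∀ v : Fin (m + 1) ⊕ Fin (m + 1) → F,
          (g : Matrix (Fin (m + 1) ⊕ Fin (m + 1)) (Fin (m + 1) ⊕ Fin (m + 1)) F) *ᵥ v =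
            v + (c * (v ⬝ᵥ (Matrix.J (Fin (m + 1)) F *ᵥ p))) • p}} := by
  let j := (spF F (m + 1)).iso.subtype.comp (spEquiv F (m + 1)).toMonoidHom
  have hj : Function.Injective j := Subtype.val_injective.comp (spEquiv F (m + 1)).injective
  have hf := spF_nondeg (F := F) (m + 1)
  have he : ∀ d, (FType.symp F).τ d = 0 ↔ ∃ c : F, d = algebraMap F F c * 1 := fun d => ⟨fun _ => ⟨d, by simp⟩, fun _ => rfl⟩
  have h0 : ∀ p c, ∃ g, j g = (spF F (m + 1)).tv p c := fun p c =>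
    ⟨(spEquiv F (m + 1)).symm ⟨_, CForm.symp_tv_mem_iso p c⟩, by simp [j]⟩
  have h1 := tn_fl hf one_ne_zero he fun p c _ _ => h0 p c
  have hQ : ∀ p, (spF F (m + 1)).Q p = 0 := fun p => let ⟨_, h⟩ := (spF F (m + 1)).Q_range p; h.symm
  generalize hS : {A : Subgroup ↥(Matrix.symplecticGroup (Fin (m + 1)) F) | _} = S
  obtain rfl : LA (rs F j) '' TN F (spF F (m + 1)) 1 = S := by
    have : ∀ p, LA (rs F j) (tn F (spF F (m + 1)) 1 p) = Subgroup.closure {g : ↥(Matrix.symplecticGroup (Fin (m + 1)) F) | ∃ c : F,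
        ∀ v : Fin (m + 1) ⊕ Fin (m + 1) → F, (g : Matrix (Fin (m + 1) ⊕ Fin (m + 1)) (Fin (m + 1) ⊕ Fin (m + 1)) F) *ᵥ v =
            v + (c * (v ⬝ᵥ (Matrix.J (Fin (m + 1)) F *ᵥ p))) • p} := fun p =>
      congrArg Subgroup.closure (Set.ext fun g => exists_congr fun c => tn_eq.trans (by simp only [mul_one]; rfl))
    simp only [← hS, ← this]
    exact Set.ext fun A => ⟨fun ⟨_, ⟨p, h, _, e⟩, e'⟩ => ⟨p, h, e ▸ e'.symm⟩, fun ⟨p, h, e⟩ => ⟨_, ⟨p, h, hQ p, rfl⟩, e.symm⟩⟩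
  have hι := rs_inj F hj
  have h2 := tn_pair (L := F) (f := spF F (m + 1)) one_ne_zero he
  have h3 := LA_set hι h1 (tn_cj fun g => (spEquiv F (m + 1) g).2) (fun a ha b hb => (h2 a ha b hb).imp_right fun h => .inl h.2.2)
    fun K hK => eq_top_iff.2 fun g _ => (mem_map_iff_mem hj).1 (hf.symp_iso_le (S := K.map j) (fun p c => by
      obtain ⟨g, hg⟩ := h0 p c
      by_cases h : p = 0
      · exact (show 1 = (spF F (m + 1)).tv p c from LinearEquiv.ext fun v => by simp [CForm.symp_tv_apply, h]) ▸ one_mem _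
      · exact ⟨g, hK _ ⟨p, h, hQ p, rfl⟩ (Subgroup.subset_closure ⟨c, tn_eq.2 fun v => by simp [hg, CForm.symp_tv_apply]⟩), hg⟩)
      (spEquiv F (m + 1) g).2)
  have h4 := LA_conn hι h1 (tn_conn hf one_ne_zero he)
  exact ⟨⟨h3.1, class_of_conn ⟨_, _, ⟨1, one_ne_zero, hQ _, rfl⟩, rfl⟩ h4⟩, deg_LA hι h1 h3.1 h2, h3, h4⟩

end Cfsg.Agent.S5070
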