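import Cfsg.Statements.S5071
import Cfsg.Agent.C3.LR2

set_option autoImplicit false
open Matrix
open Cfsg

namespace Cfsg.Agent.S5071

open H2 C3 C3.QP C3.LR Subgroup BG Module H4

/-- Let F be a finite field with q² elements, n a natural number, and h the Hermitian form Σ uᵢ vᵢ^q on F^{n+2}. For a non-zero isotropic vector p let T(p) be the group of unitary transvections with centre ⟨p⟩: the elements of SU_{n+2}(q) moving every vector by a multiple of p and fixing every vector perpendicular to p. Let Σ be the set of these T(p) and G₀ the subgroup they generate. Then, viewed inside G₀, the members of Σ form a degenerate class of abstract k-root subgroups of G₀ for some field k with q elements (any two commute or are the unipotent subgroups of a rank one group that is an image of SL₂(k) with central kernel, never the commutator case), and their graph of rank one pairs is connected. -/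
theorem result (F : Type*) [Field F] [Fintype F] (q n : ℕ) (hF : Fintype.card F = q ^ 2) :
    Cfsg.IsRootSubgroupClass ((fun A : Subgroup ↥(Cfsg.SU (n + 2) F q) => A.subgroupOf (⨆ B ∈ {A : Subgroup ↥(Cfsg.SU (n + 2) F q) | ∃ p : Fin (n + 2) → F, p ≠ 0 ∧ Cfsg.hermForm (n + 2) F q p p = 0 ∧
          A = Subgroup.closure {g : ↥(Cfsg.SU (n + 2) F q) |
            (∀ v : Fin (n + 2) → F, ∃ c : F, ((g : Matrix.SpecialLinearGroup (Fin (n + 2)) F) : Matrix (Fin (n + 2)) (Fin (n + 2)) F) *ᵥ v = v + c • p) ∧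
            ∀ v : Fin (n + 2) → F, Cfsg.hermForm (n + 2) F q v p = 0 →
              ((g : Matrix.SpecialLinearGroup (Fin (n + 2)) F) : Matrix (Fin (n + 2)) (Fin (n + 2)) F) *ᵥ v = v}}, B)) ''
      {A : Subgroup ↥(Cfsg.SU (n + 2) F q) | ∃ p : Fin (n + 2) → F, p ≠ 0 ∧ Cfsg.hermForm (n + 2) F q p p = 0 ∧
          A = Subgroup.closure {g : ↥(Cfsg.SU (n + 2) F q) |
            (∀ v : Fin (n + 2) → F, ∃ c : F, ((g : Matrix.SpecialLinearGroup (Fin (n + 2)) F) : Matrix (Fin (n + 2)) (Fin (n + 2)) F) *ᵥ v = v + c • p) ∧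
            ∀ v : Fin (n + 2) → F, Cfsg.hermForm (n + 2) F q v p = 0 →
              ((g : Matrix.SpecialLinearGroup (Fin (n + 2)) F) : Matrix (Fin (n + 2)) (Fin (n + 2)) F) *ᵥ v = v}}) ∧
    Cfsg.IsDegenerateRootSet ((fun A : Subgroup ↥(Cfsg.SU (n + 2) F q) => A.subgroupOf (⨆ B ∈ {A : Subgroup ↥(Cfsg.SU (n + 2) F q) | ∃ p : Fin (n + 2) → F, p ≠ 0 ∧ Cfsg.hermForm (n + 2) F q p p = 0 ∧
          A = Subgroup.closure {g : ↥(Cfsg.SU (n + 2) F q) |
            (∀ v : Fin (n + 2) → F, ∃ c : F, ((g : Matrix.SpecialLinearGroup (Fin (n + 2)) F) : Matrix (Fin (n + 2)) (Fin (n + 2)) F) *ᵥ v = v + c • p) ∧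
            ∀ v : Fin (n + 2) → F, Cfsg.hermForm (n + 2) F q v p = 0 →
              ((g : Matrix.SpecialLinearGroup (Fin (n + 2)) F) : Matrix (Fin (n + 2)) (Fin (n + 2)) F) *ᵥ v = v}}, B)) ''
      {A : Subgroup ↥(Cfsg.SU (n + 2) F q) | ∃ p : Fin (n + 2) → F, p ≠ 0 ∧ Cfsg.hermForm (n + 2) F q p p = 0 ∧
          A = Subgroup.closure {g : ↥(Cfsg.SU (n + 2) F q) |
            (∀ v : Fin (n + 2) → F, ∃ c : F, ((g : Matrix.SpecialLinearGroup (Fin (n + 2)) F) : Matrix (Fin (n + 2)) (Fin (n + 2)) F) *ᵥ v = v + c • p) ∧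
            ∀ v : Fin (n + 2) → F, Cfsg.hermForm (n + 2) F q v p = 0 →
              ((g : Matrix.SpecialLinearGroup (Fin (n + 2)) F) : Matrix (Fin (n + 2)) (Fin (n + 2)) F) *ᵥ v = v}}) ∧
    (∃ (L : Type) (_ : Field L) (_ : Fintype L), Fintype.card L = q ∧ Cfsg.IsKRootSubgroupSet L ((fun A : Subgroup ↥(Cfsg.SU (n + 2) F q) => A.subgroupOf (⨆ B ∈ {A : Subgroup ↥(Cfsg.SU (n + 2) F q) | ∃ p : Fin (n + 2) → F, p ≠ 0 ∧ Cfsg.hermForm (n + 2) F q p p = 0 ∧
          A = Subgroup.closure {g : ↥(Cfsg.SU (n + 2) F q) |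
            (∀ v : Fin (n + 2) → F, ∃ c : F, ((g : Matrix.SpecialLinearGroup (Fin (n + 2)) F) : Matrix (Fin (n + 2)) (Fin (n + 2)) F) *ᵥ v = v + c • p) ∧
            ∀ v : Fin (n + 2) → F, Cfsg.hermForm (n + 2) F q v p = 0 →
              ((g : Matrix.SpecialLinearGroup (Fin (n + 2)) F) : Matrix (Fin (n + 2)) (Fin (n + 2)) F) *ᵥ v = v}}, B)) ''
      {A : Subgroup ↥(Cfsg.SU (n + 2) F q) | ∃ p : Fin (n + 2) → F, p ≠ 0 ∧ Cfsg.hermForm (n + 2) F q p p = 0 ∧
          A = Subgroup.closure {g : ↥(Cfsg.SU (n + 2) F q) |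
            (∀ v : Fin (n + 2) → F, ∃ c : F, ((g : Matrix.SpecialLinearGroup (Fin (n + 2)) F) : Matrix (Fin (n + 2)) (Fin (n + 2)) F) *ᵥ v = v + c • p) ∧
            ∀ v : Fin (n + 2) → F, Cfsg.hermForm (n + 2) F q v p = 0 →
              ((g : Matrix.SpecialLinearGroup (Fin (n + 2)) F) : Matrix (Fin (n + 2)) (Fin (n + 2)) F) *ᵥ v = v}})) ∧
    Cfsg.IsConnectedFamily (Cfsg.FAdj ((fun A : Subgroup ↥(Cfsg.SU (n + 2) F q) => A.subgroupOf (⨆ B ∈ {A : Subgroup ↥(Cfsg.SU (n + 2) F q) | ∃ p : Fin (n + 2) → F, p ≠ 0 ∧ Cfsg.hermForm (n + 2) F q p p = 0 ∧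
          A = Subgroup.closure {g : ↥(Cfsg.SU (n + 2) F q) |
            (∀ v : Fin (n + 2) → F, ∃ c : F, ((g : Matrix.SpecialLinearGroup (Fin (n + 2)) F) : Matrix (Fin (n + 2)) (Fin (n + 2)) F) *ᵥ v = v + c • p) ∧
            ∀ v : Fin (n + 2) → F, Cfsg.hermForm (n + 2) F q v p = 0 →
              ((g : Matrix.SpecialLinearGroup (Fin (n + 2)) F) : Matrix (Fin (n + 2)) (Fin (n + 2)) F) *ᵥ v = v}}, B)) ''
      {A : Subgroup ↥(Cfsg.SU (n + 2) F q) | ∃ p : Fin (n + 2) → F, p ≠ 0 ∧ Cfsg.hermForm (n + 2) F q p p = 0 ∧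
          A = Subgroup.closure {g : ↥(Cfsg.SU (n + 2) F q) |
            (∀ v : Fin (n + 2) → F, ∃ c : F, ((g : Matrix.SpecialLinearGroup (Fin (n + 2)) F) : Matrix (Fin (n + 2)) (Fin (n + 2)) F) *ᵥ v = v + c • p) ∧
            ∀ v : Fin (n + 2) → F, Cfsg.hermForm (n + 2) F q v p = 0 →
              ((g : Matrix.SpecialLinearGroup (Fin (n + 2)) F) : Matrix (Fin (n + 2)) (Fin (n + 2)) F) *ᵥ v = v}})) ((fun A : Subgroup ↥(Cfsg.SU (n + 2) F q) => A.subgroupOf (⨆ B ∈ {A : Subgroup ↥(Cfsg.SU (n + 2) F q) | ∃ p : Fin (n + 2) → F, p ≠ 0 ∧ Cfsg.hermForm (n + 2) F q p p = 0 ∧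
          A = Subgroup.closure {g : ↥(Cfsg.SU (n + 2) F q) |
            (∀ v : Fin (n + 2) → F, ∃ c : F, ((g : Matrix.SpecialLinearGroup (Fin (n + 2)) F) : Matrix (Fin (n + 2)) (Fin (n + 2)) F) *ᵥ v = v + c • p) ∧
            ∀ v : Fin (n + 2) → F, Cfsg.hermForm (n + 2) F q v p = 0 →
              ((g : Matrix.SpecialLinearGroup (Fin (n + 2)) F) : Matrix (Fin (n + 2)) (Fin (n + 2)) F) *ᵥ v = v}}, B)) ''
      {A : Subgroup ↥(Cfsg.SU (n + 2) F q) | ∃ p : Fin (n + 2) → F, p ≠ 0 ∧ Cfsg.hermForm (n + 2) F q p p = 0 ∧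
          A = Subgroup.closure {g : ↥(Cfsg.SU (n + 2) F q) |
            (∀ v : Fin (n + 2) → F, ∃ c : F, ((g : Matrix.SpecialLinearGroup (Fin (n + 2)) F) : Matrix (Fin (n + 2)) (Fin (n + 2)) F) *ᵥ v = v + c • p) ∧
            ∀ v : Fin (n + 2) → F, Cfsg.hermForm (n + 2) F q v p = 0 →
              ((g : Matrix.SpecialLinearGroup (Fin (n + 2)) F) : Matrix (Fin (n + 2)) (Fin (n + 2)) F) *ᵥ v = v}}) := by
  let j : SU (n + 2) F q →* _ := (Subgroup.subtype _).comp (suEquiv hF (n + 2)).toMonoidHom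
  have hj : Function.Injective j := Subtype.val_injective.comp (suEquiv hF (n + 2)).injective
  have hj' : ∀ g, j g ∈ (unF hF (n + 2)).iso := fun g => (suEquiv hF (n + 2) g).2.1
  have hf := unF_nondeg hF (n + 2)
  obtain ⟨e, he0, he1⟩ := CForm.unit_tau (hσσ := frobq_frobq hF) (frobq_ne hF)
  let K := (frobq hF).eqLocusField (RingHom.id F)
  obtain ⟨L, instF, ⟨ρ⟩⟩ : ∃ (L : Type) (_ : Field L), Nonempty (L ≃+* K) :=
    ⟨_, (Finite.equivFin K).symm.field, ⟨(Finite.equivFin K).symm.ringEquiv⟩⟩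
  haveI instFin : Finite L := .of_equiv _ ρ.toEquiv.symm
  letI instA : Algebra L F := (K.subtype.comp ρ.toRingHom).toAlgebra
  have h0 : ∀ d : F, (unT hF).τ d = d + frobq hF d := fun _ => rfl
  have he : ∀ d, (unT hF).τ d = 0 ↔ ∃ c : L, d = algebraMap L F c * e := fun d => ⟨fun h =>
    ⟨ρ.symm ⟨d / e, by
      rw [h0, add_comm, add_eq_zero_iff_eq_neg] at h he1
      change frobq hF _ = d / e
      rw [map_div₀, h, he1, neg_div_neg_eq]⟩, by
      change d = (ρ (ρ.symm _) : F) * e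
      rw [RingEquiv.apply_symm_apply, div_mul_cancel₀ _ he0]⟩, fun ⟨c, h⟩ => by
      have : frobq hF (algebraMap L F c) = algebraMap L F c := (ρ c).2
      rw [h0] at he1
      rw [h0, h, map_mul, this, ← mul_add, he1, mul_zero]⟩
  have h1 := tn_fl (j := j) hf he0 he fun p c hp hc => ⟨(suEquiv hF (n + 2)).symm ⟨_, CForm.E_le_iso (CForm.tv_mem_E hp hc),
    CForm.E_le_ker_det (CForm.tv_mem_E hp hc)⟩, congrArg Subtype.val ((suEquiv hF (n + 2)).apply_symm_apply _)⟩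
  generalize hS : {A : Subgroup ↥(Cfsg.SU (n + 2) F q) | _} = S
  obtain rfl : LA (rs L j) '' TN L (unF hF (n + 2)) e = S := by
    rw [← hS]
    refine Set.ext fun A => ⟨?_, ?_⟩
    · rintro ⟨_, ⟨p, h, hp, rfl⟩, rfl⟩
      exact ⟨p, h, hp, congrArg Subgroup.closure (Set.ext fun g => tn_char hf he0 he h hp (hj' g))⟩
    · rintro ⟨p, h, hp, rfl⟩
      exact ⟨_, ⟨p, h, hp, rfl⟩, congrArg Subgroup.closure (Set.ext fun g => tn_char hf he0 he h hp (hj' g))⟩
  rw [sub_image h1]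
  have hι := rs_inj L hj
  have hι' : Function.Injective ((rs L j).comp (⨆ B ∈ LA (rs L j) '' TN L (unF hF (n + 2)) e, B).subtype) :=
    fun x y h => Subtype.ext (hι h)
  have h2 := tn_pair (L := L) (f := unF hF (n + 2)) he0 he
  have h3 := sub_set hι h1 (tn_cj hj') fun a ha b hb => (h2 a ha b hb).imp_right fun h => .inl h.2.2
  have h4 := LA_conn hι' (sub_fl h1) (tn_conn hf he0 he)
  obtain ⟨p, h5, h6⟩ := CForm.not_aniso.1 (CForm.Nondeg.unT_not_aniso hF (f := unF hF (n + 2)) (by simp))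
  refine ⟨⟨h3.1, class_of_conn ⟨_, _, ⟨p, h5, h6, rfl⟩, rfl⟩ h4⟩, deg_LA hι' (sub_fl h1) h3.1 h2,
    ⟨L, inferInstance, Fintype.ofFinite L, ?_, h3⟩, h4⟩
  exact (@Nat.card_eq_fintype_card L (Fintype.ofFinite L)).symm.trans ((Nat.card_congr ρ.toEquiv).trans (card_fixed_frobq hF))

end Cfsg.Agent.S5071
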