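import Cfsg.Statements.S5073
import Cfsg.Agent.C3.QP6

set_option autoImplicit false
universe u
open Cfsg

namespace Cfsg.Agent.S5073

open H2 C3 C3.QP Subgroup BG Module
open scoped commutatorElement

/-- Let k be a field of characteristic not 2 with k not of order 3, M a finite-dimensional k-vector space and G ≤ GL(M) such that (G, M) is a quadratic pair (M irreducible for G, and G generated by its quadratically acting elements σ whose scalar family 1 + c(σ − 1), c ∈ k, lies in G). Write 𝒬_d for the quadratic elements of G of minimal commutator rank, E(σ) for the subgroup generated by the members of 𝒬_d with the same fixed space and commutator space as σ, and Σ for the set of these subgroups. Let E, F ∈ Σ. If some non-identity element of E commutes with some non-identity element of F, or some non-identity element of E normalizes F, then E and F commute elementwise. -/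
theorem result {k : Type u} [Field k] (hk2 : ringChar k ≠ 2) (hk3 : Nat.card k ≠ 3)
    {M : Type u} [AddCommGroup M] [Module k M] [FiniteDimensional k M]
    {G : Subgroup (LinearMap.GeneralLinearGroup k M)} (hG : Cfsg.IsQuadraticPair G)
    {E F : Subgroup (LinearMap.GeneralLinearGroup k M)} (hE : E ∈ Cfsg.quadraticRootSubgroups G) (hF : F ∈ Cfsg.quadraticRootSubgroups G)
    (h : (∃ e ∈ E, e ≠ 1 ∧ ∃ f ∈ F, f ≠ 1 ∧ e * f = f * e) ∨ E ⊓ Subgroup.normalizer (F : Set (LinearMap.GeneralLinearGroup k M)) ≠ ⊥) :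
    ⁅E, F⁆ = ⊥ := by
  have l : ∀ e ∈ E, e ≠ 1 → ∀ f ∈ F, f ≠ 1 → e * f = f * e → ⁅E, F⁆ = ⊥ := fun e he e1 f hf f1 h => by
    have h1 : ((e : End k M) - 1) * (f - 1) = ((f : End k M) - 1) * (e - 1) := by
      have := congrArg Units.val h
      simp only [Units.val_mul] at this
      linear_combination (norm := noncomm_ring) this
    obtain l | l | l := Rt.tri hk2 hk3 hE hF
    · exact l
    · exact absurd (by rw [h1, mul_assoc, (Rt.qn hE (mem_aug he)).1, mul_zero])
        (Rt.op_ne hk2 hk3 hE hF l (mem_aug he) (sub_ne_iff.2 e1) (mem_aug hf) (sub_ne_iff.2 f1))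
    · exact absurd (sub_eq_zero.2 h1) (l.br_ne (mem_aug he) (sub_ne_iff.2 e1) (mem_aug hf) (sub_ne_iff.2 f1))
  obtain ⟨e, he, e1, f, hf, f1, h⟩ | h := h
  · exact l e he e1 f hf f1 h
  obtain ⟨⟨e, he⟩, e1⟩ := ne_bot_iff_exists_ne_one.1 h
  replace e1 : e ≠ 1 := fun h => e1 (Subtype.ext h)
  obtain l' | l' | l' := Rt.tri hk2 hk3 hE hF
  · exact l'
  · exact absurd ((Rt.ro hk2 hk3 hE hF l').eq_one he.1 (cj_eq_of_mem_normalizer he.2)) e1
  · obtain ⟨f, hf, f1⟩ := Rt.exists_ne hF
    have h1 := commutator_mem_commutator he.1 hf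
    by_cases h2 : ⁅e, f⁆ = 1
    · exact l e he.1 e1 f hf f1 (commutatorElement_eq_one_iff_mul_comm.1 h2)
    · exact l e he.1 e1 _ (mul_mem (H8.conj_mem_of_mem_normalizer he.2 hf) (inv_mem hf)) h2
        (cm (l'.cent hk2 hk3 (nu_of_irr hG.1)) h1 (mem_sup_left he.1)).symm

end Cfsg.Agent.S5073
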