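import Cfsg.Statements.S5083
import Cfsg.Agent.H9.Alperin

set_option autoImplicit false
open Cfsg

namespace Cfsg.Agent.S5083

open Cfsg.Agent Cfsg.Agent.H9

/-- If F is a saturated fusion system over a finite p-group S in which Aut_F(P) is a p-group for every P ≤ S, then F is the inner fusion system of S (all its maps are conjugations by elements of S). -/
theorem result {Ω : Type*} [Group Ω] {S : Subgroup Ω} [Finite S] (p : ℕ) [Fact p.Prime] (hS : IsPGroup p S) (F : Cfsg.FusionSystem S) (hF : F.IsSaturated p) (h : ∀ P : Subgroup Ω, P ≤ S → IsPGroup p (F.autGroup P)) : F = Cfsg.innerFusionSystem S := by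
  have h' : Sat p F := ⟨hS, hF⟩
  refine fs_ext fun P σ => ⟨fun hσ => h'.alperin _ (fun P σ h1 h2 => ?_) hσ, Mor.of_inner⟩
  have := finite_of_le h2.le
  have e := (h'.fn_syl (h'.fcr_of_ess h1).1).eq_of_le le_rfl (h P h2.le)
    (autInducedBy_le_autGroup F le_rfl h2.le)
  obtain ⟨g, hg, e'⟩ := inK_autInducedBy.1 (e ▸ (inK_autGroup h2.le).2 h2)
  exact mor_inner_iff.2 ⟨h2.le, g, hg.1, e'⟩

end Cfsg.Agent.S5083
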