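import Cfsg.Statements.S5087
import Cfsg.Agent.H9.Normal

set_option autoImplicit false
open Cfsg

namespace Cfsg.Agent.S5087

open Cfsg.Agent Cfsg.Agent.H9

/-- In a saturated fusion system over a finite p-group S, a subgroup Q is normal in the system if and only if every subgroup P that equals S or is essential contains Q and every element of Aut_F(P) maps Q onto itself. -/
theorem result {Ω : Type*} [Group Ω] {S : Subgroup Ω} [Finite S] (p : ℕ) [Fact p.Prime] (hS : IsPGroup p S) (F : Cfsg.FusionSystem S) (hF : F.IsSaturated p) (Q : Subgroup Ω) : F.IsNormal Q ↔ ∀ P : Subgroup Ω, (P = S ∨ F.IsEssential p P) → (Q ≤ P ∧ ∀ α ∈ F.autGroup P, (Q.subgroupOf P).map α.toMonoidHom = Q.subgroupOf P) := by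
  have h : Sat p F := ⟨hS, hF⟩
  constructor
  · intro hQ P hP
    obtain ⟨a, b, c⟩ := h.fcr_of_ess hP
    have hle := normal_le_cr hS hQ b c
    refine ⟨hle, fun α hα => ?_⟩
    have h1 := sc_iso (normal_sc hQ) ((iso_ap b.1 hα).mor.mono hle)
    ext y
    constructor
    · rintro ⟨x, hx, rfl⟩
      have := h1.maps (x := (x : Ω)) hx
      rwa [ap_coe] at this
    · intro hy
      refine ⟨α⁻¹ y, ?_, by simp⟩
      have := h1.inv_maps (y := (y : Ω)) hy
      rwa [← map_inv, ap_coe] at this
  · intro hQ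
    refine h.normal_of_ess fun R hR => ⟨(hQ R hR).1, fun α hα x hx => ?_⟩
    have := ((hQ R hR).2 _ hα.toEquiv_mem).le ⟨⟨x, (hQ R hR).1 hx⟩, hx, rfl⟩
    exact this

end Cfsg.Agent.S5087
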