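import Cfsg.Statements.S5088
import Cfsg.Agent.H9.Normal

set_option autoImplicit false
open Cfsg

namespace Cfsg.Agent.S5088

open Cfsg.Agent Cfsg.Agent.H9

/-- In a saturated fusion system over a finite p-group, a subgroup Q is normal in the system if and only if there is a chain of subgroups 1 = Q₀ ≤ Q₁ ≤ ⋯ ≤ Qₙ = Q such that each Qᵢ with i ≥ 1 is strongly closed in the system and [Q, Qᵢ] ≤ Qᵢ₋₁. -/
theorem result {Ω : Type*} [Group Ω] {S : Subgroup Ω} [Finite S] (p : ℕ) [Fact p.Prime] (hS : IsPGroup p S) (F : Cfsg.FusionSystem S) (hF : F.IsSaturated p) (Q : Subgroup Ω) : F.IsNormal Q ↔ ∃ (n : ℕ) (Qs : Fin (n + 1) → Subgroup Ω), Qs 0 = ⊥ ∧ Qs (Fin.last n) = Q ∧ Monotone Qs ∧ ∀ i : Fin n, F.StronglyClosed (Qs i.succ) ∧ ⁅Q, Qs i.succ⁆ ≤ Qs (Fin.castSucc i) := by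
  have h : Sat p F := ⟨hS, hF⟩
  constructor
  · intro hQ
    have := finite_of_le hQ.1
    obtain ⟨n, hn⟩ := exists_icomm_eq_bot (hS.to_le hQ.1) le_rfl
    have hc : ∀ g ∈ Q, ∀ x ∈ Q, g * x * g⁻¹ ∈ Q := fun g hg x hx =>
      Q.mul_mem (Q.mul_mem hg hx) (Q.inv_mem hg)
    refine ⟨n, fun i => icomm Q Q (n - i), hn, by simp [icomm], fun i j hij =>
      antitone_nat_of_succ_le (icomm_succ_le hc) (by have : (i : ℕ) ≤ j := hij; omega),
      fun i => ⟨normal_sc (normal_icomm hQ _), ?_⟩⟩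
    simp only [Fin.val_succ, Fin.val_castSucc]
    rw [show n - i = n - (i + 1) + 1 by omega, Subgroup.commutator_comm]
    exact le_rfl
  · rintro ⟨n, Qs, h0, hn, hm, hs⟩
    have hsc : ∀ i, F.StronglyClosed (Qs i) := fun i => by
      rcases Fin.eq_zero_or_eq_succ i with rfl | ⟨j, rfl⟩
      · exact h0 ▸ sc_bot F
      · exact (hs j).1
    refine h.normal_of_wc_chain (hn ▸ hsc _) n (fun i => if hi : i < n + 1 then Qs ⟨i, hi⟩ else Q)
      (by simpa using h0) (by rw [dif_pos (by omega)]; exact hn) (fun i hi => ?_) (fun i hi => ?_) fun i hi => ?_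
    · rw [dif_pos (by omega)]; exact hn ▸ hm (Fin.le_last _)
    · rw [dif_pos (by omega), dif_pos (by omega), Subgroup.commutator_comm]
      exact (hs ⟨i, hi⟩).2
    · rw [dif_pos (by omega)]; exact wc_of_sc (hsc _)

end Cfsg.Agent.S5088
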