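import Cfsg.Statements.S5089
import Cfsg.Agent.H9.Normal

set_option autoImplicit false
open Cfsg

namespace Cfsg.Agent.S5089

open Cfsg.Agent Cfsg.Agent.H9

/-- A saturated fusion system over a finite p-group has a nontrivial subgroup that is normal in the system (O_p(F) ≠ 1) if and only if some nontrivial abelian subgroup is strongly closed in the system. -/
theorem result {Ω : Type*} [Group Ω] {S : Subgroup Ω} [Finite S] (p : ℕ) [Fact p.Prime] (hS : IsPGroup p S) (F : Cfsg.FusionSystem S) (hF : F.IsSaturated p) : F.core ≠ ⊥ ↔ ∃ Q : Subgroup Ω, Q ≠ ⊥ ∧ IsMulCommutative Q ∧ F.StronglyClosed Q := by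
  have h : Sat p F := ⟨hS, hF⟩
  constructor
  · intro hne
    have hn := core_normal F
    have := finite_of_le hn.1
    obtain ⟨z, hz, hz1, hzc⟩ := exists_central (hS.to_le hn.1) le_rfl
      (fun g hg x hx => F.core.mul_mem (F.core.mul_mem hg hx) (F.core.inv_mem hg)) hne
    refine ⟨_, fun e => hz1 ?_, ⟨⟨fun x y => Subtype.ext ((mem_C.1 y.2).2 x x.2.1)⟩⟩,
      normal_sc (normal_center hn)⟩
    exact Subgroup.mem_bot.1 (e ▸ mem_C.2 ⟨hz, hzc⟩)
  · rintro ⟨Q, hQ, hc, hsc⟩ e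
    exact hQ (eq_bot_iff.2 (e ▸ le_core (h.normal_of_abelian_sc hsc fun x hx y hy =>
      congrArg Subtype.val (hc.1.1 ⟨x, hx⟩ ⟨y, hy⟩))))

end Cfsg.Agent.S5089
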