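import Cfsg.Statements.S5103
import Cfsg.Agent.H9.Mph

set_option autoImplicit false
open Cfsg

namespace Cfsg.Agent.S5103

open Cfsg.Agent Cfsg.Agent.H9

/-- A fusion system over a finite p-group that has a model (a finite group realizing it on a Sylow p-subgroup with self-centralizing largest normal p-subgroup) is constrained. -/
theorem result {Ω : Type*} [Group Ω] {S : Subgroup Ω} [Finite S] (p : ℕ) [Fact p.Prime] (hS : IsPGroup p S) (F : Cfsg.FusionSystem S) {G : Type*} [Group G] (ι : S →* G) (hG : F.IsModel p G ι) : F.IsConstrained p := by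
  obtain ⟨_, h1, ⟨T, hT⟩, h2⟩ := hG
  have h := isRealizedBy_iff_fac.1 h1
  have := h.finite
  obtain ⟨g, h', -⟩ := h.symm
  have hs : Syl p ι.range ⊤ := hT ▸ syl_top T
  have hn : ∀ g ∈ (⊤ : Subgroup G), ∀ x ∈ pCore p G, g * x * g⁻¹ ∈ pCore p G :=
    fun g _ x hx => (inferInstance : (pCore p G).Normal).conj_mem x hx g
  have hle := hs.le_of_normal le_top (L.pCore_isPGroup p G) hn
  exact h'.constrained hs.pg ⟨((grpFS_group _).sat hs).sat, _, (grpFS_group _).normal hle hn,
    (grpFS_group _).centric_of_normal hle hn fun x hx => h2 hx.2⟩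

end Cfsg.Agent.S5103
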