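import Cfsg.Statements.S5107
import Cfsg.Agent.H9.Grp

set_option autoImplicit false
open Cfsg

namespace Cfsg.Agent.S5107

open Cfsg.Agent Cfsg.Agent.H9

/-- If a Sylow p-subgroup S of a finite group G has nilpotency class at most two and its centre is strongly closed in S with respect to G, then every map of the fusion system of G on S is conjugation by an element of N_G(S), and S is the largest subgroup normal in that fusion system. -/
theorem result {G : Type*} [Group G] [Finite G] (p : ℕ) [Fact p.Prime] (S : Sylow p G) (hcl : ⁅(S : Subgroup G), (S : Subgroup G)⁆ ≤ (S : Subgroup G) ⊓ Subgroup.centralizer ((S : Subgroup G) : Set G)) (hZ : Cfsg.IsStronglyClosed ((S : Subgroup G) ⊓ Subgroup.centralizer ((S : Subgroup G) : Set G)) (S : Subgroup G)) : (∀ (P : Subgroup G) (φ : P →* G), φ ∈ (Cfsg.groupFusionSystem (S : Subgroup G)).Hom P → ∃ g ∈ Subgroup.normalizer ((S : Subgroup G) : Set G), ∀ x : P, φ x = g * (x : G) * g⁻¹) ∧ (Cfsg.groupFusionSystem (S : Subgroup G)).core = S := by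
  have hg := grpFS_group (S : Subgroup G)
  have hn : (Cfsg.groupFusionSystem (S : Subgroup G)).IsNormal S := by
    refine (sat_group S).normal_of_desc_chain (sc_top _) 2
      (fun i => if i = 0 then S else if i = 1 then
        (S : Subgroup G) ⊓ Subgroup.centralizer ((S : Subgroup G) : Set G) else ⊥) rfl rfl
      (fun i => by split_ifs; exacts [le_rfl, inf_le_left, bot_le]) (fun i => ?_) fun i => ?_
    · rcases i with _ | _ | i
      · simpa using hcl
      · simp only [zero_add, one_ne_zero, ↓reduceIte, Nat.reduceAdd, OfNat.ofNat_ne_zero,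
          OfNat.ofNat_ne_one]
        rw [Subgroup.commutator_le]
        intro x hx y hy
        rw [Subgroup.mem_bot, commutatorElement_eq_one_iff_mul_comm]
        exact (hx.2 y hy).symm
      · simp
    · split_ifs
      · exact wc_of_sc (sc_top _)
      · exact wc_of_sc (hg.sc_iff.2 ⟨hZ.1, fun x hx g _ h => hZ.2 x hx g h⟩)
      · exact wc_of_sc (sc_bot _)
  refine ⟨fun P φ hφ => ?_, le_antisymm (core_le _) (le_core hn)⟩
  obtain ⟨σ, hσ, e⟩ := exists_mor hφ
  obtain ⟨α, hα, e'⟩ := normal_res hn hσ.le hσ
  obtain ⟨g, -, h1, -, e''⟩ := hg.exists_cj_iso hα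
  exact ⟨g, Subgroup.mem_normalizer_iff.2 fun x => (h1.mem x).symm, fun x => by
    rw [← e, ← e' x x.2, e'' x (hσ.le x.2)]⟩

end Cfsg.Agent.S5107
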