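import Cfsg.Statements.S5110
import Cfsg.Agent.H9.BCG

set_option autoImplicit false
open Cfsg

namespace Cfsg.Agent.S5110

open Cfsg.Agent Cfsg.Agent.H9

/-- Saturation criterion: let F be a fusion system over a finite p-group S and H a family of subgroups of S closed under conjugacy in F, such that every conjugacy class inside H contains a fully automized receptive member, F is the smallest fusion system over S containing all its maps with source in H, and every centric subgroup outside H is conjugate in F to some P for which Aut_S(P) ∩ O_p(Aut_F(P)) is not contained in Inn(P). Then F is saturated. -/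
theorem result {Ω : Type*} [Group Ω] {S : Subgroup Ω} [Finite S] (p : ℕ) [Fact p.Prime] (hS : IsPGroup p S) (F : Cfsg.FusionSystem S) (ℋ : Set (Subgroup Ω)) (hℋS : ∀ P ∈ ℋ, P ≤ S) (hℋconj : ∀ P ∈ ℋ, ∀ Q, F.IsConj P Q → Q ∈ ℋ) (hsat : ∀ P ∈ ℋ, ∃ Q, F.IsConj P Q ∧ F.IsFullyAutomized p Q ∧ F.IsReceptive Q) (hgen : ∀ E : Cfsg.FusionSystem S, (∀ P ∈ ℋ, F.Hom P ⊆ E.Hom P) → F ≤ E) (hstar : ∀ P : Subgroup Ω, F.IsCentric P → P ∉ ℋ → ∃ Q, F.IsConj P Q ∧ ¬ (Cfsg.autInducedBy S Q ⊓ (Cfsg.pCore p ↥(F.autGroup Q)).map (F.autGroup Q).subtype ≤ Cfsg.Inn Q)) : F.IsSaturated p := by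
  have hs : ∀ P, F.IsCentric P → P ∉ ℋ →
      ∃ Q σ g, Iso F P Q σ ∧ g ∈ S ∧ g ∉ Q ∧ InK (opm p (F.autGroup Q)) (cj g) := fun P a b => by
    obtain ⟨Q, c, d⟩ := hstar P a b
    obtain ⟨σ, c⟩ := isConj_iff.1 c
    obtain ⟨α, ⟨e1, e2⟩, e3⟩ := SetLike.not_le_iff_exists.1 d
    obtain ⟨g, hg, e⟩ := mem_autInducedBy.1 e1
    exact ⟨Q, σ, g, c, hg, fun h => e3 (mem_Inn.2 ⟨g, h, e⟩), α, e2, e⟩
  have hc : ∀ P Q σ, P ∈ ℋ → Iso F P Q σ → Q ∈ ℋ := fun P Q σ a b => hℋconj P a Q b.isConj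
  have h1 : S ∈ ℋ := by
    by_contra h
    obtain ⟨Q, σ, g, a, b, c, -⟩ := hs S (centric_top F) h
    exact c (a.eq_top ▸ b)
  have d := Gen.morData (S := S) (F := F) (B := fun R α => R ∈ ℋ ∧ Mor F R α) (fun _ _ h => h.2)
    (fun R α h => Gen.base ⟨hc _ _ _ h.1 h.2.iso, h.2.inv_img⟩ le_rfl h.2.img_le)
    fun g hg => Gen.base ⟨h1, mor_cj F le_rfl hg⟩ le_rfl le_rfl
  refine (sat_of_family hS (· ∈ ℋ) hc (fun P _ h => ?_) (fun P σ h => d.mor_iff.1 (le_iff.1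
    (hgen d.toFS fun P a => ?_) P σ h)) hs).sat
  · obtain ⟨Q, a, b⟩ := hsat P h
    obtain ⟨σ, a⟩ := isConj_iff.1 a
    exact ⟨Q, σ, a, b⟩
  · exact hom_subset_iff.2 fun σ b => d.mor_iff.2 (Gen.base ⟨a, b⟩ le_rfl b.le)

end Cfsg.Agent.S5110
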