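import Cfsg.Statements.S5114
import Cfsg.Agent.H9.Pp

set_option autoImplicit false
open Cfsg

namespace Cfsg.Agent.S5114

open Cfsg.Agent Cfsg.Agent.H9

/-- Let F be a saturated fusion system over a finite p-group S and E a fusion system over S contained in F. If Aut_E(P) contains the subgroup of Aut_F(P) generated by its elements of p-power order for every subgroup P that is centric in F, then the same holds for every subgroup of S (E has index prime to p in F), every map of F with source a subgroup P of S is an element of Aut_F(S) composed with a map of E, and a subgroup is centric in E exactly when it is centric in F. -/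
theorem result {Ω : Type*} [Group Ω] {S : Subgroup Ω} [Finite S] (p : ℕ) [Fact p.Prime] (hS : IsPGroup p S) (F : Cfsg.FusionSystem S) (hF : F.IsSaturated p) (E : Cfsg.FusionSystem S) (hEF : E.IsSubsystemOf F) (h : ∀ P : Subgroup Ω, F.IsCentric P → (Subgroup.closure {α : ↥(F.autGroup P) | ∃ k : ℕ, orderOf α = p ^ k}).map (F.autGroup P).subtype ≤ E.autGroup P) : E.HasPrimeToPIndexIn F p ∧ (∀ (P : Subgroup Ω) (φ : P →* Ω), φ ∈ F.Hom P → ∃ α ∈ F.autGroup S, ∃ φ₀ ∈ E.Hom P, ∀ (x : P) (hx : φ₀ x ∈ S), φ x = ((α ⟨φ₀ x, hx⟩ : S) : Ω)) ∧ ∀ P : Subgroup Ω, E.IsCentric P ↔ F.IsCentric P := by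
  have hs : H9.Sat p F := ⟨hS, hF⟩
  obtain ⟨E₀, hi, e⟩ := hs.exists_gp F.IsCentric (fun _ _ _ a b => b.centric a)
    (fun _ _ => H9.centric_mono) fun _ a _ => a
  have h0 : ∀ {P σ}, H9.Mor E₀ P σ → H9.Mor E P σ := fun a => H9.Gen.mor (h := (e _ _).1 a) fun R α b =>
    (H9.pcl_le_iff b.1.1).1 (h R b.1) α b.2.1 b.2.2
  refine ⟨H9.ppr_iff.2 ⟨hEF, fun P σ a b => h0 ((hi.ppr hs).pe P σ a b)⟩, fun P φ hφ => ?_,
    fun P => ⟨fun a => (hi.centric_iff a.1).1 (H9.isCentric_iff.2 ⟨a.1, fun Q σ b =>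
      (H9.isCentric_iff.1 a).2 Q σ ⟨h0 b.mor, b.mem⟩⟩) |> fun c => H9.isCentric_iff.2 ⟨a.1, c⟩,
      fun a => H9.isCentric_iff.2 ⟨a.1, fun Q σ b => (H9.isCentric_iff.1 a).2 Q σ (b.of_sub hEF)⟩⟩⟩
  obtain ⟨α, a, φ₀, b, c⟩ := (H9.isInvariantIn_iff.2 hi).2.2.2 P (F.le_of_mem hφ).1 φ hφ
  exact ⟨α, a, φ₀, H9.isSubsystemOf_iff.2 (fun _ _ => h0) P b, c⟩

end Cfsg.Agent.S5114
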