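import Cfsg.Statements.S5115
import Cfsg.Agent.H9.More

set_option autoImplicit false
open Cfsg

namespace Cfsg.Agent.S5115

open Cfsg.Agent Cfsg.Agent.H9
theorem aux {G : Type*} [Group G] [Finite G] {p : ℕ} [Fact p.Prime] (S : Sylow p G) {H : Subgroup G}
    (hH : H.IsSubnormal) : Syl p ((S : Subgroup G) ⊓ H) H ∧ ∀ (T : Subgroup G) (E : FusionSystem T),
      T = (S : Subgroup G) ⊓ H → GrpFS E H →
        E.IsSubnormalIn (groupFusionSystem (S : Subgroup G)) p := by
  induction hH with
  | top =>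
    rw [inf_top_eq]
    refine ⟨syl_top S, ?_⟩
    rintro _ E rfl hE
    rw [show E = groupFusionSystem (S : Subgroup G) from fs_ext fun P σ => by
      rw [hE.iff, (grpFS_group _).iff]]
    exact .refl _ _
  | step H K hle _ hn ih =>
    have h1 : ∀ g ∈ K, ∀ x ∈ H, g * x * g⁻¹ ∈ H := fun g hg x hx =>
      hn.conj_mem ⟨x, hle hx⟩ hx ⟨g, hg⟩
    have h2 : (S : Subgroup G) ⊓ H = (S : Subgroup G) ⊓ K ⊓ H := by
      rw [inf_assoc, inf_eq_right.2 hle]
    refine ⟨h2 ▸ ih.1.inf hle h1, fun T E hT hE => ?_⟩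
    have h3 := grpFS_subgroup (inf_le_right : (S : Subgroup G) ⊓ K ≤ K)
    exact subnormal_trans (h3.nml ih.1 hE hle h1 (hT.trans h2)).subnormal
      (ih.2 _ _ rfl h3) S.isPGroup'


/-- If the 2-fusion system of a finite group G on a Sylow 2-subgroup S is constrained, then for every subnormal subgroup H of G the 2-fusion system of H on S ∩ H is constrained. -/
theorem result {G : Type*} [Group G] [Finite G] (S : Sylow 2 G) (hF : (Cfsg.groupFusionSystem (S : Subgroup G)).IsConstrained 2) (H : Subgroup G) (hH : H.IsSubnormal) : (Cfsg.groupFusionSystem ((S : Subgroup G).subgroupOf H)).IsConstrained 2 := by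
  obtain ⟨h1, h2⟩ := aux S hH
  have h3 := grpFS_subgroup (inf_le_right : (S : Subgroup G) ⊓ H ≤ H)
  obtain ⟨g, h4, -⟩ := h3.fac_subtype.symm
  have := h4.constrained h1.pg (subnormal_constrained (h2 _ _ rfl h3) S.isPGroup' hF)
  rwa [Subgroup.inf_subgroupOf_right] at this

end Cfsg.Agent.S5115
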