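import Cfsg.Statements.S5119
import Cfsg.Agent.H9.Inv

set_option autoImplicit false
open Cfsg

namespace Cfsg.Agent.S5119

open Cfsg.Agent Cfsg.Agent.H9

/-- Let F be a saturated fusion system over a finite p-group S and E a subsystem of F over a subgroup T that is strongly closed in F. Then E is invariant in F (invariance under Aut_F(T) plus the Frattini condition) if and only if the strong invariance condition holds: for P ≤ Q ≤ T, every map φ of E from P into Q and every map ψ of F with source Q, the transported map ψ φ ψ⁻¹ on ψ(P) is a map of E. -/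
theorem result {Ω : Type*} [Group Ω] {S : Subgroup Ω} [Finite S] (p : ℕ) [Fact p.Prime] (hS : IsPGroup p S) (F : Cfsg.FusionSystem S) (hF : F.IsSaturated p) {T : Subgroup Ω} (E : Cfsg.FusionSystem T) (hE : E.IsSubsystemOf F) (hT : F.StronglyClosed T) : E.IsInvariantIn F ↔ ∀ (P Q : Subgroup Ω) (hPQ : P ≤ Q) (_ : Q ≤ T) (φ : P →* Ω) (_ : φ ∈ E.Hom P) (hφQ : ∀ x : P, φ x ∈ Q) (ψ : Q →* Ω) (_ : ψ ∈ F.Hom Q), ∃ χ ∈ E.Hom ((P.subgroupOf Q).map ψ), ∀ (x : P) (hx : ψ (Subgroup.inclusion hPQ x) ∈ (P.subgroupOf Q).map ψ), χ ⟨ψ (Subgroup.inclusion hPQ x), hx⟩ = ψ ⟨φ x, hφQ x⟩ := by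
  have := finite_of_le hT.1
  rw [isInvariantIn_iff]
  constructor
  · intro h P Q hPQ hQ φ hφ hφQ ψ hψ
    obtain ⟨σ, hσ, e⟩ := exists_mor hφ
    obtain ⟨τ, hτ, e'⟩ := exists_mor hψ
    have h1 := h.strong hτ hQ hPQ hσ fun x hx => e ⟨x, hx⟩ ▸ hφQ ⟨x, hx⟩
    rw [← map_subgroupOf_eq_img hPQ ψ fun x => (e' x).symm] at h1
    refine ⟨_, h1.toHom_mem, fun x hx => ?_⟩
    show τ (σ (τ⁻¹ (ψ _))) = _
    rw [← e', ← e', pia]
    exact congrArg τ (e x)
  · intro h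
    refine (Sat.mk hS hF).invar_of_strong hE hT fun P Q σ τ hτ hQ hPQ hσ hm => ?_
    obtain ⟨χ, hχ, e⟩ := h P Q hPQ hQ _ hσ.toHom_mem (fun x => hm x x.2) _ hτ.toHom_mem
    obtain ⟨ρ, hρ, e'⟩ := exists_mor hχ
    have e0 := map_subgroupOf_eq_img hPQ _ fun x => hτ.homOn.toHom_apply x
    refine (e0 ▸ hρ).congr fun y hy => ?_
    obtain ⟨x, hx, rfl⟩ := (hτ.homOn.mono hPQ).mem_img'.1 hy
    have := e ⟨x, hx⟩ (e0 ▸ hy)
    rw [← e'] at this
    simp only [Equiv.Perm.mul_apply, pia]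
    exact this.symm

end Cfsg.Agent.S5119
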