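import Cfsg.Statements.S5121
import Cfsg.Agent.H9.Desc2

set_option autoImplicit false
open Cfsg

namespace Cfsg.Agent.S5121

open Cfsg.Agent Cfsg.Agent.H9

/-- Let G be a finite group with Sylow p-subgroup S and C_G(O_p(G)) ≤ O_p(G). For every subgroup T ≤ S and every normal subsystem E over T of the fusion system of G on S there is exactly one normal subgroup H of G containing T as a Sylow p-subgroup whose fusion system on T is E. -/
theorem result {G : Type*} [Group G] [Finite G] (p : ℕ) [Fact p.Prime] (S : Sylow p G) (hG : Subgroup.centralizer ((Cfsg.pCore p G : Subgroup G) : Set G) ≤ Cfsg.pCore p G) (T : Subgroup G) (hTS : T ≤ S) (E : Cfsg.FusionSystem T) (hE : E.IsNormalIn (Cfsg.groupFusionSystem (S : Subgroup G)) p) : ∃ H : Subgroup G, (∃ hTH : T ≤ H, H.Normal ∧ (∃ R : Sylow p H, (R : Subgroup H) = T.subgroupOf H) ∧ ∀ P : Subgroup G, E.Hom P = (Cfsg.fusionSystemOfSubgroup H T hTH).Hom P) ∧ ∀ H' : Subgroup G, (∃ hTH' : T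 ≤ H', H'.Normal ∧ (∃ R : Sylow p H', (R : Subgroup H') = T.subgroupOf H') ∧ ∀ P : Subgroup G, E.Hom P = (Cfsg.fusionSystemOfSubgroup H' T hTH').Hom P) → H' = H := by
  obtain ⟨H, ⟨a, b, c⟩, d⟩ := H9.exists_normal_of_nml (H9.syl_top S)
    (by rw [H9.opm_top, H9.C_top]; exact hG) ((H9.isNormalIn_iff S.isPGroup').1 hE)
  refine ⟨H, ⟨b.le, a, (H9.syl_iff b.le).1 b, H9.hom_eq_of_mor fun P σ =>
    (c.iff P σ).trans ((H9.grpFS_subgroup b.le).iff P σ).symm⟩, fun H' ⟨e, f, g, k⟩ =>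
      d H' f ((H9.syl_iff e).2 g) ⟨e, fun P σ => (H9.mor_iff_of_hom_eq (k P) σ).trans
        ((H9.grpFS_subgroup e).iff P σ)⟩⟩

end Cfsg.Agent.S5121
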