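import Cfsg.Statements.S5130
import Cfsg.Agent.H9.Desc

set_option autoImplicit false
open Cfsg

namespace Cfsg.Agent.S5130

open Cfsg.Agent Cfsg.Agent.H9

/-- Let F be a saturated fusion system over a finite p-group S that is the direct product of two subgroups S₁ and S₂, each strongly closed in F. Let R be the full subsystem of F over S₁ (all maps of F between subgroups of S₁) and R′ the subsystem over S₁ of those maps that extend to the subgroup generated with S₂ fixing S₂ elementwise. Then R and R′ are saturated, R′ is normal in F and in R, and R is weakly normal in F. -/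
theorem result {Ω : Type*} [Group Ω] {S : Subgroup Ω} [Finite S] (p : ℕ) [Fact p.Prime] (hS : IsPGroup p S) (F : Cfsg.FusionSystem S) (hF : F.IsSaturated p) (S₁ S₂ : Subgroup Ω) (hprod : Cfsg.IsInternalDirectProduct S₁ S₂ S) (h₁ : F.StronglyClosed S₁) (h₂ : F.StronglyClosed S₂) (R R' : Cfsg.FusionSystem S₁) (hR : ∀ P : Subgroup Ω, P ≤ S₁ → R.Hom P = F.Hom P) (hR' : ∀ P : Subgroup Ω, P ≤ S₁ → R'.Hom P = F.centralizerHom S₂ P) : R.IsSaturated p ∧ R'.IsSaturated p ∧ R'.IsNormalIn F p ∧ R'.IsNormalIn R p ∧ R.IsWeaklyNormalIn F p := by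
  have h : H9.Sat p F := ⟨hS, hF⟩
  obtain ⟨a, b, c, d, e⟩ := hprod
  have := H9.finite_of_le a
  have f : ∀ P σ, H9.Mor R P σ ↔ P ≤ S₁ ∧ H9.Mor F P σ := fun P σ =>
    ⟨fun k => ⟨k.le, (H9.mor_iff_of_hom_eq (hR P k.le) σ).1 k⟩,
      fun k => (H9.mor_iff_of_hom_eq (hR P k.1) σ).2 k.2⟩
  obtain ⟨C, g⟩ := H9.exists_centralizerSystem F b
  have k : ∀ P σ, H9.Mor R' P σ ↔ P ≤ S₁ ∧ H9.CM F S₂ P σ := fun P σ =>
    ⟨fun k => ⟨k.le, (H9.cm_iff g).1 ((H9.mor_iff_of_hom_eq ((hR' P k.le).trans (g P).symm) σ).1 k)⟩,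
      fun k => (H9.mor_iff_of_hom_eq ((hR' P k.1).trans (g P).symm) σ).2 ((H9.cm_iff g).2 k.2)⟩
  have l := h.full_sat h₁ h₂ d c e.ge f
  have m := h.dir_cm h₁ h₂ d c e.ge k
  have n : R.IsSubsystemOf F := H9.isSubsystemOf_iff.2 fun P σ q => ((f _ _).1 q).2
  exact ⟨l.sat, m.satE.sat, m.isNormalIn, (H9.nml_of_C_le m.satE l (m.inv.of_le l
    (H9.isSubsystemOf_iff.2 fun P σ q => (f _ _).2 ⟨q.le, q.of_sub m.sub⟩) n) (H9.C_le _ _)).isNormalIn,
    (H9.isWeaklyNormalIn_iff hS).2 ⟨l, h, H9.Invar.of_full n h₁ fun P σ q r => (f _ _).2 ⟨q, r⟩⟩⟩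

end Cfsg.Agent.S5130
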