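import Cfsg.Statements.S5147
import Cfsg.Agent.H9.More
import Cfsg.Agent.S5115

set_option autoImplicit false
open Cfsg

namespace Cfsg.Agent.S5147

open Cfsg.Agent Cfsg.Agent.H9

/-- Let G be a finite group with Sylow 2-subgroup S whose 2-fusion system on S is constrained, and L a component of G (a subnormal quasisimple subgroup). Then the 2-fusion system of L/Z(L) on the image of S ∩ L is constrained. -/
theorem result {G : Type*} [Group G] [Finite G] (S : Sylow 2 G) (hF : (Cfsg.groupFusionSystem (S : Subgroup G)).IsConstrained 2) (L : Subgroup G) (hL : Cfsg.IsComponent L) : (Cfsg.groupFusionSystem (((S : Subgroup G).subgroupOf L).map (QuotientGroup.mk' (Subgroup.center L)))).IsConstrained 2 := by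
  have h1 := S5115.result S hF L hL.1
  have h2 : Syl 2 ((S : Subgroup G).subgroupOf L) ⊤ := by
    have := (S5115.aux S hL.1).1.comap_of_injective L.subtype L.subtype_injective (by simp)
    rwa [Subgroup.comap_subtype, Subgroup.comap_subtype, Subgroup.inf_subgroupOf_right,
      Subgroup.subgroupOf_self] at this
  have hG := grpFS_group ((S : Subgroup G).subgroupOf L)
  have h := hG.fac h2 (pHom_hom (QuotientGroup.mk' (Subgroup.center L)) ⊤)
    (E := groupFusionSystem (((S : Subgroup G).subgroupOf L).map
      (QuotientGroup.mk' (Subgroup.center L)))) (by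
      rw [im_hom, Subgroup.map_top_of_surjective _ (QuotientGroup.mk'_surjective _)]
      exact grpFS_group _) (im_hom _ _)
  refine h.constrained_of_central (hG.sat h2) ((hG.sat h2).central_of_fix (pre_le _ _ _)
    fun P σ hσ x hx hxZ => ?_) h1
  obtain ⟨g, -, e⟩ := hG.exists_cj hσ
  have := (QuotientGroup.eq_one_iff x).1 (h.mem_pre.1 hxZ).2
  rw [e x hx, Subgroup.mem_center_iff.1 this g]; simp

end Cfsg.Agent.S5147
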