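import Cfsg.Statements.S5159
import Cfsg.Agent.H9.Hyp

set_option autoImplicit false
open Cfsg

namespace Cfsg.Agent.S5159

open Cfsg.Agent Cfsg.Agent.H9

/-- Let F be a saturated fusion system over a finite p-group S, E a normal subsystem over T, and D the factor system of F modulo T (read through any homomorphism on S with kernel T). Then F is solvable if and only if E and D are solvable (solvable, for a system over a subgroup S: for every subgroup R other than S that is strongly closed in F, the factor system of F modulo R has a nontrivial subgroup normal in it). -/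
theorem result {Ω : Type*} [Group Ω] {S : Subgroup Ω} [Finite S] (p : ℕ) [Fact p.Prime] (hS : IsPGroup p S) (F : Cfsg.FusionSystem S) (hF : F.IsSaturated p) {T : Subgroup Ω} (E : Cfsg.FusionSystem T) (hE : E.IsNormalIn F p) {Ω' : Type*} [Group Ω'] {S' : Subgroup Ω'} (θ : S →* Ω') (D : Cfsg.FusionSystem S') (hD : F.IsFactorSystem T θ D) : F.IsSolvableSystem ↔ (E.IsSolvableSystem ∧ D.IsSolvableSystem) := by
  have h : Sat p F := ⟨hS, hF⟩
  have hN := (isNormalIn_iff hS).1 hE
  have hD' := (isFactorSystem_iff hN.sc).1 hD
  have := finite_of_le hN.le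
  have := hD'.finite
  rw [h.solvable_iff, hN.satE.solvable_iff, (hD'.sat h).solvable_iff]
  refine ⟨fun hr => ⟨by simpa [inf_eq_right.2 hN.le] using hr.of_sub hN.sub,
    hD'.range ▸ hr.im hD' h⟩, fun ⟨h1, h2⟩ => ?_⟩
  simpa [hD'.pre_top] using Reach.pre hD' h (hN.inv.reach h hN.satE h1) h2

end Cfsg.Agent.S5159
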