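import Cfsg.Statements.S5160
import Cfsg.Agent.H9.More

set_option autoImplicit false
open Cfsg

namespace Cfsg.Agent.S5160

open Cfsg.Agent Cfsg.Agent.H9

/-- Let G be a finite group with nontrivial Sylow p-subgroup S and F its fusion system on S. Suppose (a) no nontrivial proper subgroup of S is strongly closed in F, and (b) the automorphisms of S induced by G are generated by those induced, for R running over the fully normalized radical centric subgroups of F, by the subgroup of N_G(R) generated by its elements of p-power order. Then F is simple. -/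
theorem result {G : Type*} [Group G] [Finite G] (p : ℕ) [Fact p.Prime] (S : Sylow p G) (hS1 : (S : Subgroup G) ≠ ⊥) (ha : ∀ T : Subgroup G, (Cfsg.groupFusionSystem (S : Subgroup G)).StronglyClosed T → T = ⊥ ∨ T = (S : Subgroup G)) (hb : Cfsg.autInducedBy ⊤ (S : Subgroup G) = ⨆ (R : Subgroup G) (_ : (Cfsg.groupFusionSystem (S : Subgroup G)).IsFullyNormalized R ∧ (Cfsg.groupFusionSystem (S : Subgroup G)).IsRadical p R ∧ (Cfsg.groupFusionSystem (S : Subgroup G)).IsCentric R), Cfsg.autInducedBy (Subgroup.closure {g : G | g ∈ Subgroup.normalizer (R : Set G) ∧ ∃ k : ℕ, orderOf g = p ^ k}) (S : Subgroup G)) : (Cfsg.groupFusionSystem (S : Subgroup G)).IsSimple p := by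
  have h := sat_group S
  have hG := grpFS_group (S : Subgroup G)
  refine ⟨h.sat, hS1, fun T E hE => ?_⟩
  have hN := (isNormalIn_iff h.pg).1 hE
  refine (ha T hN.sc).imp_right ?_
  rintro rfl
  refine ⟨rfl, hom_eq_of_mor fun P σ => ⟨fun hσ => hσ.of_sub hN.sub, hN.inv.mor_of_aut fun α hα => ?_⟩⟩
  refine ((inK_autGroup le_rfl).1 (((inK_autGroup le_rfl).2 hα).mono ?_)).mor
  rw [hG.autGroup_eq le_rfl, hb]
  refine iSup₂_le fun R ⟨_, _, hR⟩ => le_of_inK fun σ hσ => ?_
  obtain ⟨g, hg, e⟩ := inK_autInducedBy.1 hσ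
  have h1 : Iso E R R (cj g) := by
    have := hg.1
    clear hg e
    induction this using Subgroup.closure_induction with
    | mem x hx =>
      obtain ⟨hx, k, hk⟩ := hx
      refine hN.inv.iso_of_pelt h (hG.iso_cj hR.1 ⟨trivial, hx⟩) (k := k) fun y _ => ?_
      rw [← map_pow, ← hk, pow_orderOf_eq_one, map_one]; rfl
    | one => simpa using iso_refl E hR.1
    | mul x y _ _ a b => simpa using b.trans a
    | inv x _ a => simpa using a.symm
  exact (inK_autGroup le_rfl).2 ((h.mor_of_centric hN.satE hN.sub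
    (hG.iso_cj le_rfl ⟨trivial, hg.2⟩).mor hR hR.1 h1.mor).congr e).iso_top

end Cfsg.Agent.S5160
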