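import Cfsg.Statements.S5164
import Cfsg.Agent.H9.PG
import Cfsg.Agent.L.Frattini
import Cfsg.Agent.H2.Crit

set_option autoImplicit false
open Cfsg

namespace Cfsg.Agent.S5164

open Cfsg.Agent Cfsg.Agent.H9
open scoped commutatorElement

theorem heis {G : Type*} [Group G] [Finite G] {p : ℕ} [Fact p.Prime] (S : Sylow p G) [IsMulCommutative S]
    {x y : G} (hx : x ^ p = 1) (hy : y ^ p = 1) (h1 : Commute x ⁅x, y⁆) (h2 : Commute y ⁅x, y⁆) :
    ⁅x, y⁆ = 1 := by
  have zp : ∀ w : G, w ^ p = 1 → IsPGroup p (Subgroup.zpowers w) := fun w hw =>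
    IsPGroup.of_card_dvd_pow (n := 1) (by rw [pow_one, Nat.card_zpowers]; exact orderOf_dvd_of_pow_eq_one hw)
  have hz : ⁅x, y⁆ ^ p = 1 := by rw [← H2.commElt_pow_left h1, hx, commutatorElement_one_left]
  have nm : ∀ (g : G) (P : Subgroup G), P.map (MulAut.conj g).toMonoidHom ≤ P →
      Subgroup.zpowers g ≤ Subgroup.normalizer (P : Set G) := fun g P e =>
    Subgroup.zpowers_le.2 (mem_normalizer_of_finite fun w hw => e ⟨w, hw, rfl⟩)
  have k1 := (zp y hy).to_sup_of_normal_right' (zp _ hz) (nm _ _ (by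
    rw [MonoidHom.map_zpowers, Subgroup.zpowers_le]
    show y * _ * y⁻¹ ∈ _
    rw [h2.eq, mul_inv_cancel_right]; exact Subgroup.mem_zpowers _))
  have k2 := (zp x hx).to_sup_of_normal_right' k1 (nm _ _ (by
    rw [Subgroup.map_sup, MonoidHom.map_zpowers, MonoidHom.map_zpowers, sup_le_iff, Subgroup.zpowers_le,
      Subgroup.zpowers_le]
    constructor
    · show x * y * x⁻¹ ∈ _
      rw [show x * y * x⁻¹ = ⁅x, y⁆ * y by rw [commutatorElement_def]; group]
      exact mul_mem (Subgroup.mem_sup_right (Subgroup.mem_zpowers _))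
        (Subgroup.mem_sup_left (Subgroup.mem_zpowers _))
    · show x * _ * x⁻¹ ∈ _
      rw [h1.eq, mul_inv_cancel_right]; exact Subgroup.mem_sup_right (Subgroup.mem_zpowers _)))
  obtain ⟨a, -, ha⟩ := (syl_top S).conj le_top k2
  have e := congrArg Subtype.val (mul_comm' (⟨_, ha x (Subgroup.mem_sup_left (Subgroup.mem_zpowers _))⟩ : S)
    ⟨_, ha y (Subgroup.mem_sup_right (Subgroup.mem_sup_left (Subgroup.mem_zpowers _)))⟩)
  rw [commutatorElement_eq_one_iff_mul_comm]
  have e' : a * x * a⁻¹ * (a * y * a⁻¹) = a * y * a⁻¹ * (a * x * a⁻¹) := e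
  have e2 : a * x * y = a * y * x := by simpa [← mul_assoc] using e'
  simpa [mul_assoc] using e2

theorem heis' {n p : ℕ} [Fact p.Prime] (S : Sylow p (alternatingGroup (Fin n))) [IsMulCommutative S]
    {α : Type} [Fintype α] (hα : Fintype.card α ≤ n) {u v : Equiv.Perm α} (hx : (u ^ 2) ^ p = 1)
    (hy : (v ^ 2) ^ p = 1) (h1 : Commute (u ^ 2) ⁅u ^ 2, v ^ 2⁆) (h2 : Commute (v ^ 2) ⁅u ^ 2, v ^ 2⁆) :
    ⁅u ^ 2, v ^ 2⁆ = 1 := by
  obtain ⟨ι⟩ := Function.Embedding.nonempty_of_card_le (α := α) (β := Fin n) (by simpa using hα)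
  let f := Equiv.Perm.viaEmbeddingHom ι
  have m : ∀ w, f (w ^ 2) ∈ alternatingGroup (Fin n) := fun w => by
    rw [Equiv.Perm.mem_alternatingGroup, map_pow, map_pow, Int.units_sq]
  have := heis S (x := ⟨_, m u⟩) (y := ⟨_, m v⟩)
    (Subtype.ext (by show f _ ^ p = 1; rw [← map_pow, hx, map_one]))
    (Subtype.ext (by show f _ ^ p = 1; rw [← map_pow, hy, map_one]))
    (Subtype.ext (by have := (h1.map f).eq; rw [map_commutatorElement] at this; exact this))
    (Subtype.ext (by have := (h2.map f).eq; rw [map_commutatorElement] at this; exact this))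
  refine Equiv.Perm.viaEmbeddingHom_injective ι ?_
  rw [map_commutatorElement, map_one]
  exact congrArg Subtype.val this

def tr (p : ℕ) (a : ZMod p) : Equiv.Perm (ZMod p × ZMod p) where
  toFun x := (x.1 + a, x.2)
  invFun x := (x.1 - a, x.2)
  left_inv x := by simp
  right_inv x := by simp

def sh (p : ℕ) (a : ZMod p) : Equiv.Perm (ZMod p × ZMod p) where
  toFun x := (x.1, x.2 + a * x.1)
  invFun x := (x.1, x.2 - a * x.1)
  left_inv x := by simp
  right_inv x := by simp

theorem tr_pow (p : ℕ) (a : ZMod p) (k : ℕ) : tr p a ^ k = tr p (k * a) := by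
  induction k with
  | zero => ext x <;> simp [tr]
  | succ k ih => rw [pow_succ, ih]; ext x <;> simp [tr]; ring

theorem sh_pow (p : ℕ) (a : ZMod p) (k : ℕ) : sh p a ^ k = sh p (k * a) := by
  induction k with
  | zero => ext x <;> simp [sh]
  | succ k ih => rw [pow_succ, ih]; ext x <;> simp [sh]; ring

theorem cm_apply (p : ℕ) (a b : ZMod p) (x : ZMod p × ZMod p) :
    ⁅tr p a, sh p b⁆ x = (x.1, x.2 - a * b) := by
  ext <;> simp [commutatorElement_def, tr, sh, Equiv.Perm.inv_def]; ring


/-- For n ≥ 6 and a prime p, a nontrivial Sylow p-subgroup of the alternating group of degree n is abelian if and only if n < p². -/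
theorem result (n p : ℕ) (hn : 6 ≤ n) [Fact p.Prime] (S : Sylow p (alternatingGroup (Fin n))) (hS : (S : Subgroup (alternatingGroup (Fin n))) ≠ ⊥) : IsMulCommutative S ↔ n < p ^ 2 := by
  have hp : p.Prime := Fact.out
  constructor
  · intro hc
    by_contra c
    by_cases h2 : p = 2
    · subst h2
      exact absurd (heis' S (α := Fin 6) (by simpa using hn) (u := c[0, 4, 2, 5]) (v := c[0, 2, 1, 3])
        (by decide +kernel) (by decide +kernel) (by unfold Commute SemiconjBy; decide +kernel)
        (by unfold Commute SemiconjBy; decide +kernel)) (by decide +kernel)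
    have := heis' S (α := ZMod p × ZMod p) (by rw [Fintype.card_prod, ZMod.card, ← pow_two]; omega)
      (u := tr p 1) (v := sh p 1) (by rw [tr_pow, tr_pow]; ext x <;> simp [tr])
      (by rw [sh_pow, sh_pow]; ext x <;> simp [sh])
      (by rw [tr_pow, sh_pow]; refine Equiv.ext fun x => ?_
          rw [Equiv.Perm.mul_apply, Equiv.Perm.mul_apply, cm_apply, cm_apply]; simp [tr])
      (by rw [tr_pow, sh_pow]; refine Equiv.ext fun x => ?_
          rw [Equiv.Perm.mul_apply, Equiv.Perm.mul_apply, cm_apply, cm_apply]; simp [sh]; ring)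
    rw [tr_pow, sh_pow] at this
    have h3 := congrArg (fun f : Equiv.Perm (ZMod p × ZMod p) => (f 0).2) this
    simp only [cm_apply] at h3
    simp only [mul_one, Prod.snd_zero, zero_sub, Equiv.Perm.coe_one, id, neg_eq_zero, mul_self_eq_zero] at h3
    rw [ZMod.natCast_eq_zero_iff] at h3
    exact h2 ((Nat.prime_dvd_prime_iff_eq hp Nat.prime_two).1 h3)
  · intro hlt
    have key : ∀ a : Fin n, commutator S ≤ MulAction.stabilizer S a := by
      intro a
      obtain ⟨k, hk⟩ := S.isPGroup'.index (MulAction.stabilizer S a)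
      have h1 : (MulAction.stabilizer S a).index ≤ n := by
        rw [MulAction.index_stabilizer]
        simpa using Set.ncard_le_card (MulAction.orbit S a)
      have h2 : k < 2 := (Nat.pow_lt_pow_iff_right hp.one_lt).1 (by omega)
      interval_cases k
      · rw [pow_zero, Subgroup.index_eq_one] at hk
        rw [hk]; exact le_top
      · rw [pow_one] at hk
        have := L.normal_of_index_eq_prime S.isPGroup' hk
        exact L.commutator_le_of_index_prime (by rw [hk]; exact hp)
    refine ⟨⟨fun x y => commutatorElement_eq_one_iff_mul_comm.1 (Subtype.ext (Subtype.ext (Equiv.ext fun a => ?_)))⟩⟩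
    exact key a (Subgroup.commutator_mem_commutator (Subgroup.mem_top x) (Subgroup.mem_top y))

end Cfsg.Agent.S5164
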