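import Cfsg.Statements.S5311
import Cfsg.Agent.H9.More

set_option autoImplicit false
open Cfsg

namespace Cfsg.Agent.S5311

open Cfsg.Agent Cfsg.Agent.H9

/-- The layer of a saturated fusion system F over a finite p-group S is characteristic in F: for every automorphism α of S that is an automorphism of F (α and its inverse are morphisms from F to F) and every layer E of F over T, α carries T onto T and, for every map φ of E with source P, the map induced by α on α(P) (that is, α ∘ φ ∘ α⁻¹) is a map of E. -/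
theorem result {Ω : Type*} [Group Ω] {S : Subgroup Ω} [Finite S] (p : ℕ) [Fact p.Prime] (hS : IsPGroup p S) (F : Cfsg.FusionSystem S) (hF : F.IsSaturated p)
    (α : ↥S ≃* ↥S) (hα : F.IsMorphism F (S.subtype.comp α.toMonoidHom))
    (hα' : F.IsMorphism F (S.subtype.comp α.symm.toMonoidHom))
    {T : Subgroup Ω} (E : Cfsg.FusionSystem T) (hE : E.IsLayerOf F p) :
    Cfsg.FusionSystem.imageAlong (S.subtype.comp α.toMonoidHom) T = T ∧
      ∀ (P : Subgroup Ω) (φ : ↥P →* Ω), φ ∈ E.Hom P →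
        ∀ φ' : ↥(Cfsg.FusionSystem.imageAlong (S.subtype.comp α.toMonoidHom) P) →* Ω,
          Cfsg.FusionSystem.InducedAlong (S.subtype.comp α.toMonoidHom) φ φ' →
            φ' ∈ E.Hom (Cfsg.FusionSystem.imageAlong (S.subtype.comp α.toMonoidHom) P) := by
  have key : ∀ (α : S ≃* S), F.IsMorphism F (S.subtype.comp α.toMonoidHom) →
      F.IsMorphism F (S.subtype.comp α.symm.toMonoidHom) → Fac F F (ap S α) ⊥ := fun α h1 h2 => by
    have hh : PHom S (ap S α) := homOn_ap α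
    have e : ∀ (β : S ≃* S), ∀ x ∈ S, ext (S.subtype.comp β.toMonoidHom) x = ap S β x :=
      fun β x hx => by rw [ext_apply _ hx, ap_apply _ hx]; rfl
    have hm : ∀ x ∈ S, ap S α x ∈ S := fun x hx => (ap_mem_iff α x).2 hx
    have hr : im (ap S α) S = S := (homOn_ap α).img_eq_of_card hm le_rfl
    refine ⟨hh, sc_bot F, fun x hx => by
      rw [Subgroup.mem_bot, ← hh.map_one, (ap S α).injective.eq_iff, hh.map_one], hr,
      fun P σ => ⟨fun hσ => ⟨hσ.le, ?_⟩, ?_⟩⟩
    · obtain ⟨τ, hτ, e'⟩ := (isMorphism_iff.1 h2).2 P σ hσ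
      have e2 : ∀ x ∈ S, ext (S.subtype.comp α.symm.toMonoidHom) (ap S α x) = x := fun x hx => by
        rw [e _ _ (hm x hx), show α.symm = (α⁻¹ : MulAut S) from rfl, map_inv, pia]
      refine ⟨τ, hτ.mono fun x hx => e2 x (hh.mem_pre.1 hx).1 ▸ mem_im_of_mem _ (hh.mem_pre.1 hx).2,
        fun x hx => ?_⟩
      have := e' _ (hh.mem_pre.1 hx).2
      rw [e2 x (hh.mem_pre.1 hx).1, e _ _ (hσ.mem (hh.mem_pre.1 hx).2)] at this
      rw [this, show α.symm = (α⁻¹ : MulAut S) from rfl, map_inv, pai]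
    · rintro ⟨hP, τ, hτ, e'⟩
      obtain ⟨ρ, hρ, e2⟩ := (isMorphism_iff.1 h1).2 _ τ hτ
      rw [im_congr fun x hx => e α x (hτ.le hx), hh.im_pre (hr.symm ▸ hP)] at hρ
      refine hρ.congr fun y hy => ?_
      obtain ⟨x, hx, rfl⟩ := (hh.mem_im le_rfl).1 (hr.symm ▸ hP hy)
      rw [e' x (mem_pre_of hx hy), ← e α x hx, e2 x (mem_pre_of hx hy), e α _ (hτ.mem (mem_pre_of hx hy))]
  have hN := (isNormalIn_iff hS).1 hE.1
  have := finite_of_le hN.le
  have key2 : ∀ f g : Ω → Ω, Fac F F f ⊥ → Fac F F g ⊥ → (∀ x ∈ S, f (g x) = x) →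
      ∀ (U : Subgroup Ω) (D : FusionSystem U), Fac E D f ⊥ → E.IsSubsystemOf D := by
    intro f g hf hg e U D hD
    refine hE.2.2 U D (hf.nml hD hN).isNormalIn fun V C hC => ?_
    have hV := sub_le (subnormal_sub hC.1)
    have := finite_of_le hV
    obtain ⟨C', hC'⟩ := hg.exists_sub C hV
    have := hC'.finite
    obtain ⟨k, hk, e1, -⟩ := hC'.symm
    refine hD.sub (hk.congr fun y hy => ?_) (hE.2.1 _ C' (Fac.component hC hS hg hC'))
    obtain ⟨x, hx, rfl⟩ := hC'.exists_eq hy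
    rw [e x (hV hx), e1 x hx]
  have h1 := key α hα hα'
  have h2 := key α.symm hα' hα
  have e1 : ∀ x, ap S α (ap S α.symm x) = x := fun x => by
    rw [show α.symm = (α⁻¹ : MulAut S) from rfl, map_inv, pai]
  have e2 : ∀ x, ap S α.symm (ap S α x) = x := fun x => by
    rw [show α.symm = (α⁻¹ : MulAut S) from rfl, map_inv, pia]
  have e : ∀ x ∈ S, ext (S.subtype.comp α.toMonoidHom) x = ap S α x :=
    fun x hx => by rw [ext_apply _ hx, ap_apply _ hx]; rfl
  obtain ⟨D, hD⟩ := h1.exists_sub E hN.le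
  obtain ⟨D', hD'⟩ := h2.exists_sub E hN.le
  have := hD.finite
  have := hD'.finite
  refine ⟨?_, fun P φ hφ φ' hi => ?_⟩
  · rw [imageAlong_eq _ hN.le, im_congr fun x hx => e x (hN.le hx)]
    exact (Subgroup.eq_of_le_of_card_ge (sub_le (key2 _ _ h1 h2 (fun x _ => e1 x) _ D hD))
      (h1.card_im hN.le).le).symm
  · obtain ⟨σ, hσ, eσ⟩ := exists_mor hφ
    obtain ⟨τ, hτ, eτ⟩ := hD'.lift (hσ.of_sub (key2 _ _ h2 h1 (fun x _ => e2 x) _ D' hD'))
    have hP := hσ.le.trans hN.le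
    have h3 : FusionSystem.imageAlong (S.subtype.comp α.toMonoidHom) P ≤ pre T (ap S α.symm) P := by
      rw [imageAlong_eq _ hP, im_le_iff]
      intro x hx
      have h4 := sub_le (key2 _ _ h2 h1 (fun x _ => e2 x) _ D' hD') (hσ.le hx)
      obtain ⟨y, hy, ey⟩ := hD'.exists_eq h4
      rw [e x (hP hx), ← ey, e1]
      exact mem_pre_of hy (ey ▸ hx)
    refine (hτ.mono h3).hom_mem fun y => ?_
    obtain ⟨_, a, b, c⟩ := hi
    obtain ⟨y, ⟨x, hxS⟩, hx, rfl⟩ := y
    refine (c ⟨x, hx⟩).trans ?_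
    have := eτ _ (h3 ⟨⟨x, hxS⟩, hx, rfl⟩)
    rw [← ext_apply _ hxS, e x hxS, e2, eσ ⟨x, hx⟩] at this
    rw [← ext_apply _ (a _), e _ (a _), this, e1, ← e x hxS, ext_apply _ hxS]

end Cfsg.Agent.S5311
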