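import Cfsg.Statements.S5344
import Cfsg.Agent.H6.TT2

set_option autoImplicit false
open Cfsg

namespace Cfsg.Agent.S5344

open Cfsg.Agent
open scoped Pointwise commutatorElement

/-- In a set of 3-transpositions, let a, b, c be members with a and c different and commuting, while neither a nor c commutes with b (a 3-string). Then there is an injective homomorphism from the symmetric group of degree 4 into the ambient group sending the transpositions (0 1), (1 2), (2 3) to a, b, c; so a, b, c generate a copy of the symmetric group of degree 4 in which they are transpositions. -/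
theorem result {G : Type*} [Group G] {D : Set G} (hD : Cfsg.IsThreeTranspositionSet D) {a b c : G} (ha : a ∈ D) (hb : b ∈ D) (hc : c ∈ D) (hac : a ≠ c) (hac' : Commute a c) (hab : ¬ Commute a b) (hbc : ¬ Commute b c) : ∃ φ : Equiv.Perm (Fin 4) →* G, Function.Injective φ ∧ φ (Equiv.swap 0 1) = a ∧ φ (Equiv.swap 1 2) = b ∧ φ (Equiv.swap 2 3) = c := by
  have hc' : H6.CoxA 3 (fun i => if i = 0 then a else if i = 1 then b else c) :=
    ⟨fun i _ => by split_ifs; exacts [H6.ts_sq hD ha, H6.ts_sq hD hb, H6.ts_sq hD hc],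
    fun i hi => by
      obtain rfl | rfl : i = 0 ∨ i = 1 := by omega
      exacts [by simpa using H6.ts_br hD ha hb hab, by simpa using H6.ts_br hD hb hc hbc],
    fun i j x y => by
      obtain ⟨rfl, rfl⟩ : i = 0 ∧ j = 2 := by omega
      simpa using hac'⟩
  obtain ⟨φ, h1, -⟩ := hc'.hom
  have a0 : φ (H6.sw 3 0) = a := h1 0 (by norm_num)
  have a1 : φ (H6.sw 3 1) = b := h1 1 (by norm_num)
  have a2 : φ (H6.sw 3 2) = c := h1 2 (by norm_num)
  refine ⟨φ, ?_, a0, a1, a2⟩
  rw [injective_iff_map_eq_one]
  intro x hx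
  by_contra n
  have : ∀ x : Equiv.Perm (Fin 4), x ≠ 1 → ∃ g k l : Equiv.Perm (Fin 4),
    g * x * g⁻¹ * (k * x⁻¹ * k⁻¹) * (l * x * l⁻¹) * x⁻¹ = H6.sw 3 0 * (H6.sw 3 2)⁻¹ := by decide +kernel
  obtain ⟨g, k, l, e⟩ := this x n
  have := congrArg φ e
  simp only [map_mul, map_inv, hx, a0, a2, mul_one, mul_inv_cancel, inv_one] at this
  exact hac (mul_inv_eq_one.1 this.symm)

end Cfsg.Agent.S5344
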