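import Cfsg.Statements.S5346
import Cfsg.Agent.H6.TT3

set_option autoImplicit false
open Cfsg

namespace Cfsg.Agent.S5346

open Cfsg.Agent
open scoped Pointwise commutatorElement

/-- Let D be a conjugation-invariant generating set of 3-transpositions of a finite group G and d a member of D. Then D has width 1 (no two different members of D commute) if and only if G is the product of the subgroup generated by d with the largest normal 3-subgroup of G. -/
theorem result {G : Type*} [Group G] [Finite G] {D : Set G} (hD : Cfsg.IsThreeTranspositionGroup D) {d : G} (hd : d ∈ D) : Cfsg.commutingWidth D = 1 ↔ Subgroup.zpowers d ⊔ Cfsg.pCore 3 G = ⊤ := by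
  have h := H6.TG.of hD
  constructor
  · intro w
    refine h.top_of_mul fun e he => h.w1 (fun a ha b hb c => by_contra fun ne => ?_) hd he
    have := h.le_width (E := {a, b}) (by rintro _ (rfl | rfl) <;> assumption) (by
      rintro _ (rfl | rfl) _ (rfl | rfl)
      exacts [Commute.refl _, c, c.symm, Commute.refl _])
    rw [Set.ncard_pair ne] at this
    omega
  · intro e
    have i := H6.index_le_two (h.sq d hd) e
    have nm : ∀ a ∈ D, a ∉ pCore 3 G := fun a ha m => H6.one_not_mem hD
      (H6.eq_one_of_pg (k := 2) (L.pCore_isPGroup 3 G) m (by rw [pow_two, h.sq a ha]) (by norm_num) ▸ ha)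
    have i2 : (pCore 3 G).index = 2 := ((Nat.dvd_prime Nat.prime_two).1 i).resolve_left fun q =>
      nm d hd (Subgroup.index_eq_one.1 q ▸ Subgroup.mem_top d)
    refine IsGreatest.csSup_eq ⟨⟨{d}, by simpa using hd, Set.toFinite _, by simp, by simp⟩, ?_⟩
    rintro _ ⟨E, hE, -, c, rfl⟩
    refine (Set.ncard_le_one (Set.toFinite _)).2 fun a ha b hb => ?_
    have := H6.eq_one_of_pg (L.pCore_isPGroup 3 G) ((Subgroup.mul_mem_iff_of_index_two i2).2
      (iff_of_false (nm a (hE ha)) (nm b (hE hb)))) (H6.sq_of_commute (h.sq a (hE ha)) (h.sq b (hE hb)) (c a ha b hb)) (by norm_num)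
    rw [eq_inv_of_mul_eq_one_left this, H6.inv_of_sq (h.sq b (hE hb))]

end Cfsg.Agent.S5346
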