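import Cfsg.Statements.S5348
import Cfsg.Agent.H6.TT3

set_option autoImplicit false
open Cfsg

namespace Cfsg.Agent.S5348

open Cfsg.Agent
open scoped Pointwise commutatorElement

/-- Let D be a conjugation-invariant generating set of 3-transpositions of a finite group G and d a member of D. Let V be the set of members of D commuting with exactly the same members of D as d, and W the set of members w of D such that the members of D other than w commuting with w are precisely the members of D other than d commuting with d. Then V = {d} or W = {d}. -/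
theorem result {G : Type*} [Group G] [Finite G] {D : Set G} (hD : Cfsg.IsThreeTranspositionGroup D) {d : G} (hd : d ∈ D) : {v : G | v ∈ D ∧ ∀ e ∈ D, Commute v e ↔ Commute d e} = {d} ∨ {w : G | w ∈ D ∧ {y : G | y ∈ D ∧ y ≠ d ∧ Commute d y} = {y : G | y ∈ D ∧ y ≠ w ∧ Commute w y}} = {d} := by
  by_contra c
  push Not at c
  obtain ⟨v, hv, n1⟩ : ∃ v, (v ∈ D ∧ H6.Vr D d v) ∧ v ≠ d := by
    by_contra q
    push Not at q
    exact c.1 (Set.eq_singleton_iff_unique_mem.2 ⟨⟨hd, fun _ _ => Iff.rfl⟩, q⟩)
  obtain ⟨w, hw, n2⟩ : ∃ w, (w ∈ D ∧ H6.Dn D d = H6.Dn D w) ∧ w ≠ d := by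
    by_contra q
    push Not at q
    exact c.2 (Set.eq_singleton_iff_unique_mem.2 ⟨⟨hd, rfl⟩, q⟩)
  exact (H6.vw hd hv.1 hw.1 hv.2 hw.2).elim n1 n2

end Cfsg.Agent.S5348
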