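import Cfsg.Statements.S5349
import Cfsg.Agent.H6.TT3

set_option autoImplicit false
open Cfsg

namespace Cfsg.Agent.S5349

open Cfsg.Agent
open scoped Pointwise commutatorElement

/-- Let D be a conjugacy class of 3-transpositions generating the finite group G, with at least two members, and d a member of D. Then the set of members of D commuting with exactly the same members of D as d coincides with the set of members of D lying in the coset of d modulo the largest normal 2-subgroup of G, and also with the orbit of d under conjugation by that normal 2-subgroup. -/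
theorem result {G : Type*} [Group G] [Finite G] {D : Set G} (hD : Cfsg.IsThreeTranspositionClass D) (hD2 : ∃ a ∈ D, ∃ b ∈ D, a ≠ b) {d : G} (hd : d ∈ D) : {v : G | v ∈ D ∧ ∀ e ∈ D, Commute v e ↔ Commute d e} = {v : G | v ∈ D ∧ d⁻¹ * v ∈ Cfsg.pCore 2 G} ∧ {v : G | v ∈ D ∧ ∀ e ∈ D, Commute v e ↔ Commute d e} = {v : G | ∃ g ∈ Cfsg.pCore 2 G, v = g * d * g⁻¹} := by
  have h := H6.TC.of hD hD2
  have i := H6.inv_of_sq (h.tg.sq d hd)
  constructor
  · ext v
    exact ⟨fun a => ⟨a.1, i.symm ▸ h.tg.vr_mem hd a.1 a.2⟩, fun a => ⟨a.1, h.tg.vr_of (L.pCore_isPGroup 2 G) hd a.1 a.2⟩⟩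
  · ext v
    refine ⟨fun a => h.tg.vr_orb hd a.1 a.2 (h.nz hd), ?_⟩
    rintro ⟨g, hg, rfl⟩
    exact ⟨h.tg.cj g d hd, h.tg.vr_of (L.pCore_isPGroup 2 G) hd (h.tg.cj g d hd) (H6.cj_mem hg d)⟩

end Cfsg.Agent.S5349
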