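import Cfsg.Statements.S5354
import Cfsg.Agent.H6.TT4

set_option autoImplicit false
open Cfsg

namespace Cfsg.Agent.S5354

open Cfsg.Agent
open scoped Pointwise commutatorElement

/-- Let D be a conjugation-invariant generating set of 3-transpositions of the finite group G on which G acts primitively by conjugation, and suppose two different members of D commute (width at least 2). Then G has a quasisimple normal subgroup L of index at most 2 with the generalized Fitting subgroup of G equal to L times the centre, the commuting graph of D is connected, and for d in D the subgroup generated by the members of D commuting with d is a maximal D-subgroup: it is proper, and every subgroup generated by members of D that contains it is either it or G. -/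
theorem result {G : Type*} [Group G] [Finite G] {D : Set G} (hD : Cfsg.IsThreeTranspositionGroup D) (hprim : Cfsg.IsPrimitiveUnderConj D) (hw : ∃ a ∈ D, ∃ b ∈ D, a ≠ b ∧ Commute a b) : (∃ L : Subgroup G, L.Normal ∧ Cfsg.IsQuasisimple L ∧ L.index ≤ 2 ∧ Cfsg.generalizedFittingSubgroup G = L ⊔ Subgroup.center G) ∧ (Cfsg.commutingGraph D).Connected ∧ ∀ d ∈ D, Subgroup.closure {y : G | y ∈ D ∧ Commute d y} ≠ ⊤ ∧ ∀ H : Subgroup G, Cfsg.IsDSubgroup D H → Subgroup.closure {y : G | y ∈ D ∧ Commute d y} ≤ H → H = Subgroup.closure {y : G | y ∈ D ∧ Commute d y} ∨ H = ⊤ := by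
  have h : H6.PW D := ⟨H6.TG.of hD, hprim, hw⟩
  obtain ⟨K, n, q, i, e⟩ := h.str
  obtain ⟨a, ha, -⟩ := hw
  refine ⟨⟨K, n, q, Nat.le_of_dvd two_pos i, e⟩, (H6.connected_iff ha).2 (h.conn ha), fun d hd => ⟨fun t => ?_, fun H hH le => ?_⟩⟩
  · obtain ⟨c, -, n⟩ := h.ex_nc hd
    exact n (H6.comm_H0 (t ▸ Subgroup.mem_top c)).symm
  · by_cases c : ∀ y ∈ D, y ∈ H → Commute d y
    · exact Or.inl (le_antisymm (hH ▸ Subgroup.closure_mono fun y hy => ⟨hy.1, c y hy.1 hy.2⟩) le)
    · push Not at c
      obtain ⟨c, hc, m, n⟩ := c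
      exact Or.inr (h.max hd hc n hH (fun y a b => le (Subgroup.subset_closure ⟨a, b⟩)) m)

end Cfsg.Agent.S5354
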