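import Cfsg.Statements.S5355
import Cfsg.Agent.H9.Tr1
import Cfsg.Agent.S5344

set_option autoImplicit false
open Cfsg

namespace Cfsg.Agent.S5355

open Cfsg.Agent Cfsg.Agent.H9
open Cfsg.Agent.H6 Equiv

/-- Let D be a conjugacy class of 3-transpositions generating the finite group G, with at least two members, and d a member of D. Suppose that every member of D commuting with d commutes with exactly the same members of D as d does, and that exactly one member of D other than d commutes with d. Then G is isomorphic to the symmetric group of degree 4. -/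
theorem result {G : Type*} [Group G] [Finite G] {D : Set G} (hD : Cfsg.IsThreeTranspositionClass D) (hD2 : ∃ a ∈ D, ∃ b ∈ D, a ≠ b) {d : G} (hd : d ∈ D) (hV : {y : G | y ∈ D ∧ Commute d y} = {v : G | v ∈ D ∧ ∀ e ∈ D, Commute v e ↔ Commute d e}) (hm : {y : G | y ∈ D ∧ Commute d y}.ncard = 2) : Nonempty (G ≃* Equiv.Perm (Fin 4)) := by
  have h := TC.of hD hD2
  have u : ∀ x ∈ D, ∀ y ∈ D, ∀ z ∈ D, Commute x y → Commute x z → y ≠ x → z ≠ x → y = z := by
    intro x hx y hy z hz c1 c2 n1 n2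
    obtain ⟨g, rfl⟩ := h.cls x hx d hd
    obtain ⟨a, b, -, e⟩ := Set.ncard_eq_two.1 hm
    have m : ∀ y ∈ D, Commute x y → g * y * g⁻¹ = a ∨ g * y * g⁻¹ = b := fun y hy c =>
      e.le ⟨h.tg.cj g y hy, (comm_cj_iff g).2 c⟩
    rw [← cj_inj g]
    rw [Ne, ← cj_inj g] at n1 n2
    rcases m x hx (Commute.refl x) with e0 | e0 <;> rcases m y hy c1 with e1 | e1 <;>
      rcases m z hz c2 with e2 | e2 <;> rw [e1, e2] <;> rw [e0] at n1 n2 <;> contradiction
  obtain ⟨d', ⟨hd', c'⟩, n'⟩ : ∃ d' ∈ {y : G | y ∈ D ∧ Commute d y}, d' ≠ d :=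
    Set.exists_ne_of_one_lt_ncard (by omega) d
  obtain ⟨c, hc, nc⟩ := h.tg.exists_nc (h.nz hd)
  obtain ⟨φ, hφ, f1, f2, f3⟩ := S5344.result hD.1 hd hc hd' n'.symm c' nc
    fun e => nc (((hV.le ⟨hd', c'⟩).2 c hc).1 e.symm)
  have m : ∀ i j : Fin 4, i ≠ j → φ (swap i j) ∈ D := fun i j ij => by
    obtain ⟨g, e⟩ := isConj_iff.1 (Perm.isConj_swap (show (0 : Fin 4) ≠ 1 by decide) ij)
    rw [← e, map_mul, map_mul, map_inv, f1]; exact h.tg.cj _ _ hd
  refine ⟨(MulEquiv.ofBijective φ ⟨hφ, ?_⟩).symm⟩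
  rw [← MonoidHom.range_eq_top, eq_top_iff, ← h.tg.gen, Subgroup.closure_le]
  intro e he
  by_contra ne
  have k : ∀ i j k l : Fin 4, i ≠ j → k ≠ l → Commute (swap i j) (swap k l) → swap k l ≠ swap i j →
      ¬ Commute e (φ (swap i j)) := fun i j k l a b c n c' =>
    ne ⟨_, u _ (m i j a) _ (m k l b) _ he (c.map φ) c'.symm (hφ.ne n) fun e => ne ⟨_, e.symm⟩⟩
  have s : ∀ i j k l : Fin 4, i ≠ j → k ≠ l → swap i j * swap k l = swap k l * swap i j → swap k l ≠ swap i j →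
      Commute e (φ (swap i j * swap k l) * e * (φ (swap i j * swap k l))⁻¹) ∧
        φ (swap i j * swap k l) * e * (φ (swap i j * swap k l))⁻¹ ≠ e := fun i j k' l a b c n => by
    rw [map_mul]
    exact ⟨h.tg.s4a (m i j a) (m k' l b) he (Commute.map c φ) (k _ _ _ _ a b c n) (k _ _ _ _ b a c.symm n.symm),
      fun c' => k _ _ _ _ a b c n (h.tg.comm_mul (m i j a) (m k' l b) he (hφ.ne n.symm) (comm_of_cj c').symm).1⟩
  obtain ⟨a1, b1⟩ := s 0 1 2 3 (by decide) (by decide) (by decide) (by decide)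
  obtain ⟨a2, b2⟩ := s 0 2 1 3 (by decide) (by decide) (by decide) (by decide)
  obtain ⟨-, b3⟩ := s 0 3 1 2 (by decide) (by decide) (by decide) (by decide)
  have := u e he _ (h.tg.cj _ _ he) _ (h.tg.cj _ _ he) a1 a2 b1 b2
  refine b3 ?_
  rw [show swap (0 : Fin 4) 3 * swap 1 2 = (swap 0 2 * swap 1 3)⁻¹ * (swap 0 1 * swap 2 3) by decide, map_mul, map_inv]
  generalize φ (swap 0 1 * swap 2 3) = A at *
  generalize φ (swap 0 2 * swap 1 3) = B at *
  rw [show B⁻¹ * A * e * (B⁻¹ * A)⁻¹ = B⁻¹ * (A * e * A⁻¹) * B by group, this]; group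

end Cfsg.Agent.S5355
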