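import Cfsg.Statements.S5356
import Cfsg.Agent.H9.Tr1

set_option autoImplicit false
open Cfsg

namespace Cfsg.Agent.S5356

open Cfsg.Agent Cfsg.Agent.H9
open Cfsg.Agent.H6 Subgroup

/-- Let D be a conjugacy class of 3-transpositions generating the finite group G, with at least two members, and d a member of D such that every member of D commuting with d commutes with exactly the same members of D as d. Then there is a Sylow 3-subgroup P of G normalized by d such that G is generated by d, P and the largest normal 2-subgroup of G. -/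
theorem result {G : Type*} [Group G] [Finite G] {D : Set G} (hD : Cfsg.IsThreeTranspositionClass D) (hD2 : ∃ a ∈ D, ∃ b ∈ D, a ≠ b) {d : G} (hd : d ∈ D) (hV : {y : G | y ∈ D ∧ Commute d y} = {v : G | v ∈ D ∧ ∀ e ∈ D, Commute v e ↔ Commute d e}) : ∃ P : Sylow 3 G, d ∈ Subgroup.normalizer (P : Set G) ∧ Subgroup.zpowers d ⊔ (P : Subgroup G) ⊔ Cfsg.pCore 2 G = ⊤ := by
  have h := TC.of hD hD2
  have t := h.tg
  have vr : ∀ x ∈ D, ∀ y ∈ D, Commute x y → Vr D x y := fun x hx y hy c => by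
    obtain ⟨g, rfl⟩ := h.cls d hd x hx
    have c' : Commute d (g⁻¹ * y * g⁻¹⁻¹) := (comm_cj_iff g).1 (by simpa [mul_assoc] using c)
    have := Vr.conj t g (show Vr D d _ from (hV.le ⟨t.cj _ _ hy, c'⟩).2)
    rwa [show g * (g⁻¹ * y * g⁻¹⁻¹) * g⁻¹ = y by group] at this
  set K := pCore 2 G
  let π := QuotientGroup.mk' K
  have hπ : Function.Surjective π := QuotientGroup.mk'_surjective K
  have t' := t.map π hπ
  have top : zpowers (π d) ⊔ pCore 3 (G ⧸ K) = ⊤ := t'.top_of_mul fun e he => t'.w1 (by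
    rintro _ ⟨a, ha, rfl⟩ _ ⟨b, hb, rfl⟩ c
    rcases t.tt a ha b hb with c' | c'
    · exact QuotientGroup.eq.2 (by rw [inv_of_sq (t.sq a ha)]; exact t.vr_mem ha hb (vr a ha b hb c'))
    · exact eq_of_commute_cube (t'.sq _ ⟨a, ha, rfl⟩) (t'.sq _ ⟨b, hb, rfl⟩) c (by rw [← map_mul, ← map_pow, c', map_one]))
      ⟨d, hd, rfl⟩ he
  set R := pCore 3 (G ⧸ K)
  have pR : IsPGroup 3 R := L.pCore_isPGroup 3 _
  have sR : Syl 3 R ⊤ := ⟨le_top, pR, fun c => by
    rw [relIndex_top_right] at c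
    exact absurd (c.trans (index_le_two (t'.sq _ ⟨d, hd, rfl⟩) top)) (by decide)⟩
  have lR : ∀ Q : Subgroup G, IsPGroup 3 Q → Q.map π ≤ R := fun Q hQ x hx => by
    obtain ⟨a, -, ha⟩ := sR.conj le_top (hQ.map π)
    simpa [mul_assoc] using (inferInstance : R.Normal).conj_mem _ (ha x hx) a⁻¹
  obtain ⟨C, -, hC⟩ := exists_syl (p := 3) (bot_le (a := centralizer {d})) IsPGroup.of_bot
  obtain ⟨Q, ⟨q1, q2, q3⟩, mx⟩ := (Set.toFinite {Q : Subgroup G | C ≤ Q ∧ IsPGroup 3 Q ∧ d ∈ normalizer (Q : Set G)}).exists_maximal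
    ⟨C, le_rfl, hC.pg, mem_norm_set fun x hx => by
      rw [← mem_centralizer_singleton_iff.1 (hC.le hx), mul_inv_cancel_right]; exact hx⟩
  have k1 : ∀ y, π y ∈ R → Commute y d → π y ∈ Q.map π := fun y hy c =>
    map_mono q1 ((hC.map π).le_of_normal (K := (centralizer {d}).map π ⊓ R) inf_le_left (pR.to_le inf_le_right)
      (fun a ha x hx => ⟨Subgroup.mul_mem _ (Subgroup.mul_mem _ ha hx.1) (Subgroup.inv_mem _ ha), (inferInstance : R.Normal).conj_mem _ hx.2 a⟩)
      ⟨⟨y, mem_centralizer_singleton_iff.2 c, rfl⟩, hy⟩)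
  have k2 : ∀ K', Q ≤ K' → K' ≤ (Q.map π).comap π → IsPGroup 3 K' → K' ≤ Q := fun K' a b c y hy => by
    obtain ⟨q, hq, e⟩ := b hy
    obtain ⟨n, hn⟩ := L.pCore_isPGroup 2 G ⟨q⁻¹ * y, QuotientGroup.eq.1 e⟩
    have := eq_one_of_pg c (mul_mem (inv_mem (a hq)) hy) (congrArg Subtype.val hn) (Nat.Coprime.pow_left n (by norm_num))
    rwa [← inv_mul_eq_one.1 this]
  have k3 : R ≤ Q.map π := by
    by_contra c
    obtain ⟨x, hx, nx⟩ := exists_mem_N_not_mem pR (lt_of_le_of_ne (lR Q q2) fun e => c e.ge)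
    obtain ⟨x, rfl⟩ := hπ x
    obtain ⟨n, hn, hx'⟩ := (syl_of_max (le_comap_map π Q) q2 k2).frattini (a := x)
      (le_normalizer_comap π (mem_comap.2 hx.2))
    have m1 : π (n * x) ∈ R := by rw [map_mul]; exact mul_mem (lR Q q2 hn) hx.1
    have m2 : π (n * x) ∉ Q.map π := fun c => nx (by rw [map_mul] at c; exact (mul_mem_cancel_left hn).1 c)
    generalize n * x = y at hx' m1 m2
    have k : ∀ g, π g ∈ Q.map π → y * d * y⁻¹ = g * d * g⁻¹ → False := fun g hg e => by
      have := k1 (g⁻¹ * y) (by rw [map_mul, map_inv]; exact mul_mem (inv_mem (lR Q q2 hg)) m1)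
        (comm_of_cj (by rw [show g⁻¹ * y * d * (g⁻¹ * y)⁻¹ = g⁻¹ * (y * d * y⁻¹) * g by group, e]; group))
      rw [map_mul, map_inv] at this
      exact m2 ((mul_mem_cancel_left (inv_mem hg)).1 this)
    have he := t.cj y d hd
    by_cases c : Commute d (y * d * y⁻¹)
    · obtain ⟨g, hg, e⟩ := t.vr_orb hd he (vr _ hd _ he c) (h.nz hd)
      exact k g (by rw [show π g = 1 from (QuotientGroup.eq_one_iff g).2 hg]; exact one_mem _) e
    · have n1 : zpowers (d * (y * d * y⁻¹)) ≤ normalizer (Q : Set G) :=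
        zpowers_le.2 (mul_mem q3 (mul_mem (mul_mem hx' q3) (inv_mem hx')))
      refine k _ (mem_map_of_mem π (mx (y := Q ⊔ zpowers (d * (y * d * y⁻¹))) ⟨q1.trans le_sup_left,
        q2.to_sup_of_normal_left' (IsPGroup.of_card_dvd_pow (n := 1) (by
          rw [Nat.card_zpowers]; exact orderOf_dvd_of_pow_eq_one ((t.tt _ hd _ he).resolve_left c))) n1,
        mem_norm_set fun x hx => (sup_le (fun x hx => mem_sup_left ((mem_normalizer_iff.1 q3 x).1 hx))
          (zpowers_le.2 (mem_sup_right ?_)) : _ ≤ (Q ⊔ _).comap (MulAut.conj d).toMonoidHom) hx⟩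
        le_sup_left (mem_sup_right (mem_zpowers _)))) (t.conj_eq hd he c).symm
      have := dih_inv (t.sq _ hd) (t.sq _ he) 1
      rw [pow_one] at this
      exact (congrArg (· ∈ zpowers _) this).mpr (inv_mem (mem_zpowers _))
  obtain ⟨P, hP⟩ := (syl_of_max le_top q2 fun K' a _ c =>
    k2 K' a (map_le_iff_le_comap.1 ((lR K' c).trans k3)) c).exists_sylow_top
  refine ⟨P, by rw [← hP] at q3; exact q3, ?_⟩
  rw [hP, ← QuotientGroup.ker_mk' K, ← comap_map_eq, Subgroup.map_sup, MonoidHom.map_zpowers, eq_top_iff,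
    ← comap_top π, ← top]
  exact comap_mono (sup_le_sup_left k3 _)

end Cfsg.Agent.S5356
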