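import Cfsg.Statements.S5358
import Cfsg.Agent.H9.Tr3

set_option autoImplicit false
open scoped MatrixGroups
open Cfsg

namespace Cfsg.Agent.S5358

open Cfsg.Agent Cfsg.Agent.H9
open Cfsg.Agent.H4

/-- Let Q be a non-degenerate quadratic form on the n-dimensional coordinate space over the field with three elements and u, v vectors of the same non-zero norm Q(u) = Q(v) spanning different lines (v ≠ u and v ≠ −u). Then the reflection matrices of u and v commute if and only if u and v are orthogonal for the polar form of Q. -/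
theorem result (n : ℕ) (Q : QuadraticForm (ZMod 3) (Fin n → ZMod 3)) (hQ : (QuadraticMap.polarBilin Q).Nondegenerate) (u v : Fin n → ZMod 3) (hu : Q u ≠ 0) (huv : Q u = Q v) (h1 : v ≠ u) (h2 : v ≠ -u) : Commute (Cfsg.reflectionMatrix (⇑Q) u) (Cfsg.reflectionMatrix (⇑Q) v) ↔ QuadraticMap.polar (⇑Q) u v = 0 := by
  have k : ∀ v, reflectionMatrix Q v = ((glE.symm ((CForm.ofQuad Q).rfx v) : GL (Fin n) (ZMod 3)) : Matrix _ _ _) :=
    fun v => ((eq_reflectionMatrix_iff (f := CForm.ofQuad Q)).2 (glE.apply_symm_apply _)).symm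
  rw [k, k, Commute.units_val_iff]
  refine ⟨fun c => by_contra fun nz => ?_, fun h => (rfx_comm (f := CForm.ofQuad Q) h).map _⟩
  have c := Commute.of_map glE.symm.injective c
  have b := rfx_braid (f := CForm.ofQuad Q) hu huv nz
  rw [c.eq, mul_assoc, CForm.rfx_mul_self, mul_one, ← c.eq, mul_assoc, CForm.rfx_mul_self, mul_one] at b
  have e := CForm.rfx_self (f := CForm.ofQuad Q) (v := v) (huv.symm.trans_ne hu)
  conv_lhs at e => enter [1]; rw [b]
  rw [CForm.rfx_apply, CForm.orth_symm] at e
  have := mul_ne_zero (inv_ne_zero hu) nz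
  change v - ((Q u)⁻¹ * QuadraticMap.polar Q u v) • u = _ at e
  generalize (Q u)⁻¹ * QuadraticMap.polar Q u v = t at e this
  have h3 : ∀ x : Fin n → ZMod 3, x + x = -x := fun x => funext fun i => by
    simp only [Pi.add_apply, Pi.neg_apply]; generalize x i = y; revert y; decide
  have e' : -v = t • u := by rw [← h3, ← sub_eq_zero, ← eq_neg_iff_add_eq_zero.1 e]; abel
  rcases (by decide : ∀ t : ZMod 3, t ≠ 0 → t = 1 ∨ t = -1) t this with rfl | rfl
  · exact h2 (by rw [← neg_neg v, e', one_smul])
  · exact h1 (neg_injective (by rw [e', neg_smul, one_smul]))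

end Cfsg.Agent.S5358
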