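import Cfsg.Statements.S5360
import Cfsg.Agent.H9.Tr3

set_option autoImplicit false
open scoped MatrixGroups
open Cfsg

namespace Cfsg.Agent.S5360

open Cfsg.Agent Cfsg.Agent.H9
open Cfsg.Agent.H6 Subgroup
open scoped commutatorElement

/-- Let Q be a non-degenerate quadratic form on the n-dimensional coordinate space over the field with three elements, n ≥ 5, c a non-zero scalar, and R the subgroup of the isometry group generated by the reflections of norm c. Then the commutator subgroup of R is quasisimple of index at most 2, the generalized Fitting subgroup of R is the product of the centre and the commutator subgroup, and R acts primitively by conjugation on its reflections of norm c. -/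
theorem result (n : ℕ) (hn : 5 ≤ n) (Q : QuadraticForm (ZMod 3) (Fin n → ZMod 3)) (hQ : (QuadraticMap.polarBilin Q).Nondegenerate) (c : ZMod 3) (hc : c ≠ 0) : Cfsg.IsQuasisimple (commutator ↥(Cfsg.reflectionSubgroup (⇑Q) c)) ∧ (commutator ↥(Cfsg.reflectionSubgroup (⇑Q) c)).index ≤ 2 ∧ Cfsg.generalizedFittingSubgroup ↥(Cfsg.reflectionSubgroup (⇑Q) c) = Subgroup.center ↥(Cfsg.reflectionSubgroup (⇑Q) c) ⊔ commutator ↥(Cfsg.reflectionSubgroup (⇑Q) c) ∧ Cfsg.IsPrimitiveUnderConj {g : ↥(Cfsg.reflectionSubgroup (⇑Q) c) | (g : ↥(Cfsg.isometryGroup (ZMod 3) (⇑Q))) ∈ Cfsg.reflectionsOfNorm (⇑Q) c} := by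
  have q := rf_qs hn hQ hc
  have pf : ⁅commutator (reflectionSubgroup Q c), commutator (reflectionSubgroup Q c)⁆ = commutator _ :=
    le_antisymm (commutator_mono le_top le_top) ((H4.commutator_eq_top_iff _).1 q.1.commutator_eq_top)
  have nb : commutator (reflectionSubgroup Q c) ≠ ⊥ := fun e => by
    have := q.2.toNontrivial
    have : Subsingleton (commutator (reflectionSubgroup Q c)) := by rw [e]; infer_instance
    exact not_subsingleton (commutator (reflectionSubgroup Q c) ⧸ center _) (QuotientGroup.mk_surjective.subsingleton)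
  have t := tc_of_nc (rf_class hn hQ hc) fun h => nb (by
    rw [commutator_def, commutator_eq_bot_iff_le_centralizer]; exact fun x _ y _ => h.1.1 y x)
  have lb : layer (reflectionSubgroup Q c) ≠ ⊥ := fun e =>
    nb (eq_bot_iff.2 (e ▸ H8.le_layer (H8.comp_top_iff.1 (comp_of q))))
  have w := t.pw_of (by_contra fun h => lb (t.lay_bot (.inl h))) (by_contra fun h => lb (t.lay_bot (.inr h))) pf
  obtain ⟨L, l1, l2, l3, l4⟩ := w.str
  obtain ⟨d, hd, -⟩ := t.nt
  have i := index_le_two (t.tg.sq d hd) (t.top_comm hd)
  have l5 : L ≤ commutator _ := ((H4.commutator_eq_top_iff _).1 l2.1.commutator_eq_top).trans (commutator_mono le_top le_top)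
  refine ⟨q, Nat.le_of_dvd two_pos i, ?_, w.pr⟩
  rw [l4, sup_comm, le_antisymm l5 ?_]
  rcases (Nat.dvd_prime Nat.prime_two).1 l3 with e | e
  · rw [index_eq_one.1 e]; exact le_top
  · have := isCyclic_of_prime_card (α := _ ⧸ L) (p := 2) e
    exact (Subgroup.Normal.quotient_commutative_iff_commutator_le.1 inferInstance)

end Cfsg.Agent.S5360
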