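import Cfsg.Statements.S5361
import Cfsg.Agent.H6.TT4

set_option autoImplicit false
open Cfsg

namespace Cfsg.Agent.S5361

open Cfsg.Agent
open scoped Pointwise commutatorElement

/-- Let D be a conjugacy class of 3-transpositions generating the finite group G, and suppose the centre of G is trivial and some two different members of D commute. Then the following are equivalent: (1) the commutator subgroup of G is simple (possibly of prime order); (2) G acts primitively on D by conjugation; (3) the largest normal 2-subgroup and the largest normal 3-subgroup of G are trivial and the commuting graph of D is connected. -/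
theorem result {G : Type*} [Group G] [Finite G] {D : Set G} (hD : Cfsg.IsThreeTranspositionClass D) (hZ : Subgroup.center G = ⊥) (hw : ∃ a ∈ D, ∃ b ∈ D, a ≠ b ∧ Commute a b) : (IsSimpleGroup (commutator G) ↔ Cfsg.IsPrimitiveUnderConj D) ∧ (Cfsg.IsPrimitiveUnderConj D ↔ (Cfsg.pCore 2 G = ⊥ ∧ Cfsg.pCore 3 G = ⊥ ∧ (Cfsg.commutingGraph D).Connected)) := by
  have t := H6.TG.ofc hD
  obtain ⟨a, ha, b, hb, ne, c⟩ := id hw
  have h := H6.TC.of hD ⟨a, ha, b, hb, ne⟩
  refine ⟨⟨fun s => (H6.pw_of_simple hD s fun n => ?_).pr, fun p => (H6.PW.mk t p hw).simple hZ⟩, fun p => ?_, fun ⟨h2, h3, cn⟩ => ?_⟩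
  · have m : ∀ x ∈ D, ∀ y ∈ D, x * y ∈ commutator G := fun x hx y hy => by
      obtain ⟨g, rfl⟩ := h.cls x hx y hy
      simpa [H6.inv_of_sq (t.sq x hx), commutatorElement_def, mul_assoc, commutator_def] using
        Subgroup.commutator_mem_commutator (Subgroup.mem_top x) (Subgroup.mem_top g)
    have o : orderOf (⟨_, m a ha b hb⟩ : commutator G) = 2 := orderOf_eq_prime
      (Subtype.ext (H6.sq_of_commute (t.sq a ha) (t.sq b hb) c)) fun e => ne (by
        rw [eq_inv_of_mul_eq_one_left (congrArg Subtype.val e), H6.inv_of_sq (t.sq b hb)])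
    haveI := H8.solvable_of_isPGroup (L.pCore_isPGroup 2 G)
    have z : Subgroup.zpowers (⟨_, m a ha b hb⟩ : commutator G) = ⊤ :=
      (s.eq_bot_or_eq_top_of_normal _ inferInstance).resolve_left fun e => by
        rw [Subgroup.zpowers_eq_bot] at e; rw [e] at o; simp at o
    have k : ∀ x : commutator G, x ≠ 1 → x = ⟨_, m a ha b hb⟩ := fun x hx => by
      obtain ⟨j, rfl⟩ := Subgroup.mem_zpowers_iff.1 (z ▸ Subgroup.mem_top x)
      have s2 : (⟨_, m a ha b hb⟩ : commutator G) ^ (2 : ℤ) = 1 := by
        rw [zpow_two, ← pow_two, ← o, pow_orderOf_eq_one]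
      rcases Int.even_or_odd' j with ⟨j, rfl | rfl⟩
      · exact (hx (by rw [zpow_mul, s2, one_zpow])).elim
      · rw [zpow_add, zpow_mul, s2]; simp
    have : a * b ∈ Subgroup.center G := Subgroup.mem_center_iff.2 fun g => H6.comm_of_cj (congrArg Subtype.val
      (k ⟨_, Subgroup.Normal.conj_mem inferInstance _ (m a ha b hb) g⟩ fun e => by
        have : (⟨_, m a ha b hb⟩ : commutator G) = 1 := Subtype.ext (by simpa using congrArg Subtype.val e)
        rw [this] at o; simp at o))
    rw [hZ] at this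
    exact ne (by rw [eq_inv_of_mul_eq_one_left this, H6.inv_of_sq (t.sq b hb)])
  · have p := H6.PW.mk t p hw
    exact ⟨eq_bot_iff.2 (hZ ▸ p.o2), eq_bot_iff.2 (hZ ▸ p.o3), (H6.connected_iff ha).2 (p.conn ha)⟩
  · obtain ⟨K, n, q, e⟩ := h.fstar (h2 ▸ bot_le) (h3 ▸ bot_le)
    exact h.prim (h2 ▸ bot_le) (h3 ▸ bot_le) q e (Nat.le_of_dvd two_pos (h.idx_of_conn q ha ((H6.connected_iff ha).1 cn)))

end Cfsg.Agent.S5361
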