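import Cfsg.Statements.S5363
import Cfsg.Agent.H9.Tr1

set_option autoImplicit false
open Cfsg

namespace Cfsg.Agent.S5363

open Cfsg.Agent Cfsg.Agent.H9
open Cfsg.Agent.H6

/-- Let D be a conjugation-invariant set of involutions of a finite group G. Then every product of two members of D has odd order or order 2 if and only if, for every a in D and every b in D different from a and commuting with a, the members of D commuting with a b are exactly those commuting with both a and b. -/
theorem result {G : Type*} [Group G] [Finite G] {D : Set G} (hinv : ∀ d ∈ D, orderOf d = 2) (hconj : ∀ g : G, ∀ d ∈ D, g * d * g⁻¹ ∈ D) : (∀ a ∈ D, ∀ b ∈ D, Odd (orderOf (a * b)) ∨ orderOf (a * b) = 2) ↔ ∀ a ∈ D, ∀ b ∈ D, b ≠ a → Commute a b → {y : G | y ∈ D ∧ Commute (a * b) y} = {y : G | y ∈ D ∧ Commute a y} ∩ {y : G | y ∈ D ∧ Commute b y} := by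
  have sq : ∀ d ∈ D, d * d = 1 := fun d hd => by rw [← sq, ← hinv d hd, pow_orderOf_eq_one]
  have two : ∀ a ∈ D, ∀ b ∈ D, orderOf (a * b) = 2 → Commute a b := fun a ha b hb e =>
    commute_of_sq (sq a ha) (sq b hb) (e ▸ pow_orderOf_eq_one _)
  refine ⟨fun h a ha b hb ne c => ?_, fun h a ha b hb => ?_⟩
  · ext y
    refine ⟨fun ⟨hy, c'⟩ => ?_, fun ⟨⟨hy, c1⟩, _, c2⟩ => ⟨hy, c1.mul_left c2⟩⟩
    have k : Commute a y → Commute b y := fun e => by
      have := e.mul_left c'
      rwa [← mul_assoc, sq a ha, one_mul] at this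
    have k' : Commute b y → Commute a y := fun e => by
      have := c'.mul_left e
      rwa [mul_assoc, sq b hb, mul_one] at this
    suffices Commute a y from ⟨⟨hy, this⟩, hy, k this⟩
    rcases h y hy a ha with o1 | o1
    swap
    · exact (two y hy a ha o1).symm
    rcases h y hy b hb with o2 | o2
    swap
    · exact k' (two y hy b hb o2).symm
    exfalso
    obtain ⟨m, hm⟩ := o1.mul o2
    have e1 : (y * b) ^ (2 * m + 1) = 1 := by rw [← hm, mul_comm (orderOf _), pow_mul, pow_orderOf_eq_one, one_pow]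
    have e2 : (y * a) ^ (2 * m + 1) = 1 := by rw [← hm, pow_mul, pow_orderOf_eq_one, one_pow]
    rw [show y * b = y * a * (a * b) by rw [mul_assoc, ← mul_assoc a a, sq a ha, one_mul],
      (c'.symm.mul_left ((Commute.refl a).mul_right c)).mul_pow, e2, one_mul, pow_succ, pow_mul,
      sq_of_commute (sq a ha) (sq b hb) c, one_pow, one_mul] at e1
    exact ne ((eq_inv_of_mul_eq_one_right e1).trans (inv_of_sq (sq a ha)))
  · rcases Nat.even_or_odd (orderOf (a * b)) with ⟨k, hk⟩ | o
    swap
    · exact .inl o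
    right
    have m : a * (a * b) ^ k ∈ D := by
      obtain ⟨j, e | e⟩ := Nat.even_or_odd' k <;> rw [e]
      · rw [← add_zero (2 * j), ← dih_step (sq a ha) (sq b hb), pow_zero, mul_one a]
        exact hconj _ _ ha
      · rw [← dih_odd (sq a ha) (sq b hb)]; exact hconj _ _ hb
    have k0 : 0 < k := by have := orderOf_pos (a * b); omega
    have z1 : (a * b) ^ k ≠ 1 := fun e => by
      have := Nat.le_of_dvd k0 (orderOf_dvd_of_pow_eq_one e); omega
    obtain ⟨ca, cb⟩ := dih_comm (sq a ha) (sq b hb) (n := k) (by rw [← pow_add, ← hk, pow_orderOf_eq_one])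
    have := h a ha _ m (fun e => z1 (by simpa using e)) ((Commute.refl a).mul_right ca)
    rw [← mul_assoc, sq a ha, one_mul] at this
    have c : Commute a b := (this.le ⟨hb, cb.symm⟩).1.2
    have := Nat.le_of_dvd two_pos (orderOf_dvd_of_pow_eq_one (sq_of_commute (sq a ha) (sq b hb) c))
    omega

end Cfsg.Agent.S5363
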