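import Cfsg.Statements.S5364
import Cfsg.Agent.H9.Tr1

set_option autoImplicit false
open Cfsg

namespace Cfsg.Agent.S5364

open Cfsg.Agent Cfsg.Agent.H9
open Cfsg.Agent.H6

/-- Let D be a conjugation-invariant set of involutions of a finite group G and t an involution in the centre of G such that d t does not lie in D for any d in D. If the images of the members of D in G modulo the subgroup generated by t satisfy the 3-transposition order conditions (each has order 2 and any two have product of order at most 3), then so do the members of D. -/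
theorem result {G : Type*} [Group G] [Finite G] {D : Set G} (hinv : ∀ d ∈ D, orderOf d = 2) (hconj : ∀ g : G, ∀ d ∈ D, g * d * g⁻¹ ∈ D) (t : G) (ht : orderOf t = 2) (htZ : t ∈ Subgroup.center G) (hDt : ∀ d ∈ D, d * t ∉ D) [(Subgroup.zpowers t).Normal] (himg : Cfsg.IsThreeTranspositionSet ((QuotientGroup.mk : G → G ⧸ Subgroup.zpowers t) '' D)) : Cfsg.IsThreeTranspositionSet D := by
  classical
  have sq : ∀ d ∈ D, d * d = 1 := fun d hd => by rw [← sq, ← hinv d hd, pow_orderOf_eq_one]
  refine ⟨hinv, fun d hd e he => ?_⟩
  have k : ∀ x : G, (x : G ⧸ Subgroup.zpowers t) = 1 → x = 1 ∨ x = t := fun x hx => by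
    rw [QuotientGroup.eq_one_iff, mem_zpowers_iff_mem_range_orderOf, ht] at hx
    obtain ⟨i, hi, rfl⟩ := Finset.mem_image.1 hx
    have := Finset.mem_range.1 hi
    interval_cases i <;> simp
  rcases himg.2 _ ⟨d, hd, rfl⟩ _ ⟨e, he, rfl⟩ with a | a
  · refine .inl ((k _ a).resolve_right fun c => hDt d hd ?_)
    rw [← c, ← add_zero 2, ← mul_one 2, ← dih_step (sq d hd) (sq e he), pow_zero, mul_one d]
    exact hconj _ d hd
  · refine .inr ((k _ a).resolve_right fun c => hDt d hd ?_)
    rw [← c, show 3 = 2 * 1 + 1 from rfl, ← dih_odd (sq d hd) (sq e he)]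
    exact hconj _ e he

end Cfsg.Agent.S5364
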