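import Cfsg.Statements.S5365
import Cfsg.Agent.H9.Tr1
import Cfsg.Agent.S5344

set_option autoImplicit false
open Cfsg

namespace Cfsg.Agent.S5365

open Cfsg.Agent Cfsg.Agent.H9
open Cfsg.Agent.H6 Subgroup Equiv
open scoped commutatorElement

variable {G : Type*} [Group G] {D : Set G}

theorem exists_O3 [Finite G] (hD : IsThreeTranspositionSet D) (hconj : ∀ g : G, ∀ d ∈ D, g * d * g⁻¹ ∈ D) :
    ∃ O : Subgroup G, O.Normal ∧ IsPGroup 3 O ∧ ∀ a ∈ D, ∀ b ∈ D, (Dn D a = Dn D b ↔ a * b ∈ O) := by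
  have : (closure D).Normal := ⟨fun x hx g => (closure_le ((closure D).comap (MulAut.conj g).toMonoidHom)).2
    (fun y hy => subset_closure (hconj g y hy)) hx⟩
  have t : TG {x : closure D | (x : G) ∈ D} := ⟨fun d hd => Subtype.ext (ts_sq hD hd), fun d hd e he =>
    (hD.2 d hd e he).imp (fun c => Subtype.ext (commute_of_sq (ts_sq hD hd) (ts_sq hD he) c)) Subtype.ext,
    fun g d hd => hconj _ _ hd, closure_preimage_eq_top D⟩
  refine ⟨(pCore 3 (closure D)).map (closure D).subtype, inferInstance, (L.pCore_isPGroup 3 _).map _,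
    fun a ha b hb => ?_⟩
  have k : ∀ a y : closure D, y ∈ Dn {x : closure D | (x : G) ∈ D} a ↔ (y : G) ∈ Dn D a := fun a y =>
    and_congr_right' (and_congr Subtype.ext_iff.not Subtype.ext_iff)
  refine ⟨fun e => ⟨_, t.wr_mem (d := ⟨a, subset_closure ha⟩) (w := ⟨b, subset_closure hb⟩) ha hb
    (Set.ext fun y => by rw [k, k, e]), rfl⟩, fun ⟨x, hx, e⟩ => ?_⟩
  have := t.wr_of (L.pCore_isPGroup 3 _) (d := ⟨a, subset_closure ha⟩) (w := ⟨b, subset_closure hb⟩) ha hb
    (by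
      have : (⟨a, subset_closure ha⟩ : closure D)⁻¹ * ⟨b, subset_closure hb⟩ = x :=
        Subtype.ext (by simpa [inv_of_sq (ts_sq hD ha)] using e.symm)
      rwa [this])
  ext y
  exact ⟨fun h => (k ⟨b, _⟩ ⟨y, subset_closure h.1⟩).1 (this.le ((k _ _).2 h)),
    fun h => (k ⟨a, _⟩ ⟨y, subset_closure h.1⟩).1 (this.ge ((k _ _).2 h))⟩

theorem cox2 (hD : IsThreeTranspositionSet D) {a b : G} (ha : a ∈ D) (hb : b ∈ D) (n : ¬ Commute a b) :
    ∃ φ : Perm (Fin 3) →* G, φ.range = closure {a, b} ∧ ∀ m, (∀ g, Commute (φ m) (φ g)) → m = 1 := by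
  obtain ⟨φ, h1, h2⟩ := CoxA.hom (n := 2) (s := fun i => if i = 0 then a else b) ⟨fun i _ => by
    split_ifs; exacts [ts_sq hD ha, ts_sq hD hb], fun i hi => by
      obtain rfl : i = 0 := by omega
      simpa using ts_br hD ha hb n, fun i j x y => by omega⟩
  refine ⟨φ, h2.trans (congrArg _ ?_), fun m hm => by_contra fun c => ?_⟩
  · ext x
    refine ⟨?_, ?_⟩
    · rintro ⟨i, -, rfl⟩; dsimp only; split_ifs <;> simp
    · rintro (rfl | rfl); exacts [⟨0, by simp, rfl⟩, ⟨1, by simp, rfl⟩]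
  have : ∀ m : Perm (Fin 3), m ≠ 1 → ∃ g k, k * (m * g * m⁻¹ * g⁻¹) * k⁻¹ = sw 2 0 * (sw 2 1)⁻¹ := by decide +kernel
  obtain ⟨g, k, e⟩ := this m c
  have := congrArg φ e
  simp only [map_mul, map_inv, (hm g).eq, h1 0 two_pos, h1 1 one_lt_two] at this
  exact n ((mul_inv_eq_one.1 (this.symm.trans (by group)) : a = b) ▸ Commute.refl a)


/-- Let D be a non-empty conjugation-invariant set of involutions of a finite group G satisfying the 3-transposition order conditions, and suppose that for every d in D the members of D other than d commuting with d generate a subgroup isomorphic to the symmetric group of degree 3, and the largest normal 3-subgroup of the centralizer of d has order 3. Then the subgroup generated by D is isomorphic to the symmetric group of degree 5 or to the direct product of two symmetric groups of degree 3. -/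
theorem result {G : Type*} [Group G] [Finite G] {D : Set G} (hD : Cfsg.IsThreeTranspositionSet D) (hconj : ∀ g : G, ∀ d ∈ D, g * d * g⁻¹ ∈ D) (hne : D.Nonempty) (hloc : ∀ d ∈ D, Nonempty (↥(Subgroup.closure {y : G | y ∈ D ∧ y ≠ d ∧ Commute d y}) ≃* Equiv.Perm (Fin 3)) ∧ Nat.card (Cfsg.pCore 3 ↥(Subgroup.centralizer ({d} : Set G))) = 3) : Nonempty (↥(Subgroup.closure D) ≃* Equiv.Perm (Fin 5)) ∨ Nonempty (↥(Subgroup.closure D) ≃* Equiv.Perm (Fin 3) × Equiv.Perm (Fin 3)) := by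
  have sq : ∀ {d}, d ∈ D → d * d = 1 := ts_sq hD
  have F : ∀ d ∈ D, (∀ x ∈ Dn D d, ∀ y ∈ Dn D d, Commute x y → x = y) ∧
      (∀ a ∈ Dn D d, ∀ b ∈ Dn D d, a ≠ b → ∀ y ∈ Dn D d, y = a ∨ y = b ∨ y = a * b * a⁻¹) ∧
      ∀ a, ∃ b ∈ Dn D d, b ≠ a := fun d hd => by
    obtain ⟨⟨e⟩, -⟩ := hloc d hd
    have i : ∀ y (hy : y ∈ Dn D d), e ⟨y, subset_closure hy⟩ ≠ 1 ∧ e ⟨y, subset_closure hy⟩ ^ 2 = 1 := fun y hy =>
      ⟨fun c => by
        have := hD.1 y hy.1
        rw [show y = 1 from congrArg Subtype.val ((map_eq_one_iff _ e.injective).1 c), orderOf_one] at this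
        omega, by rw [← map_pow, map_eq_one_iff _ e.injective]; exact Subtype.ext (by simpa [pow_two] using sq hy.1)⟩
    have k1 : ∀ x y : Perm (Fin 3), x ≠ 1 ∧ x ^ 2 = 1 → y ≠ 1 ∧ y ^ 2 = 1 → x * y = y * x → x = y := by decide +kernel
    have k2 : ∀ a b y : Perm (Fin 3), a ≠ 1 ∧ a ^ 2 = 1 → b ≠ 1 ∧ b ^ 2 = 1 → y ≠ 1 ∧ y ^ 2 = 1 → a ≠ b →
      y = a ∨ y = b ∨ y = a * b * a⁻¹ := by
        set_option synthInstance.maxSize 1000 in decide +kernel
    refine ⟨fun x hx y hy c => congrArg Subtype.val (e.injective (k1 _ _ (i x hx) (i y hy) (by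
      rw [← map_mul, ← map_mul]; exact congrArg e (Subtype.ext c)))), fun a ha b hb n y hy => ?_, fun a => ?_⟩
    · have := k2 _ _ _ (i a ha) (i b hb) (i y hy) fun c => n (congrArg Subtype.val (e.injective c))
      rw [← map_inv, ← map_mul, ← map_mul] at this
      exact this.imp (fun c => congrArg Subtype.val (e.injective c)) (Or.imp
        (fun c => congrArg Subtype.val (e.injective c)) fun c => congrArg Subtype.val (e.injective c))
    · by_contra! c
      have : closure (Dn D d) ≤ zpowers a := (closure_le _).2 fun y hy => c y hy ▸ mem_zpowers y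
      refine absurd (e.symm.injective (a₁ := swap 0 1 * swap 1 2) (a₂ := swap 1 2 * swap 0 1) ?_) (by decide)
      obtain ⟨i, hi⟩ := this (e.symm (swap 0 1)).2
      obtain ⟨j, hj⟩ := this (e.symm (swap 1 2)).2
      rw [map_mul, map_mul]
      exact Subtype.ext (by rw [coe_mul, coe_mul, ← hi, ← hj]; exact zpow_mul_comm a i j)
  have out : ∀ (K : Subgroup G), ∀ u ∈ D, u ∈ K → ∀ a ∈ Dn D u, ∀ b ∈ Dn D u, a ≠ b → a ∈ K → b ∈ K →
      ∀ x ∈ D, x ∉ K → ¬ Commute x u := fun K u hu uK a ha b hb n aK bK x hx xK c => by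
    rcases (F u hu).2.1 a ha b hb n x ⟨hx, fun e => xK (e ▸ uK), c.symm⟩ with e | e | e <;> refine xK (e ▸ ?_)
    exacts [aK, bK, mul_mem (mul_mem aK bK) (inv_mem aK)]
  obtain ⟨d, hd⟩ := hne
  obtain ⟨a, ha, -⟩ := (F d hd).2.2 d
  obtain ⟨b, hb, ba⟩ := (F d hd).2.2 a
  obtain ⟨e, he, ed⟩ := (F a ha.1).2.2 d
  have da : d ∈ Dn D a := ⟨hd, ha.2.1.symm, ha.2.2.symm⟩
  have db : d ∈ Dn D b := ⟨hd, hb.2.1.symm, hb.2.2.symm⟩
  have nab : ¬ Commute a b := fun c => ba ((F d hd).1 a ha b hb c).symm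
  have nde : ¬ Commute d e := fun c => ed ((F a ha.1).1 d da e he c).symm
  have cl : ∀ K : Subgroup G, K ≤ closure D → (∀ x ∈ D, x ∉ K → False) → closure D = K := fun K h1 h2 =>
    le_antisymm ((closure_le _).2 fun x hx => by_contra (h2 x hx)) h1
  by_cases c : Commute e b
  · right
    have eb : e ∈ Dn D b := ⟨he.1, fun c => nde (c ▸ hb.2.2), c.symm⟩
    obtain ⟨φ, p1, p2⟩ := cox2 hD ha.1 hb.1 nab
    obtain ⟨ψ, q1, q2⟩ := cox2 hD hd he.1 nde
    have cm : ∀ m n, Commute (φ m) (ψ n) := fun m n => by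
      have : ψ.range ≤ centralizer φ.range := by
        rw [p1, q1, centralizer_closure, closure_le]
        rintro _ (rfl | rfl) _ (rfl | rfl)
        exacts [ha.2.2.symm, hb.2.2.symm, he.2.2, c.symm]
      exact this ⟨n, rfl⟩ _ ⟨m, rfl⟩
    have inj : Function.Injective (φ.noncommCoprod ψ cm) := (injective_iff_map_eq_one _).2 fun ⟨m, n⟩ h => by
      have h : φ m * ψ n = 1 := h
      exact Prod.ext (p2 m fun g => by rw [eq_inv_of_mul_eq_one_left h]; exact (cm g n).symm.inv_left)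
        (q2 n fun g => by rw [eq_inv_of_mul_eq_one_right h]; exact (cm m g).inv_left)
    rw [cl (φ.noncommCoprod ψ cm).range ?_ fun x hx nx => ?_]
    · exact ⟨(MonoidHom.ofInjective inj).symm⟩
    · rw [MonoidHom.noncommCoprod_range, p1, q1]
      exact sup_le (closure_mono (by rintro _ (rfl | rfl); exacts [ha.1, hb.1]))
        (closure_mono (by rintro _ (rfl | rfl); exacts [hd, he.1]))
    rw [MonoidHom.noncommCoprod_range, p1, q1] at nx
    have m1 : ∀ y ∈ ({a, b} : Set G), y ∈ closure {a, b} ⊔ closure {d, e} := fun y h => mem_sup_left (subset_closure h)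
    have m2 : ∀ y ∈ ({d, e} : Set G), y ∈ closure {a, b} ⊔ closure {d, e} := fun y h => mem_sup_right (subset_closure h)
    obtain ⟨θ, -, f1, -, f3⟩ := S5344.result hD ha.1 hx hd ha.2.1 ha.2.2.symm
      (fun c => out _ a ha.1 (m1 _ (.inl rfl)) d da e he ed.symm (m2 _ (.inl rfl)) (m2 _ (.inr rfl)) x hx nx c.symm)
      (out _ d hd (m2 _ (.inl rfl)) a ha b hb ba.symm (m1 _ (.inl rfl)) (m1 _ (.inr rfl)) x hx nx)
    obtain ⟨O, hO, pO, oO⟩ := exists_O3 hD hconj
    have same : ∀ u ∈ D, ∀ v ∈ D, ∀ x ∈ Dn D u, ∀ y ∈ Dn D u, x ∈ Dn D v → y ∈ Dn D v → x ≠ y → Dn D u ⊆ Dn D v :=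
      fun u hu v hv x h1 y h2 h3 h4 n z hz => by
        rcases (F u hu).2.1 x h1 y h2 n z hz with rfl | rfl | rfl
        exacts [h3, h4, ⟨hconj _ _ h4.1, fun c => h4.2.1 ((cj_inj x).1 (c.trans (cj_comm h3.2.2.symm).symm)),
          (h3.2.2.mul_right h4.2.2).mul_right h3.2.2.inv_right⟩]
    have oab := (oO a ha.1 b hb.1).1 ((same a ha.1 b hb.1 d da e he db eb ed.symm).antisymm
      (same b hb.1 a ha.1 d db e eb da he ed.symm))
    have ae : a ∈ Dn D e := ⟨ha.1, he.2.1.symm, he.2.2.symm⟩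
    have be : b ∈ Dn D e := ⟨hb.1, eb.2.1.symm, c⟩
    have ode := (oO d hd e he.1).1 ((same d hd e he.1 a ha b hb ae be ba.symm).antisymm
      (same e he.1 d hd a ae b be ha hb ba.symm))
    have ab1 : a * b ≠ 1 := fun c => ba ((eq_inv_of_mul_eq_one_right c).trans (inv_of_sq (sq ha.1)))
    have k0 : ∀ w ∈ O, Commute w d → w ∈ zpowers (a * b) := fun w hw c => by
      have l := L.le_pCoreMap (p := 3) (X := centralizer {d}) (Y := centralizer {d} ⊓ O) inf_le_left
        (fun g hg => mem_norm_set fun y hy => ⟨Subgroup.mul_mem _ (Subgroup.mul_mem _ hg hy.1) (Subgroup.inv_mem _ hg),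
          hO.conj_mem _ hy.2 g⟩) (pO.to_le inf_le_right)
      have c3 := (card_map_of_injective (K := pCore 3 (centralizer {d})) (subtype_injective _)).trans (hloc d hd).2
      have := Fact.mk Nat.prime_three
      have := eq_of_le_of_card_ge (zpowers_le.2 (l ⟨mem_centralizer_singleton_iff.2
        (ha.2.2.mul_right hb.2.2).symm, oab⟩)) (by
          rw [c3, Nat.card_zpowers, orderOf_eq_prime ((hD.2 a ha.1 b hb.1).resolve_left
            fun c => nab (commute_of_sq (sq ha.1) (sq hb.1) c)) ab1])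
      exact this.ge (l ⟨mem_centralizer_singleton_iff.2 c, hw⟩)
    have k1 : ∀ w ∈ O, a * d * w * (a * d)⁻¹ = w⁻¹ := fun w hw => by
      have k : ∀ g ∈ zpowers (d * e), w * d * w⁻¹ = g * d * g⁻¹ → a * d * w * (a * d)⁻¹ = w⁻¹ := by
        rintro _ ⟨i, rfl⟩ h
        obtain ⟨j, hj⟩ := k0 (((d * e) ^ i)⁻¹ * w) (mul_mem (inv_mem (zpow_mem ode i)) hw) (comm_of_cj (by
          rw [show ((d * e) ^ i)⁻¹ * w * d * (((d * e) ^ i)⁻¹ * w)⁻¹ = ((d * e) ^ i)⁻¹ * (w * d * w⁻¹) * (d * e) ^ i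
            by group, h]; group))
        have e1 : a * d * (d * e) * (a * d)⁻¹ = (d * e)⁻¹ := by
          have := dih_inv (sq hd) (sq he.1) 1
          rw [pow_one] at this
          rw [show a * d * (d * e) * (a * d)⁻¹ = a * (d * (d * e) * d⁻¹) * a⁻¹ by group, this,
            cj_comm (da.2.2.mul_right he.2.2).inv_right]
        have e2 : a * d * (a * b) * (a * d)⁻¹ = (a * b)⁻¹ := by
          have := dih_inv (sq ha.1) (sq hb.1) 1
          rw [pow_one] at this
          rw [show a * d * (a * b) * (a * d)⁻¹ = a * (d * (a * b) * d⁻¹) * a⁻¹ by group,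
            cj_comm (ha.2.2.mul_right hb.2.2), this]
        rw [(eq_inv_mul_iff_mul_eq.1 hj).symm, ← conj_mul, ← conj_zpow, ← conj_zpow, e1, e2, inv_zpow, inv_zpow,
          ← mul_inv_rev, (((da.2.2.mul_right he.2.2).mul_left (db.2.2.mul_right eb.2.2)).zpow_zpow j i).eq]
      have h1 := (oO d hd _ (hconj w d hd)).2 (by
        have := mul_mem (hO.conj_mem _ hw d) (inv_mem hw)
        rwa [inv_of_sq (sq hd), mul_assoc, mul_assoc, ← mul_assoc w] at this)
      have h2 := h1.le ha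
      rcases (F a ha.1).2.1 d da e he ed.symm _ ⟨hconj w d hd, h2.2.1.symm, h2.2.2.symm⟩ with h | h | h
      · exact k 1 (one_mem _) (by simpa using h)
      · refine k _ (mem_zpowers _) (h.trans ?_)
        rw [mul_inv_rev, inv_of_sq (sq hd), inv_of_sq (sq he.1), ts_br hD hd he.1 nde, mul_assoc, mul_assoc,
          ← mul_assoc e e, sq he.1, one_mul, sq hd, mul_one]
      · refine k _ (inv_mem (mem_zpowers _)) (h.trans ?_)
        rw [inv_inv, mul_inv_rev, inv_of_sq (sq hd), inv_of_sq (sq he.1), mul_assoc e d d, sq hd, mul_one,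
          ← mul_assoc, ts_br hD hd he.1 nde]
    have k2 : ∀ g, ∀ w ∈ O, g * (a * d) * g⁻¹ * w * (g * (a * d) * g⁻¹)⁻¹ = w⁻¹ := fun g w hw => by
      rw [show g * (a * d) * g⁻¹ * w * (g * (a * d) * g⁻¹)⁻¹ = g * (a * d * (g⁻¹ * w * g⁻¹⁻¹) * (a * d)⁻¹) * g⁻¹ by group,
        k1 _ (hO.conj_mem _ hw _)]; group
    have e3 : θ (swap 1 2) * (a * d) * (θ (swap 1 2))⁻¹ = θ (swap 1 3) * (a * d) * (θ (swap 1 3))⁻¹ * (a * d) := by
      rw [← f1, ← f3]
      simp only [← map_mul, ← map_inv]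
      exact congrArg θ (by decide)
    have := k2 (θ (swap 1 2)) _ oab
    rw [e3] at this
    generalize θ (swap 1 3) = g at this
    rw [show g * (a * d) * g⁻¹ * (a * d) * (a * b) * (g * (a * d) * g⁻¹ * (a * d))⁻¹ =
      g * (a * d) * g⁻¹ * (a * d * (a * b) * (a * d)⁻¹) * (g * (a * d) * g⁻¹)⁻¹ by group, k1 _ oab,
      k2 _ _ (inv_mem oab), inv_inv] at this
    exact ab1 (eq_one_of_pg (k := 2) pO oab (by rw [pow_two]; exact mul_eq_one_iff_eq_inv.2 this) (by norm_num))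
  · left
    obtain ⟨φ, h1, h2⟩ := CoxA.hom (n := 4) (s := fun i => if i = 0 then d else if i = 1 then e else if i = 2 then b else a)
      ⟨fun i _ => by split_ifs; exacts [sq hd, sq he.1, sq hb.1, sq ha.1], fun i hi => by
        obtain rfl | rfl | rfl : i = 0 ∨ i = 1 ∨ i = 2 := by omega
        exacts [by simpa using ts_br hD hd he.1 nde, by simpa using ts_br hD he.1 hb.1 c,
          by simpa using ts_br hD hb.1 ha.1 fun c => nab c.symm], fun i j x y => by
        obtain ⟨rfl, rfl⟩ | ⟨rfl, rfl⟩ | ⟨rfl, rfl⟩ : i = 0 ∧ j = 2 ∨ i = 0 ∧ j = 3 ∨ i = 1 ∧ j = 3 := by omega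
        exacts [by simpa using hb.2.2, by simpa using ha.2.2, by simpa using he.2.2.symm]⟩
    have f0 : φ (sw 4 0) = d := h1 0 (by norm_num)
    have f1 : φ (sw 4 1) = e := h1 1 (by norm_num)
    have f2 : φ (sw 4 2) = b := h1 2 (by norm_num)
    have f3 : φ (sw 4 3) = a := h1 3 (by norm_num)
    have inj : Function.Injective φ := (MonoidHom.ker_eq_bot_iff φ).1 (by_contra fun n => by
      have : sw 4 3 * (sw 4 0)⁻¹ ∈ φ.ker := Perm.alternatingGroup_le_of_normal (by simp)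
        (φ.ker.nontrivial_iff_ne_bot.2 n) (Perm.mem_alternatingGroup.2 (by decide))
      rw [MonoidHom.mem_ker, map_mul, map_inv, f3, f0, mul_inv_eq_one] at this
      exact ha.2.1 this)
    rw [cl φ.range ?_ fun x hx nx => ?_]
    · exact ⟨(MonoidHom.ofInjective inj).symm⟩
    · rw [h2]
      refine closure_mono ?_
      rintro _ ⟨i, -, rfl⟩
      dsimp only; split_ifs; exacts [hd, he.1, hb.1, ha.1]
    have k : ∀ i j : Fin 5, i ≠ j → φ (swap i j) ∈ D ∧ ¬ Commute x (φ (swap i j)) := fun i j ij => by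
      obtain ⟨g, e⟩ := isConj_iff.1 (Perm.isConj_swap (show (0 : Fin 5) ≠ 1 by decide) ij)
      rw [← e, map_mul, map_mul, map_inv, show φ (swap 0 1) = d from f0]
      refine ⟨hconj _ _ hd, fun c => out φ.range d hd ⟨_, f0⟩ a ha b hb ba.symm ⟨_, f3⟩ ⟨_, f2⟩ _
        (hconj (φ g)⁻¹ x hx) (fun m => nx ?_) ((comm_cj_iff (φ g)).1 (by simpa [mul_assoc] using c))⟩
      simpa [mul_assoc] using mul_mem (mul_mem (show φ g ∈ φ.range from ⟨g, rfl⟩) m) (inv_mem (show φ g ∈ φ.range from ⟨g, rfl⟩))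
    have s : ∀ i j k l : Fin 5, i ≠ j → k ≠ l → swap i j * swap k l = swap k l * swap i j → swap i j ≠ swap k l →
        φ (swap i j * swap k l) * x * (φ (swap i j * swap k l))⁻¹ ∈ Dn D x := fun i j k' l a b c n => by
      obtain ⟨a1, a2⟩ := k _ _ a
      obtain ⟨b1, b2⟩ := k _ _ b
      rw [map_mul]
      exact ⟨hconj _ _ hx, fun c' => a2 (comm_mul2 (sq a1) (sq b1) (sq hx) (inj.ne n) (ts_br hD hx a1)
        (ts_br hD hx b1) (comm_of_cj c').symm).1, s4a (sq a1) (sq b1) (Commute.map c φ) (ts_br hD hx a1 a2)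
          (ts_br hD hx b1 b2)⟩
    have a1 := s 0 1 2 3 (by decide) (by decide) (by decide) (by decide)
    have a2 := s 0 2 1 3 (by decide) (by decide) (by decide) (by decide)
    have a3 := s 0 3 1 2 (by decide) (by decide) (by decide) (by decide)
    rw [show swap (0 : Fin 5) 3 * swap 1 2 = (swap 0 2 * swap 1 3)⁻¹ * (swap 0 1 * swap 2 3) by decide, map_mul,
      map_inv] at a3
    generalize φ (swap 0 1 * swap 2 3) = A at *
    generalize φ (swap 0 2 * swap 1 3) = B at *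
    have := (F x hx).1 _ a2 _ a1 (by
      have := (comm_cj_iff B).2 a3.2.2
      rwa [show B * (B⁻¹ * A * x * (B⁻¹ * A)⁻¹) * B⁻¹ = A * x * A⁻¹ by group] at this)
    exact a3.2.1 (by rw [show B⁻¹ * A * x * (B⁻¹ * A)⁻¹ = B⁻¹ * (A * x * A⁻¹) * B by group, ← this]; group)

end Cfsg.Agent.S5365
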