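import Cfsg.Statements.S5366
import Cfsg.Agent.H9.Tr2

set_option autoImplicit false
open Cfsg

namespace Cfsg.Agent.S5366

open Cfsg.Agent Cfsg.Agent.H9
open Cfsg.LineSystem Equiv

/-- Let L be a nondegenerate Fischer space on the point type X (every point on a line). Then for every point x the map t(x) — sending a point collinear with x to the third point of their common line and fixing every other point — is a permutation of X of order 2 and an automorphism of the line system; and the set of all t(x) satisfies the 3-transposition order conditions in the permutation group of X (any two have product of order at most 3). -/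
theorem result {X : Type*} (L : Set (Set X)) (hL : Cfsg.IsFischerSpace L) (hnd : Cfsg.LineSystem.IsNondegenerate L) : (∀ x : X, ∃ σ : Equiv.Perm X, ⇑σ = Cfsg.LineSystem.lineMap L x ∧ orderOf σ = 2 ∧ Cfsg.LineSystem.IsIso L L σ) ∧ Cfsg.IsThreeTranspositionSet {σ : Equiv.Perm X | ∃ x : X, ⇑σ = Cfsg.LineSystem.lineMap L x} := by
  obtain ⟨h1, h3, h2⟩ := hL
  have sw : ∀ x w z : X, ({x, w, z} : Set X) = {x, z, w} := fun x w z => by rw [Set.pair_comm]
  have inv : ∀ x, Function.Involutive (lineMap L x) := fun x w => by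
    rcases lineMap_cases L x w with ⟨a, -⟩ | ⟨a, b, c, d⟩
    · rw [a, a]
    · exact lineMap_eq h1 h3 c.symm b.symm a.symm (sw .. ▸ d)
  have self : ∀ x, lineMap L x x = x := fun x => ((lineMap_cases L x x).resolve_right fun h => h.2.2.1 rfl).1
  have aut : ∀ x, ∀ l ∈ L, lineMap L x '' l ∈ L := fun x l hl => by
    by_cases c : ∀ w ∈ l, lineMap L x w = w
    · rwa [Set.image_congr c, Set.image_id']
    push Not at c
    obtain ⟨w, hw, n⟩ := c
    obtain ⟨a, b, c, d⟩ := (lineMap_cases L x w).resolve_left fun h => n h.1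
    by_cases e : l = {x, w, lineMap L x w}
    · rw [e, Set.image_insert_eq, Set.image_insert_eq, Set.image_singleton, self, inv, sw]
      exact d
    have m : x ∈ span L (l ∪ {x, w, lineMap L x w}) := sub_span _ (.inr (.inl rfl))
    rcases h2 l hl _ d e ⟨w, hw, .inr (.inl rfl)⟩ with ⟨f, hf⟩ | ⟨f, hf⟩
    · exact plane_map h1 h3 (span_subspace _) sym2 f (dual_eq ▸ hf) ⟨x, m⟩ hl fun y hy => sub_span _ (.inl hy)
    · exact plane_map h1 h3 (span_subspace _) sym3 f (aff_eq ▸ hf) ⟨x, m⟩ hl fun y hy => sub_span _ (.inl hy)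
  have cj : ∀ y x w, lineMap L y (lineMap L x w) = lineMap L (lineMap L y x) (lineMap L y w) := fun y x w => by
    have i := (inv y).injective
    rcases lineMap_cases L x w with ⟨a, b⟩ | ⟨a, b, c, d⟩
    · rw [a]
      refine ((lineMap_cases L _ _).resolve_right fun ⟨a, b', c, d⟩ => ?_).1.symm
      have := aut y _ d
      rw [Set.image_insert_eq, Set.image_insert_eq, Set.image_singleton, inv, inv] at this
      exact b _ (fun e => a (i (by rw [e, inv]))) (fun e => b' (i (by rw [e, inv]))) (fun e => c (by rw [e])) this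
    · have := aut y _ d
      rw [Set.image_insert_eq, Set.image_insert_eq, Set.image_singleton] at this
      exact (lineMap_eq h1 h3 (i.ne a) (i.ne b) (i.ne c) this).symm
  have sq : ∀ x, (inv x).toPerm _ * (inv x).toPerm _ = 1 := fun x => Equiv.ext (inv x)
  have ord : ∀ x, orderOf ((inv x).toPerm _) = 2 := fun x => orderOf_eq_prime (by rw [pow_two, sq]) fun e => by
    obtain ⟨l, hl, hx⟩ := hnd x
    obtain ⟨y, hy, n⟩ := Set.exists_ne_of_one_lt_ncard (s := l) (by rw [h3 l hl]; omega) x
    obtain ⟨z, a, b, rfl⟩ := ncard3 (h3 l hl) hx hy n.symm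
    exact b ((lineMap_eq h1 h3 a b n.symm hl).symm.trans (Equiv.congr_fun e y))
  have cj' : ∀ y x, (inv y).toPerm _ * (inv x).toPerm _ * (inv y).toPerm _ = (inv (lineMap L y x)).toPerm _ :=
    fun y x => Equiv.ext fun w => (cj y x _).trans (congrArg _ (inv y w))
  refine ⟨fun x => ⟨(inv x).toPerm _, rfl, ord x, fun l => ⟨aut x l, fun h => ?_⟩⟩, ?_, ?_⟩
  · simpa [Set.image_image, inv x _] using aut x _ h
  · rintro σ ⟨x, e⟩
    rw [show σ = (inv x).toPerm _ from Equiv.ext (congrFun e), ord]
  · rintro σ ⟨x, e⟩ ρ ⟨y, e'⟩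
    rw [show σ = (inv x).toPerm _ from Equiv.ext (congrFun e), show ρ = (inv y).toPerm _ from Equiv.ext (congrFun e')]
    rcases lineMap_cases L x y with ⟨a, -⟩ | ⟨a, b, c, d⟩
    · left
      rw [pow_two, ← mul_assoc, cj', a, sq]
    · right
      rw [pow_succ, pow_two, ← mul_assoc, ← mul_assoc, cj', mul_assoc, mul_assoc, ← mul_assoc ((inv y).toPerm _), cj',
        lineMap_eq h1 h3 b a c.symm (Set.insert_comm .. ▸ d), sq]

end Cfsg.Agent.S5366
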