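import Cfsg.Statements.S5367
import Cfsg.Agent.H9.Tr2
import Cfsg.Agent.S5344

set_option autoImplicit false
open Cfsg

namespace Cfsg.Agent.S5367

open Cfsg.Agent Cfsg.Agent.H9
open Cfsg.LineSystem Equiv Cfsg.Agent.H6 Subgroup
open scoped commutatorElement

section
variable {X Y : Type*} {κ : X → X → X} {τ : Y → Y → Y}

theorem card3 (h : Sym κ) : ∀ l ∈ lines κ, l.ncard = 3 := by
  rintro _ ⟨a, b, n, rfl⟩
  exact Set.ncard_eq_three.2 ⟨a, b, _, fun e => n (by rw [e, h.self]), n.symm, (h.ne a b n).1.symm, rfl⟩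

theorem line_eq (h : Sym κ) {l : Set X} (hl : l ∈ lines κ) {x y : X} (hx : x ∈ l) (hy : y ∈ l) (n : x ≠ y) :
    κ x y ≠ y ∧ l = {x, y, κ x y} := by
  obtain ⟨z, a, b, rfl⟩ := ncard3 (card3 h l hl) hx hy n
  rw [h.third a b n hl]
  exact ⟨b, rfl⟩

theorem sub_closed (h : Sym κ) {T : Set X} (hT : IsSubspace (lines κ) T) {x y : X} (hx : x ∈ T) (hy : y ∈ T) :
    κ x y ∈ T := by
  by_cases c : κ x y = y
  · rwa [c]
  · exact hT _ ⟨y, x, c, rfl⟩ y hy x hx (fun e => c (by rw [e, h.self])) (.inl rfl) (.inr (.inl rfl)) (.inr (.inr rfl))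

theorem plane_iso (h : Sym κ) (f : Y → X) (inj : Function.Injective f) (hf : ∀ b a, f (τ b a) = κ (f b) (f a))
    (o u v : Y) (gen : ∀ s, ∃ a ∈ [o, u, v, τ o u, τ o v], ∃ b ∈ [o, u, v, τ o u, τ o v], s = τ a b) :
    Isomorphic (restrict (lines κ) (span (lines κ) ({f o, f u, κ (f o) (f u)} ∪ {f o, f v, κ (f o) (f v)})))
      (lines τ) := by
  rw [show span (lines κ) _ = Set.range f from Set.Subset.antisymm (Set.sInter_subset_of_mem ⟨?_, ?_⟩) ?_]
  · refine ⟨(Equiv.ofInjective f inj).symm, fun l => mem_restrict.trans ?_⟩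
    have : Subtype.val '' l = f '' ((Equiv.ofInjective f inj).symm '' l) := by
      rw [Set.image_image]; exact Set.image_congr fun x _ => (Equiv.apply_ofInjective_symm inj x).symm
    rw [this]
    generalize (Equiv.ofInjective f inj).symm '' l = m
    refine ⟨fun ⟨a, b, n, e⟩ => ?_, fun ⟨a, b, n, e⟩ => ⟨f a, f b, hf .. ▸ inj.ne n, by
      rw [e, Set.image_insert_eq, Set.image_insert_eq, Set.image_singleton, hf]⟩⟩
    obtain ⟨a, -, rfl⟩ := e.ge (.inl rfl)
    obtain ⟨b, -, rfl⟩ := e.ge (.inr (.inl rfl))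
    rw [← hf] at n e
    exact ⟨a, b, fun c => n (congrArg f c), inj.image_injective (by
      rw [e, Set.image_insert_eq, Set.image_insert_eq, Set.image_singleton])⟩
  · rw [← hf, ← hf]
    rintro _ ((rfl | rfl | rfl) | rfl | rfl | rfl) <;> exact ⟨_, rfl⟩
  · rintro l hl _ ⟨x, rfl⟩ _ ⟨y, rfl⟩ n a b
    rw [(line_eq h hl a b n).2, ← hf]
    rintro _ (rfl | rfl | rfl) <;> exact ⟨_, rfl⟩
  · rintro _ ⟨s, rfl⟩
    obtain ⟨a, ha, b, hb, rfl⟩ := gen s
    have k : ∀ a ∈ [o, u, v, τ o u, τ o v], f a ∈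
        span (lines κ) ({f o, f u, κ (f o) (f u)} ∪ {f o, f v, κ (f o) (f v)}) := fun a ha => sub_span _ (by
      simp only [List.mem_cons, List.not_mem_nil, or_false] at ha
      rcases ha with rfl | rfl | rfl | rfl | rfl <;> simp [hf])
    rw [hf]
    exact sub_closed h (span_subspace _) (k a ha) (k b hb)

end

variable {G : Type*} [Group G]

theorem pow_val {x : G} (h : x ^ 3 = 1) (a b : ZMod 3) : x ^ (a + b).val = x ^ a.val * x ^ b.val := by
  rw [ZMod.val_add, ← pow_eq_pow_mod _ h, pow_add]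

theorem heis0 {a u w : G} (u3 : u ^ 3 = 1) (w3 : w ^ 3 = 1) (au : a * u * a⁻¹ = u⁻¹) (aw : a * w * a⁻¹ = w⁻¹)
    (c : Commute u w) (g : (Fin 2 → ZMod 3) → G) (hg : ∀ x, g x = u ^ (x 0).val * w ^ (x 1).val)
    (x y : Fin 2 → ZMod 3) : g (tauA y x) = g y * (a * ((g y)⁻¹ * g x) * a⁻¹) := by
  have k1 : ∀ x y, g (x + y) = g x * g y := fun x y => by
    rw [hg, hg, hg, Pi.add_apply, Pi.add_apply, pow_val u3, pow_val w3, (c.pow_pow _ _).symm.mul_mul_mul_comm]
  have k2 : ∀ x, a * g x * a⁻¹ = (g x)⁻¹ := fun x => by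
    rw [hg, ← conj_mul, ← conj_pow, ← conj_pow, au, aw, inv_pow, inv_pow, ← mul_inv_rev, (c.pow_pow _ _).eq]
  rw [← conj_mul, ← conj_inv, k2, k2, inv_inv, ← mul_assoc, eq_mul_inv_iff_mul_eq, ← k1, ← k1]
  exact congrArg g (by revert x y; decide +kernel)

theorem heis1 {u w : G} (u3 : u ^ 3 = 1) (h1 : (w * u) ^ 3 = 1) (h2 : (u⁻¹ * w) ^ 3 = 1) :
    Commute w (u * w * u⁻¹) := by
  rw [pow_three'] at u3 h1 h2
  have a : w * u * w = u⁻¹ * w⁻¹ * u⁻¹ := by
    rw [show w * u * w = w * u * (w * u) * (w * u) * (u⁻¹ * w⁻¹ * u⁻¹) by group, h1, one_mul]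
  have b : w * u⁻¹ * w = u * w⁻¹ * u := by
    rw [show w * u⁻¹ * w = u * (u⁻¹ * w * (u⁻¹ * w) * (u⁻¹ * w)) * (w⁻¹ * u) by group, h2]; group
  have c : u * u = u⁻¹ := eq_inv_of_mul_eq_one_left u3
  show w * (u * w * u⁻¹) = u * w * u⁻¹ * w
  rw [← mul_assoc, ← mul_assoc, a, mul_assoc u, mul_assoc u, b, ← mul_assoc, ← mul_assoc, c, mul_assoc _ u⁻¹,
    ← mul_inv_rev u u, c, inv_inv]

theorem heis {a u w : G} (u3 : u ^ 3 = 1) (w3 : w ^ 3 = 1) (au : a * u * a⁻¹ = u⁻¹) (aw : a * w * a⁻¹ = w⁻¹)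
    (h1 : (u * w) ^ 3 = 1) (h2 : (u⁻¹ * w) ^ 3 = 1) (g : (Fin 2 → ZMod 3) → G)
    (hg : ∀ x, g x = u ^ (x 0).val * w ^ (x 1).val) (x y : Fin 2 → ZMod 3) :
    g (tauA y x) * a * (g (tauA y x))⁻¹ = g y * a * (g y)⁻¹ * (g x * a * (g x)⁻¹) * (g y * a * (g y)⁻¹)⁻¹ := by
  have c1 := heis1 u3 (w := w) (by rw [← conj_eq_one_iff (a := u), ← conj_pow, ← h1]; group) h2
  have c2 := heis1 w3 (w := u) h1 (by rw [← inv_eq_one, ← inv_pow, ← h2]; group)
  have z1 : Commute ⁅u, w⁆ w := (c1.mul_right (Commute.refl w).inv_right).symm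
  have z2 : Commute ⁅u, w⁆ u := by
    rw [← commutatorElement_inv]; exact (c2.mul_right (Commute.refl u).inv_right).symm.inv_left
  have z3 : Commute ⁅u, w⁆ a := (comm_of_cj (by
    rw [show a * ⁅u, w⁆ * a⁻¹ = ⁅a * u * a⁻¹, a * w * a⁻¹⁆ by simp only [commutatorElement_def]; group, au, aw,
      ← cj_comm (z1.mul_right z2).inv_right.symm]
    simp only [commutatorElement_def]; group)).symm
  let K := closure ({u, w, a} : Set G)
  let u' : K := ⟨u, subset_closure (.inl rfl)⟩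
  let w' : K := ⟨w, subset_closure (.inr (.inl rfl))⟩
  let a' : K := ⟨a, subset_closure (.inr (.inr rfl))⟩
  let π := QuotientGroup.mk' (center K)
  let g' : (Fin 2 → ZMod 3) → K := fun x => u' ^ (x 0).val * w' ^ (x 1).val
  have := heis0 (a := π a') (u := π u') (w := π w') (by rw [← map_pow, show u' ^ 3 = 1 from Subtype.ext u3, map_one])
    (by rw [← map_pow, show w' ^ 3 = 1 from Subtype.ext w3, map_one])
    (by simp only [← map_mul, ← map_inv]; exact congrArg π (Subtype.ext au))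
    (by simp only [← map_mul, ← map_inv]; exact congrArg π (Subtype.ext aw))
    (commutatorElement_eq_one_iff_commute.1 (by
      rw [← map_commutatorElement]
      refine (QuotientGroup.eq_one_iff _).2 (mem_center_of_gen (closure_preimage_eq_top _) ?_)
      rintro s (e | e | e) <;> refine Subtype.ext ?_
      exacts [show Commute ⁅u, w⁆ (K.subtype s) from e ▸ z2, show Commute ⁅u, w⁆ (K.subtype s) from e ▸ z1,
        show Commute ⁅u, w⁆ (K.subtype s) from e ▸ z3])) (fun x => π (g' x)) (fun x => by simp [g']) x y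
  simp only [← map_mul, ← map_inv] at this
  have := congrArg Subtype.val (mem_center_iff.1 (QuotientGroup.eq.1 this) a')
  simp only [g', coe_mul, coe_inv, coe_pow, u', w', a', ← hg] at this
  generalize g (tauA y x) = A at *
  rw [← mul_inv_eq_one, show A * a * A⁻¹ * (g y * a * (g y)⁻¹ * (g x * a * (g x)⁻¹) * (g y * a * (g y)⁻¹)⁻¹)⁻¹ =
    A * (a * (A⁻¹ * (g y * (a * ((g y)⁻¹ * g x) * a⁻¹)))) * (a * a⁻¹ * (g y * a * (g y)⁻¹ * g x)⁻¹) by group, this]
  group

/-- Let D be a conjugation-invariant generating set of 3-transpositions of a finite group G. Then the line system on D whose lines are the triples {x, y, y x y⁻¹} for non-commuting members x, y of D is a Fischer space: two points lie on at most one line, lines have three points, and two different meeting lines generate a subspace isomorphic to the dual affine plane of order two or to the affine plane of order three. -/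
theorem result {G : Type*} [Group G] [Finite G] {D : Set G} (hD : Cfsg.IsThreeTranspositionGroup D) : Cfsg.IsFischerSpace (Cfsg.threeTranspositionLines D) := by
  have t := TG.of hD
  let κ : D → D → D := fun b a => ⟨b * a * (b : G)⁻¹, t.cj _ _ a.2⟩
  have nc : ∀ a b : D, κ b a ≠ a ↔ ¬ Commute (a : G) b := fun a b => Iff.not
    ⟨fun e => (comm_of_cj (congrArg Subtype.val e)).symm, fun c => Subtype.ext (cj_comm c.symm)⟩
  have h : Sym κ := ⟨fun a => Subtype.ext (by simp [κ]), fun a b n => ?_, fun a b => Subtype.ext (t.cc a.2 b),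
    fun x a b => Subtype.ext (by simp only [κ]; group)⟩
  swap
  · have n' := (nc a b).1 n
    have s : κ a b = κ b a := Subtype.ext (t.swap b.2 a.2 n')
    refine ⟨fun e => n' ?_, s, Subtype.ext ?_, Subtype.ext ?_⟩
    · rw [show (a : G) = b from (cj_inj (b : G)).1 ((congrArg Subtype.val e).trans (by simp))]
    · rw [← s]
      refine (t.swap a.2 (t.cj _ _ b.2) fun c => t.nc_conj b.2 a.2 n' ?_).trans (t.cc a.2 b)
      exact (congrArg (fun z : D => Commute (a : G) z) s).mp c.symm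
    · refine (t.swap b.2 (t.cj _ _ a.2) fun c => t.nc_conj a.2 b.2 (fun c => n' c.symm) ?_).trans (t.cc b.2 a)
      exact (congrArg (fun z : D => Commute (b : G) z) s).mpr c.symm
  rw [show threeTranspositionLines D = lines κ from Set.ext fun l => exists_congr fun a => exists_congr fun b =>
    and_congr (nc a b).symm (by
      rw [show {z : D | (z : G) = a ∨ (z : G) = b ∨ (z : G) = b * a * (b : G)⁻¹} = {a, b, κ b a} from
        Set.ext fun z => by simp [Subtype.ext_iff, κ]])]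
  refine ⟨fun l hl m hm x y n a b c d => (line_eq h hl a b n).2.trans (line_eq h hm c d n).2.symm, card3 h,
    fun l hl m hm n ⟨a, al, am⟩ => ?_⟩
  have k : ∀ b ∈ l, ∀ c ∈ m, b ≠ a → c ≠ a → ¬ Commute (b : G) a ∧ ¬ Commute (c : G) a ∧ b ≠ c ∧
      l = {a, b, κ a b} ∧ m = {a, c, κ a c} := fun b hb c hc n1 n2 => by
    obtain ⟨a1, a2⟩ := line_eq h hl al hb n1.symm
    obtain ⟨b1, b2⟩ := line_eq h hm am hc n2.symm
    exact ⟨(nc _ _).1 a1, (nc _ _).1 b1, fun e => n (by rw [a2, b2, e]), a2, b2⟩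
  by_cases cc : ∃ b ∈ l, ∃ c ∈ m, b ≠ a ∧ c ≠ a ∧ Commute (b : G) c
  · left
    obtain ⟨b, hb, c, hc, n1, n2, cc⟩ := cc
    obtain ⟨k1, k2, k3, rfl, rfl⟩ := k b hb c hc n1 n2
    obtain ⟨φ, inj, f1, f2, f3⟩ := S5344.result hD.1 b.2 a.2 c.2 (Subtype.coe_ne_coe.2 k3) cc k1 fun c => k2 c.symm
    have m1 : ∀ s, ∃ g, sw2 s = g * swap 0 1 * g⁻¹ := by decide +kernel
    have m2 : ∀ b a, sw2 (tauD b a) = sw2 b * sw2 a * (sw2 b)⁻¹ := by decide +kernel
    have m3 : ∀ b a, sw2 a = sw2 b → a = b := by decide +kernel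
    let f : DualAffinePoint → D := fun s => ⟨φ (sw2 s), by
      obtain ⟨g, e⟩ := m1 s
      rw [e, map_mul, map_mul, map_inv, f1]; exact t.cj _ _ b.2⟩
    have := plane_iso (τ := tauD) h f (fun x y e => m3 _ _ (inj (congrArg Subtype.val e)))
      (fun x y => Subtype.ext (by simp only [f, κ, m2, map_mul, map_inv])) ⟨{1, 2}, rfl⟩ ⟨{0, 1}, rfl⟩ ⟨{2, 3}, rfl⟩
      (by decide +kernel)
    rwa [show f ⟨{1, 2}, rfl⟩ = a from Subtype.ext ((congrArg φ (by decide)).trans f2),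
      show f ⟨{0, 1}, rfl⟩ = b from Subtype.ext ((congrArg φ (by decide)).trans f1),
      show f ⟨{2, 3}, rfl⟩ = c from Subtype.ext ((congrArg φ (by decide)).trans f3), ← dual_eq] at this
  right
  push Not at cc
  obtain ⟨b, hb, n1⟩ := Set.exists_ne_of_one_lt_ncard (s := l) (by rw [card3 h l hl]; omega) a
  obtain ⟨c, hc, n2⟩ := Set.exists_ne_of_one_lt_ncard (s := m) (by rw [card3 h m hm]; omega) a
  obtain ⟨k1, k2, k3, e1, e2⟩ := k b hb c hc n1 n2
  have n3 : κ a c ≠ a := fun e => n2 ((h.inv a c).symm.trans ((congrArg _ e).trans (h.self a)))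
  have hc' : κ a c ∈ m := e2.ge (.inr (.inr rfl))
  have k4 := (k b hb _ hc' n1 n3).2.2.1
  have sa := t.sq _ a.2
  have iv : ∀ b : D, a * (a * b) * (a : G)⁻¹ = (a * b : G)⁻¹ := fun b => by
    simpa only [pow_one] using dih_inv sa (t.sq _ b.2) 1
  have := heis (a := (a : G)) (u := a * b) (w := a * c) ((t.tt _ a.2 _ b.2).resolve_left fun c => k1 c.symm)
    ((t.tt _ a.2 _ c.2).resolve_left fun c => k2 c.symm) (iv b) (iv c) (by
      have := (t.tt _ b.2 _ (κ a c).2).resolve_left (cc b hb _ hc' n1 n3)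
      rw [← conj_eq_one_iff (a := (a : G)), ← conj_pow] at this
      rw [← this]
      simp only [κ, inv_of_sq sa, mul_assoc, sa, mul_one]) (by
      rw [mul_inv_rev, inv_of_sq (t.sq _ b.2), mul_assoc, inv_mul_cancel_left]
      exact (t.tt _ b.2 _ c.2).resolve_left (cc b hb c hc n1 n2)) _ fun _ => rfl
  let f : (Fin 2 → ZMod 3) → D := fun x => ⟨_, t.cj ((a * b : G) ^ (x 0).val * (a * c : G) ^ (x 1).val) _ a.2⟩
  have hf : ∀ y x, f (tauA y x) = κ (f y) (f x) := fun y x => Subtype.ext (this x y)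
  have f0 : f 0 = a := Subtype.ext (by simp [f])
  have f1 : f ![1, 0] = b := Subtype.ext (by simpa [f, ZMod.val_one] using t.conj_eq a.2 b.2 fun c => k1 c.symm)
  have f2 : f ![0, 1] = c := Subtype.ext (by simpa [f, ZMod.val_one] using t.conj_eq a.2 c.2 fun c => k2 c.symm)
  have m1 : ∀ x y : Fin 2 → ZMod 3, x ≠ y → ∃ p q, (tauA p (tauA q x), tauA p (tauA q y)) ∈
      [(0, ![1, 0]), (0, ![0, 1]), (![1, 0], ![0, 1]), (![1, 0], tauA 0 ![0, 1]),
        (![1, 0], 0), (![0, 1], 0), (![0, 1], ![1, 0]), (tauA 0 ![0, 1], ![1, 0])] := by decide +kernel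
  have := plane_iso h f (fun x y e => by_contra fun n => by
    obtain ⟨p, q, m⟩ := m1 x y n
    have : f (tauA p (tauA q x)) = f (tauA p (tauA q y)) := by rw [hf, hf, hf, hf, e]
    simp only [List.mem_cons, List.not_mem_nil, or_false, Prod.mk.injEq] at m
    rcases m with ⟨a, b⟩ | ⟨a, b⟩ | ⟨a, b⟩ | ⟨a, b⟩ | ⟨a, b⟩ | ⟨a, b⟩ | ⟨a, b⟩ | ⟨a, b⟩ <;> rw [a, b] at this <;>
      simp only [hf, f0, f1, f2] at this
    exacts [n1 this.symm, n2 this.symm, k3 this, k4 this, n1 this, n2 this, k3 this.symm, k4 this.symm])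
    hf 0 ![1, 0] ![0, 1] (by decide +kernel)
  rwa [f0, f1, f2, ← e1, ← e2, ← aff_eq] at this

end Cfsg.Agent.S5367
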