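import Cfsg.Statements.S5392
import Cfsg.Agent.H6.LeP
import Cfsg.Agent.S1567

set_option autoImplicit false
open Cfsg

namespace Cfsg.Agent.S5392

open Cfsg.Agent
open scoped Pointwise commutatorElement

/-- The Leech lattice modulo twice itself is a faithful irreducible module for the first Conway group: an automorphism of the rank-24 lattice built from the length-24 code that moves every lattice vector only by twice a lattice vector lies in the centre of the automorphism group (the centre consists of ±1, which act trivially there, so the kernel is exactly the centre), and an additive subgroup lying between twice the lattice and the lattice that is invariant under all lattice automorphisms is one of the two. -/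
theorem result : (∀ g : ↥Cfsg.Co0, (∀ v : ↥Cfsg.leechLattice, ∃ w : ↥Cfsg.leechLattice, ((g • v : ↥Cfsg.leechLattice) : Cfsg.GolayPt → ℤ) - (v : Cfsg.GolayPt → ℤ) = 2 • (w : Cfsg.GolayPt → ℤ)) → g ∈ Subgroup.center ↥Cfsg.Co0) ∧ ∀ M : AddSubgroup (Cfsg.GolayPt → ℤ), (∀ v ∈ Cfsg.leechLattice, (2 : ℤ) • v ∈ M) → M ≤ Cfsg.leechLattice → (∀ g : ↥Cfsg.Co0, ∀ v : ↥Cfsg.leechLattice, (v : Cfsg.GolayPt → ℤ) ∈ M → ((g • v : ↥Cfsg.leechLattice) : Cfsg.GolayPt → ℤ) ∈ M) → (∀ x ∈ M, ∃ w ∈ Cfsg.leechLattice, x = (2 : ℤ) • w) ∨ M = Cfsg.leechLattice := by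
    refine ⟨fun g h => H6.Le.mem_center.2 (H6.Le.pm_all fun x hx => ?_), fun M h2 hM hg => ?_⟩
    · obtain ⟨w, e⟩ := h x
      have c : H6.Cg (g • x) x := ⟨w, Subtype.ext e⟩
      rcases c.short (by rw [H6.co_norm]; omega) (by omega) with a | a | a
      · exact Or.inl a
      · exact Or.inr a
      · omega
    refine or_iff_not_imp_left.2 fun hx => ?_
    push Not at hx
    obtain ⟨x, hx, hn⟩ := hx
    obtain ⟨y, ⟨z, e⟩, h⟩ := H6.Le.count.2.2 ⟨x, hM hx⟩
    have e' : x = y + (2 : ℤ) • (z : H6.ZV) := by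
      have := congrArg Subtype.val e
      rw [two_smul] at this ⊢
      exact (sub_eq_iff_eq_add'.1 this)
    have hy : (y : H6.ZV) ∈ M := by
      have := M.sub_mem hx (h2 _ z.2)
      rwa [e', add_sub_cancel_right] at this
    have orb : ∀ a b c : H6.LL, a ∈ MulAction.orbit Co0 c → b ∈ MulAction.orbit Co0 c → (a : H6.ZV) ∈ M → (b : H6.ZV) ∈ M := by
      rintro _ _ c ⟨g, rfl⟩ ⟨k, rfl⟩ ha
      simpa [mul_smul] using hg (k * g⁻¹) _ ha
    have fin : ∀ u : H6.LL, sqNorm (u : H6.ZV) = 32 → (u : H6.ZV) ∈ M → M = leechLattice := fun u a b =>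
      le_antisymm hM (S1567.result ▸ (AddSubgroup.closure_le _).2 fun v hv =>
        orb u ⟨v, hv.1⟩ _ (H6.Le.orbU.ge a) (H6.Le.orbU.ge hv.2) b)
    rcases h with h | h | h | h
    · exact absurd (by rw [e', h]; simp) (hn _ z.2)
    · exact fin y h hy
    · have n : sqNorm (H6.lv H6.Le.rV2 : H6.ZV) = 48 := by
        have := H6.dot_of_dotR (r := H6.Le.rV2) (s := H6.Le.rV2) (d := 176) (by decide +kernel)
        rw [H6.coe_lv (by decide +kernel), ← H6.dot_self]; omega
      refine fin _ H6.Le.t0.2.1 ?_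
      rw [eq_sub_of_add_eq' H6.Le.lvV2]
      exact M.sub_mem (M.neg_mem (orb _ _ _ h (H6.Le.orbV.ge n) hy)) (orb _ _ _ h (MulAction.mem_orbit_self _) hy)
    · have n : sqNorm ((H6.lv H6.Le.rv5 - H6.e8 none : H6.LL) : H6.ZV) = 64 := by
        rw [AddSubgroup.coe_sub, H6.coe_lv (by decide +kernel), H6.coe_e8]; decide +kernel
      refine fin (H6.lv H6.Le.rv5) (H6.mem_cls (cs := []) (by decide +kernel)).1 ?_
      simpa using M.add_mem (orb _ _ _ h (H6.Le.orbE.ge n) hy) (orb _ _ _ h (MulAction.mem_orbit_self _) hy)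

end Cfsg.Agent.S5392
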