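import Cfsg.Statements.S5393
import Cfsg.Agent.GS.St8

set_option autoImplicit false
open Cfsg

namespace Cfsg.Agent.S5393

/-- The length-24 code built from the squares modulo 23 contains the all-ones word, and the code modulo the all-ones word is an irreducible module over the field with two elements for the code's automorphism group: a subspace of the code that contains the all-ones word and is invariant under every coordinate permutation preserving the code is either the span of the all-ones word or the whole code. -/
theorem result : (fun _ : Cfsg.GolayPt => (1 : ZMod 2)) ∈ Cfsg.golayCode ∧ ∀ W : Submodule (ZMod 2) (Cfsg.GolayPt → ZMod 2), (fun _ => (1 : ZMod 2)) ∈ W → W ≤ Cfsg.golayCode → (∀ σ ∈ Cfsg.M24, ∀ w ∈ W, (fun p => w (σ.symm p)) ∈ W) → W = Submodule.span (ZMod 2) {fun _ => (1 : ZMod 2)} ∨ W = Cfsg.golayCode := by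
  open Finset Pointwise Cfsg.Agent.St Cfsg.Agent.H6 in focus
    refine ⟨mem_supports.1 univ_mem_csets |> fun h => wrd_univ ▸ h, fun W h1 h2 hW => ?_⟩
    by_cases h : ∀ u ∈ supports (W : Set (GolayPt → ZMod 2)), u = ∅ ∨ u = univ
    · exact Or.inl (eq_span_one h1 h)
    · push Not at h
      obtain ⟨u, hu, h3, h4⟩ := h
      refine Or.inr (le_antisymm h2 fun w hw => supp_mem.1 (inv_le (isCode_supports W) (inv24_of hW) hu (by rwa [← nonempty_iff_ne_empty]) h4 (supp_mem.2 hw)))

end Cfsg.Agent.S5393
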