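import Cfsg.Statements.S5394
import Cfsg.Agent.GS.St8

set_option autoImplicit false
open Cfsg

namespace Cfsg.Agent.S5394

/-- The automorphism group of the length-24 code built from the squares modulo 23 has exactly two conjugacy classes of involutions: an involution either fixes exactly the eight points of an octad or has no fixed points, both kinds occur, and any two involutions of the same kind are conjugate in the group. -/
theorem result : (∀ g ∈ Cfsg.M24, orderOf g = 2 → (Finset.univ.filter fun p => g p = p) ∈ Cfsg.octads ∨ ∀ p, g p ≠ p) ∧ (∃ g ∈ Cfsg.M24, orderOf g = 2 ∧ (Finset.univ.filter fun p => g p = p) ∈ Cfsg.octads) ∧ (∃ g ∈ Cfsg.M24, orderOf g = 2 ∧ ∀ p, g p ≠ p) ∧ ∀ g ∈ Cfsg.M24, ∀ h ∈ Cfsg.M24, orderOf g = 2 → orderOf h = 2 → ((∀ p, g p ≠ p) ↔ (∀ p, h p ≠ p)) → ∃ k ∈ Cfsg.M24, k * g * k⁻¹ = h := by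
  open Finset Pointwise Cfsg.Agent.St Cfsg.Agent.H6 in focus
    have fa : (univ.filter fun p => (ra : PG) p = p) = o0 := by
      ext p
      rw [mem_filter, ← pt_idx p, (rp_ra _ (idx_lt p)).2, o0, pt_mem_fs (idx_lt p)]
      have := idx_lt p
      generalize idx p = i at *
      revert i; decide +kernel
    have fb : ∀ p, (rb : PG) p ≠ p := by
      intro p
      rw [← pt_idx p, (rp_rb _ (idx_lt p)).2]
      have := idx_lt p
      generalize idx p = i at *
      revert i; decide +kernel
    have sa : ra * ra = 1 := rp_ra.sq_iff.2 (by decide +kernel)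
    have sb : rb * rb = 1 := rp_rb.sq_iff.2 (by decide +kernel)
    have na : (ra : PG) ≠ 1 := fun e => by
      have := o0_mem.2
      rw [← fa, e] at this; revert this; decide
    have nb : (rb : PG) ≠ 1 := fun e => fb none (by rw [e]; rfl)
    have cl : ∀ g (hg : g ∈ M24), orderOf g = 2 → (IsConj ra ⟨g, hg⟩ ∧ (univ.filter fun p => g p = p) ∈ octads) ∨ (IsConj rb ⟨g, hg⟩ ∧ ∀ p, g p ≠ p) := by
      intro g hg h
      have h1 : g ≠ 1 := by rintro rfl; simp at h
      have h2 : g * g = 1 := by rw [← sq, ← h, pow_orderOf_eq_one]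
      rcases inv_classes (g := ⟨g, hg⟩) (fun e => h1 (congrArg Subtype.val e)) (Subtype.ext h2) with h3 | h3
      · refine Or.inl ⟨h3, ?_⟩
        obtain ⟨k, hk⟩ := isConj_iff.1 h3
        obtain rfl : (k : PG) * ra * (k : PG)⁻¹ = g := congrArg Subtype.val hk
        convert smul_mem_octads k o0_mem
        ext p
        rw [← inv_smul_mem_iff, ← fa, mem_filter, mem_filter, Equiv.Perm.mul_apply, Equiv.Perm.mul_apply, ← Equiv.Perm.eq_inv_iff_eq]
        simp only [mem_univ, true_and]; rfl
      · refine Or.inr ⟨h3, fun p => ?_⟩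
        obtain ⟨k, hk⟩ := isConj_iff.1 h3
        obtain rfl : (k : PG) * rb * (k : PG)⁻¹ = g := congrArg Subtype.val hk
        rw [Ne, Equiv.Perm.mul_apply, Equiv.Perm.mul_apply, ← Equiv.Perm.eq_inv_iff_eq]
        exact fb _
    have nf : ∀ g : PG, (univ.filter fun p => g p = p) ∈ octads → ¬ ∀ p, g p ≠ p := by
      intro g h h'
      obtain ⟨p, hp⟩ := card_pos.1 (show 0 < (univ.filter fun p => g p = p).card by rw [h.2]; omega)
      exact h' p (mem_filter.1 hp).2
    refine ⟨fun g hg h => (cl g hg h).imp And.right And.right, ⟨ra, ra.2, orderOf_two (congrArg Subtype.val sa) na, fa ▸ o0_mem⟩,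
      ⟨rb, rb.2, orderOf_two (congrArg Subtype.val sb) nb, fb⟩, fun g hg h hh h1 h2 e => ?_⟩
    have : IsConj (⟨g, hg⟩ : M24) ⟨h, hh⟩ := by
      rcases cl g hg h1 with a | a <;> rcases cl h hh h2 with b | b
      · exact a.1.symm.trans b.1
      · exact absurd (e.2 b.2) (nf g a.2)
      · exact absurd (e.1 a.2) (nf h b.2)
      · exact a.1.symm.trans b.1
    obtain ⟨k, hk⟩ := isConj_iff.1 this
    exact ⟨k, k.2, congrArg Subtype.val hk⟩

end Cfsg.Agent.S5394
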