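import Cfsg.Statements.S5396
import Mathlib
import Cfsg.Agent.H2.ES2

set_option autoImplicit false
open Cfsg

namespace Cfsg.Agent.S5396

open Cfsg.Agent.H2 Cfsg.Agent.H4 Subgroup

/-- For every n ≥ 1 there exist finite extraspecial 2-groups of order 2^(2n+1) whose 2-rank (the largest rank of an elementary abelian subgroup) is n, and ones whose 2-rank is n + 1 (so for each such order there are two non-isomorphic extraspecial 2-groups, told apart by their 2-rank). -/
theorem result (n : ℕ) (hn : 1 ≤ n) : ∀ r ∈ ({n, n + 1} : Set ℕ), ∃ (E : Type) (_ : Group E) (_ : Finite E), Cfsg.IsExtraspecial 2 E ∧ Nat.card E = 2 ^ (2 * n + 1) ∧ sSup {k : ℕ | ∃ A : Subgroup E, Cfsg.IsElementaryAbelian 2 A ∧ Nat.card A = 2 ^ k} = r := by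
  have key : ∀ (V : Type) [AddCommGroup V] [Module (ZMod 2) V] [Finite V]
      (f : CForm (FType.orth (ZMod 2)) V), f.Nondeg → Module.finrank (ZMod 2) V = 2 * n →
      ∃ (E : Type) (_ : Group E) (_ : Finite E), Cfsg.IsExtraspecial 2 E ∧
        Nat.card E = 2 ^ (2 * n + 1) ∧ sSup {k : ℕ | ∃ A : Subgroup E,
          Cfsg.IsElementaryAbelian 2 A ∧ Nat.card A = 2 ^ k} = f.wi + 1 := by
    intro V _ _ _ f hf hV
    obtain ⟨E, _, _, c, h1, h2⟩ := exists_cExt_of_form f
    have hi := c.isom_of_eq h1 h2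
    haveI : Nontrivial V := Module.nontrivial_of_finrank_pos (R := ZMod 2) (by omega)
    refine ⟨E, inferInstance, inferInstance, c.isExtraspecial (c.qf_nondeg.1 (hi.symm.nondeg hf)),
      by rw [c.card_eq_pow, hV], ?_⟩
    rw [← hi.wi_eq]
    refine IsGreatest.csSup_eq ⟨c.exists_elem, ?_⟩
    rintro k ⟨A, hA, hk⟩
    have := c.card_le_of_elem hA
    rwa [hk, Nat.pow_le_pow_iff_right one_lt_two] at this
  rintro r (rfl | rfl)
  · have := key _ (minusF (r - 1) (1 : ZMod 2) 1) (minusF_nondeg _ aniso_one_one)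
      (by simp; omega)
    rwa [minusF_wi _ aniso_one_one, Nat.sub_add_cancel hn] at this
  · have := key _ (plusF (ZMod 2) n) (plusF_nondeg _) (by simp; omega)
    rwa [plusF_wi] at this

end Cfsg.Agent.S5396
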