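import Cfsg.Statements.S5425
import Cfsg.Agent.GS.Mk8

set_option autoImplicit false
open Cfsg

namespace Cfsg.Agent.S5425

/-- In the Mathieu group of degree 24 (the automorphism group of the length-24 binary Golay code, acting on the 24 coordinates), let z be an involution whose fixed points form an octad (the support of a code word of weight 8), and let Q be the largest normal 2-subgroup of the centralizer C of z. Then Q is extraspecial of order 2^7 with an elementary abelian subgroup of order 16 (plus type), Q is a large extraspecial 2-subgroup, and C is the split extension of Q by the special linear group of degree 3 over the field with two elements. -/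
theorem result (z : ↥Cfsg.M24) (hz : orderOf z = 2) (hfix : (Finset.univ.filter fun p : Cfsg.GolayPt => (z : Equiv.Perm Cfsg.GolayPt) p = p) ∈ Cfsg.octads) (Q : Subgroup ↥Cfsg.M24) (hQ : Q = (Cfsg.pCore 2 ↥(Subgroup.centralizer ({z} : Set ↥Cfsg.M24))).map (Subgroup.centralizer ({z} : Set ↥Cfsg.M24)).subtype) : Cfsg.IsExtraspecial 2 ↥Q ∧ Nat.card ↥Q = 2 ^ 7 ∧ (∃ E : Subgroup ↥Cfsg.M24, E ≤ Q ∧ Cfsg.IsElementaryAbelian 2 E ∧ Nat.card ↥E = 2 ^ 4) ∧ Cfsg.IsLargeExtraspecial Q ∧ ∃ K : Subgroup ↥Cfsg.M24, K ≤ Subgroup.centralizer ({z} : Set ↥Cfsg.M24) ∧ Q ⊓ K = ⊥ ∧ Q ⊔ K = Subgroup.centralizer ({z} : Set ↥Cfsg.M24) ∧ Nonempty (↥K ≃* Matrix.SpecialLinearGroup (Fin 3) (ZMod 2)) := by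
  open Finset Pointwise Cfsg.Agent.St Cfsg.Agent.H6 in focus
    obtain ⟨p, hp⟩ := card_pos.1 (hfix.2.symm ▸ by norm_num : 0 < (univ.filter fun p => (z : PG) p = p).card)
    obtain ⟨c, rfl⟩ := exists_z0 hz (mem_filter.1 hp).2
    change Q = H8.Op 2 _ at hQ
    rw [← H8.cj_centralizer_singleton, ← H8.cj_Op, Op_Z] at hQ
    subst hQ
    have L := lx_QZ.cj c
    obtain ⟨g, h1, h2⟩ := conj_z0
    have c1 : Nat.card (H8.cj (cl gZ wsQZ) c) = 2 ^ 7 := (H8.card_cj _ _).trans card_QZ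
    have hc := commute_of_commChk heZ (ws := wsEZ) (ws' := wsEZ) (by decide +kernel)
    refine ⟨L.isExtraspecial, c1, ⟨H8.cj (cl gZ wsEZ) c, H8.cj_mono (cl_mono (by decide)) c, ⟨⟨⟨fun a b => Subtype.ext ?_⟩⟩, ?_⟩, (H8.card_cj _ _).trans card_EZ⟩, L.large_of_conj (g := c * g * c⁻¹) (H8.mem_cj.2 (by rw [show c⁻¹ * (c * g * c⁻¹ * (c * z0 * c⁻¹) * (c * g * c⁻¹)⁻¹) * c = g * z0 * g⁻¹ by group]; exact h1)) (fun e => h2 (by rw [show g * z0 * g⁻¹ = c⁻¹ * (c * g * c⁻¹ * (c * z0 * c⁻¹) * (c * g * c⁻¹)⁻¹) * c by group, e]; group)) (by rw [c1]; norm_num), H8.cj (Subgroup.centralizer {z0} ⊓ MulAction.stabilizer M24 (pt 0) ⊓ MulAction.stabilizer M24 (pt 4)) c, ?_, by rw [← H8.cj_inf, inf_QK, H8.cj_bot], by rw [← H8.cj_sup, sup_QK, H8.cj_centralizer_singleton], ⟨(H8.cjEquiv _ c).symm.trans isoK.some⟩⟩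
    · exact (H2.commute_conj_iff (g := c⁻¹)).1 (by rw [inv_inv]; exact hc _ (H8.mem_cj.1 a.2) _ (H8.mem_cj.1 b.2))
    · rintro _ ⟨a, ha, rfl⟩
      rw [← map_pow, sq_cl heZ (by decide +kernel) (by decide +kernel) a ha, map_one]
    · rw [← H8.cj_centralizer_singleton]
      exact H8.cj_mono (inf_le_left.trans inf_le_left) c

end Cfsg.Agent.S5425
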