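import Cfsg.Statements.S5427
import Mathlib
import Cfsg.Agent.H2.LX3

set_option autoImplicit false
open Cfsg

namespace Cfsg.Agent.S5427

open Cfsg.Agent.H2 Subgroup

/-- Let z be an involution of the finite group G whose centralizer C has generalized Fitting subgroup Q, an extraspecial 2-group of width at least 2 (order 2^(2w+1), w ≥ 2). Let K be a subgroup of G such that the subgroup U generated by the K-conjugates of z is abelian and C is generated by the C-conjugates of U. Suppose that either some K-conjugate of z other than z lies in Q, or some element u of U ∩ Q outside the subgroup generated by z has z in the largest normal 2-subgroup of its centralizer. Then G is simple and Q is a large extraspecial 2-subgroup of G. -/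
theorem result {G : Type*} [Group G] [Finite G] (z : G) (hz : orderOf z = 2) (Q : Subgroup G) (hQC : Q ≤ Subgroup.centralizer ({z} : Set G)) (hF : (Cfsg.generalizedFittingSubgroup ↥(Subgroup.centralizer ({z} : Set G))).map (Subgroup.centralizer ({z} : Set G)).subtype = Q) (hQ : Cfsg.IsExtraspecial 2 ↥Q) (w : ℕ) (hw : 2 ≤ w) (hcard : Nat.card ↥Q = 2 ^ (2 * w + 1)) (K U : Subgroup G) (hU : U = Subgroup.closure {x : G | ∃ k ∈ K, x = k * z * k⁻¹}) (hUab : IsMulCommutative ↥U) (hgen : Subgroup.closure {x : G | ∃ c ∈ Subgroup.centralizer ({z} : Set G), ∃ u ∈ U, x = c * u * c⁻¹} = Subgroup.centralizer ({z} : Set G)) (h3 : (∃ k ∈ K, k * z * k⁻¹ ∈ Q ∧ k * z * k⁻¹ ≠ z) ∨ ∃ u ∈ U ⊓ Q, u ∉ Subgroup.zpowers z ∧ (∃ hz' : z ∈ Subgroup.centralizer ({u} : Set G), (⟨z, hz'⟩ : ↥(Subgroup.centralizer ({u} : Set G))) ∈ Cfsg.pCore 2 ↥(Subgroup.centralizer ({u} : Set G)))) : IsSimpleGroup G ∧ Cfsg.IsLargeExtraspecial Q := by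
  obtain ⟨h, hO⟩ := lx_of_Fs hz hF hQ
  have hU2 : ∀ u ∈ U, u * u = 1 := by
    intro u hu
    have hu' := hu
    rw [hU] at hu'
    induction hu' using closure_induction with
    | mem x hx => obtain ⟨k, -, rfl⟩ := hx; exact (h.cj k).zz
    | one => simp
    | inv x hx ih => rw [← mul_inv_rev, ih (by simpa using hu), inv_one]
    | mul x y hx hy ihx ihy =>
      rw [← hU] at hx hy
      rw [mul_assoc, ← mul_assoc y, (commute_of_comm hUab hy hx).eq, mul_assoc, ihy hy, mul_one,
        ihx hx]
  have hl : IsLargeExtraspecial Q := by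
    rcases h3 with ⟨k, -, a, b⟩ | ⟨u, hu, a, hz', b⟩
    · exact h.large_of_conj a b (card_ne_eight hw hcard)
    · rw [mem_zpowers_invol h.zz, not_or] at a
      exact h.large_of_mem_Op_cent hu.2 (hU2 u hu.1) a.1 a.2 ⟨_, b, rfl⟩
  refine ⟨h.isSimpleGroup hl.2.2.2 hO ?_, hl⟩
  have h1 : U ≤ normalClosure {z} := by
    rw [hU, closure_le]
    rintro _ ⟨k, -, rfl⟩
    exact normalClosure_normal.conj_mem _ (subset_normalClosure (Set.mem_singleton z)) k
  rw [← hgen, closure_le]
  rintro _ ⟨c, -, u, hu, rfl⟩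
  exact normalClosure_normal.conj_mem _ (h1 hu) c

end Cfsg.Agent.S5427
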