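import Cfsg.Statements.S5428
import Mathlib
import Cfsg.Agent.H2.LX3

set_option autoImplicit false
open Cfsg

namespace Cfsg.Agent.S5428

open Cfsg.Agent.H2 Subgroup

/-- Let z be an involution of the finite group G whose centralizer C has generalized Fitting subgroup Q extraspecial (as a 2-group), let A be a subgroup of C of odd order, and let R be the centralizer of A in Q; suppose R has order at least 32, the largest normal subgroup of odd order of the centralizer of the subgroup generated by A and R lies in A, the order of that centralizer is not divisible by 4, and g is an element of G with g z g⁻¹ in R but outside the centre Z of Q. Let M be the subgroup generated by A and the centralizer of A (A is normal in it). Then: the centralizer in M of the subgroup generated by R and A, joined with A, equals the subgroup generated by A and Z; the image of R in M/A is a large extraspecial 2-subgroup of M/A; and g z g⁻¹ is conjugate to z inside the subgroup generated by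 R and the centralizer of A in g Q g⁻¹. -/
theorem result {G : Type*} [Group G] [Finite G] (z : G) (hz : orderOf z = 2) (Q : Subgroup G) (hQC : Q ≤ Subgroup.centralizer ({z} : Set G)) (hF : (Cfsg.generalizedFittingSubgroup ↥(Subgroup.centralizer ({z} : Set G))).map (Subgroup.centralizer ({z} : Set G)).subtype = Q) (hQ : Cfsg.IsExtraspecial 2 ↥Q) (A : Subgroup G) (hA : A ≤ Subgroup.centralizer ({z} : Set G)) (hAodd : Odd (Nat.card ↥A)) (R : Subgroup G) (hR : R = Q ⊓ Subgroup.centralizer (A : Set G)) (hR32 : 32 ≤ Nat.card ↥R) (hO : (Cfsg.oddCore ↥(Subgroup.centralizer ((A ⊔ R : Subgroup G) : Set G))).map (Subgroup.centralizer ((A ⊔ R : Subgroup G) : Set G)).subtype ≤ A) (h4 : ¬ 4 ∣ Nat.card ↥(Subgroup.centralizer ((A ⊔ R : Subgroup G) : Set G))) (g : G) (hgR : g * z * g⁻¹ ∈ R) (hgZ : g * z * g⁻¹ ∉ ((Subgroup.center ↥Q).map Q.subtype)) (M : Subgroup G) (hM : M = Subgroup.centralizer (A : Set G) ⊔ A) [hn : (A.subgroupOf M).Normal] : (M ⊓ Subgroup.centralizer ((R ⊔ A : Subgroup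 G) : Set G)) ⊔ A = A ⊔ ((Subgroup.center ↥Q).map Q.subtype) ∧ Cfsg.IsLargeExtraspecial ((R.subgroupOf M).map (QuotientGroup.mk' (A.subgroupOf M))) ∧ ∃ x ∈ R ⊔ ((Q).map (MulAut.conj g).toMonoidHom ⊓ Subgroup.centralizer (A : Set G)), x * (g * z * g⁻¹) * x⁻¹ = z := by
  obtain ⟨h, -⟩ := lx_of_Fs hz hF hQ
  rw [h.center_eq] at hgZ ⊢
  have hRQ : R ≤ Q := hR ▸ inf_le_left
  have hRA : R ≤ centralizer (A : Set G) := hR ▸ inf_le_right
  have hxR : XS R z := by
    rw [hR] at hgR ⊢
    exact (h.toXS.coprime (hA.trans h.norm) hAodd).2.2.2.resolve_left fun e => hgZ (e ▸ hgR)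
  rw [mem_zpowers_invol h.zz, not_or] at hgZ
  have l := h.lp (hRQ hgR) hgZ.2 (by have := card_le_of_le hRQ; omega)
  have hAt : A ≤ centralizer {g * z * g⁻¹} := fun a ha => mem_cent1.2 (hRA hgR a ha)
  have hxP : XS (H8.cj Q g ⊓ centralizer (A : Set G)) (g * z * g⁻¹) := by
    refine (l.hP.toXS.coprime (hAt.trans l.hP.norm) hAodd).2.2.2.resolve_left fun e => ?_
    have : z ∈ zpowers (g * z * g⁻¹) := e ▸ ⟨l.zP, hRA hxR.mem⟩
    rw [mem_zpowers_invol l.hP.zz] at this
    exact this.elim h.ne l.ne.symm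
  obtain ⟨y, hy, ey⟩ := hxR.exists_conj hgR hgZ.1 hgZ.2
  obtain ⟨b, hb, eb⟩ := hxP.exists_conj ⟨l.zP, hRA hxR.mem⟩ h.ne l.ne.symm
  have hs := (h.swap l.hP.zz l.comm (hxR.cent y hy).symm ey (hxP.cent b hb).symm eb).2
  have hzC : z ∈ centralizer ((A ⊔ R : Subgroup G) : Set G) := by
    have : A ⊔ R ≤ centralizer {z} := sup_le hA hxR.le_cent
    exact fun x hx => mem_cent1.1 (this hx)
  have hC : centralizer ((A ⊔ R : Subgroup G) : Set G) ≤ A ⊔ zpowers z := by
    have hS : SylIn 2 (zpowers z) (centralizer ((A ⊔ R : Subgroup G) : Set G)) :=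
      sylIn_of_not_dvd (zpowers_le.2 hzC) (isPGroup_zpowers_ord2 hz) fun e => h4 (by
        rw [card_eq_relIndex_mul (zpowers_le.2 hzC), Nat.card_zpowers, hz]
        exact mul_dvd_mul_right e 2)
    have h1 := cyclic_pdiv_normal_complement hS inferInstance fun r hr _ => hr.two_le
    rw [← hS.resOf_sup]
    exact sup_le_sup_right ((H8.le_Opp (resOf_le _ _) (le_normalizer_resOf _ _)
      (pNil_iff_card.1 h1)).trans hO) _
  have hAM : A ≤ M := hM ▸ le_sup_right
  have hCM : centralizer (A : Set G) ≤ M := hM ▸ le_sup_left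
  have hRM := hRA.trans hCM
  have hdec : ∀ c ∈ M, ∃ c₁ ∈ centralizer (A : Set G), ∃ a ∈ A, c = c₁ * a := fun c hc =>
    H8.mem_sup_of_norm_left (H8.le_normalizer_centralizer le_normalizer) (hM ▸ hc)
  refine ⟨le_antisymm (sup_le (inf_le_right.trans (by rwa [sup_comm R])) le_sup_left)
    (sup_le le_sup_right (le_sup_of_le_left (zpowers_le.2 ⟨hRM hxR.mem, by rwa [sup_comm R]⟩))),
    ?_, y * b * y, mul_mem (mul_mem (mem_sup_left hy) (mem_sup_right hb)) (mem_sup_left hy), hs⟩
  set f := QuotientGroup.mk' (A.subgroupOf M)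
  have hk : H8.kr f = A := H8.kr_mk'_subgroupOf hAM
  have hf := QuotientGroup.mk'_surjective (A.subgroupOf M)
  have hRA' : R ⊓ A = ⊥ :=
    H8.inf_eq_bot_of_pgroup_coprime hxR.isPGroup (coprime_two_of_odd hAodd)
  have hk1 : ∀ x ∈ R, x ∈ H8.kr f → x = 1 := fun x hx e => by
    rw [← mem_bot, ← hRA']; exact ⟨hx, hk ▸ e⟩
  have hcop : (Nat.card ↥(H8.kr f ⊓ M)).Coprime 2 := by
    rw [hk, inf_eq_left.2 hAM]; exact coprime_two_of_odd hAodd
  have h1 : LX (H8.im f R) (f ⟨z, hRM hxR.mem⟩) := by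
    refine ⟨hxR.im f le_rfl hRM hxR.mem (fun e => h.ne (hk1 z hxR.mem e)) (fun x hx e => ?_)
      hxR.exists_pair, fun c hc => ?_, ?_⟩
    · rcases hxR.nd x hx e with rfl | rfl
      · exact .inl (one_mem _)
      · exact .inr (h.zz ▸ one_mem _)
    · have h2 := H8.im_inf_centralizer f hxR.isPGroup hRM le_rfl (hRM.trans le_normalizer) hcop
      rw [H8.im_self_of_surj f hf, top_inf_eq] at h2
      have h3 : M ⊓ centralizer (R : Set G) ≤ R ⊔ H8.kr f := fun c hc => by
        obtain ⟨c₁, h1, a, ha, rfl⟩ := hdec c hc.1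
        have h5 : c₁ ∈ centralizer (R : Set G) :=
          (mul_mem_cancel_right (le_centralizer_iff.1 hRA ha)).1 hc.2
        have h6 : c₁ ∈ centralizer ((A ⊔ R : Subgroup G) : Set G) := by
          have : A ⊔ R ≤ centralizer {c₁} :=
            sup_le (fun x hx => mem_cent1.2 (h1 x hx)) fun x hx => mem_cent1.2 (h5 x hx)
          exact fun x hx => mem_cent1.1 (this hx)
        rw [hk]
        exact mul_mem (sup_le le_sup_right (le_sup_of_le_left (zpowers_le.2 hxR.mem)) (hC h6))
          (mem_sup_right ha)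
      rw [← H8.im_sup_kr f hRM]
      exact H8.im_mono f h3 (h2 ▸ fun x hx => (hc x hx).symm)
    · have h2 := H8.im_inf_centralizer f (isPGroup_zpowers_ord2 hz) (zpowers_le.2 (hRM hxR.mem))
        le_rfl ((zpowers_le.2 (hRM hxR.mem)).trans le_normalizer) hcop
      rw [H8.im_self_of_surj f hf, top_inf_eq, H8.im_zpowers f (hRM hxR.mem),
        centralizer_zpowers_eq, centralizer_zpowers_eq] at h2
      rw [← h2]
      refine H8.im_le_normalizer f fun c hc => ?_
      obtain ⟨c₁, h1, a, ha, rfl⟩ := hdec c hc.1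
      refine mul_mem ?_ (centralizer_le_normalizer _ (le_centralizer_iff.1 hRA ha))
      rw [hR]
      exact H8.le_normalizer_inf (A := centralizer {z} ⊓ centralizer (A : Set G))
        (inf_le_left.trans h.norm) (inf_le_right.trans le_normalizer)
        ⟨(mul_mem_cancel_right (hA ha)).1 hc.2, h1⟩
  have hx : y * b * y ∈ M := hCM (mul_mem (mul_mem (hRA hy) hb.2) (hRA hy))
  have e : (f ⟨_, hx⟩)⁻¹ * f ⟨z, hRM hxR.mem⟩ * (f ⟨_, hx⟩)⁻¹⁻¹ = f ⟨_, hRM hgR⟩ := by
    rw [inv_inv, ← map_inv, ← map_mul, ← map_mul]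
    congr 1
    refine Subtype.ext ?_
    change (y * b * y)⁻¹ * z * (y * b * y) = g * z * g⁻¹
    conv_lhs => rw [← hs]
    group
  refine h1.large_of_conj (g := (f ⟨_, hx⟩)⁻¹) (e ▸ H8.mem_im_of_mem f _ hgR) (fun e' => ?_) ?_
  · rw [e, ← mul_inv_eq_one, ← map_inv, ← map_mul, ← H8.mem_kr'] at e'
    exact hgZ.2 (mul_inv_eq_one.1 (hk1 _ (mul_mem hgR (inv_mem hxR.mem)) e'))
  · have := H8.card_im_mul f hRM
    rw [hk, inf_comm, hRA', card_bot] at this
    omega

end Cfsg.Agent.S5428
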