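import Cfsg.Statements.S5429
import Mathlib
import Cfsg.Agent.H2.LX3

set_option autoImplicit false
open Cfsg

namespace Cfsg.Agent.S5429

open Cfsg.Agent.H2 Subgroup

/-- Let z be an involution of the finite group G with centralizer C whose generalized Fitting subgroup Q is extraspecial of width at least 3 (order 2^(2w+1), w ≥ 3); let g be an element of G with g z g⁻¹ in Q but outside the centre Z of Q, and t an involution lying in both Q and g Q g⁻¹ that is not conjugate to z; write P for the centralizer of t in Q and suppose that the elements of C acting trivially by conjugation on P modulo the subgroup generated by t and z are exactly the elements of Q. Then the image of P in the centralizer of t modulo the subgroup generated by t is a large extraspecial 2-subgroup there, and g z g⁻¹ is conjugate to z inside the subgroup generated by P and the centralizer of t in g Q g⁻¹. -/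
theorem result {G : Type*} [Group G] [Finite G] (z : G) (hz : orderOf z = 2) (Q : Subgroup G) (hQC : Q ≤ Subgroup.centralizer ({z} : Set G)) (hF : (Cfsg.generalizedFittingSubgroup ↥(Subgroup.centralizer ({z} : Set G))).map (Subgroup.centralizer ({z} : Set G)).subtype = Q) (hQ : Cfsg.IsExtraspecial 2 ↥Q) (w : ℕ) (hw : 3 ≤ w) (hcard : Nat.card ↥Q = 2 ^ (2 * w + 1)) (g : G) (hgQ : g * z * g⁻¹ ∈ Q) (hgZ : g * z * g⁻¹ ∉ ((Subgroup.center ↥Q).map Q.subtype)) (t : G) (ht : orderOf t = 2) (htQ : t ∈ Q ⊓ (Q).map (MulAut.conj g).toMonoidHom) (htz : ¬ IsConj z t) (P : Subgroup G) (hP : P = Q ⊓ Subgroup.centralizer ({t} : Set G)) (hCP : ∀ c ∈ Subgroup.centralizer ({z} : Set G), (∀ x ∈ P, ∃ y ∈ Subgroup.closure ({t, z} : Set G), c * x * c⁻¹ = x * y) ↔ c ∈ Q) [hn : ((Subgroup.zpowers t).subgroupOf (Subgroup.centralizer ({t} : Set G))).Normal] : Cfsg.IsLargeExtraspecial ((P.subgroupOf (Subgroup.centralizer ({t} : Set G))).map (QuotientGroup.mk' ((Subgroup.zpowers t).subgroupOf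 (Subgroup.centralizer ({t} : Set G))))) ∧ ∃ x ∈ P ⊔ ((Q).map (MulAut.conj g).toMonoidHom ⊓ Subgroup.centralizer ({t} : Set G)), x * (g * z * g⁻¹) * x⁻¹ = z := by
  obtain ⟨h, -⟩ := lx_of_Fs hz hF hQ
  rw [h.center_eq, mem_zpowers_invol h.zz, not_or] at hgZ
  have l := h.lp hgQ hgZ.2 (card_ne_eight (by omega) hcard)
  have tt := ord2_mul_self ht
  have t1 := ord2_ne_one ht
  have tz : t ≠ z := fun e => htz (e ▸ IsConj.refl _)
  have hzt : Commute z t := h.cent t htQ.1
  obtain ⟨y₀, hy₀, ey₀⟩ := h.exists_conj htQ.1 t1 tz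
  have c1 : ¬ IsConj z (t * z) := fun e => htz (e.trans (isConj_iff.2 ⟨y₀, ey₀⟩).symm)
  have c2 : IsConj z (g * z * g⁻¹) := isConj_iff.2 ⟨g, rfl⟩
  obtain ⟨y, hy, hyt, ey⟩ := h.exists_conj_cent htQ.1 tt hgQ hgZ.1 hgZ.2
    (fun e => htz (e ▸ c2)) fun e => c1 (e ▸ c2)
  obtain ⟨b, hb, hbt, eb⟩ := l.hP.exists_conj_cent htQ.2 tt l.zP h.ne l.ne.symm tz.symm
    fun e => htz (by
      have : t = g * z * g⁻¹ * z := by
        rw [← l.comm.eq]
        conv_rhs => lhs; rw [e]
        rw [mul_assoc, l.hP.zz, mul_one]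
      rw [this, ← ey]
      exact c2.trans (isConj_iff.2 ⟨y, rfl⟩))
  have hs := (h.swap l.hP.zz l.comm (h.cent y hy).symm ey (l.hP.cent b hb).symm eb).2
  have hPQ : P ≤ Q := hP ▸ inf_le_left
  have hPC : P ≤ centralizer {t} := hP ▸ inf_le_right
  have hmem : ∀ x ∈ Q, Commute x t → x ∈ P := fun x hx e => hP ▸ ⟨hx, mem_cent1.2 e⟩
  refine ⟨?_, y * b * y, mul_mem (mul_mem (mem_sup_left (hmem y hy hyt))
    (mem_sup_right ⟨hb, mem_cent1.2 hbt⟩)) (mem_sup_left (hmem y hy hyt)), hs⟩
  set f := QuotientGroup.mk' ((zpowers t).subgroupOf (centralizer ({t} : Set G)))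
  have htC : t ∈ centralizer ({t} : Set G) := mem_cent1.2 (Commute.refl t)
  have hk : H8.kr f = zpowers t := H8.kr_mk'_subgroupOf (zpowers_le.2 htC)
  have hf := QuotientGroup.mk'_surjective ((zpowers t).subgroupOf (centralizer ({t} : Set G)))
  have hzP := hmem z h.mem hzt
  have hcard' : Nat.card (H8.im f P) = 2 ^ (2 * (w - 1) + 1) := by
    have h1 := H8.card_im_mul f hPC
    rw [hk, inf_eq_left.2 (zpowers_le.2 (hmem t htQ.1 (Commute.refl t))), Nat.card_zpowers, ht]
      at h1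
    have h2 := ((h.ix2 htQ.1).inf le_rfl).card inf_le_right fun e => by
      rw [conj_eq_of_commute (mem_cent1.1 (e hy₀).1)] at ey₀
      exact h.ne (by simpa using ey₀)
    rw [inf_comm, ← hP, hcard, ← h1, show 2 * w + 1 = 2 * (w - 1) + 1 + 1 + 1 by omega, pow_succ,
      pow_succ] at h2
    omega
  have hc : ∀ c : centralizer ({t} : Set G), Commute (f c) (f ⟨z, hPC hzP⟩) →
      Commute (c : G) z := fun c e => by
    rw [← commutatorElement_eq_one_iff_commute, ← map_commutatorElement, ← H8.mem_kr', hk,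
      mem_zpowers_invol tt] at e
    rcases e with e | e
    · exact commutatorElement_eq_one_iff_commute.1 e
    · refine absurd (isConj_iff.2 ⟨(c : G), ?_⟩) c1
      have e : (c : G) * z * (c : G)⁻¹ * z⁻¹ = t := e
      exact mul_inv_eq_iff_eq_mul.1 e
  have h1 : LX (H8.im f P) (f ⟨z, hPC hzP⟩) := by
    refine ⟨h.toXS.im f hPQ hPC hzP (fun e => ?_) (fun x hx e => ?_) ?_, fun c hc' => ?_,
      fun c hc' => ?_⟩
    · rw [hk, mem_zpowers_invol tt] at e
      exact e.elim h.ne tz.symm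
    · rw [hk, mem_zpowers_invol tt, mem_zpowers_invol tt]
      rcases h.mem_of_cent_cent htQ.1 tt (hPQ hx) fun y hy e' => (e y (hmem y hy e')).symm
        with e | e | e | e
      · exact .inl (.inl e)
      · exact .inr (.inl (by rw [e, h.zz]))
      · exact .inl (.inr e)
      · exact .inr (.inr (by rw [e, ← hzt.eq, ← mul_assoc, h.zz, one_mul]))
    · obtain ⟨a, ha, b, hb, e1, e2, e3⟩ := h.exists_not_commute_cent htQ.1
        (card_ne_eight (by omega) hcard)
      exact ⟨a, hmem a ha e1, b, hmem b hb e2, e3⟩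
    · obtain ⟨c, rfl⟩ := hf c
      refine ⟨c, hmem c ((hCP c (mem_cent1.2 (hc c (hc' _ (H8.mem_im_of_mem f _ hzP))))).1
        fun x hx => ⟨x⁻¹ * (c * x * (c : G)⁻¹), ?_, by simp⟩) (mem_cent1.1 c.2), rfl⟩
      have := (hc' _ (H8.mem_im_of_mem f (hPC hx) hx)).inv_right.symm
      rw [← map_inv, ← commutatorElement_eq_one_iff_commute, ← map_commutatorElement,
        ← H8.mem_kr', hk] at this
      have h2 : zpowers t ≤ Subgroup.closure {t, z} := zpowers_le.2 (subset_closure (by simp))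
      simpa [commutatorElement_def, mul_assoc] using h2 this
    · obtain ⟨c, rfl⟩ := hf c
      refine H8.im_le_normalizer f (H := centralizer {z} ⊓ centralizer {t}) ?_
        ⟨c, ⟨mem_cent1.2 (hc c (mem_cent1.1 hc')), c.2⟩, rfl⟩
      rw [hP]
      exact H8.le_normalizer_inf (inf_le_left.trans h.norm) (inf_le_right.trans le_normalizer)
  have hx : y * b * y ∈ centralizer ({t} : Set G) :=
    mul_mem (mul_mem (mem_cent1.2 hyt) (mem_cent1.2 hbt)) (mem_cent1.2 hyt)
  have hgP := hmem _ hgQ (l.hP.cent t htQ.2)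
  have e : (f ⟨_, hx⟩)⁻¹ * f ⟨z, hPC hzP⟩ * (f ⟨_, hx⟩)⁻¹⁻¹ = f ⟨_, hPC hgP⟩ := by
    rw [inv_inv, ← map_inv, ← map_mul, ← map_mul]
    congr 1
    refine Subtype.ext ?_
    change (y * b * y)⁻¹ * z * (y * b * y) = g * z * g⁻¹
    conv_lhs => rw [← hs]
    group
  refine h1.large_of_conj (g := (f ⟨_, hx⟩)⁻¹) (e ▸ H8.mem_im_of_mem f _ hgP) (fun e' => ?_)
    (card_ne_eight (by omega) hcard')
  rw [e, ← mul_inv_eq_one, ← map_inv, ← map_mul, ← H8.mem_kr', hk, mem_zpowers_invol tt] at e'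
  rcases e' with e' | e'
  · exact hgZ.2 (mul_inv_eq_one.1 e')
  · exact c1 (mul_inv_eq_iff_eq_mul.1 e' ▸ c2)

end Cfsg.Agent.S5429
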