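import Cfsg.Statements.S5431
import Mathlib
import Cfsg.Agent.H2.LX2

set_option autoImplicit false
open Cfsg

namespace Cfsg.Agent.S5431

open Cfsg.Agent.H2 Subgroup

/-- Let Q be a large extraspecial 2-subgroup of the finite group G (extraspecial; centralizer equal to its centre; normal in the centralizer of its centre; normalizing no non-trivial subgroup of odd order) with centre generated by z, an involution, of width w ≥ 2 (order 2^(2w+1)); let g be an element outside the centralizer H of z with g z g⁻¹ in Q; write V for the subgroup generated by z and g z g⁻¹, X for the subgroup generated by Q and g Q g⁻¹, R for the subgroup generated by the centralizer of z in g Q g⁻¹ and the centralizer of g z g⁻¹ in Q, and E for the intersection of Q and g Q g⁻¹. Then V is the centre of R, E lies in the second centre of R, R is nilpotent of class at most 3, E and R/E are elementary abelian, R/E is the direct product of the images of the centralizer of g z g⁻¹ in Q and of the centralizer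 of z in g Q g⁻¹ (R is their product and they meet in E), and the commutator subgroup of X and E lies in V. -/
theorem result {G : Type*} [Group G] [Finite G] (Q : Subgroup G) (hQ : Cfsg.IsLargeExtraspecial Q) (z : G) (hz : ((Subgroup.center ↥Q).map Q.subtype) = Subgroup.zpowers z) (hz2 : orderOf z = 2) (w : ℕ) (hw : 2 ≤ w) (hcard : Nat.card ↥Q = 2 ^ (2 * w + 1)) (g : G) (hgH : g ∉ Subgroup.centralizer ({z} : Set G)) (hgQ : g * z * g⁻¹ ∈ Q) (V X R E : Subgroup G) (hV : V = Subgroup.closure ({z, g * z * g⁻¹} : Set G)) (hX : X = Q ⊔ (Q).map (MulAut.conj g).toMonoidHom) (hR : R = ((Q).map (MulAut.conj g).toMonoidHom ⊓ Subgroup.centralizer ({z} : Set G)) ⊔ (Q ⊓ Subgroup.centralizer ({g * z * g⁻¹} : Set G))) (hE : E = Q ⊓ (Q).map (MulAut.conj g).toMonoidHom) : (Subgroup.center ↥R).map R.subtype = V ∧ E ≤ (Subgroup.upperCentralSeries ↥R 2).map R.subtype ∧ Subgroup.upperCentralSeries ↥R 3 = ⊤ ∧ Cfsg.IsElementaryAbelian 2 E ∧ (∀ x ∈ R, ∀ y ∈ R, x * y * x⁻¹ * y⁻¹ ∈ E ∧ x ^ 2 ∈ E) ∧ ((Q).map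 (MulAut.conj g).toMonoidHom ⊓ Subgroup.centralizer ({z} : Set G)) ⊓ (Q ⊓ Subgroup.centralizer ({g * z * g⁻¹} : Set G)) = E ∧ ⁅X, E⁆ ≤ V := by
  have h := lx_of_center hQ hz
  have h8 : Nat.card Q ≠ 8 := fun e => by
    have := Nat.pow_right_injective le_rfl (hcard.symm.trans (e.trans (show 8 = 2 ^ 3 from rfl)))
    omega
  have l := h.lp hgQ (fun e => hgH (mem_cent1.2 (commute_of_conj_eq e))) h8
  have k := l.k4
  rw [← hV] at k
  have h1 : (center R).map R.subtype = V := by rw [center_map_eq_Zc, hR]; exact l.Zc_R k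
  have hER : E ≤ R := by rw [hE, hR, ← l.inf_eq]; exact inf_le_left.trans le_sup_left
  have hRX : R ≤ X := by rw [hX, hR]; exact l.R_le_X
  have h2 : ⁅X, E⁆ ≤ V := by rw [hX, hE]; exact l.comm_E k
  have h3 : ∀ x ∈ R, ∀ y ∈ R, x * y * x⁻¹ * y⁻¹ ∈ E := by
    rw [hR, hE]; exact fun x hx y hy => l.R_comm hx hy
  have h4 : ∀ x : R, (x : G) ∈ E → x ∈ Subgroup.upperCentralSeries R 2 := fun x hx => by
    rw [Subgroup.mem_upperCentralSeries_succ_iff]
    intro y
    rw [Subgroup.upperCentralSeries_one]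
    have := h2 (commutator_mem_commutator (hRX y.2) hx)
    rw [← h1] at this
    obtain ⟨c, hc, e⟩ := this
    have e' : x * y * x⁻¹ * y⁻¹ = c⁻¹ := Subtype.ext (by
      have e : (c : G) = y * x * (y : G)⁻¹ * (x : G)⁻¹ := e
      simp [e, mul_assoc])
    rw [commutatorElement_def, e']; exact inv_mem hc
  refine ⟨h1, fun x hx => ⟨⟨x, hER hx⟩, h4 _ hx, rfl⟩, eq_top_iff.2 fun x _ => ?_, hE ▸ l.E_elem,
    fun x hx y hy => ⟨h3 x hx y hy, ?_⟩, hE ▸ l.inf_eq, h2⟩
  · rw [Subgroup.mem_upperCentralSeries_succ_iff]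
    exact fun y => h4 _ (h3 x x.2 y y.2)
  · rw [pow_two, hE]; exact l.R_sq (hR ▸ hx)

end Cfsg.Agent.S5431
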