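import Cfsg.Statements.S5432
import Mathlib
import Cfsg.Agent.H2.ES2

set_option autoImplicit false
open Cfsg

namespace Cfsg.Agent.S5432

open Cfsg.Agent.H2 Cfsg.Agent.H4 Subgroup

/-- Let E be an extraspecial 2-group of order 2^(2n+1), n ≥ 1. If E contains an elementary abelian subgroup of order 2^(n+1) (plus type), then its outer automorphism group is isomorphic to the full isometry group of the hyperbolic quadratic form in dimension 2n over the field with two elements; otherwise (minus type) it is isomorphic to the full isometry group of the elliptic quadratic form in dimension 2n over that field. -/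
theorem result {E : Type*} [Group E] [Finite E] (hE : Cfsg.IsExtraspecial 2 E) (n : ℕ) (hn : 1 ≤ n) (hcard : Nat.card E = 2 ^ (2 * n + 1)) : ((∃ A : Subgroup E, Cfsg.IsElementaryAbelian 2 A ∧ Nat.card ↥A = 2 ^ (n + 1)) → Nonempty (Cfsg.Out E ≃* Cfsg.isometryGroup (ZMod 2) (Cfsg.quadFormPlus n (ZMod 2)))) ∧ ((¬ ∃ A : Subgroup E, Cfsg.IsElementaryAbelian 2 A ∧ Nat.card ↥A = 2 ^ (n + 1)) → Nonempty (Cfsg.Out E ≃* Cfsg.isometryGroup (ZMod 2) (Cfsg.quadFormMinus (n - 1) (ZMod 2) 1 1))) := by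
  obtain ⟨V, _, _, _, c, a, b⟩ := es_exists hE hcard
  obtain ⟨e⟩ := c.out_equiv a
  rw [c.wi_eq_iff a b]
  refine ⟨fun h => ?_, fun h => ?_⟩
  · obtain ⟨e'⟩ := (isom_plus (c.qf_nondeg.2 a) b h).nonempty_iso
    exact ⟨e.trans (e'.trans (isomEquiv (plusF (ZMod 2) n)).symm)⟩
  · have := c.wi_cases a b
    obtain ⟨e'⟩ := (isom_minus (c.qf_nondeg.2 a) (n := n - 1) (by omega) (by omega)).nonempty_iso
    exact ⟨e.trans (e'.trans (isomEquiv (minusF (n - 1) (1 : ZMod 2) 1)).symm)⟩

end Cfsg.Agent.S5432
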