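import Cfsg.Statements.S5436
import Mathlib
import Cfsg.Agent.H2.LX3

set_option autoImplicit false
open Cfsg

namespace Cfsg.Agent.S5436

open Cfsg.Agent.H2 Subgroup

/-- Let z be an involution of the finite group G with centralizer H whose generalized Fitting subgroup Q is extraspecial of width at least 2 (order 2^(2w+1), w ≥ 2); suppose some conjugate of z other than z lies in Q, H/Q is a non-abelian simple group, H acts irreducibly by conjugation on Q modulo the subgroup generated by z (the only H-invariant subgroups of Q containing z are that subgroup and Q), and Q is not the subgroup generated by the conjugates of z lying in H. Then G is simple. -/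
theorem result {G : Type*} [Group G] [Finite G] (z : G) (hz : orderOf z = 2) (Q : Subgroup (Subgroup.centralizer ({z} : Set G))) [Q.Normal] (hF : Cfsg.generalizedFittingSubgroup ↥(Subgroup.centralizer ({z} : Set G)) = Q) (hQ : Cfsg.IsExtraspecial 2 ↥Q) (w : ℕ) (hw : 2 ≤ w) (hcard : Nat.card ↥Q = 2 ^ (2 * w + 1)) (hnwc : ∃ g : G, (∃ hq : g * z * g⁻¹ ∈ Subgroup.centralizer ({z} : Set G), (⟨g * z * g⁻¹, hq⟩ : Subgroup.centralizer ({z} : Set G)) ∈ Q) ∧ g * z * g⁻¹ ≠ z) (hsimp : IsSimpleGroup (↥(Subgroup.centralizer ({z} : Set G)) ⧸ Q)) (hna : ¬ IsMulCommutative (↥(Subgroup.centralizer ({z} : Set G)) ⧸ Q)) (hirr : ∀ W : Subgroup (Subgroup.centralizer ({z} : Set G)), W.Normal → W ≤ Q → (W = Q ∨ ∀ x ∈ W, (x : G) ∈ Subgroup.zpowers z)) (hwcl : Subgroup.closure {x : Subgroup.centralizer ({z} : Set G) | IsConj z (x : G)} ≠ Q) : IsSimpleGroup G := by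
  obtain ⟨h, hO⟩ := lx_of_Fs hz (Q := Q.map (centralizer ({z} : Set G)).subtype) (by rw [← hF])
    (isExtraspecial_congr (H8.mapSubtypeEquiv Q) hQ)
  obtain ⟨g, ⟨hq, a⟩, b⟩ := hnwc
  have hl := h.large_of_conj (g := g) ⟨_, a, rfl⟩ b
    (by rw [H8.card_map_subtype]; exact card_ne_eight hw hcard)
  refine h.isSimpleGroup hl.2.2.2 hO ?_
  set W := Subgroup.closure {x : centralizer ({z} : Set G) | IsConj z (x : G)} with hW
  haveI hWn : W.Normal := by
    refine H8.normal_iff_cj.2 fun c => ?_
    rw [hW, H8.cj, MonoidHom.map_closure, closure_le]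
    rintro _ ⟨x, hx, rfl⟩
    exact subset_closure (IsConj.trans hx (isConj_iff.2 ⟨c, rfl⟩))
  have h1 : Q ≤ W := by
    rcases hirr (W ⊓ Q) inferInstance inf_le_right with e | e
    · exact inf_eq_right.1 e
    · have := e ⟨_, hq⟩ ⟨subset_closure (isConj_iff.2 ⟨g, rfl⟩), a⟩
      rw [mem_zpowers_invol h.zz] at this
      exact absurd (this.resolve_left (h.cj g).ne) b
  have h2 : W = ⊤ := by
    rcases (hWn.map _ (QuotientGroup.mk'_surjective Q)).eq_bot_or_eq_top with e | e
    · rw [Subgroup.map_eq_bot_iff, QuotientGroup.ker_mk'] at e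
      exact absurd (le_antisymm e h1) hwcl
    · have := congrArg (comap (QuotientGroup.mk' Q)) e
      rwa [comap_map_eq, QuotientGroup.ker_mk', sup_eq_left.2 h1, comap_top] at this
  have h3 : W ≤ (normalClosure {z}).subgroupOf (centralizer ({z} : Set G)) := by
    rw [hW, closure_le]
    intro x hx
    obtain ⟨c, hc⟩ := isConj_iff.1 hx
    change (x : G) ∈ normalClosure {z}
    rw [← hc]
    exact normalClosure_normal.conj_mem _ (subset_normalClosure (Set.mem_singleton z)) c
  rw [h2] at h3
  exact fun x hx => h3 (mem_top ⟨x, hx⟩)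

end Cfsg.Agent.S5436
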