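import Cfsg.Statements.S5437
import Mathlib
import Cfsg.Agent.H2.LX

set_option autoImplicit false
open Cfsg

namespace Cfsg.Agent.S5437

open Cfsg.Agent.H2 Subgroup

/-- Let I be a set of involutions of the finite group G closed under conjugation, and H a subgroup of G. The following are equivalent: (1) for every member x of I lying in H, the conjugates of x lying in H form a single H-class and the centralizer of x lies in H; (2) for every g outside H, no member of I lies in both H and g H g⁻¹; (3) every member of I lying in H fixes exactly one coset in the action of G on the cosets of H. -/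
theorem result {G : Type*} [Group G] [Finite G] (I : Set G) (hI : ∀ x ∈ I, orderOf x = 2) (hIc : ∀ g : G, ∀ x ∈ I, g * x * g⁻¹ ∈ I) (H : Subgroup G) : ((∀ x ∈ I, x ∈ H → (∀ g : G, g * x * g⁻¹ ∈ H → ∃ h ∈ H, h * x * h⁻¹ = g * x * g⁻¹) ∧ Subgroup.centralizer ({x} : Set G) ≤ H) ↔ (∀ g : G, g ∉ H → ∀ x ∈ I, ¬ (x ∈ H ∧ x ∈ (H : Subgroup G).map (MulAut.conj g).toMonoidHom))) ∧ ((∀ g : G, g ∉ H → ∀ x ∈ I, ¬ (x ∈ H ∧ x ∈ (H : Subgroup G).map (MulAut.conj g).toMonoidHom)) ↔ ∀ x ∈ I, x ∈ H → ∃! c : G ⧸ H, x • c = c) := by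
  have hq : ∀ x g : G, x • (g : G ⧸ H) = g ↔ g⁻¹ * x * g ∈ H := fun x g => by
    rw [MulAction.Quotient.smul_coe, eq_comm, QuotientGroup.eq, smul_eq_mul, mul_assoc]
  simp only [mem_map_conj_iff]
  refine ⟨⟨fun h g hg x hx ⟨h1, h2⟩ => hg ?_, fun h x hx h1 => ?_⟩,
    ⟨fun h x hx h1 => ?_, fun h g hg x hx ⟨h1, h2⟩ => hg ?_⟩⟩
  · obtain ⟨k, hk, e⟩ := (h x hx h1).1 g⁻¹ (by simpa using h2)
    have : g * k ∈ H := (h x hx h1).2 (mem_cent1.2 (commute_of_conj_eq (by
      rw [mul_inv_rev, mul_assoc g, mul_assoc g, ← mul_assoc (k * x), e]; group)))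
    exact (mul_mem_cancel_right hk).1 this
  · have key : ∀ g, g * x * g⁻¹ ∈ H → g ∈ H := fun g hg => by
      by_contra hn
      exact h g⁻¹ (by simpa using hn) x hx ⟨h1, by simpa using hg⟩
    exact ⟨fun g hg => ⟨g, key g hg, rfl⟩,
      fun c hc => key c (by rwa [conj_eq_of_commute (mem_cent1.1 hc)])⟩
  · refine ⟨(1 : G), (hq _ _).2 (by simpa using h1), fun c hc => ?_⟩
    obtain ⟨g, rfl⟩ := QuotientGroup.mk_surjective c
    rw [QuotientGroup.eq, mul_one, inv_mem_iff]
    by_contra hn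
    exact h g hn x hx ⟨h1, (hq _ _).1 hc⟩
  · have := (h x hx h1).unique ((hq x g).2 h2) ((hq x 1).2 (by simpa using h1))
    rwa [QuotientGroup.eq, mul_one, inv_mem_iff] at this

end Cfsg.Agent.S5437
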