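import Cfsg.Statements.S5438
import Mathlib
import Cfsg.Agent.H2.LX

set_option autoImplicit false
open Cfsg

namespace Cfsg.Agent.S5438

open Cfsg.Agent.H2 Subgroup

/-- Let z be a 2-central involution of the finite group G (an involution central in some Sylow 2-subgroup) and H a subgroup containing z such that the coset H is the only coset of H fixed by z (in the action of G on the cosets of H). Then H has odd index in G, and for every 2-element x of H the conjugates of x lying in H form a single H-class. -/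
theorem result {G : Type*} [Group G] [Finite G] (z : G) (hz : Cfsg.IsTwoCentralInvolution z) (H : Subgroup G) (hzH : z ∈ H) (hfix : ∀ g : G, g⁻¹ * z * g ∈ H → g ∈ H) : Odd H.index ∧ ∀ x ∈ H, (∃ k : ℕ, orderOf x = 2 ^ k) → ∀ g : G, g * x * g⁻¹ ∈ H → ∃ h ∈ H, h * x * h⁻¹ = g * x * g⁻¹ := by
  obtain ⟨hz, P, hzP, hP⟩ := hz
  have h1 : (P : Subgroup G) ≤ H := fun x hx => hfix x (by
    rwa [mul_assoc, ← hP x hx, inv_mul_cancel_left])
  have hS := sylIn_top P
  have h2 := hS.not_dvd_relIndex_of_le h1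
  rw [relIndex_top_right] at h2
  refine ⟨Nat.odd_iff.2 (Nat.two_dvd_ne_zero.1 h2), ?_⟩
  rintro x hx ⟨k, hk⟩ g hg
  have hS' := sylIn_of_le P h1
  obtain ⟨a, ha, ea⟩ := hS'.exists_conj_mem hx hk
  obtain ⟨b, hb, eb⟩ := hS'.exists_conj_mem hg ((H2.orderOf_conj' g x).trans hk)
  obtain ⟨S, hS1, hS2⟩ := exists_sylIn_ge (isPGroup_zpowers_ord2 hz)
    (zpowers_le.2 (mem_cent1.2 (hP _ ea).symm) : zpowers z ≤ centralizer {a * x * a⁻¹})
  obtain ⟨u, -, hu⟩ := hS.exists_le_cj hS1.pgrp le_top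
  have h3 : S ≤ H := hu.trans (cj_le_of_le h1 (hfix u (h1 (H2.mem_cj.1 (hu (hS2 (mem_zpowers z)))))))
  obtain ⟨c, hc, ec⟩ := hS1.exists_conj_mem (x := (b * g * a⁻¹)⁻¹ * z * (b * g * a⁻¹)⁻¹⁻¹) (k := 1)
    (mem_cent1.2 (by
      have := commute_conj (show Commute z _ from (hP _ eb).symm) (b * g * a⁻¹)⁻¹
      convert this using 1; group)) (by rw [H2.orderOf_conj', hz]; rfl)
  have h4 : b * g * a⁻¹ * c⁻¹ ∈ H := hfix _ (by
    convert h3 ec using 1; group)
  refine ⟨b⁻¹ * (b * g * a⁻¹ * c⁻¹) * a, mul_mem (mul_mem (inv_mem hb) h4) ha, ?_⟩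
  have := conj_eq_of_commute (mem_cent1.1 (inv_mem hc))
  calc _ = g * a⁻¹ * (c⁻¹ * (a * x * a⁻¹) * c⁻¹⁻¹) * a * g⁻¹ := by group
    _ = _ := by rw [this]; group

end Cfsg.Agent.S5438
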