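import Cfsg.Statements.S5439
import Mathlib
import Cfsg.Agent.H2.LX

set_option autoImplicit false
open Cfsg

namespace Cfsg.Agent.S5439

open Cfsg.Agent.H2 Subgroup

/-- Let I and J be two different conjugacy classes of involutions of the finite group G and H a subgroup such that every member of I ∪ J fixes exactly one coset in the action on the cosets of H, and such that for every a in I ∩ H and every b in (I ∪ J) ∩ H different from a and commuting with it, the centralizer of a b lies in H. Then H = G. -/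
theorem result {G : Type*} [Group G] [Finite G] (I J : Set G) (a₀ b₀ : G) (ha₀ : orderOf a₀ = 2) (hb₀ : orderOf b₀ = 2) (hI : I = {x | IsConj a₀ x}) (hJ : J = {x | IsConj b₀ x}) (hIJ : I ≠ J) (H : Subgroup G) (hfix : ∀ x ∈ I ∪ J, ∃! c : G ⧸ H, x • c = c) (hcent : ∀ a ∈ I, a ∈ H → ∀ b ∈ I ∪ J, b ∈ H → a ≠ b → a * b = b * a → Subgroup.centralizer ({a * b} : Set G) ≤ H) : H = ⊤ := by
  have hq : ∀ x g : G, x • (g : G ⧸ H) = g ↔ g⁻¹ * x * g ∈ H := fun x g => by
    rw [MulAction.Quotient.smul_coe, eq_comm, QuotientGroup.eq, smul_eq_mul, mul_assoc]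
  have h1 : ∀ x ∈ I ∪ J, x ∈ H → ∀ g, g⁻¹ * x * g ∈ H → g ∈ H := fun x hx hxH g hg => by
    have := (hfix x hx).unique ((hq x g).2 hg) ((hq x 1).2 (by simpa using hxH))
    rwa [QuotientGroup.eq, mul_one, inv_mem_iff] at this
  have h2 : ∀ x ∈ I ∪ J, ∃ y ∈ H, IsConj x y := fun x hx => by
    obtain ⟨c, hc, -⟩ := hfix x hx
    obtain ⟨g, rfl⟩ := QuotientGroup.mk_surjective c
    exact ⟨_, (hq _ _).1 hc, isConj_iff.2 ⟨g⁻¹, by simp⟩⟩
  obtain ⟨a, haH, ha⟩ := h2 a₀ (.inl (hI ▸ IsConj.refl _))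
  obtain ⟨b', hbH, hb'⟩ := h2 b₀ (.inr (hJ ▸ IsConj.refl _))
  rw [eq_top_iff]
  intro g _
  set b := g⁻¹ * b' * g with hbdef
  have hb : IsConj b₀ b := hb'.trans (isConj_iff.2 ⟨g⁻¹, by simp [hbdef]⟩)
  refine h1 b' (.inr (hJ ▸ hb')) hbH g ?_
  have a2 : orderOf a = 2 := (orderOf_of_isConj ha).symm.trans ha₀
  have b2 : orderOf b = 2 := (orderOf_of_isConj hb).symm.trans hb₀
  have aa := ord2_mul_self a2
  have bb := ord2_mul_self b2
  have hev : Even (orderOf (a * b)) := by
    by_contra hn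
    have h3 := (ha.trans (isConj_of_odd aa bb (Nat.not_even_iff_odd.1 hn))).trans hb.symm
    refine hIJ (by rw [hI, hJ]; ext x; exact ⟨fun h => h3.symm.trans h, fun h => h3.trans h⟩)
  obtain ⟨c2, ca, cb⟩ := half_spec aa bb hev
  generalize orderOf (a * b) / 2 = k at *
  have haI : a ∈ I := hI ▸ ha
  have hcH : (a * b) ^ k ∈ H := h1 a (.inl haI) haH _ (by
    rwa [mul_assoc, ← ca.eq, inv_mul_cancel_left])
  have h3 : a * (a * b) ^ k ∈ I ∪ J := by
    obtain ⟨j, rfl | rfl⟩ := Nat.even_or_odd' k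
    · left
      rw [hI]
      refine ha.trans (isConj_iff.2 ⟨((a * b) ^ j)⁻¹, ?_⟩)
      have := inv_conj_pow (inverts_left aa bb) j
      rw [inv_inv, ← this, two_mul, pow_add]; simp only [mul_assoc, inv_mul_cancel_left]
    · right
      rw [hJ]
      refine hb.trans (isConj_iff.2 ⟨((a * b) ^ j)⁻¹, ?_⟩)
      have := inv_conj_pow (inverts_right aa bb) j
      rw [inv_inv, ← this, pow_succ', two_mul, pow_add, ← mul_assoc a (a * b), ← mul_assoc a a, aa]
      simp only [mul_assoc, inv_mul_cancel_left, one_mul]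
  have := hcent a haI haH _ h3 (mul_mem haH hcH) (by simpa using ord2_ne_one c2)
    (by rw [mul_assoc, ca.eq])
  rw [← mul_assoc, aa, one_mul] at this
  exact this (mem_cent1.2 cb.symm)

end Cfsg.Agent.S5439
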