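import Cfsg.Statements.S5459
import Cfsg.Agent.H9.Tr1

set_option autoImplicit false
open Cfsg

namespace Cfsg.Agent.S5459

open Cfsg.Agent Cfsg.Agent.H9
open Cfsg.Agent.H6 Subgroup
open scoped commutatorElement

/-- Let G be a finite group with a quasisimple normal subgroup L and an involution d such that G is generated by L and d, the centre of L has odd order, and d inverts every element of the centre of L. If the commuting graph on the conjugacy class of the image of d in G modulo the centre of L is connected, then the commuting graph on the conjugacy class of d is connected. -/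
theorem result {G : Type*} [Group G] [Finite G] (L : Subgroup G) [L.Normal] (hL : Cfsg.IsQuasisimple ↥L) (d : G) (hd : orderOf d = 2) (hgen : L ⊔ Subgroup.zpowers d = ⊤) (hodd : Odd (Nat.card ↥(Subgroup.center ↥L))) (hinv : ∀ c ∈ (Subgroup.center ↥L).map L.subtype, d * c * d⁻¹ = c⁻¹) [hn : ((Subgroup.center ↥L).map L.subtype).Normal] (hconn : (Cfsg.commutingGraph (conjugatesOf (QuotientGroup.mk d : G ⧸ (Subgroup.center ↥L).map L.subtype))).Connected) : (Cfsg.commutingGraph (conjugatesOf d)).Connected := by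
  set Z := (Subgroup.center ↥L).map L.subtype with hZ
  have sq := conjs_sq hd
  have hd' : d ∈ conjugatesOf d := IsConj.refl d
  have od : ∀ c ∈ Z, ∃ k, c ^ (2 * k + 1) = 1 := by
    rintro _ ⟨c, hc, rfl⟩
    obtain ⟨k, hk⟩ := hodd
    exact ⟨k, by rw [← hk]; exact congrArg (fun x : center L => (x.1 : G)) (pow_card_eq_one' (x := ⟨c, hc⟩))⟩
  have rc : ∀ g a b, Rc (conjugatesOf d) a b → Rc (conjugatesOf d) (g * a * g⁻¹) (g * b * g⁻¹) := by
    intro g a b r
    induction r with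
    | refl => exact .refl
    | step _ hz c ih => exact ih.step (conjs_cj g _ hz) ((comm_cj_iff g).2 c)
  rw [connected_iff (show (d : G ⧸ Z) ∈ conjugatesOf _ from IsConj.refl _)] at hconn
  rw [connected_iff hd']
  have l1 : ∀ y, Rc (conjugatesOf (d : G ⧸ Z)) d y → ∃ a : G, Rc (conjugatesOf d) d a ∧ (a : G ⧸ Z) = y := by
    intro y r
    induction r with
    | refl => exact ⟨d, .refl, rfl⟩
    | step _ hz c ih =>
      obtain ⟨a, r, rfl⟩ := ih
      obtain ⟨g, rfl⟩ := isConj_iff.1 hz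
      obtain ⟨g, rfl⟩ := QuotientGroup.mk_surjective g
      have ha := r.mem hd'
      have hb := conjs_cj g d hd'
      change Commute _ ((g * d * g⁻¹ : G) : G ⧸ Z) at c
      change ∃ a : G, _ ∧ _ = ((g * d * g⁻¹ : G) : G ⧸ Z)
      generalize g * d * g⁻¹ = b at c hb
      have m : (a * b) ^ 2 ∈ Z := (QuotientGroup.eq_one_iff _).1 (sq_of_commute (G := G ⧸ Z)
        (by rw [← QuotientGroup.mk_mul, sq a ha]; rfl) (by rw [← QuotientGroup.mk_mul, sq b hb]; rfl) c)
      obtain ⟨k, hk⟩ := od _ m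
      refine ⟨a * (a * b) ^ (2 * k + 1), r.step ?_ ((Commute.refl a).mul_right (dih_comm (sq a ha) (sq b hb)
        (by rw [← pow_two, ← pow_mul, mul_comm, pow_mul, hk])).1), ?_⟩
      · rw [← dih_odd (sq a ha) (sq b hb)]; exact conjs_cj _ b hb
      · rw [dih_succ (sq a ha), pow_mul, QuotientGroup.mk_mul, (QuotientGroup.eq_one_iff _).2 (pow_mem m k), mul_one]
  let H : Subgroup G :=
    { carrier := {g | Rc (conjugatesOf d) d (g * d * g⁻¹)}
      one_mem' := by simpa using Rc.refl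
      mul_mem' := fun {x y} a b => by
        have := Rc.trans a (rc x _ _ b)
        rwa [show x * (y * d * y⁻¹) * x⁻¹ = x * y * d * (x * y)⁻¹ by group] at this
      inv_mem' := fun {x} a => by
        have := rc x⁻¹ _ _ (Rc.symm hd' a)
        rwa [show x⁻¹ * (x * d * x⁻¹) * x⁻¹⁻¹ = d by group] at this }
  have l2 : ∀ g, ∃ z ∈ Z, z * g ∈ H := fun g => by
    obtain ⟨a, r, e⟩ := l1 _ (hconn _ (isConj_iff.2 ⟨(g : G ⧸ Z), rfl⟩))
    have m : a⁻¹ * (g * d * g⁻¹) ∈ Z := QuotientGroup.eq.1 e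
    obtain ⟨k, hk⟩ := od _ m
    generalize hc : a⁻¹ * (g * d * g⁻¹) = c at m hk
    have i : g * d * g⁻¹ * c * (g * d * g⁻¹)⁻¹ = c⁻¹ := by
      have := hinv _ (hn.conj_mem _ m g⁻¹)
      rw [show g * d * g⁻¹ * c * (g * d * g⁻¹)⁻¹ = g * (d * (g⁻¹ * c * g⁻¹⁻¹) * d⁻¹) * g⁻¹ by group, this]
      group
    refine ⟨(c ^ k)⁻¹, inv_mem (pow_mem m k), ?_⟩
    show Rc _ d _
    rw [show (c ^ k)⁻¹ * g * d * ((c ^ k)⁻¹ * g)⁻¹ = (c ^ k)⁻¹ * (g * d * g⁻¹) * (c ^ k)⁻¹⁻¹ by group,
      conj_inv_odd i hk, ← hc, mul_inv_rev, inv_inv, mul_inv_cancel_left]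
    exact r
  have l3 : L ≤ H := by
    have : commutator L ≤ H.subgroupOf L := by
      rw [commutator_def, commutator_le]
      intro x _ y _
      obtain ⟨_, ⟨z, hz, rfl⟩, a⟩ := l2 x
      obtain ⟨_, ⟨w, hw, rfl⟩, b⟩ := l2 y
      have : ⁅z * x, w * y⁆ ∈ H.subgroupOf L := by
        rw [commutatorElement_def]
        exact mul_mem (mul_mem (mul_mem a b) (inv_mem a)) (inv_mem b)
      rwa [show ⁅z * x, w * y⁆ = ⁅x, y⁆ by
        rw [commutatorElement_def, commutatorElement_def, mul_inv_rev, mul_inv_rev,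
          show z * x * (w * y) * (x⁻¹ * z⁻¹) * (y⁻¹ * w⁻¹) = z * (x * (w * y) * x⁻¹) * z⁻¹ * (y⁻¹ * w⁻¹) by group,
          ← mem_center_iff.1 hz, mul_inv_cancel_right, ← mem_center_iff.1 hw,
          show x * (y * w) * x⁻¹ * (y⁻¹ * w⁻¹) = x * y * (w * (x⁻¹ * y⁻¹)) * w⁻¹ by group, ← mem_center_iff.1 hw]
        group] at this
    rw [hL.1.commutator_eq_top, top_le_iff, subgroupOf_eq_top] at this
    exact this
  intro x hx
  obtain ⟨g, rfl⟩ := isConj_iff.1 hx
  exact (sup_le l3 (zpowers_le.2 (show Rc _ d _ by simpa using Rc.refl)) : _ ≤ H) (hgen.ge (mem_top g))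

end Cfsg.Agent.S5459
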