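import Cfsg.Statements.S5515
import Cfsg.Agent.H5.OutD
import Cfsg.Agent.H5.Rp2
import Cfsg.Agent.S1265

set_option autoImplicit false
open Cfsg

namespace Cfsg.Agent.S5515

theorem stab {f : Equiv.Perm (Fin 3) →* Equiv.Perm (Fin 4)} (hf : Function.Injective f) :
    ∃ a, ∀ y, y ∈ f.range ↔ y a = a := by
  have key : ∀ x : Equiv.Perm (Fin 4), x ^ 3 = 1 → x ≠ 1 → ∃ a, ∀ y, (y * x * y⁻¹ = x ∨ y * x * y⁻¹ = x⁻¹) → y a = a := by
    decide +kernel
  have k2 : ∀ σ : Equiv.Perm (Fin 3), σ * finRotate 3 * σ⁻¹ = finRotate 3 ∨ σ * finRotate 3 * σ⁻¹ = (finRotate 3)⁻¹ := by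
    decide +kernel
  obtain ⟨a, ha⟩ := key (f (finRotate 3)) (by rw [← map_pow, show finRotate 3 ^ 3 = 1 by decide +kernel, map_one])
    fun h => absurd (hf (h.trans (map_one f).symm)) (by decide +kernel)
  have h1 : f.range ≤ MulAction.stabilizer (Equiv.Perm (Fin 4)) a := by
    rintro _ ⟨σ, rfl⟩
    refine ha _ ?_
    rw [← map_inv, ← map_mul, ← map_mul, ← map_inv]
    exact (k2 σ).imp (congrArg f) (congrArg f)
  have h2 : Nat.card (MulAction.stabilizer (Equiv.Perm (Fin 4)) a) = 6 := by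
    have := Subgroup.card_mul_index (MulAction.stabilizer (Equiv.Perm (Fin 4)) a)
    rw [MulAction.index_stabilizer_of_transitive, Nat.card_perm] at this
    generalize Nat.card (MulAction.stabilizer (Equiv.Perm (Fin 4)) a) = k at this
    simp [Nat.factorial] at this
    omega
  have h3 := Subgroup.eq_of_le_of_card_ge h1 (by
    rw [h2, ← Nat.card_congr (MonoidHom.ofInjective hf).toEquiv, Nat.card_perm]; simp [Nat.factorial])
  exact ⟨a, fun y => by rw [h3]; rfl⟩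

theorem emb {G L : Type*} [Group G] [Group L] {N : Subgroup G} [N.Normal] (hC : Subgroup.centralizer (N : Set G) ≤ N)
    (e : N ≃* L) (hZ : Subgroup.center L = ⊥) (ψ : Out L ≃* Equiv.Perm (Fin 4)) (q : G ⧸ N ≃* Equiv.Perm (Fin 3)) :
    ∃ φ : G →* MulAut L, Function.Injective φ ∧ ∃ a, ∀ β, β ∈ φ.range ↔ ψ (QuotientGroup.mk' (Inn L) β) a = a := by
  let φ : G →* MulAut L := (MulAut.congr e).toMonoidHom.comp MulAut.conjNormal
  have hφ : ∀ n : N, φ n = MulAut.conj (e n) := fun n => by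
    ext x
    obtain ⟨x, rfl⟩ := e.surjective x
    simp only [φ, MonoidHom.comp_apply, MulEquiv.coe_toMonoidHom, MulAut.congr_apply, MulEquiv.trans_apply,
      MulEquiv.symm_apply_apply, MulAut.conj_apply, ← map_inv, ← map_mul]
    rfl
  have hinj : Function.Injective φ := (injective_iff_map_eq_one _).2 fun g hg => by
    have h1 : MulAut.conjNormal (H := N) g = 1 := (MulAut.congr e).injective (hg.trans (map_one _).symm)
    have h2 : g ∈ N := hC fun n hn => by
      have := congrArg (fun θ : MulAut N => (θ ⟨n, hn⟩ : G)) h1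
      simp only [MulAut.conjNormal_apply, MulAut.one_apply] at this
      rw [mul_inv_eq_iff_eq_mul] at this
      exact this.symm
    have h3 : e ⟨g, h2⟩ ∈ Subgroup.center L := Subgroup.mem_center_iff.2 fun x => by
      have := congrArg (fun θ : MulAut L => θ x) ((hφ ⟨g, h2⟩).symm.trans hg)
      simp only [MulAut.conj_apply, MulAut.one_apply] at this
      rw [mul_inv_eq_iff_eq_mul] at this
      exact this.symm
    rw [hZ, Subgroup.mem_bot, map_eq_one_iff _ e.injective] at h3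
    exact congrArg Subtype.val h3
  let κ := (QuotientGroup.mk' (Inn L)).comp φ
  have hk : ∀ g, κ g = 1 ↔ g ∈ N := fun g => by
    refine (QuotientGroup.eq_one_iff (N := Inn L) _).trans ⟨?_, fun h => ⟨e ⟨g, h⟩, (hφ ⟨g, h⟩).symm⟩⟩
    rintro ⟨l, hl⟩
    obtain ⟨n, rfl⟩ := e.surjective l
    rw [← hinj ((hφ n).trans hl)]
    exact n.2
  let f := ψ.toMonoidHom.comp ((QuotientGroup.lift N κ fun g hg => (hk g).2 hg).comp q.symm.toMonoidHom)
  have hf : ∀ g : G, f (q g) = ψ (κ g) := fun g => by simp [f]; rfl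
  obtain ⟨a, ha⟩ := stab (f := f) ((injective_iff_map_eq_one _).2 fun σ h => by
    obtain ⟨x, rfl⟩ := q.surjective σ
    obtain ⟨g, rfl⟩ := QuotientGroup.mk_surjective x
    rw [hf, map_eq_one_iff _ ψ.injective, hk] at h
    rw [(QuotientGroup.eq_one_iff g).2 h, map_one])
  refine ⟨φ, hinj, a, fun β => (Iff.trans ⟨?_, ?_⟩ (ha _))⟩
  · rintro ⟨g, rfl⟩
    exact ⟨_, hf g⟩
  · rintro ⟨σ, h⟩
    obtain ⟨x, rfl⟩ := q.surjective σ
    obtain ⟨g, rfl⟩ := QuotientGroup.mk_surjective x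
    rw [hf] at h
    obtain ⟨_, ⟨l, rfl⟩, h1⟩ := (QuotientGroup.mk'_eq_mk' _).1 (ψ.injective h)
    obtain ⟨n, rfl⟩ := e.surjective l
    exact ⟨g * n, by rw [map_mul, hφ, h1]⟩

theorem uniq {G G' L : Type*} [Group G] [Group G'] [Group L] {N : Subgroup G} [N.Normal] {N' : Subgroup G'} [N'.Normal]
    (hC : Subgroup.centralizer (N : Set G) ≤ N) (hC' : Subgroup.centralizer (N' : Set G') ≤ N')
    (e : N ≃* L) (e' : N' ≃* L) (hZ : Subgroup.center L = ⊥) (ψ : Out L ≃* Equiv.Perm (Fin 4))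
    (q : G ⧸ N ≃* Equiv.Perm (Fin 3)) (q' : G' ⧸ N' ≃* Equiv.Perm (Fin 3)) : Nonempty (G ≃* G') := by
  obtain ⟨φ, h1, a, ha⟩ := emb hC e hZ ψ q
  obtain ⟨φ', h1', a', ha'⟩ := emb hC' e' hZ ψ q'
  obtain ⟨α, hα⟩ := QuotientGroup.mk'_surjective _ (ψ.symm (Equiv.swap a a'))
  have h2 : φ.range.map (MulAut.conj α).toMonoidHom = φ'.range := by
    ext β
    rw [Subgroup.mem_map_equiv, ha, ha', MulAut.conj_symm_apply]
    simp only [map_mul, map_inv, hα, MulEquiv.apply_symm_apply, Equiv.Perm.mul_apply, Equiv.swap_apply_left,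
      Equiv.Perm.inv_eq_iff_eq]
  exact ⟨(MonoidHom.ofInjective h1).trans ((((MulAut.conj α).subgroupMap φ.range).trans (MulEquiv.subgroupCongr h2)).trans
    (MonoidHom.ofInjective h1').symm)⟩

theorem aux {F : Type} [Field F] [Finite F] [Unique (F ≃+* F)] (h2 : (2 : F) ≠ 0) :
    ∃ (L : Type) (_ : Group L), Nonempty (L ≃* Cfsg.POmega F (Cfsg.quadFormPlus 4 F)) ∧ Subgroup.center L = ⊥ ∧
      Nonempty (Out L ≃* Equiv.Perm (Fin 4)) := by
  obtain ⟨e1⟩ := H5.OutD.prod F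
  obtain ⟨e2⟩ := H5.OutD.K_odd F h2
  refine ⟨↥(Cfsg.Lie.chevD4.group F), inferInstance, H5.pomegaD4, ?_, ⟨e1.trans (MulEquiv.prodUnique.trans e2)⟩⟩
  rw [← H5.StN.ker_eq_center (H5.rsD4.adj_gen F), MonoidHom.ker_eq_bot_iff]
  exact H5.rsD4.adj_inj _

/-- Let G and G′ be finite groups whose generalized Fitting subgroups are isomorphic to PΩ⁺(8, 3) (the commutator subgroup of the isometry group of the hyperbolic quadratic form in dimension 8 over the field with three elements, modulo its centre) with quotients isomorphic to the symmetric group of degree 3. Then G and G′ are isomorphic. -/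
theorem result {G G' : Type*} [Group G] [Finite G] [Group G'] [Finite G'] (hF : Nonempty (↥(Cfsg.generalizedFittingSubgroup G) ≃* Cfsg.POmega (ZMod 3) (Cfsg.quadFormPlus 4 (ZMod 3)))) (hF' : Nonempty (↥(Cfsg.generalizedFittingSubgroup G') ≃* Cfsg.POmega (ZMod 3) (Cfsg.quadFormPlus 4 (ZMod 3)))) [hn : (Cfsg.generalizedFittingSubgroup G).Normal] [hn' : (Cfsg.generalizedFittingSubgroup G').Normal] (hq : Nonempty (G ⧸ Cfsg.generalizedFittingSubgroup G ≃* Equiv.Perm (Fin 3))) (hq' : Nonempty (G' ⧸ Cfsg.generalizedFittingSubgroup G' ≃* Equiv.Perm (Fin 3))) : Nonempty (G ≃* G') := by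
  haveI : Unique (ZMod 3 ≃+* ZMod 3) := ⟨⟨1⟩, fun σ => RingEquiv.toRingHom_injective (Subsingleton.elim _ _)⟩
  obtain ⟨L, _, ⟨e0⟩, hZ, ⟨ψ⟩⟩ := aux (F := ZMod 3) (by decide : (2 : ZMod 3) ≠ 0)
  obtain ⟨e⟩ := hF
  obtain ⟨e'⟩ := hF'
  obtain ⟨q⟩ := hq
  obtain ⟨q'⟩ := hq'
  exact uniq S1265.result S1265.result (e.trans e0.symm) (e'.trans e0.symm) hZ ψ q q'

end Cfsg.Agent.S5515
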