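import Cfsg.Statements.S5541
import Cfsg.Agent.H9.Maj

set_option autoImplicit false
open Cfsg

namespace Cfsg.Agent.S5541

open Cfsg.Agent Cfsg.Agent.H9

/-- Let ρ be a representation of a group H on a finite-dimensional real vector space U whose only ρ-invariant subspaces are the zero subspace and U, and suppose U carries a non-zero ρ-invariant symmetric bilinear form. Then the following are equivalent: (1) there is a non-zero ρ-equivariant commutative bilinear product on U of which every ρ-equivariant bilinear product is a scalar multiple; (2) there is a non-zero ρ-invariant trilinear form on U that is symmetric under all permutations of its arguments and of which every ρ-invariant trilinear form is a scalar multiple. -/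
theorem result {H : Type*} [Group H] {U : Type*} [AddCommGroup U] [Module ℝ U] [FiniteDimensional ℝ U] (ρ : Representation ℝ H U) (hirr : ∀ W : Submodule ℝ U, (∀ g : H, W.map (ρ g) ≤ W) → W = ⊥ ∨ W = ⊤) (B : LinearMap.BilinForm ℝ U) (hB0 : B ≠ 0) (hBs : ∀ u v, B u v = B v u) (hBi : ∀ (g : H) (u v : U), B (ρ g u) (ρ g v) = B u v) : (∃ m : U →ₗ[ℝ] U →ₗ[ℝ] U, m ≠ 0 ∧ (∀ u v, m u v = m v u) ∧ (∀ (g : H) (u v : U), m (ρ g u) (ρ g v) = ρ g (m u v)) ∧ ∀ m' : U →ₗ[ℝ] U →ₗ[ℝ] U, (∀ (g : H) (u v : U), m' (ρ g u) (ρ g v) = ρ g (m' u v)) → ∃ c : ℝ, m' = c • m) ↔ (∃ t : U →ₗ[ℝ] U →ₗ[ℝ] U →ₗ[ℝ] ℝ, t ≠ 0 ∧ (∀ u v w, t u v w = t v u w ∧ t u v w = t u w v) ∧ (∀ (g : H) (u v w : U), t (ρ g u) (ρ g v) (ρ g w) = t u v w) ∧ ∀ t' : U →ₗ[ℝ] U →ₗ[ℝ] U →ₗ[ℝ] ℝ, (∀ (g : H) (u v w : U), t' (ρ g u) (ρ g v) (ρ g w) = t' u v w) → ∃ c : ℝ, t' = c • t) := by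
  have nd : B.Nondegenerate := by
    have : LinearMap.ker B = ⊥ := (hirr (LinearMap.ker B) (by
      rintro g _ ⟨u, hu, rfl⟩
      refine LinearMap.ext fun v => ?_
      have := hBi g u (ρ g⁻¹ v)
      rw [Representation.self_inv_apply, LinearMap.mem_ker.1 hu] at this
      exact this)).resolve_right fun e => hB0 (LinearMap.ker_eq_top.1 e)
    exact LinearMap.BilinForm.nondegenerate_iff_ker_eq_bot.2 this
  let e := B.toDual nd
  have he : ∀ u v, e u v = B u v := fun u v => rfl
  have k : ∀ m : U →ₗ[ℝ] U →ₗ[ℝ] U, (∀ (g : H) (u v : U), m (ρ g u) (ρ g v) = ρ g (m u v)) ↔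
      ∀ (g : H) (u v w : U), B (m (ρ g u) (ρ g v)) (ρ g w) = B (m u v) w := fun m =>
    ⟨fun h g u v w => by rw [h, hBi], fun h g u v => e.injective (LinearMap.ext fun w => by
      rw [he, he, ← Representation.self_inv_apply ρ g w, h, hBi])⟩
  have k' : ∀ (t : U →ₗ[ℝ] U →ₗ[ℝ] U →ₗ[ℝ] ℝ) u v w, B (t.compr₂ e.symm.toLinearMap u v) w = t u v w :=
    fun t u v w => by rw [← he]; simp
  constructor
  · rintro ⟨m, m0, mc, mi, mu⟩
    have uq : ∀ t' : U →ₗ[ℝ] U →ₗ[ℝ] U →ₗ[ℝ] ℝ, (∀ (g : H) (u v w : U), t' (ρ g u) (ρ g v) (ρ g w) = t' u v w) →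
        ∃ c : ℝ, ∀ u v w, t' u v w = c * B (m u v) w := fun t' h => by
      obtain ⟨c, hc⟩ := mu (t'.compr₂ e.symm.toLinearMap) ((k _).2 fun g u v w => by rw [k', k', h])
      exact ⟨c, fun u v w => by rw [← k', hc]; simp⟩
    refine ⟨m.compr₂ B, fun h => m0 ?_, fun u v w => ⟨by simp [mc u v], ?_⟩, (k m).1 mi, fun t' h => ?_⟩
    · ext u v
      exact e.injective ((LinearMap.congr_fun₂ h u v).trans (map_zero e).symm)
    · obtain ⟨c, hc⟩ := uq ((LinearMap.lflip.toLinearMap).comp (m.compr₂ B)) fun g u v w => (k m).1 mi g u w v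
      have hc : ∀ u v w, B (m u w) v = c * B (m u v) w := hc
      show B (m _ v) w = B (m _ w) v
      by_cases c1 : c = 1
      · rw [hc, c1, one_mul]
      have a : ∀ u v w, (1 - c) * ((1 + c) * B (m u v) w) = 0 := fun u v w => by
        linear_combination hc u w v + c * hc u v w
      have b : ∀ u v w, B (m u v) w = -(c * B (m u v) w) := fun u v w => by
        linear_combination (mul_eq_zero.1 (a u v w)).resolve_left (sub_ne_zero.2 (Ne.symm c1))
      have d : ∀ u v w, B (m u v) w = -B (m u w) v := fun u v w => by rw [hc u v w]; exact b u v w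
      have z : ∀ u v w, B (m u v) w = 0 := fun u v w => by
        have h1 := d u v w
        have h2 := d w u v
        have h3 := d v w u
        rw [mc u w] at h1; rw [mc w v] at h2; rw [mc v u] at h3
        linarith
      rw [z, z]
    · obtain ⟨c, hc⟩ := uq t' h
      exact ⟨c, by ext u v w; simpa using hc u v w⟩
  · rintro ⟨t, t0, ts, ti, tu⟩
    refine ⟨t.compr₂ e.symm.toLinearMap, fun h => t0 ?_, fun u v => e.injective (LinearMap.ext fun w => ?_),
      (k _).2 fun g u v w => by rw [k', k', ti], fun m h => ?_⟩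
    · ext u v w
      rw [← k', h]; simp
    · rw [he, he, k', k', (ts u v w).1]
    · obtain ⟨c, hc⟩ := tu (m.compr₂ B) ((k m).1 h)
      refine ⟨c, LinearMap.ext₂ fun u v => e.injective (LinearMap.ext fun w => ?_)⟩
      have := LinearMap.congr_fun (LinearMap.congr_fun₂ hc u v) w
      simpa [he, k'] using this

end Cfsg.Agent.S5541
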