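import Cfsg.Statements.S5543
import Cfsg.Agent.H9.Maj

set_option autoImplicit false
open Cfsg

namespace Cfsg.Agent.S5543

open Cfsg.Agent Cfsg.Agent.H9

/-- Let V be a finite-dimensional real vector space with a commutative bilinear product and a positive-definite symmetric bilinear form that associates with the product and satisfies the Norton inequality (the Majorana setting of the definitions). Let X be a group of linear automorphisms of V in which every element squares to the identity, and suppose every non-identity element x of X is a Majorana involution with an axial vector a(x) of squared length 1, such that for any two distinct non-identity x, y the product a(x) ∘ a(y) equals (1/8)(a(x) + a(y) − a(xy)) (the dihedral subalgebra of type 2A whose third axis belongs to the involution xy). Then X has order at most 4. -/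
theorem result {V : Type*} [AddCommGroup V] [Module ℝ V] [FiniteDimensional ℝ V] (mul : V →ₗ[ℝ] V →ₗ[ℝ] V) (B : LinearMap.BilinForm ℝ V) (hV : Cfsg.Axial.IsMajoranaAmbient mul B) (X : Subgroup (V ≃ₗ[ℝ] V)) (hX : ∀ x ∈ X, x * x = 1) (ax : (V ≃ₗ[ℝ] V) → V) (hax : ∀ x ∈ X, x ≠ 1 → Cfsg.Axial.IsMajoranaPair mul B x (ax x)) (h1 : ∀ x ∈ X, x ≠ 1 → B (ax x) (ax x) = 1) (h2A : ∀ x ∈ X, ∀ y ∈ X, x ≠ 1 → y ≠ 1 → x ≠ y → mul (ax x) (ax y) = (1 / 8 : ℝ) • (ax x + ax y - ax (x * y))) : Nat.card ↥X ≤ 4 := by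
  by_contra! c
  have := Nat.finite_of_card_ne_zero (α := X) (by omega)
  have k : ∀ s : Finset X, s.card ≤ 4 → ∃ x, x ∉ s := fun s hs => by
    have := Fintype.ofFinite X
    by_contra! h
    have := Finset.card_le_card (s := Finset.univ) (t := s) fun x _ => h x
    rw [Finset.card_univ, ← Nat.card_eq_fintype_card] at this
    omega
  classical
  obtain ⟨x, hx⟩ := k {1} (by simp)
  obtain ⟨y, hy⟩ := k {1, x} (Finset.card_le_two.trans (by norm_num))
  obtain ⟨z, hz⟩ := k {1, x, y, x * y} Finset.card_le_four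
  simp only [Finset.mem_insert, Finset.mem_singleton, not_or] at hx hy hz
  have sq : ∀ x : X, x * x = 1 := fun x => Subtype.ext (hX x x.2)
  have sq' : ∀ x y : X, x * (x * y) = y := fun x y => by rw [← mul_assoc, sq, one_mul]
  have cm : ∀ x y : X, x * y = y * x := fun x y => by
    rw [← mul_inv_eq_one, mul_inv_rev, inv_eq_of_mul_eq_one_right (sq x), inv_eq_of_mul_eq_one_right (sq y), sq]
  have P : ∀ x y : X, x ≠ 1 → y ≠ 1 → x ≠ y → mul (ax x) (ax y) = (1 / 8 : ℝ) • (ax x + ax y - ax (x * y : X)) :=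
    fun x y a b c => h2A x x.2 y y.2 (by simpa using a) (by simpa using b) (Subtype.coe_ne_coe.2 c)
  have n1 : ∀ {x y : X}, y ≠ x → x * y ≠ 1 := fun {x y} h e => h (by rw [← sq' x y, e, mul_one])
  have n2 : ∀ {x y : X}, y ≠ 1 → x ≠ x * y := fun h e => h (left_eq_mul.1 e)
  have Q : ∀ w : X, w ≠ 1 → w ≠ x → mul (ax x) (ax w - ax (x * w : X)) = (1 / 4 : ℝ) • (ax w - ax (x * w : X)) :=
    fun w a b => by
      rw [map_sub, P x w hx a b.symm, P x _ hx (n1 b) (n2 a), sq']; module
  have yz1 : y * z ≠ 1 := n1 hz.2.2.1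
  have yzx : y * z ≠ x := fun e => hz.2.2.2 (by rw [← e, cm, sq'])
  obtain ⟨l, w, e, e'⟩ := fus44 (hax x x.2 (by simpa using hx)) (Q y hy.1 hy.2) (Q z hz.1 hz.2.1)
  simp only [map_sub, LinearMap.sub_apply] at e
  rw [P y z hy.1 hz.1 (Ne.symm hz.2.2.1), P y _ hy.1 (n1 hz.2.1) (fun e => hz.2.2.2 (by rw [e, sq'])),
    P _ z (n1 hy.2) hz.1 (Ne.symm hz.2.2.2), P _ _ (n1 hy.2) (n1 hz.2.1) (fun e => hz.2.2.1 (mul_left_cancel e).symm),
    show y * (x * z) = x * (y * z) by rw [← mul_assoc, cm y, mul_assoc], mul_assoc x y z,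
    show x * y * (x * z) = y * z by rw [cm x y, mul_assoc, sq']] at e
  have q := Q _ yz1 yzx
  generalize hv : ax (y * z : X) - ax (x * (y * z) : X) = v at q
  have i := maj_idem (hax x x.2 (by simpa using hx))
  have e1 : v = (-4 * l) • ax x + (-4 : ℝ) • w := by rw [← hv]; linear_combination (norm := module) (-4 : ℝ) • e
  have o1 := maj_orth hV (i.trans (one_smul ℝ _).symm) q (by norm_num)
  have o2 := maj_orth hV (e'.trans (zero_smul ℝ _).symm) q (by norm_num)
  have : v = 0 := by_contra fun n => (hV.2.2.1 v n).ne' (by nth_rw 1 [e1]; simp [o1, o2])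
  have h3 := hax _ (x * (y * z)).2 (fun e => n1 yzx (Subtype.ext e))
  rw [← sub_eq_zero.1 (hv.trans this)] at h3
  exact hx (right_eq_mul.1 (Subtype.ext (maj_unique (hax _ (y * z).2 (fun e => yz1 (Subtype.ext e))) h3)))

end Cfsg.Agent.S5543
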