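import Cfsg.Statements.S5544
import Cfsg.Agent.H9.Maj

set_option autoImplicit false
open Cfsg

namespace Cfsg.Agent.S5544

open Cfsg.Agent Cfsg.Agent.H9
theorem gram {p q r a b c d e f : ℝ} (ha : 4 / 3 < a) (hb : 4 / 3 ≤ b) (hc : 4 / 3 ≤ c) (hd : |d| ≤ 2 / 3)
    (he : |e| ≤ 2 / 3) (hf : |f| ≤ 2 / 3) (h1 : p * a + q * d + r * e = 0) (h2 : p * d + q * b + r * f = 0)
    (h3 : p * e + q * f + r * c = 0) : r = 0 := by
  have k : ∀ {x y z u v w : ℝ}, 0 ≤ u → |v| ≤ 2 / 3 → |w| ≤ 2 / 3 → x * u + y * v + z * w = 0 →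
      |x| * u ≤ 2 / 3 * (|y| + |z|) := fun {x y z u v w} a b c h => by
    rw [← abs_of_nonneg a, ← abs_mul, show x * u = -(y * v + z * w) by linarith, abs_neg]
    refine (abs_add_le _ _).trans ?_
    rw [abs_mul, abs_mul]
    nlinarith [abs_nonneg y, abs_nonneg z]
  have a1 := k (by linarith) hd he h1
  have a2 := k (x := q) (y := p) (z := r) (by linarith : 0 ≤ b) hd hf (by linarith)
  have a3 := k (x := r) (y := p) (z := q) (by linarith : 0 ≤ c) he hf (by linarith)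
  have := abs_nonneg p
  have := abs_nonneg q
  have := abs_nonneg r
  have b2 : |q| * (4 / 3) ≤ |q| * b := by gcongr
  have b3 : |r| * (4 / 3) ≤ |r| * c := by gcongr
  have : |p| = 0 := by nlinarith
  exact abs_eq_zero.1 (by linarith)


/-- Let V be a finite-dimensional real vector space with a commutative bilinear product and a positive-definite symmetric bilinear form that associates with the product and satisfies the Norton inequality (the Majorana setting of the definitions). Let μ₀ and μ₁ be Majorana involutions with axial vectors a₀ and a₁ of squared length 1, each involution having no other axial vector. Then the product μ₀μ₁ has order at most 6: some power (μ₀μ₁)^n with 1 ≤ n ≤ 6 is the identity (so the two involutions generate a dihedral group of order at most 12). This is the 6-transposition property of Majorana involutions. -/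
theorem result {V : Type*} [AddCommGroup V] [Module ℝ V] [FiniteDimensional ℝ V] (mul : V →ₗ[ℝ] V →ₗ[ℝ] V) (B : LinearMap.BilinForm ℝ V) (hV : Cfsg.Axial.IsMajoranaAmbient mul B) (μ₀ μ₁ : V ≃ₗ[ℝ] V) (a₀ a₁ : V) (h₀ : Cfsg.Axial.IsMajoranaPair mul B μ₀ a₀) (h₁ : Cfsg.Axial.IsMajoranaPair mul B μ₁ a₁) (hu₀ : ∀ a : V, Cfsg.Axial.IsMajoranaPair mul B μ₀ a → a = a₀) (hu₁ : ∀ a : V, Cfsg.Axial.IsMajoranaPair mul B μ₁ a → a = a₁) (hn₀ : B a₀ a₀ = 1) (hn₁ : B a₁ a₁ = 1) : ∃ n : ℕ, 1 ≤ n ∧ n ≤ 6 ∧ (μ₀ * μ₁) ^ n = 1 := by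
  by_contra! c
  obtain ⟨k, -, e⟩ := sakuma hV h₀ h₁ hn₀ hn₁
  have s0 : μ₀ * μ₀ = 1 := LinearEquiv.ext (maj_sq h₀)
  have s1 : μ₁ * μ₁ = 1 := LinearEquiv.ext (maj_sq h₁)
  have i1 : μ₁ (sig mul a₀ a₁) = sig mul a₀ a₁ := by
    rw [show sig mul a₀ a₁ = sig mul a₁ a₀ by rw [sig, sig, hV.1, add_comm]]; exact (sig_spec hV h₁ hn₁ _).1
  have i2 := (sig_spec hV h₁ hn₁ (μ₀ a₁)).1
  have i3 : μ₁ (sig mul a₀ (μ₁ a₀)) = sig mul a₀ (μ₁ a₀) := by
    rw [sig, map_sub, h₁.1, map_smul, map_add, maj_sq h₁, hV.1, add_comm]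
  have e' := congrArg μ₁ e
  simp only [h₁.1, map_add, map_smul, i1, i2, i3, maj_self h₁, maj_sq h₁] at e'
  let T : ℕ → V → Prop := fun i x => Cfsg.Axial.IsMajoranaPair mul B (μ₀ * μ₁ * μ₀ * μ₁ * μ₀ * (μ₀ * μ₁) ^ i) x ∧ B x x = 1
  have s0' : ∀ x, μ₀ * (μ₀ * x) = x := fun x => by rw [← mul_assoc, s0, one_mul]
  have s1' : ∀ x, μ₁ * (μ₁ * x) = x := fun x => by rw [← mul_assoc, s1, one_mul]
  have t0 : T 0 (μ₀ (μ₁ a₀)) := ⟨by simpa [mul_assoc] using maj_conj (maj_conj h₀ h₁) h₀, by rw [h₀.2.1, h₁.2.1, hn₀]⟩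
  have t1 : T 1 (μ₀ a₁) := ⟨by simpa [mul_assoc, s0', s1', s1] using maj_conj h₁ h₀, by rw [h₀.2.1, hn₁]⟩
  have t2 : T 2 a₀ := ⟨by simpa [mul_assoc, s0', s1', s1, pow_succ] using h₀, hn₀⟩
  have t4 : T 4 (μ₁ a₀) := ⟨by simpa [mul_assoc, s0', s1', s1, pow_succ] using maj_conj h₀ h₁, by rw [h₁.2.1, hn₀]⟩
  have t5 : T 5 (μ₁ (μ₀ a₁)) := ⟨by simpa [mul_assoc, s0', s1', s1, pow_succ] using maj_conj (maj_conj h₁ h₀) h₁,
    by rw [h₁.2.1, h₀.2.1, hn₁]⟩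
  have t6 : T 6 (μ₁ (μ₀ (μ₁ a₀))) := ⟨by
    simpa [mul_assoc, s0', s1', s1, pow_succ] using maj_conj (maj_conj (maj_conj h₀ h₁) h₀) h₁,
    by rw [h₁.2.1, h₀.2.1, h₁.2.1, hn₀]⟩
  have ne : ∀ {i j x y}, T i x → T j y → i < j → j ≤ 6 → x ≠ y := fun {i j x y} a b h h' e => by
    subst e
    obtain ⟨d, rfl⟩ := Nat.exists_eq_add_of_lt h
    have := mul_left_cancel (maj_unique a.1 b.1)
    rw [add_assoc, pow_add, left_eq_mul] at this
    exact c _ (by omega) (by omega) this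
  have bd : ∀ {i j x y}, T i x → T j y → i < j → j ≤ 6 → (0 ≤ B x y ∧ B x y ≤ 1 / 3) ∧ B y x = B x y :=
    fun a b h h' => ⟨(maj_bound hV a.1 a.2 b.2 (maj_idem b.1) (ne a b h h')).imp_right And.left, hV.2.1 _ _⟩
  have st := (maj_bound hV h₀ hn₀ t4.2 (maj_idem t4.1) (ne t2 t4 (by omega) (by omega))).2.2
    (ne t0 t4 (by omega) (by omega))
  obtain ⟨p, q, R⟩ : ∃ p q : ℝ, p • (a₀ - μ₁ a₀) + q • (μ₀ a₁ - μ₁ (μ₀ a₁)) +
      (49 / 196608 : ℝ) • (μ₀ (μ₁ a₀) - μ₁ (μ₀ (μ₁ a₀))) = 0 :=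
    ⟨147 / 32768 + 7 / 24 * k - 119 / 384 * B a₀ a₁ + 35 / 24 * B a₀ a₁ ^ 2 - 49 / 196608,
      -245 / 196608 + 49 / 768 * B a₀ a₁, by linear_combination (norm := module) e' - e⟩
  have b01 := bd t0 t1 (by omega) (by omega)
  have b02 := bd t0 t2 (by omega) (by omega)
  have b04 := bd t0 t4 (by omega) (by omega)
  have b05 := bd t0 t5 (by omega) (by omega)
  have b06 := bd t0 t6 (by omega) (by omega)
  have b12 := bd t1 t2 (by omega) (by omega)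
  have b14 := bd t1 t4 (by omega) (by omega)
  have b15 := bd t1 t5 (by omega) (by omega)
  have b16 := bd t1 t6 (by omega) (by omega)
  have b24 := bd t2 t4 (by omega) (by omega)
  have b25 := bd t2 t5 (by omega) (by omega)
  have b26 := bd t2 t6 (by omega) (by omega)
  have b45 := bd t4 t5 (by omega) (by omega)
  have b46 := bd t4 t6 (by omega) (by omega)
  have b56 := bd t5 t6 (by omega) (by omega)
  have n0 := t0.2
  have n1 := t1.2
  have n4 := t4.2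
  have n5 := t5.2
  have n6 := t6.2
  clear t0 t1 t2 t4 t5 t6 e e'
  generalize μ₁ (μ₀ (μ₁ a₀)) = x6 at *
  generalize μ₁ (μ₀ a₁) = x5 at *
  generalize μ₀ (μ₁ a₀) = x0 at *
  generalize μ₁ a₀ = x4 at *
  generalize μ₀ a₁ = x1 at *
  have r1 := congrArg (B (a₀ - x4)) R
  have r2 := congrArg (B (x1 - x5)) R
  have r3 := congrArg (B (x0 - x6)) R
  simp only [map_add, map_smul, smul_eq_mul, map_zero] at r1 r2 r3
  rw [hV.2.1 (x1 - x5) (a₀ - x4)] at r2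
  rw [hV.2.1 (x0 - x6) (a₀ - x4), hV.2.1 (x0 - x6) (x1 - x5)] at r3
  refine absurd (gram ?_ ?_ ?_ (abs_le.2 ⟨?_, ?_⟩) (abs_le.2 ⟨?_, ?_⟩) (abs_le.2 ⟨?_, ?_⟩) r1 r2 r3) (by norm_num) <;>
    simp only [map_sub, LinearMap.sub_apply] <;> linarith [b01.1.1, b01.1.2, b01.2, b02.1.1, b02.1.2, b02.2,
      b04.1.1, b04.1.2, b04.2, b05.1.1, b05.1.2, b05.2, b06.1.1, b06.1.2, b06.2, b12.1.1, b12.1.2, b12.2,
      b14.1.1, b14.1.2, b14.2, b15.1.1, b15.1.2, b15.2, b16.1.1, b16.1.2, b16.2, b24.1.1, b24.1.2, b24.2,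
      b25.1.1, b25.1.2, b25.2, b26.1.1, b26.1.2, b26.2, b45.1.1, b45.1.2, b45.2, b46.1.1, b46.1.2, b46.2,
      b56.1.1, b56.1.2, b56.2]

end Cfsg.Agent.S5544
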