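import Cfsg.Statements.S5545
import Cfsg.Agent.H9.Maj

set_option autoImplicit false
open Cfsg

namespace Cfsg.Agent.S5545

open Cfsg.Agent Cfsg.Agent.H9

/-- Let V be a finite-dimensional real vector space with a commutative bilinear product and a positive-definite symmetric bilinear form that associates with the product and satisfies the Norton inequality (the Majorana setting of the definitions). Let μ₀, μ₁ be commuting Majorana involutions with distinct axial vectors a₀ ≠ a₁ of squared length 1, each involution having no other axial vector. Then either a₀ and a₁ are orthogonal with a₀ ∘ a₁ = 0 (type 2B), or their inner product is 1/8 and, with a₂ = a₀ + a₁ − 8 a₀ ∘ a₁, the vector a₂ is an idempotent and a₀ ∘ a₂ = (1/8)(a₀ + a₂ − a₁), a₁ ∘ a₂ = (1/8)(a₁ + a₂ − a₀) (type 2A: the three idempotents span a subalgebra with aᵢ ∘ aⱼ = (1/8)(aᵢ + aⱼ − aₖ)). -/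
theorem result {V : Type*} [AddCommGroup V] [Module ℝ V] [FiniteDimensional ℝ V] (mul : V →ₗ[ℝ] V →ₗ[ℝ] V) (B : LinearMap.BilinForm ℝ V) (hV : Cfsg.Axial.IsMajoranaAmbient mul B) (μ₀ μ₁ : V ≃ₗ[ℝ] V) (a₀ a₁ : V) (h₀ : Cfsg.Axial.IsMajoranaPair mul B μ₀ a₀) (h₁ : Cfsg.Axial.IsMajoranaPair mul B μ₁ a₁) (hu₀ : ∀ a : V, Cfsg.Axial.IsMajoranaPair mul B μ₀ a → a = a₀) (hu₁ : ∀ a : V, Cfsg.Axial.IsMajoranaPair mul B μ₁ a → a = a₁) (hn₀ : B a₀ a₀ = 1) (hn₁ : B a₁ a₁ = 1) (hc : μ₀ * μ₁ = μ₁ * μ₀) (hne : a₀ ≠ a₁) : (B a₀ a₁ = 0 ∧ mul a₀ a₁ = 0) ∨ (B a₀ a₁ = 1 / 8 ∧ mul (a₀ + a₁ - (8 : ℝ) • mul a₀ a₁) (a₀ + a₁ - (8 : ℝ) • mul a₀ a₁) = a₀ + a₁ - (8 : ℝ) • mul a₀ a₁ ∧ mul a₀ (a₀ + a₁ - (8 : ℝ) • mul a₀ a₁) = (1 / 8 : ℝ) • (a₀ + (a₀ + a₁ - (8 : ℝ) • mul a₀ a₁) - a₁) ∧ mul a₁ (a₀ + a₁ - (8 : ℝ) • mul a₀ a₁) = (1 / 8 : ℝ) • (a₁ + (a₀ + a₁ - (8 : ℝ) • mul a₀ a₁) - a₀)) := by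
  have e1 : μ₀ a₁ = a₁ := hu₁ _ (by
    have := maj_conj h₁ h₀
    rwa [hc, mul_assoc, show μ₀ * μ₀ = 1 from LinearEquiv.ext (maj_sq h₀), mul_one] at this)
  have e0 : μ₁ a₀ = a₀ := hu₀ _ (by
    have := maj_conj h₀ h₁
    rwa [← hc, mul_assoc, show μ₁ * μ₁ = 1 from LinearEquiv.ext (maj_sq h₁), mul_one] at this)
  obtain ⟨k, k1, k2⟩ := sakuma hV h₀ h₁ hn₀ hn₁
  obtain ⟨-, as⟩ := sig_mul hV h₀ hn₀ a₁
  obtain ⟨-, ps⟩ := sig_mul hV h₁ hn₁ a₀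
  rw [show sig mul a₁ a₀ = sig mul a₀ a₁ by rw [sig, sig, hV.1, add_comm], hV.2.1 a₁ a₀, e0] at ps
  have ap : mul a₀ a₁ = sig mul a₀ a₁ + (1 / 32 : ℝ) • (a₀ + a₁) := by rw [sig]; module
  have i0 := maj_idem h₀
  have i1 := maj_idem h₁
  have b0 : B a₀ (mul a₀ a₁) = B a₀ a₁ := by rw [hV.2.2.2.1, i0]
  have b1 : B a₁ (mul a₀ a₁) = B a₀ a₁ := by rw [hV.1, hV.2.2.2.1, i1, hV.2.1]
  rw [e1] at as
  rw [e0, e1, maj_self h₀, show sig mul a₁ a₁ = (15 / 16 : ℝ) • a₁ by rw [sig, i1]; module,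
    show sig mul a₀ a₀ = (15 / 16 : ℝ) • a₀ by rw [sig, i0]; module] at k1 k2
  have n1 : B a₀ a₁ < 1 := not_le.1 fun c => hne (maj_eq hV hn₀ hn₁ c)
  have sy := hV.2.1 a₁ a₀
  generalize sig mul a₀ a₁ = s at *
  generalize hl : B a₀ a₁ = l at *
  rw [map_smul, ap] at k1
  have c0 : B a₀ s = l - (1 + l) / 32 := by
    simp only [ap, map_add, map_smul, hn₀, hl, smul_eq_mul] at b0; linarith
  have c1 : B a₁ s = l - (1 + l) / 32 := by
    simp only [ap, map_add, map_smul, hn₁, sy, smul_eq_mul] at b1; linarith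
  have d0 := congrArg (B a₀) k1
  simp only [map_add, map_smul, hn₀, hl, c0, smul_eq_mul] at d0
  obtain rfl : k = l - l ^ 2 := by linarith
  by_cases h8 : l = 1 / 8
  · right
    subst h8
    refine ⟨rfl, ?_, ?_, ?_⟩ <;> simp only [ap, map_add, map_sub, map_smul, LinearMap.add_apply, LinearMap.sub_apply,
      LinearMap.smul_apply, i0, i1, hV.1 a₁ a₀, hV.1 s a₀, hV.1 s a₁, as, ps, k2] <;> module
  · left
    have d1 := congrArg (B a₁) k1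
    simp only [map_add, map_smul, hn₁, sy, c1, smul_eq_mul] at d1
    have : (l - 1 / 8) * (l * (1 - l)) = 0 := by linarith
    obtain rfl : l = 0 := (mul_eq_zero.1 ((mul_eq_zero.1 this).resolve_left (sub_ne_zero.2 h8))).resolve_right
      (by linarith)
    exact ⟨rfl, by rw [ap]; linear_combination (norm := module) (3 / 4 : ℝ) • k1⟩

end Cfsg.Agent.S5545
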