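import Cfsg.Statements.S5548
import Cfsg.Agent.GS.St8

set_option autoImplicit false
open Cfsg

namespace Cfsg.Agent.S5548

/-- For the automorphism group of the length-24 binary Golay code of the definitions (the Mathieu group of degree 24) acting on binary words of length 24 by permuting coordinates, the only invariant subspaces of the space of all words are: zero, the span of the all-ones word, the code itself, the even-weight words, and the whole space. (So the permutation module has a unique composition series.) -/
theorem result (W : Submodule (ZMod 2) (Cfsg.GolayPt → ZMod 2)) (hW : ∀ σ ∈ Cfsg.M24, ∀ w ∈ W, (fun p => w (σ.symm p)) ∈ W) : W = ⊥ ∨ W = Submodule.span (ZMod 2) {fun _ => (1 : ZMod 2)} ∨ W = Cfsg.golayCode ∨ (W : Set (Cfsg.GolayPt → ZMod 2)) = {w | ∑ p, w p = 0} ∨ W = ⊤ := by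
  open Finset Pointwise Cfsg.Agent.St Cfsg.Agent.H6 in focus
    have hC := isCode_supports W
    have hI := inv24_of hW
    by_cases h : ∀ u ∈ supports (W : Set (GolayPt → ZMod 2)), u = ∅ ∨ u = univ
    · by_cases h1 : (fun _ => 1) ∈ W
      · exact Or.inr (Or.inl (eq_span_one h1 h))
      · refine Or.inl (eq_bot_iff.2 fun w hw => ?_)
        rcases h _ (supp_mem.2 hw) with e | e
        · exact supp_eq_empty.1 e
        · exact absurd (by rw [← wrd_univ, ← e, wrd_supp]; exact hw) h1
    push Not at h
    obtain ⟨u, hu, h3, h4⟩ := h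
    have h5 := inv_le hC hI hu (by rwa [← nonempty_iff_ne_empty]) h4
    by_cases h6 : supports (W : Set (GolayPt → ZMod 2)) ⊆ csets
    · exact Or.inr (Or.inr (Or.inl (sub_ext (h6.antisymm h5))))
    obtain ⟨w, hw, hw'⟩ := Set.not_subset.1 h6
    obtain ⟨s, hs, h7⟩ := exists_short w
    have h8 := hC.sd _ (h5 hs) _ hw
    rw [symmDiff_symmDiff_cancel_right] at h8
    have h9 := even_mem hC fun t ht => pairs_mem hC hI (nonempty_iff_ne_empty.2 (by
      rintro rfl; exact hw' (by simpa [← bot_eq_empty] using hs))) h7 (Or.inl h8) ht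
    have par : ∀ w : GolayPt → ZMod 2, ∑ p, w p = 0 ↔ (support₂ w).card % 2 = 0 := by
      intro w
      have := dot_eq_zero (v := w) (w := wrd univ)
      simpa [supp_wrd, wrd] using this
    refine Or.inr (Or.inr (Or.inr ?_))
    by_cases h10 : ∀ w ∈ W, ∑ p, w p = 0
    · refine Or.inl (Set.ext fun w => ⟨h10 w, fun h => supp_mem.1 (h9 ((support₂ w).card / 2) _ ?_)⟩)
      have := (par w).1 h; omega
    · push Not at h10
      obtain ⟨v, hv, hv'⟩ := h10
      refine Or.inr (eq_top_iff.2 fun w _ => ?_)
      rw [Ne, par] at hv'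
      by_cases h11 : (support₂ w).card % 2 = 0
      · exact supp_mem.1 (h9 ((support₂ w).card / 2) _ (by omega))
      · have h12 := card_sd (support₂ w) (support₂ v)
        have h13 := hC.sd _ (h9 ((symmDiff (support₂ w) (support₂ v)).card / 2) (symmDiff (support₂ w) (support₂ v)) (by omega)) _ (supp_mem.2 hv)
        rw [symmDiff_symmDiff_cancel_right] at h13
        exact supp_mem.1 h13

end Cfsg.Agent.S5548
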