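import Cfsg.Statements.S5549
import Cfsg.Agent.C3.Pk

set_option autoImplicit false
open Cfsg

namespace Cfsg.Agent.S5549

open Cfsg.Agent.H6 Cfsg.Agent.C3.Pk Matrix
open scoped Pointwise

set_option maxRecDepth 100000

def sg (t u : ℕ) : ℕ → ℤ
  | 0 => 1
  | n + 1 => sg t u n * (if t.testBit n && u.testBit n then -1 else 1)

theorem sg_congr {t u t' u' : ℕ} : ∀ n, (∀ j < n, t.testBit j = t'.testBit j ∧ u.testBit j = u'.testBit j) →
    sg t u n = sg t' u' n
  | 0, _ => rfl
  | n + 1, h => by
    rw [sg, sg, sg_congr n fun j hj => h j (by omega), (h n (by omega)).1, (h n (by omega)).2]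

def chk (P : ℕ → ℤ → Bool) : ℕ → List ℤ → ℕ → Bool
  | 0, l, t => P t (l.headD 0)
  | n + 1, l, t => chk P n (List.zipWith (· + ·) (l.take (2 ^ n)) (l.drop (2 ^ n))) t &&
      chk P n (List.zipWith (· - ·) (l.take (2 ^ n)) (l.drop (2 ^ n))) (t + 2 ^ n)

theorem zw (f : ℕ → ℤ) (op : ℤ → ℤ → ℤ) (k : ℕ) :
    List.zipWith op (((List.range (k + k)).map f).take k) (((List.range (k + k)).map f).drop k) =
      (List.range k).map fun u => op (f u) (f (k + u)) := by
  rw [List.range_add, List.map_append, List.take_left' (by simp), List.drop_left' (by simp), List.map_map,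
    List.zipWith_map, List.zipWith_self]
  rfl

theorem chk_spec (P : ℕ → ℤ → Bool) : ∀ (n : ℕ) (f : ℕ → ℤ) (t0 : ℕ), chk P n ((List.range (2 ^ n)).map f) t0 = true →
    ∀ t < 2 ^ n, P (t0 + t) (∑ u ∈ Finset.range (2 ^ n), f u * sg t u n) = true
  | 0, f, t0, h, t, ht => by
    obtain rfl : t = 0 := by omega
    simpa [chk, sg] using h
  | n + 1, f, t0, h, t, ht => by
    have e : 2 ^ (n + 1) = 2 ^ n + 2 ^ n := by omega
    rw [e] at h ht ⊢
    rw [chk, Bool.and_eq_true, zw, zw] at h
    rw [Finset.sum_range_add, ← Finset.sum_add_distrib]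
    by_cases h1 : t < 2 ^ n
    · convert chk_spec P n _ _ h.1 t h1 using 2
      refine Finset.sum_congr rfl fun u hu => ?_
      rw [sg, sg, Nat.testBit_lt_two_pow h1,
        sg_congr (t := t) (u := 2 ^ n + u) n fun j hj => ⟨rfl, Nat.testBit_two_pow_add_gt hj u⟩]
      simp only [Bool.false_and, Bool.false_eq_true, if_false]
      ring
    · obtain ⟨s, rfl⟩ : ∃ s, t = 2 ^ n + s := ⟨t - 2 ^ n, by omega⟩
      have hs : s < 2 ^ n := by omega
      rw [← add_assoc]
      convert chk_spec P n _ _ h.2 s hs using 2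
      refine Finset.sum_congr rfl fun u hu => ?_
      have hu' := Finset.mem_range.1 hu
      rw [sg, sg, Nat.testBit_two_pow_add_eq, Nat.testBit_two_pow_add_eq, Nat.testBit_lt_two_pow hs,
        Nat.testBit_lt_two_pow hu',
        sg_congr (t := 2 ^ n + s) (u := 2 ^ n + u) n fun j hj =>
          ⟨Nat.testBit_two_pow_add_gt hj s, Nat.testBit_two_pow_add_gt hj u⟩,
        sg_congr (t := 2 ^ n + s) (u := u) n fun j hj => ⟨Nat.testBit_two_pow_add_gt hj s, rfl⟩]
      simp
      ring

def synT : ℕ := 387276449410790573254497616601020573333594693839247791535775002338103407666305823678465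
def dm : ℕ := 62280824004557531808797915482231533733779024576841899358981066040628802972511181706779754662859239495929240255548802656765156079119767908528692587211622736181676730983047801760846330122679812071544265802568684984427631318955286116702354754097426672329000269507853604815903975849386819634012716272080517972647423192869177534430233300935185550368162389066022780514365661384372292456849317276451806537057524752807536118084886577528646952000508429118457236791611217604359980369188363600529780905499226466871669986402315041537176543555056466732243210003069460804410840165155591676564109187851858567578137509028963900232690263116079889929746095532952175562424450118819961902053519053623658385247132682308033189779998306272292802360176700217912435972313551862814590953312919661563406266593346006836958788304719060397846537488452956987126194191807854513886980219250630623233979138521398664878651214350942258763245855801938732785789237537668477825938636158801570091281772534405169496286724127660536685562781800938073230666722383795666267723368223854780697304025758564036858868489936983801306927061271469926716204101438181199031883320867726629481327134077685344292362771501771355025525004613342756164682398821230313467603311411544331880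

def syn (a : ℕ) : ℕ := synT / 4096 ^ a % 4096

def ndN (u : ℕ) : ℤ := if pc (enc u) = 12 then 0 else 1

theorem k1 : chk (fun t w => decide (w = 112) == dm.testBit t) 12 ((List.range (2 ^ 12)).map ndN) 0 = true := by
  decide +kernel
theorem k2 : ∀ a < 24, ∀ b < 24, a ≠ b → dm.testBit (syn a ^^^ syn b) = true := by decide +kernel
theorem k3 : ((List.range 4096).all fun t => !dm.testBit t || (List.range 24).any fun a => (List.range 24).any fun b =>
    decide (a ≠ b) && Nat.beq t (syn a ^^^ syn b)) = true := by decide +kernel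
theorem k4 : ∀ a < 24, ∀ j < 12, (syn a).testBit j = (enc (2 ^ j)).testBit a := by decide +kernel
theorem k5 : ∀ i < 12, ∀ j < 12, (enc (2 ^ j)).testBit i = decide (i = j) := by decide +kernel

def Fn (t n : ℕ) (w : W) : ZMod 2 := ∑ j ∈ Finset.range n, if t.testBit j then w (pt j) else 0

def sn (z : ZMod 2) : ℤ := if z = 0 then 1 else -1

theorem sn_add : ∀ a b : ZMod 2, sn (a + b) = sn a * sn b := by decide

theorem sn_Fn (t u : ℕ) (hu : u < 4096) : ∀ n ≤ 12, sn (Fn t n (wd (enc u))) = sg t u n
  | 0, _ => rfl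
  | n + 1, h => by
    have h1 : (enc u).testBit n = u.testBit n := by
      conv_rhs => rw [← enc_mod hu, show 4096 = 2 ^ 12 from rfl, Nat.testBit_mod_two_pow]
      simp [show n < 12 by omega]
    rw [Fn, Finset.sum_range_succ, sn_add, ← Fn, sn_Fn t u hu n (by omega), sg, wd, idx_pt n (by omega), h1]
    cases t.testBit n <;> cases u.testBit n <;> rfl

theorem Fn_eq (t : ℕ) (g : W → ZMod 2) (g0 : g 0 = 0) (ga : ∀ a ∈ golayCode, ∀ b ∈ golayCode, g (a + b) = g a + g b)
    (hb : ∀ j < 12, g (wd (enc (2 ^ j))) = if t.testBit j then 1 else 0) : ∀ c ∈ golayCode, g c = Fn t 12 c := by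
  intro c hc
  refine (code_ind (P := fun w => w ∈ golayCode ∧ g w = Fn t 12 w) ⟨golayCode.zero_mem, by simp [g0, Fn]⟩ ?_ ?_ hc).2
  · rintro a b ⟨h1, h2⟩ ⟨h3, h4⟩
    refine ⟨golayCode.add_mem h1 h3, ?_⟩
    rw [ga a h1 b h3, h2, h4, Fn, Fn, Fn, ← Finset.sum_add_distrib]
    refine Finset.sum_congr rfl fun j _ => ?_
    split_ifs <;> simp
  · intro j hj
    refine ⟨wd_enc_mem (Nat.pow_lt_pow_right (by decide) hj : 2 ^ j < 2 ^ 12), ?_⟩
    rw [hb j hj, Fn, Finset.sum_eq_single j]
    · rw [wd, idx_pt j (by omega), k5 j hj j hj]; simp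
    · intro i hi hij
      have := Finset.mem_range.1 hi
      rw [wd, idx_pt i (by omega), k5 i this j hj]; simp [hij]
    · intro h; exact absurd (Finset.mem_range.2 hj) h

theorem Fn_duad (a b : ℕ) (ha : a < 24) (hb : b < 24) : ∀ c ∈ golayCode, c (pt a) + c (pt b) = Fn (syn a ^^^ syn b) 12 c :=
  Fn_eq _ (fun c => c (pt a) + c (pt b)) (by simp) (fun _ _ _ _ => by simp only [Pi.add_apply]; ring) fun j hj => by
    simp only [wd]
    rw [idx_pt a ha, idx_pt b hb, Nat.testBit_xor, k4 a ha j hj, k4 b hb j hj]
    cases (enc (2 ^ j)).testBit a <;> cases (enc (2 ^ j)).testBit b <;> rfl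

def nd (w : W) : ℤ := if hammingNorm w = 12 then 0 else 1

noncomputable instance ftC : Fintype golayCode := Fintype.ofFinite _

noncomputable def Wt (g : golayCode → ZMod 2) : ℤ := ∑ c : golayCode, nd c * sn (g c)

theorem Wt_iff (g : golayCode → ZMod 2) (t : ℕ) (ht : t < 4096) (h : ∀ c : golayCode, g c = Fn t 12 c) :
    Wt g = 112 ↔ dm.testBit t = true := by
  have h1 := chk_spec _ 12 ndN 0 k1 t ht
  have h2 : ∑ u ∈ Finset.range (2 ^ 12), ndN u * sg t u 12 = Wt g := by
    refine Finset.sum_bij (fun u hu => ⟨wd (enc u), wd_enc_mem (Finset.mem_range.1 hu)⟩) (fun _ _ => Finset.mem_univ _)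
      (fun a ha b hb e => ?_) (fun c _ => ?_) fun u hu => ?_
    · refine enc_inj a (Finset.mem_range.1 ha) b (Finset.mem_range.1 hb) ?_
      rw [← support_wd, ← support_wd]
      exact congrArg support₂ (congrArg Subtype.val e)
    · obtain ⟨u, hu, e⟩ := mem_code_iff.1 c.2
      exact ⟨u, Finset.mem_range.2 hu, Subtype.ext e⟩
    · rw [h, sn_Fn t u (Finset.mem_range.1 hu) 12 le_rfl, nd, hammingNorm_wd, ndN]
  rw [h2, zero_add, beq_iff_eq] at h1
  rw [← h1, decide_eq_true_iff]

theorem nd_perm (c : W) (s : GolayPt ≃ GolayPt) : hammingNorm (fun p => c (s p)) = hammingNorm c := by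
  unfold hammingNorm
  exact Finset.card_equiv s (by simp)

theorem nd_one (c : W) : hammingNorm (c + fun _ => 1) + hammingNorm c = 24 := by
  have h1 := Finset.card_filter_add_card_filter_not (s := (Finset.univ : Finset GolayPt)) (fun i => c i ≠ 0)
  rw [Finset.card_univ, card_golayPt] at h1
  have h2 : hammingNorm (c + fun _ => 1) = (Finset.univ.filter fun i => ¬ c i ≠ 0).card := by
    refine congrArg Finset.card (Finset.ext fun p => ?_)
    have : ∀ z : ZMod 2, z + 1 ≠ 0 ↔ ¬ z ≠ 0 := by decide
    simp only [Finset.mem_filter, Finset.mem_univ, true_and, Pi.add_apply, this]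
  rw [h2, add_comm]
  exact h1

def e (a : GolayPt) : W := Pi.single a 1

theorem Z (a b c d f g : GolayPt) (h : ∀ w ∈ golayCode, w a + w b + (w c + w d) + (w f + w g) = 0) :
    e a + e b + (e c + e d) + (e f + e g) = 0 := by
  have h1 : e a + e b + (e c + e d) + (e f + e g) ∈ golayCode := mem_of_dot fun w hw => by
    simp only [e, add_dotProduct, single_dotProduct, one_mul]; exact h w hw
  have h2 := card_of_mem_csets (support_mem_csets_iff.2 h1)
  have h3 : support₂ (e a + e b + (e c + e d) + (e f + e g)) ⊆ {a, b, c, d, f, g} := by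
    intro p hp
    by_contra hn
    simp only [Finset.mem_insert, Finset.mem_singleton, not_or] at hn
    simp [support₂, e, Pi.single_apply, hn] at hp
  have h4 := (Finset.card_le_card h3).trans Finset.card_le_six
  have h5 : support₂ (e a + e b + (e c + e d) + (e f + e g)) = ∅ := Finset.card_eq_zero.1 (by omega)
  funext p
  by_contra hn
  have : p ∈ support₂ (e a + e b + (e c + e d) + (e f + e g)) := by simpa [support₂] using hn
  rw [h5] at this
  exact absurd this (Finset.notMem_empty p)

theorem L1 {a b c d f g : GolayPt} (h : e a + e b + (e c + e d) + (e f + e g) = 0) (hab : a ≠ b) (hcd : c ≠ d) :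
    a = c ∨ a = d ∨ b = c ∨ b = d := by
  by_contra hn
  simp only [not_or] at hn
  obtain ⟨h1, h2, h3, h4⟩ := hn
  have k : ∀ p, (e a + e b + (e c + e d)) p = 1 → p = f ∨ p = g := fun p hp => by
    by_contra hn
    simp only [not_or] at hn
    have := congrFun h p
    rw [Pi.add_apply, hp] at this
    simp [e, Pi.single_apply, hn] at this
  have ka := k a (by simp [e, Pi.single_apply, hab, h1, h2])
  have kb := k b (by simp [e, Pi.single_apply, hab.symm, h3, h4])
  have kc := k c (by simp [e, Pi.single_apply, hcd, Ne.symm h1, Ne.symm h3])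
  rcases ka with rfl | rfl <;> rcases kb with rfl | rfl <;> rcases kc with rfl | rfl <;> simp_all

/-- Let X be a group of linear automorphisms of the length-24 binary Golay code of the definitions that fix the all-ones word, containing the coordinate-permutation action of every element of the code's automorphism group (the Mathieu group of degree 24), and such that every element of X sends each codeword into its orbit under that Mathieu group up to adding the all-ones word (X has the same orbits as the Mathieu group on the code modulo the all-ones word). Then every element of X agrees, modulo the all-ones word, with the action of a single element of the Mathieu group: X induces exactly the Mathieu group on the code modulo the all-ones word. -/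
theorem result (X : Subgroup (↥Cfsg.golayCode ≃ₗ[ZMod 2] ↥Cfsg.golayCode)) (h1 : ∀ x ∈ X, ∀ e : ↥Cfsg.golayCode, (e : (Cfsg.GolayPt → ZMod 2)) = (fun _ => (1 : ZMod 2)) → x e = e) (hM : ∀ σ ∈ Cfsg.M24, ∃ x ∈ X, ∀ c : ↥Cfsg.golayCode, ((x c : ↥Cfsg.golayCode) : (Cfsg.GolayPt → ZMod 2)) = fun p => (c : (Cfsg.GolayPt → ZMod 2)) (σ.symm p)) (horb : ∀ x ∈ X, ∀ c : ↥Cfsg.golayCode, ∃ σ ∈ Cfsg.M24, ((x c : ↥Cfsg.golayCode) : (Cfsg.GolayPt → ZMod 2)) = (fun p => (c : (Cfsg.GolayPt → ZMod 2)) (σ.symm p)) ∨ ((x c : ↥Cfsg.golayCode) : (Cfsg.GolayPt → ZMod 2)) = (fun p => (c : (Cfsg.GolayPt → ZMod 2)) (σ.symm p)) + fun _ => (1 : ZMod 2)) (x : ↥Cfsg.golayCode ≃ₗ[ZMod 2] ↥Cfsg.golayCode) (hx : x ∈ X) : ∃ σ ∈ Cfsg.M24, ∀ c : ↥Cfsg.golayCode, ((x c : ↥Cfsg.golayCode) : (Cfsg.GolayPt → ZMod 2)) = (fun p => (c : (Cfsg.GolayPt → ZMod 2)) (σ.symm p)) ∨ ((x c : ↥Cfsg.golayCode) : (Cfsg.GolayPt → ZMod 2)) = (fun p => (c : (Cfsg.GolayPt → ZMod 2)) (σ.symm p)) + fun _ => (1 : ZMod 2) := by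
  have hnd : ∀ c : golayCode, nd (x c) = nd c := fun c => by
    obtain ⟨σ, -, h | h⟩ := horb x hx c
    · rw [nd, nd, h, nd_perm]
    · have h2 := nd_one fun p => (c : W) (σ.symm p)
      rw [nd_perm] at h2
      rw [nd, nd, h]
      exact if_congr (by omega) rfl rfl
  have hA : ∀ p q : GolayPt, p ≠ q → ∃ a b : GolayPt, a ≠ b ∧ ∀ c : golayCode,
      (x c : W) p + (x c : W) q = (c : W) a + (c : W) b := by
    intro p q hpq
    classical
    let g : W → ZMod 2 := fun w => if h : w ∈ golayCode then (x ⟨w, h⟩ : W) p + (x ⟨w, h⟩ : W) q else 0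
    have hg : ∀ c : golayCode, g c = (x c : W) p + (x c : W) q := fun c => dif_pos c.2
    let t := Nat.ofBits fun j : Fin 12 => decide (g (wd (enc (2 ^ j.val))) = 1)
    have ht : t < 4096 := Nat.ofBits_lt_two_pow _
    have h2 := Fn_eq t g (by
        have := hg 0
        simpa using this) (fun a ha b hb => by
        have := hg (⟨a, ha⟩ + ⟨b, hb⟩)
        rw [map_add] at this
        rw [show g (a + b) = _ from this, show g a = _ from hg ⟨a, ha⟩, show g b = _ from hg ⟨b, hb⟩]
        simp only [Submodule.coe_add, Pi.add_apply]; ring) fun j hj => by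
      rw [Nat.testBit_ofBits_lt _ j hj]
      have : ∀ z : ZMod 2, z = if decide (z = 1) = true then 1 else 0 := by decide
      exact this _
    have h3 : Wt (fun c => (c : W) p + (c : W) q) = 112 :=
      (Wt_iff _ (syn (idx p) ^^^ syn (idx q)) (Nat.xor_lt_two_pow (n := 12) (Nat.mod_lt _ (by decide))
        (Nat.mod_lt _ (by decide))) fun c => by
          rw [← Fn_duad _ _ (idx_lt p) (idx_lt q) c c.2, pt_idx, pt_idx]).2
        (k2 _ (idx_lt p) _ (idx_lt q) fun h => hpq (idx_inj h))
    have h4 : Wt (fun c => g c) = 112 := by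
      rw [← h3, Wt, Wt, eq_comm, ← Equiv.sum_comp x.toEquiv, eq_comm]
      refine Finset.sum_congr rfl fun c _ => ?_
      rw [hg, ← hnd c]
      rfl
    have h5 := List.all_eq_true.1 k3 t (List.mem_range.2 ht)
    rw [(Wt_iff _ t ht fun c => h2 c c.2).1 h4] at h5
    simp only [Bool.not_true, Bool.false_or, List.any_eq_true, List.mem_range, Bool.and_eq_true, decide_eq_true_eq,
      Nat.beq_eq] at h5
    obtain ⟨a, ha, b, hb, hab, h6⟩ := h5
    refine ⟨pt a, pt b, fun h => hab (pt_inj a ha b hb h), fun c => ?_⟩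
    rw [← hg, h2 c c.2, h6, Fn_duad a b ha hb c c.2]
  have two : ∀ z : ZMod 2, z + z = 0 := by decide
  have hB : ∀ p q r s : GolayPt, (∀ c : golayCode, (x c : W) p + (x c : W) q + ((x c : W) r + (x c : W) s) = 0) →
      e p + e q + (e r + e s) + (e p + e p) = 0 := fun p q r s h => Z p q r s p p fun w hw => by
    have := h (x.symm ⟨w, hw⟩)
    rw [x.apply_symm_apply] at this
    rw [two, add_zero]; exact this
  have hL : ∀ q r a b c d : GolayPt, q ≠ r → a ≠ b → c ≠ d →
      (∀ w : golayCode, (x w : W) none + (x w : W) q = (w : W) a + (w : W) b) →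
      (∀ w : golayCode, (x w : W) none + (x w : W) r = (w : W) c + (w : W) d) → a = c ∨ a = d ∨ b = c ∨ b = d := by
    intro q r a b c d hqr hab hcd k1 k2
    obtain ⟨f, g, -, k3⟩ := hA q r hqr
    refine L1 (Z a b c d f g fun w hw => ?_) hab hcd
    linear_combination (-1) * k1 ⟨w, hw⟩ - k2 ⟨w, hw⟩ - k3 ⟨w, hw⟩ + two ((x ⟨w, hw⟩ : W) none) + two ((x ⟨w, hw⟩ : W) q) +
      two ((x ⟨w, hw⟩ : W) r)
  have hC : ∃ a b c : GolayPt, a ≠ b ∧ a ≠ c ∧ (∀ w : golayCode, (x w : W) none + (x w : W) (some 0) = (w : W) a + (w : W) b) ∧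
      (∀ w : golayCode, (x w : W) none + (x w : W) (some 1) = (w : W) a + (w : W) c) := by
    obtain ⟨a, b, hab, k1⟩ := hA none (some 0) (by decide)
    obtain ⟨c, d, hcd, k2⟩ := hA none (some 1) (by decide)
    rcases hL _ _ a b c d (by decide) hab hcd k1 k2 with rfl | rfl | rfl | rfl
    · exact ⟨a, b, d, hab, hcd, k1, k2⟩
    · exact ⟨a, b, c, hab, hcd.symm, k1, fun w => (k2 w).trans (add_comm _ _)⟩
    · exact ⟨b, a, d, hab.symm, hcd, fun w => (k1 w).trans (add_comm _ _), k2⟩
    · exact ⟨b, a, c, hab.symm, hcd.symm, fun w => (k1 w).trans (add_comm _ _), fun w => (k2 w).trans (add_comm _ _)⟩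
  obtain ⟨a, b, c, hab, hac, k1, k2⟩ := hC
  have hS : ∀ q : GolayPt, ∃ s : GolayPt, ∀ w : golayCode, (x w : W) none + (x w : W) q = (w : W) a + (w : W) s := by
    intro q
    by_cases q0 : q = none
    · exact ⟨a, fun w => by rw [q0, two, two]⟩
    by_cases q1 : q = some 0
    · exact ⟨b, q1 ▸ k1⟩
    by_cases q2 : q = some 1
    · exact ⟨c, q2 ▸ k2⟩
    obtain ⟨f, g, hfg, k3⟩ := hA none q (Ne.symm q0)
    by_cases f0 : a = f
    · exact ⟨g, f0 ▸ k3⟩
    by_cases g0 : a = g
    · exact ⟨f, fun w => g0 ▸ (k3 w).trans (add_comm _ _)⟩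
    exfalso
    have hbc : b ≠ c := by
      rintro rfl
      have := congrFun (hB (some 0) (some 1) none none fun w => by
        linear_combination k1 w + k2 w + two ((w : W) a) + two ((w : W) b)) (some 1)
      revert this; decide
    have k4 : ∀ w : golayCode, (x w : W) none + (x w : W) q = (w : W) b + (w : W) c := by
      have l1 := hL _ _ a b f g (Ne.symm q1) hab hfg k1 k3
      have l2 := hL _ _ a c f g (Ne.symm q2) hac hfg k2 k3
      simp only [f0, g0, false_or] at l1 l2
      rcases l1 with rfl | rfl <;> rcases l2 with rfl | rfl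
      · exact absurd rfl hbc
      · exact k3
      · exact fun w => (k3 w).trans (add_comm _ _)
      · exact absurd rfl hbc
    have := congrFun (hB none (some 0) (some 1) q fun w => by
      linear_combination k1 w + k2 w + k4 w + two ((w : W) a) + two ((w : W) b) + two ((w : W) c) -
        two ((x w : W) none)) q
    simp [e, Pi.single_apply, q0, q1, q2] at this
  choose s hs using hS
  have hinj : Function.Injective s := fun q r h => by
    by_contra hn
    have := congrFun (hB q r none none fun w => by
      have k3 := hs q w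
      rw [h] at k3
      linear_combination k3 + hs r w + two ((w : W) a) + two ((w : W) (s r))) r
    by_cases r0 : r = none
    · subst r0
      simp [e, Pi.single_apply, Ne.symm hn, two] at this
    · simp [e, Pi.single_apply, Ne.symm hn, r0] at this
  let σ : Equiv.Perm GolayPt := (Equiv.ofBijective s (Finite.injective_iff_bijective.1 hinj)).symm
  have key : ∀ c : golayCode, (x c : W) = (fun p => (c : W) (σ.symm p)) ∨
      (x c : W) = (fun p => (c : W) (σ.symm p)) + fun _ => (1 : ZMod 2) := by
    intro c
    have : ∀ z : ZMod 2, z = 0 ∨ z = 1 := by decide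
    rcases this ((x c : W) none + (c : W) a) with h | h
    · refine Or.inl (funext fun p => ?_)
      show _ = (c : W) (s p)
      linear_combination hs p c - h + two ((c : W) a)
    · refine Or.inr (funext fun p => ?_)
      show _ = (c : W) (s p) + 1
      linear_combination hs p c - h + two ((c : W) a) - two 1
  refine ⟨σ, ?_, key⟩
  have h1m : (fun _ => (1 : ZMod 2) : W) ∈ golayCode := Submodule.subset_span (Or.inr rfl)
  have hact : ∀ c ∈ golayCode, act σ c ∈ golayCode := fun c hc => by
    show (fun p => c (σ.symm p)) ∈ golayCode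
    rcases key ⟨c, hc⟩ with h | h
    · exact h ▸ (x ⟨c, hc⟩).2
    · have := golayCode.sub_mem (x ⟨c, hc⟩).2 h1m
      rwa [h, add_sub_cancel_right] at this
  rw [MulAction.mem_stabilizer_iff]
  refine Set.eq_of_subset_of_ncard_le ?_ (Set.ncard_smul_set σ _).ge (Set.toFinite _)
  rintro _ ⟨_, ⟨c, hc, rfl⟩, rfl⟩
  exact ⟨act σ c, hact c hc, support_act σ c⟩

end Cfsg.Agent.S5549
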