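import Cfsg.Statements.S5550
import Cfsg.Agent.GS.St8

set_option autoImplicit false
open Cfsg

namespace Cfsg.Agent.S5550

/-- Let u be a word of the length-24 binary Golay code of the definitions (possibly zero or all-ones) and w any binary word of length 24 outside the code. Then some automorphism of the code (a coordinate permutation preserving it) fixes u but moves w to a word not congruent to w modulo the code: the stabilizer of a codeword fixes no non-zero element of the quotient of the space of all words by the code. -/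
theorem result (u : (Cfsg.GolayPt → ZMod 2)) (hu : u ∈ Cfsg.golayCode) (w : (Cfsg.GolayPt → ZMod 2)) (hw : w ∉ Cfsg.golayCode) : ∃ σ ∈ Cfsg.M24, (fun p => u (σ.symm p)) = u ∧ (fun p => w (σ.symm p)) - w ∉ Cfsg.golayCode := by
  open Finset Pointwise Cfsg.Agent.St Cfsg.Agent.H6 in focus
    suffices h : ∃ g ∈ MulAction.stabilizer M24 (support₂ u), symmDiff (g • support₂ w) (support₂ w) ∉ csets by
      obtain ⟨g, h1, h2⟩ := h
      refine ⟨g, g.2, supp_inj (by rw [supp_perm]; exact h1), fun h => h2 ?_⟩
      rw [← supp_perm, ← supp_add, ← sub_eq_add2]; exact supp_mem.2 h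
    have hw' : support₂ w ∉ csets := fun h => hw (supp_mem.1 h)
    have hc := supp_mem.2 hu
    generalize support₂ u = c at hc
    have sc : ∀ c : Finset GolayPt, MulAction.stabilizer M24 cᶜ = MulAction.stabilizer M24 c := fun c => by
      ext g; simp only [MulAction.mem_stabilizer_iff, smul_compl, compl_inj_iff]
    have out : ∀ {D s : Finset GolayPt}, 8 ≤ D.card → s.card ≤ 3 → ∃ b ∈ D, b ∉ s := fun h1 h2 =>
      exists_mem_notMem_of_card_lt_card (by omega)
    have oct : ∀ o ∈ octads, ∃ g ∈ MulAction.stabilizer M24 o, symmDiff (g • support₂ w) (support₂ w) ∉ csets := by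
      intro o ho
      refine moves_coset (D := o) ho.2.ge (fun a s hs => ?_) (fun a ha b hb c hc h1 h2 => ?_) hw'
      · by_cases ha : a ∈ o
        · obtain ⟨b, hb, h⟩ := out ho.2.ge hs
          obtain ⟨g, hg⟩ := exists_of_orbit (orbit_op ho ha) (orbit_op ho hb)
          exact ⟨g, congrArg Prod.snd hg, by rwa [show g • a = b from congrArg Prod.fst hg]⟩
        · obtain ⟨b, hb, h⟩ := out (D := oᶜ) (by rw [card_compl, card_golayPt, ho.2]; omega) hs
          obtain ⟨g, hg⟩ := exists_of_orbit (orbit_op' ho ha) (orbit_op' ho (mem_compl.1 hb))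
          exact ⟨g, congrArg Prod.snd hg, by rwa [show g • a = b from congrArg Prod.fst hg]⟩
      · obtain ⟨g, hg⟩ := exists_of_orbit (orbit_opq ho h1 ha hb) (orbit_opq ho h2 ha hc)
        exact ⟨g, congrArg Prod.snd hg, congrArg (·.1.1) hg, congrArg (·.1.2) hg⟩
    have all : ∃ g ∈ MulAction.stabilizer M24 (univ : Finset GolayPt), symmDiff (g • support₂ w) (support₂ w) ∉ csets := by
      obtain ⟨g, -, h⟩ := oct o0 o0_mem
      exact ⟨g, smul_finset_univ, h⟩
    rcases card_of_mem_csets hc with h | h | h | h | h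
    · rw [card_eq_zero.1 h, ← sc, compl_empty]; exact all
    · exact oct c ⟨hc, h⟩
    · have hd : c ∈ dodecads := ⟨hc, h⟩
      have hd' : cᶜ ∈ dodecads := ⟨compl_mem_csets hc, by rw [card_compl, card_golayPt, h]⟩
      have tr : ∀ d ∈ dodecads, ∀ a ∈ d, ∀ s : Finset GolayPt, s.card ≤ 3 → ∃ g ∈ MulAction.stabilizer M24 d, g • a ∉ s := by
        intro d hd a ha s hs
        obtain ⟨b, hb, h⟩ := out (D := d) (by rw [hd.2]; omega) hs
        obtain ⟨g, hg⟩ := exists_of_orbit (orbit_dp hd ha) (orbit_dp hd hb)
        exact ⟨g, congrArg Prod.fst hg, by rwa [show g • a = b from congrArg Prod.snd hg]⟩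
      refine moves_coset (D := c) (by omega) (fun a s hs => ?_) (fun a ha b hb e hc h1 h2 => ?_) hw'
      · by_cases ha : a ∈ c
        · exact tr c hd a ha s hs
        · exact sc c ▸ tr _ hd' a (mem_compl.2 ha) s hs
      · obtain ⟨g, hg⟩ := exists_of_orbit (orbit_dpq hd ha hb h1) (orbit_dpq hd ha hc h2)
        exact ⟨g, show g • c = c from congrArg (·.1.1) hg, congrArg (·.1.2) hg, congrArg (·.2) hg⟩
    · rw [← sc]; exact oct _ ⟨compl_mem_csets hc, by rw [card_compl, card_golayPt, h]⟩
    · rw [eq_univ_of_card c (by rw [h, card_golayPt])]; exact all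

end Cfsg.Agent.S5550
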