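import Cfsg.Statements.S5551
import Cfsg.Agent.H6.LeB

set_option autoImplicit false
open Cfsg

namespace Cfsg.Agent.S5551

open Cfsg.Agent
open scoped Pointwise commutatorElement

/-- In the Leech lattice of the definitions (integer coordinates, minimal squared length 32), let v and w be non-zero lattice vectors of squared length at most 64 that are congruent modulo twice the lattice. Then they have the same squared length, and if that length is less than 64 then w = v or w = −v. (So a class that contains a non-zero vector of squared length at most 64 has a well-defined type 2, 3 or 4, and a class of type 2 or 3 contains no such vector other than v and −v.) -/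
theorem result (v w : Cfsg.GolayPt → ℤ) (hv : v ∈ Cfsg.leechLattice) (hw : w ∈ Cfsg.leechLattice) (hv0 : v ≠ 0) (hw0 : w ≠ 0) (hvn : Cfsg.sqNorm v ≤ 64) (hwn : Cfsg.sqNorm w ≤ 64) (hc : ∃ z ∈ Cfsg.leechLattice, v - w = 2 • z) : Cfsg.sqNorm v = Cfsg.sqNorm w ∧ (Cfsg.sqNorm v < 64 → w = v ∨ w = -v) := by
  obtain ⟨z, hz, e⟩ := hc
  have sc : ∀ u : GolayPt → ℤ, sqNorm (2 • u) = 4 * sqNorm u := fun u => by
    rw [two_smul, H6.sqNorm_add, H6.dot_self]; ring
  have e2 : v + w = 2 • (z + w) := by rw [smul_add, ← e, two_smul]; abel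
  by_cases h1 : z = 0
  · rw [h1, smul_zero, sub_eq_zero] at e; rw [e]; exact ⟨rfl, fun _ => Or.inl rfl⟩
  by_cases h2 : z + w = 0
  · rw [h2, smul_zero, add_comm, add_eq_zero_iff_eq_neg] at e2
    rw [e2, H6.sqNorm_neg]; exact ⟨rfl, fun _ => Or.inr rfl⟩
  have a := (H6.mem_LL.1 hz).min h1
  have b := (H6.mem_LL.1 (leechLattice.add_mem hz hw)).min h2
  have c := sc z
  have d := sc (z + w)
  rw [← e, H6.sqNorm_sub] at c
  rw [← e2, H6.sqNorm_add] at d
  exact ⟨by omega, fun _ => by omega⟩

end Cfsg.Agent.S5551
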