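import Cfsg.Statements.S5552
import Cfsg.Agent.H6.LeP

set_option autoImplicit false
open Cfsg

namespace Cfsg.Agent.S5552

open Cfsg.Agent
open scoped Pointwise commutatorElement
open H6 H6.Le in
theorem nrm {r : Rw} {d : ℕ} (h : band (memR r) (dotR r r d) = true) : sqNorm (lv r : ZV) + 128 = d := by
  rw [band_eq] at h
  rw [coe_lv h.1, ← dot_self]; exact dot_of_dotR h.2

/-- On the Leech lattice of the definitions, let Q be a function to the field with two elements that is constant on cosets of twice the lattice, is a quadratic form there (Q(u+v+w) + Q(u) + Q(v) + Q(w) = Q(u+v) + Q(u+w) + Q(v+w) for all u, v, w), is invariant under every lattice automorphism, and is not identically zero. Then Q(v) is the squared length of v divided by 16, reduced modulo 2, for every lattice vector v (squared lengths of lattice vectors are multiples of 16). -/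
theorem result (Q : ↥Cfsg.leechLattice → ZMod 2) (hcoset : ∀ v w : ↥Cfsg.leechLattice, Q (v + (w + w)) = Q v) (hquad : ∀ u v w : ↥Cfsg.leechLattice, Q (u + v + w) + Q u + Q v + Q w = Q (u + v) + Q (u + w) + Q (v + w)) (hinv : ∀ (g : ↥Cfsg.Co0) (v : ↥Cfsg.leechLattice), Q (g • v) = Q v) (hne : ∃ v : ↥Cfsg.leechLattice, Q v ≠ 0) (v : ↥Cfsg.leechLattice) : Q v = ((Cfsg.sqNorm (v : Cfsg.GolayPt → ℤ) / 16 : ℤ) : ZMod 2) := by
    have q0 : Q 0 = 0 := by
      have := hquad 0 0 0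
      simp only [add_zero] at this
      linear_combination this
    have cg : ∀ x y, H6.Cg x y → Q x = Q y := fun x y ⟨z, e⟩ => by
      rw [← hcoset y z, ← two_smul ℕ, ← e, add_sub_cancel]
    have q2 : ∀ x : H6.LL, sqNorm (x : H6.ZV) = 32 → Q x = Q (H6.lv H6.Le.rU) := fun x h => by
      obtain ⟨g, rfl⟩ := H6.Le.ex32 h; exact hinv _ _
    have q3 : ∀ x : H6.LL, sqNorm (x : H6.ZV) = 48 → Q x = Q (H6.lv H6.Le.rV) := fun x h => by
      obtain ⟨g, rfl⟩ := H6.Le.ex48 h; exact hinv _ _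
    have q4 : ∀ x : H6.LL, sqNorm (x : H6.ZV) = 64 → Q x = Q (H6.e8 none) := fun x h => by
      obtain ⟨g, rfl⟩ := H6.Le.ex64 h; exact hinv _ _
    have key : ∀ {u v w : H6.LL} {a b c : ℤ}, sqNorm (u : H6.ZV) = 32 → sqNorm (v : H6.ZV) = 32 → sqNorm (w : H6.ZV) = 32 →
        dotInt (u : H6.ZV) v = a → dotInt (u : H6.ZV) w = b → dotInt (v : H6.ZV) w = c →
        sqNorm ((u + v : H6.LL) : H6.ZV) = 64 + 2 * a ∧ sqNorm ((u + w : H6.LL) : H6.ZV) = 64 + 2 * b ∧
        sqNorm ((v + w : H6.LL) : H6.ZV) = 64 + 2 * c ∧ sqNorm ((u + v + w : H6.LL) : H6.ZV) = 96 + 2 * (a + b + c) :=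
      fun h1 h2 h3 h4 h5 h6 => by
        simp only [AddSubgroup.coe_add, H6.sqNorm_add, H6.dot_comm (_ + _), H6.dot_add]
        rw [H6.dot_comm] at h5 h6
        have := H6.dot_comm
        grind
    have dt : ∀ {r s : H6.Rw} {d : ℕ}, H6.band (H6.band (H6.memR r) (H6.memR s)) (H6.dotR r s d) = true →
        dotInt (H6.lv r : H6.ZV) (H6.lv s) = d - 128 := fun h => by
      simp only [H6.band_eq] at h
      rw [H6.coe_lv h.1.1, H6.coe_lv h.1.2, ← H6.dot_of_dotR h.2]; ring
    have nX : sqNorm (H6.lv H6.Le.rX : H6.ZV) = 32 := H6.Le.t16.2.1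
    have n0 : sqNorm (H6.lv (0, 68) : H6.ZV) = 32 := by have := nrm (r := (0, 68)) (d := 160) (by decide +kernel); omega
    have n1 : sqNorm (H6.lv (0x222020200000000000200, 0x200000000000000000000020) : H6.ZV) = 32 := by
      have := nrm (r := (0x222020200000000000200, 0x200000000000000000000020)) (d := 160) (by decide +kernel); omega
    obtain ⟨a1, a2, a3, a4⟩ := key H6.Le.normU nX n0 (dt (d := 112) (by decide +kernel)) (dt (d := 112) (by decide +kernel))
      (dt (d := 128) (by decide +kernel))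
    obtain ⟨b1, b2, b3, b4⟩ := key H6.Le.normU nX n1 (dt (d := 112) (by decide +kernel)) (dt (d := 120) (by decide +kernel))
      (dt (d := 120) (by decide +kernel))
    have e1 := hquad (H6.lv H6.Le.rU) (H6.lv H6.Le.rX) (H6.lv (0, 68))
    have e2 := hquad (H6.lv H6.Le.rU) (H6.lv H6.Le.rX) (H6.lv (0x222020200000000000200, 0x200000000000000000000020))
    rw [q2 _ (a4.trans (by norm_num)), q2 _ nX, q2 _ n0, q2 _ (a1.trans (by norm_num)), q2 _ (a2.trans (by norm_num)),
      q4 _ (a3.trans (by norm_num))] at e1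
    rw [q2 _ (b4.trans (by norm_num)), q2 _ nX, q2 _ n1, q2 _ (b1.trans (by norm_num)), q3 _ (b2.trans (by norm_num)),
      q3 _ (b3.trans (by norm_num))] at e2
    have z : ∀ a b c : ZMod 2, a + a + a + a = a + a + c → a + a + a + a = a + b + b → a = 0 ∧ c = 0 ∧ (b ≠ 0 → b = 1) := by
      decide
    obtain ⟨z2, z4, z3⟩ := z _ _ _ e1 e2
    have all : ∀ x, ∃ y : H6.LL, H6.Cg x y ∧ ((Q y = 0 ∧ sqNorm (y : H6.ZV) % 32 = 0) ∨ sqNorm (y : H6.ZV) = 48) := fun x => by
      obtain ⟨y, c, h | h | h | h⟩ := H6.Le.count.2.2 x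
      · exact ⟨y, c, Or.inl ⟨h ▸ q0, by rw [h]; simp [sqNorm]⟩⟩
      · exact ⟨y, c, Or.inl ⟨(q2 _ h).trans z2, by omega⟩⟩
      · exact ⟨y, c, Or.inr (H6.Le.orbV.le h)⟩
      · have : sqNorm (y : H6.ZV) = 64 := H6.Le.orbE.le h
        exact ⟨y, c, Or.inl ⟨(q4 _ this).trans z4, by omega⟩⟩
    have z1 : Q (H6.lv H6.Le.rV) = 1 := z3 fun e => by
      obtain ⟨x, hx⟩ := hne
      obtain ⟨y, c, h | h⟩ := all x
      · exact hx ((cg _ _ c).trans h.1)
      · exact hx ((cg _ _ c).trans ((q3 _ h).trans e))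
    obtain ⟨y, c, h⟩ := all v
    rw [cg _ _ c]
    obtain ⟨w, e⟩ := c
    have e' : v = y + w + w := by rw [add_assoc, ← two_smul ℕ, ← e, add_sub_cancel]
    have m1 := (H6.mem_LL.1 (y + w).2).even
    have m2 := (H6.mem_LL.1 y.2).even
    have m3 := (H6.mem_LL.1 w.2).even
    have m4 : sqNorm (v : H6.ZV) = sqNorm (y : H6.ZV) + 4 * dotInt (y : H6.ZV) w + 4 * sqNorm (w : H6.ZV) := by
      rw [e', add_assoc, AddSubgroup.coe_add, AddSubgroup.coe_add, H6.sqNorm_add, H6.sqNorm_add, H6.dot_add, H6.dot_self]; ring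
    rw [AddSubgroup.coe_add, H6.sqNorm_add] at m1
    rcases h with h | h
    · rw [h.1, eq_comm, ZMod.intCast_zmod_eq_zero_iff_dvd]; push_cast; omega
    · rw [q3 _ h, z1, ← Int.cast_one, ZMod.intCast_eq_intCast_iff_dvd_sub]; push_cast; omega

end Cfsg.Agent.S5552
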