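import Cfsg.Statements.S5553
import Cfsg.Agent.H6.LeP

set_option autoImplicit false
open Cfsg

namespace Cfsg.Agent.S5553

open Cfsg.Agent
open scoped Pointwise commutatorElement

/-- The Leech lattice of the definitions has an additive subgroup A containing twice the lattice, of index 2^12 in the lattice, all of whose vectors have squared length divisible by 32: the invariant quadratic form 'squared length over 16 modulo 2' on the lattice modulo twice the lattice (a 24-dimensional space over the field with two elements) vanishes on a 12-dimensional subspace, so it is of plus type. -/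
theorem result : ∃ A : AddSubgroup (Cfsg.GolayPt → ℤ), A ≤ Cfsg.leechLattice ∧ (∀ v ∈ Cfsg.leechLattice, (2 : ℤ) • v ∈ A) ∧ (A.addSubgroupOf Cfsg.leechLattice).index = 2 ^ 12 ∧ ∀ v ∈ A, (32 : ℤ) ∣ Cfsg.sqNorm v := by
    let i := H6.coM H6.Le.Ai
    let f : H6.LL →+ H6.LL := AddMonoidHom.id _ + H6.coHom i
    have hf : ∀ x, f x = x + i • x := fun _ => rfl
    have hff : ∀ x, f (f x) = 2 • i • x := fun x => by
      rw [hf, hf, H6.co_add, H6.Le.ii_smul, two_smul]; abel
    have hn : ∀ x, sqNorm (f x : H6.ZV) = 2 * sqNorm (x : H6.ZV) := fun x => by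
      have a := H6.co_dot i x (i • x)
      rw [H6.Le.ii_smul, AddSubgroup.coe_neg, H6.dot_neg, H6.dot_comm] at a
      rw [hf, AddSubgroup.coe_add, H6.sqNorm_add, H6.co_norm]; omega
    have hi : Function.Injective f := (injective_iff_map_eq_zero f).2 fun x h => Subtype.ext (H6.sqNorm_eq_zero (by
      have := hn x
      have z : sqNorm ((0 : H6.LL) : H6.ZV) = 0 := by simp [sqNorm]
      rw [h, z] at this; omega))
    have hD : f.range.map f = H6.D2 := by
      ext x
      refine ⟨?_, fun ⟨z, e⟩ => ⟨_, ⟨i⁻¹ • z, rfl⟩, by rw [hff, smul_inv_smul]; exact e⟩⟩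
      rintro ⟨_, ⟨y, rfl⟩, rfl⟩
      exact ⟨i • y, (hff y).symm⟩
    refine ⟨f.range.map leechLattice.subtype, AddSubgroup.map_subtype_le _, fun v hv => ?_, ?_, ?_⟩
    · exact ⟨_, ⟨f (i⁻¹ • ⟨v, hv⟩), rfl⟩, by rw [hff, smul_inv_smul, two_smul, two_smul]; rfl⟩
    · rw [AddSubgroup.addSubgroupOf, AddSubgroup.comap_map_eq_self_of_injective Subtype.val_injective]
      have := AddSubgroup.index_map_of_injective f.range hi
      rw [hD, H6.Le.count.2.1, ← pow_two] at this
      exact Nat.pow_left_injective two_ne_zero (this.symm.trans (by norm_num))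
    · rintro _ ⟨_, ⟨x, rfl⟩, rfl⟩
      have := (H6.mem_LL.1 x.2).even
      have b := hn x
      exact Int.dvd_of_emod_eq_zero (by show sqNorm (f x : H6.ZV) % 32 = 0; omega)

end Cfsg.Agent.S5553
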