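import Cfsg.Statements.S5592
import Cfsg.Agent.H6.LeB

set_option autoImplicit false
open Cfsg

namespace Cfsg.Agent.S5592

open Cfsg.Agent
open scoped Pointwise commutatorElement

/-- In the Leech lattice (integer coordinates, sum of squares equal to 8 times the customary norm, so the shortest non-zero vectors have sum of squares 32): if two distinct vectors of sum of squares at most 64 are congruent modulo twice the lattice, then either they are negatives of each other, or both have sum of squares 64 and they are orthogonal. -/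
theorem result (x y : Cfsg.GolayPt → ℤ) (hx : x ∈ Cfsg.leechLattice) (hy : y ∈ Cfsg.leechLattice) (hxy : x ≠ y) (hxn : Cfsg.sqNorm x ≤ 64) (hyn : Cfsg.sqNorm y ≤ 64) (hc : (∃ z ∈ Cfsg.leechLattice, x - y = 2 • z)) :
    x = -y ∨ (Cfsg.sqNorm x = 64 ∧ Cfsg.sqNorm y = 64 ∧ Cfsg.dotInt x y = 0) := by
  obtain ⟨z, hz, e⟩ := hc
  have sc : ∀ u : GolayPt → ℤ, sqNorm (2 • u) = 4 * sqNorm u := fun u => by
    rw [two_smul, H6.sqNorm_add, H6.dot_self]; ring
  have e2 : x + y = 2 • (z + y) := by rw [smul_add, ← e, two_smul]; abel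
  by_cases h1 : z = 0
  · rw [h1, smul_zero, sub_eq_zero] at e; exact absurd e hxy
  by_cases h2 : z + y = 0
  · rw [h2, smul_zero, add_eq_zero_iff_eq_neg] at e2; exact Or.inl e2
  have a := (H6.mem_LL.1 hz).min h1
  have b := (H6.mem_LL.1 (leechLattice.add_mem hz hy)).min h2
  have c := sc z
  have d := sc (z + y)
  rw [← e, H6.sqNorm_sub] at c
  rw [← e2, H6.sqNorm_add] at d
  exact Or.inr ⟨by omega, by omega, by omega⟩

end Cfsg.Agent.S5592
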