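import Cfsg.Statements.S5599
import Cfsg.Agent.GS.St7
import Cfsg.Agent.H6.MathK

set_option autoImplicit false
open scoped Pointwise
open Cfsg

namespace Cfsg.Agent.S5599

/-- In the automorphism group of the length-24 code, the two-point Mathieu group (permutations of the code's group fixing the extra point and the residue 0) has index 2 in the setwise stabiliser of that pair of points, and an element of the code's group interchanging the two points normalises the two-point group and induces on it, by conjugation, an automorphism that is not inner. -/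
theorem result (g : Equiv.Perm Cfsg.GolayPt) (hg : g ∈ Cfsg.M24) (h₁ : g none = some 0) (h₂ : g (some 0) = none) : Cfsg.Spor.M22.relIndex (Cfsg.M24 ⊓ MulAction.stabilizer (Equiv.Perm Cfsg.GolayPt) ({none, some 0} : Finset Cfsg.GolayPt)) = 2 ∧ (∀ x ∈ Cfsg.Spor.M22, g * x * g⁻¹ ∈ Cfsg.Spor.M22) ∧ ¬ ∃ h ∈ Cfsg.Spor.M22, ∀ x ∈ Cfsg.Spor.M22, g * x * g⁻¹ = h * x * h⁻¹ := by
  open Finset Pointwise Cfsg.Agent.St Cfsg.Agent.H6 in focus
    have mem : ∀ x : PG, x ∈ Spor.M22 ↔ x ∈ M24 ∧ x none = none ∧ x (some 0) = some 0 := fun x =>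
      ⟨fun h => ⟨h.1.1, h.1.2, h.2⟩, fun h => ⟨⟨h.1, h.2.1⟩, h.2.2⟩⟩
    have h₁' : g⁻¹ (some 0) = none := by rw [← h₁]; simp
    have h₂' : g⁻¹ none = some 0 := by rw [← h₂]; simp
    refine ⟨?_, fun x hx => ?_, ?_⟩
    · have hR : ({none, some 0} : Finset GolayPt).card = 2 := by decide
      have hle : Spor.M22 ≤ M24 ⊓ MulAction.stabilizer (Equiv.Perm GolayPt) ({none, some 0} : Finset GolayPt) := by
        intro x hx
        rw [mem] at hx
        refine ⟨hx.1, MulAction.mem_stabilizer_iff.2 ?_⟩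
        rw [smul_finset_insert, smul_finset_singleton, Equiv.Perm.smul_def, Equiv.Perm.smul_def, hx.2.1, hx.2.2]
      have h1 := (Spor.M22.subgroupOf (M24 ⊓ MulAction.stabilizer (Equiv.Perm GolayPt) ({none, some 0} : Finset GolayPt))).index_mul_card
      rw [card_subgroupOf' hle, card_M22, Nat.card_congr (subEq (K := M24 ⊓ MulAction.stabilizer (Equiv.Perm GolayPt) ({none, some 0} : Finset GolayPt)) (L := MulAction.stabilizer M24 ({none, some 0} : Finset GolayPt)) fun g => ⟨fun h => ⟨h.1, h.2⟩, fun ⟨a, b⟩ => ⟨a, b⟩⟩).toEquiv,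
        card_stab_of_mem_orbit (orbit_prX hR), card_Pr] at h1
      exact Nat.eq_of_mul_eq_mul_right (by norm_num : 0 < 443520) h1
    · rw [mem] at hx ⊢
      exact ⟨mul_mem (mul_mem hg hx.1) (inv_mem hg), by simp only [Equiv.Perm.mul_apply, h₂', hx.2.2, h₂], by simp only [Equiv.Perm.mul_apply, h₁', hx.2.1, h₁]⟩
    · rintro ⟨h, hh, H⟩
      rw [mem] at hh
      have hz : (⟨h⁻¹ * g, mul_mem (inv_mem hh.1) hg⟩ : M24) = 1 := by
        refine eq_one_of_fix_compl (R := {none, some 0}) (by decide) fun p hp => ?_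
        change (h⁻¹ * g) p = p
        simp only [mem_insert, mem_singleton, not_or] at hp
        by_contra hne
        have a1 : (h⁻¹ * g) p ≠ none := fun e => hp.2 (g.injective (by
          rw [Equiv.Perm.mul_apply, Equiv.Perm.inv_eq_iff_eq, hh.2.1] at e; rw [e, h₂]))
        have a2 : (h⁻¹ * g) p ≠ some 0 := fun e => hp.1 (g.injective (by
          rw [Equiv.Perm.mul_apply, Equiv.Perm.inv_eq_iff_eq, hh.2.2] at e; rw [e, h₁]))
        obtain ⟨r, -, hr⟩ := exists_mem_notMem_of_card_lt_card (s := {none, some 0, p, (h⁻¹ * g) p}) (t := univ)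
          (lt_of_le_of_lt card_le_four (by rw [card_univ, card_golayPt]; omega))
        simp only [mem_insert, mem_singleton, not_or] at hr
        have inj : ∀ q : GolayPt, q ≠ none → q ≠ some 0 → q ≠ p → Function.Injective ![none, some 0, p, q] := by
          intro q b1 b2 b3
          intro i j
          fin_cases i <;> fin_cases j <;> simp [b1, b2, b3, hp.1, hp.2, Ne.symm b1, Ne.symm b2, Ne.symm b3, Ne.symm hp.1, Ne.symm hp.2]
        obtain ⟨x, hx⟩ := exists_M24 (by omega) (inj _ a1 a2 hne) (inj r hr.1 hr.2.1 hr.2.2.1)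
        have c := congrArg (fun y : PG => h⁻¹ (y (g p))) (H x ((mem _).2 ⟨x.2, hx 0, hx 1⟩))
        simp only [Equiv.Perm.mul_apply, Equiv.Perm.inv_def, Equiv.symm_apply_apply] at c
        have c2 : (x : PG) p = p := hx 2
        have c3 : (x : PG) (h.symm (g p)) = r := hx 3
        rw [c2, c3] at c
        exact hr.2.2.2 c.symm
      have := congrArg (fun y : M24 => h ((y : PG) none)) hz
      simp [h₁, hh.2.1] at this

end Cfsg.Agent.S5599
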