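import Cfsg.Statements.S5603
import Cfsg.Agent.GS.Mk2

set_option autoImplicit false
open scoped Pointwise
open Cfsg

namespace Cfsg.Agent.S5603

/-- A fixed-point-free element of order 3 of the group of the length-24 code maps to themselves exactly 7 sextets and exactly 15 trios. -/
theorem result (g : Equiv.Perm Cfsg.GolayPt) (hg : g ∈ Cfsg.M24) (h₃ : orderOf g = 3) (h₀ : ∀ p, g p ≠ p) : {S : Finset (Finset Cfsg.GolayPt) | S ∈ Cfsg.sextets ∧ g • S = S}.ncard = 7 ∧ {T : Finset (Finset Cfsg.GolayPt) | T ∈ Cfsg.trios ∧ g • T = T}.ncard = 15 := by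
  open Finset Pointwise Cfsg.Agent.St Cfsg.Agent.H6 in focus
    rcases three_cnt (g := ⟨g, hg⟩) (by rw [← h₃]; exact (Subgroup.orderOf_mk _ _)) with h | h
    · have := h.1
      rw [filter_false_of_mem fun p _ => h₀ p] at this
      exact absurd this (by simp)
    · exact ⟨h.2.2.2.2, h.2.2.2.1⟩

end Cfsg.Agent.S5603
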