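import Cfsg.Statements.S5604
import Cfsg.Agent.GS.Mk2

set_option autoImplicit false
open scoped Pointwise
open Cfsg

namespace Cfsg.Agent.S5604

/-- For a subgroup S of order 7 of the group of the length-24 code (a Sylow 7-subgroup): the normaliser of S has order 126, the centraliser of S has order 42 and is non-abelian, and the whole normaliser leaves some trio invariant. (These are the orders of a Frobenius group of order 21 times a symmetric group of degree 3; the isomorphism type itself is not asserted here.) -/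
theorem result (S : Subgroup ↥Cfsg.M24) (hS : Nat.card S = 7) : Nat.card ↥(Subgroup.normalizer (S : Set ↥Cfsg.M24)) = 126 ∧ Nat.card ↥(Subgroup.centralizer (S : Set ↥Cfsg.M24)) = 42 ∧ (∃ x ∈ Subgroup.centralizer (S : Set ↥Cfsg.M24), ∃ y ∈ Subgroup.centralizer (S : Set ↥Cfsg.M24), x * y ≠ y * x) ∧ ∃ T ∈ Cfsg.trios, ∀ n ∈ Subgroup.normalizer (S : Set ↥Cfsg.M24), ((n : ↥Cfsg.M24) : Equiv.Perm Cfsg.GolayPt) • T = T := by
  open Finset Pointwise Cfsg.Agent.St Cfsg.Agent.H6 in focus
    haveI : Fact (Nat.Prime 7) := ⟨by norm_num⟩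
    obtain ⟨c, -, hc⟩ := conj_into (K := ⊤) (P := cl mg [w7]) (Q := S) (p := 7) (k := 1) (m := 34974720) (by norm_num) le_top
      card_S7 (by rw [Subgroup.card_top, card_M24]; norm_num) (by norm_num) le_top (IsPGroup.of_card (n := 1) hS)
    have e : S.map (MulAut.conj c).toMonoidHom = cl mg [w7] := Subgroup.eq_of_le_of_card_ge (by
      rintro _ ⟨q, hq, rfl⟩; exact hc q hq) (by rw [card_S7, Subgroup.card_map_of_injective (MulAut.conj c).injective, hS])
    have hN : ∀ k, k ∈ Subgroup.normalizer (S : Set M24) ↔ c⁻¹⁻¹ * k * c⁻¹ ∈ Subgroup.normalizer (cl mg [w7] : Set M24) := by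
      intro k
      rw [← e, ← Subgroup.map_equiv_normalizer_eq, Subgroup.mem_map_equiv]; simp [mul_assoc]
    have hC : ∀ k, k ∈ Subgroup.centralizer (S : Set M24) ↔ c⁻¹⁻¹ * k * c⁻¹ ∈ Subgroup.centralizer (cl mg [w7] : Set M24) := by
      intro k
      rw [← e]
      simp only [Subgroup.mem_centralizer_iff, SetLike.mem_coe, Subgroup.mem_map]
      constructor
      · rintro h _ ⟨q, hq, rfl⟩
        show c * q * c⁻¹ * _ = _ * (c * q * c⁻¹)
        calc _ = c * (q * k) * c⁻¹ := by group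
          _ = _ := by rw [h q hq]; group
      · intro h q hq
        have : c * q * c⁻¹ * _ = _ * (c * q * c⁻¹) := h _ ⟨q, hq, rfl⟩
        calc _ = c⁻¹ * (c * q * c⁻¹ * (c⁻¹⁻¹ * k * c⁻¹)) * c := by group
          _ = _ := by rw [this]; group
    refine ⟨(card_conj hN).trans card_N7, (card_conj hC).trans card_C7, ?_, c⁻¹ • trX 0, smul_mem_trios _ trX_0_mem, fun n hn => ?_⟩
    · obtain ⟨x, hx, y, hy, h⟩ := nc_C7
      refine ⟨c⁻¹ * x * c, (hC _).2 (by simpa [mul_assoc] using hx), c⁻¹ * y * c, (hC _).2 (by simpa [mul_assoc] using hy), fun e => h ?_⟩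
      calc _ = c * (c⁻¹ * x * c * (c⁻¹ * y * c)) * c⁻¹ := by group
        _ = _ := by rw [e]; group
    · have : (c⁻¹⁻¹ * n * c⁻¹) • trX 0 = trX 0 := (N7_le ((hN n).1 hn)).1
      rwa [mul_smul, mul_smul, inv_smul_eq_iff] at this

end Cfsg.Agent.S5604
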