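import Cfsg.Statements.S5606
import Cfsg.Agent.GS.Mk2

set_option autoImplicit false
open scoped Pointwise
open Cfsg

namespace Cfsg.Agent.S5606

/-- A fixed-point-free involution of the group of the length-24 code maps to themselves exactly 15 octads, exactly 75 trios and exactly 51 sextets. -/
theorem result (g : Equiv.Perm Cfsg.GolayPt) (hg : g ∈ Cfsg.M24) (h₂ : orderOf g = 2) (h₀ : ∀ p, g p ≠ p) : {o : Finset Cfsg.GolayPt | o ∈ Cfsg.octads ∧ g • o = o}.ncard = 15 ∧ {T : Finset (Finset Cfsg.GolayPt) | T ∈ Cfsg.trios ∧ g • T = T}.ncard = 75 ∧ {S : Finset (Finset Cfsg.GolayPt) | S ∈ Cfsg.sextets ∧ g • S = S}.ncard = 51 := by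
  open Finset Pointwise Cfsg.Agent.St Cfsg.Agent.H6 in focus
    rcases inv_cnt (g := ⟨g, hg⟩) (by rw [← h₂]; exact (Subgroup.orderOf_mk _ _)) with h | h
    · have := h.1
      rw [filter_false_of_mem fun p _ => h₀ p] at this
      exact absurd this (by simp)
    · exact ⟨h.2.1, h.2.2.2.1, h.2.2.2.2⟩

end Cfsg.Agent.S5606
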