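import Cfsg.Statements.S5607
import Cfsg.Agent.GS.Mk2

set_option autoImplicit false
open scoped Pointwise
open Cfsg

namespace Cfsg.Agent.S5607

/-- For a fixed-point-free involution t of the group of the length-24 code: its centraliser in that group has order 7680, is transitive on the 24 points, and is contained, together with t, in the stabiliser of some sextet. -/
theorem result (t : Equiv.Perm Cfsg.GolayPt) (ht : t ∈ Cfsg.M24) (h₂ : orderOf t = 2) (h₀ : ∀ p, t p ≠ p) : Nat.card {c : Equiv.Perm Cfsg.GolayPt // c ∈ Cfsg.M24 ∧ c * t = t * c} = 7680 ∧ (∀ p q : Cfsg.GolayPt, ∃ c ∈ Cfsg.M24, c * t = t * c ∧ c p = q) ∧ ∃ S ∈ Cfsg.sextets, t • S = S ∧ ∀ c ∈ Cfsg.M24, c * t = t * c → c • S = S := by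
  open Finset Pointwise Cfsg.Agent.St Cfsg.Agent.H6 in focus
    obtain ⟨k, hk⟩ : ∃ c : M24, c * zb * c⁻¹ = ⟨t, ht⟩ := by
      refine (inv_cls (g := ⟨t, ht⟩) (by rw [← h₂]; exact (Subgroup.orderOf_mk _ _))).resolve_left ?_
      rintro ⟨c, e⟩
      have := (cnt_ra.conj c).1
      rw [e, filter_false_of_mem fun p _ => h₀ p] at this
      exact absurd this (by simp)
    have key : ∀ c : M24, (c : PG) * t = t * c ↔ k⁻¹ * c * k ∈ Subgroup.centralizer {zb} := by
      intro c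
      rw [Subgroup.mem_centralizer_singleton_iff]
      have : (c : PG) * t = t * c ↔ c * ⟨t, ht⟩ = ⟨t, ht⟩ * c := ⟨fun h => Subtype.ext h, fun h => congrArg Subtype.val h⟩
      rw [this, ← hk]
      constructor
      · intro h; calc _ = k⁻¹ * (c * (k * zb * k⁻¹)) * k := by group
          _ = _ := by rw [h]; group
      · intro h; calc _ = k * (k⁻¹ * c * k * zb) * k⁻¹ := by group
          _ = _ := by rw [h]; group
    refine ⟨?_, fun p q => ?_, k • sxX 0, smul_mem_sextets k sxX_0_mem, ?_, fun c hc h => ?_⟩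
    · rw [← card_Cb, ← card_conj (K' := Subgroup.centralizer {(⟨t, ht⟩ : M24)}) (g := k) fun c => by
        rw [← key, Subgroup.mem_centralizer_singleton_iff, Subtype.ext_iff]; rfl]
      exact Nat.card_congr ⟨fun c => ⟨⟨c.1, c.2.1⟩, Subgroup.mem_centralizer_singleton_iff.2 (Subtype.ext c.2.2)⟩,
        fun c => ⟨c.1.1, c.1.2, congrArg Subtype.val (Subgroup.mem_centralizer_singleton_iff.1 c.2)⟩, fun _ => rfl, fun _ => rfl⟩
    · have ho := orbit_pt_eq cl_Cb (p := 0) (m := 0xffffff) (by decide +kernel)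
      rw [fs_full] at ho
      obtain ⟨a, ha, e1⟩ := mem_orbit_sub.1 (ho ▸ mem_coe.2 (mem_univ (k⁻¹ • p)))
      obtain ⟨b, hb, e2⟩ := mem_orbit_sub.1 (ho ▸ mem_coe.2 (mem_univ (k⁻¹ • q)))
      refine ⟨(k * (b * a⁻¹) * k⁻¹ : M24), Subtype.prop _, (key _).2 (by simpa [mul_assoc] using mul_mem hb (inv_mem ha)), ?_⟩
      show (k * (b * a⁻¹) * k⁻¹) • p = q
      rw [mul_smul, mul_smul, mul_smul, ← e1, inv_smul_smul, e2, smul_inv_smul]
    · have : (k⁻¹ * ⟨t, ht⟩ * k) • sxX 0 = sxX 0 := cent_zb_le ((key ⟨t, ht⟩).1 rfl)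
      rwa [mul_smul, mul_smul, inv_smul_eq_iff] at this
    · have : (k⁻¹ * ⟨c, hc⟩ * k) • sxX 0 = sxX 0 := cent_zb_le ((key ⟨c, hc⟩).1 h)
      rwa [mul_smul, mul_smul, inv_smul_eq_iff] at this

end Cfsg.Agent.S5607
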