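import Cfsg.Statements.S5608
import Cfsg.Agent.GS.Mk2

set_option autoImplicit false
open scoped Pointwise
open Cfsg

namespace Cfsg.Agent.S5608

/-- If an element of order 3 and an involution of the group of the length-24 code commute, then either the element of order 3 has exactly 6 fixed points and the involution exactly 8, or both are fixed-point-free. -/
theorem result (x s : Equiv.Perm Cfsg.GolayPt) (hx : x ∈ Cfsg.M24) (hs : s ∈ Cfsg.M24) (h₃ : orderOf x = 3) (h₂ : orderOf s = 2) (hc : Commute x s) : ((Finset.univ.filter fun p => x p = p).card = 6 ∧ (Finset.univ.filter fun p => s p = p).card = 8) ∨ ((Finset.univ.filter fun p => x p = p).card = 0 ∧ (Finset.univ.filter fun p => s p = p).card = 0) := by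
  open Finset Pointwise Cfsg.Agent.St Cfsg.Agent.H6 in focus
    haveI := Fact.mk Nat.prime_three
    have o3 : orderOf (⟨x, hx⟩ : M24) = 3 := by rw [← h₃]; exact (Subgroup.orderOf_mk _ _)
    have o2 : orderOf (⟨s, hs⟩ : M24) = 2 := by rw [← h₂]; exact (Subgroup.orderOf_mk _ _)
    rcases inv_cls o2 with ⟨k, hk⟩ | ⟨k, hk⟩
    · have h8 : (univ.filter fun p => s p = p).card = 8 := by have := (cnt_ra.conj k).1; rwa [hk] at this
      refine Or.inl ⟨((three_cnt o3).resolve_right fun h => ?_).1, h8⟩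
      have h0 : (univ.filter fun p => x p = p).card = 0 := h.1
      let σ : Equiv.Perm {p // s p = p} := x.subtypePerm fun p => by
        rw [← Equiv.Perm.mul_apply, ← hc.eq, Equiv.Perm.mul_apply, x.apply_eq_iff_eq]
      have h1 : σ ^ 3 ^ 1 = 1 := by
        ext p; rw [pow_one, Equiv.Perm.subtypePerm_pow]; simp [← h₃, pow_orderOf_eq_one]
      obtain ⟨p, hp⟩ := Equiv.Perm.exists_fixed_point_of_prime (p := 3) (by rw [Fintype.card_subtype, h8]; norm_num) h1
      exact filter_eq_empty_iff.1 (card_eq_zero.1 h0) (mem_univ p.1) (congrArg Subtype.val hp)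
    · refine Or.inr ⟨?_, by have := (cnt_zb.conj k).1; rwa [hk] at this⟩
      have hm : k⁻¹ * ⟨x, hx⟩ * k⁻¹⁻¹ ∈ Subgroup.centralizer {zb} := by
        have : (⟨x, hx⟩ : M24) * ⟨s, hs⟩ = ⟨s, hs⟩ * ⟨x, hx⟩ := Subtype.ext hc.eq
        rw [← hk] at this
        rw [Subgroup.mem_centralizer_singleton_iff]
        calc _ = k⁻¹ * (⟨x, hx⟩ * (k * zb * k⁻¹)) * k := by group
          _ = _ := by rw [this]; group
      obtain ⟨c, -, h⟩ := conj_into' (P := Subgroup.zpowers b3) (k := 1) (m := 2560) Nat.prime_three (Subgroup.zpowers_le_of_mem b3_mem)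
        (by rw [Nat.card_zpowers, ord_b3]; rfl) card_Cb (by norm_num) hm (j := 1) (by rw [conj_pow, pow_one, ← o3, pow_orderOf_eq_one]; simp)
      have e : Subgroup.zpowers (c * (k⁻¹ * ⟨x, hx⟩ * k⁻¹⁻¹) * c⁻¹) = Subgroup.zpowers b3 :=
        Subgroup.eq_of_le_of_card_ge (Subgroup.zpowers_le_of_mem h) (by
          rw [Nat.card_zpowers, Nat.card_zpowers, ord_b3, ← o3]
          exact ((MulAut.conj k⁻¹).orderOf_eq _ ▸ (MulAut.conj c).orderOf_eq _).ge)
      rw [card_eq_zero, filter_eq_empty_iff]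
      intro p _ hp
      have h1 : c * (k⁻¹ * ⟨x, hx⟩ * k⁻¹⁻¹) * c⁻¹ ∈ MulAction.stabilizer M24 (c • k⁻¹ • p) := by
        have : (⟨x, hx⟩ : M24) • p = p := hp
        simp [MulAction.mem_stabilizer_iff, mul_smul, this]
      have h2 := Subgroup.zpowers_le_of_mem h1
      rw [e] at h2
      exact filter_eq_empty_iff.1 (card_eq_zero.1 cnt_b3.1) (mem_univ _) (h2 (Subgroup.mem_zpowers _))

end Cfsg.Agent.S5608
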