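import Cfsg.Statements.S5609
import Cfsg.Agent.GS.St7

set_option autoImplicit false
open scoped Pointwise
open Cfsg

namespace Cfsg.Agent.S5609

/-- In the graph on the 759 octads of the length-24 code in which two octads are adjacent when they are disjoint, the graph is connected (of diameter 3) and two distinct octads are at distance 1, 2 or 3 exactly when they meet in 0, 4 or 2 points respectively. -/
theorem result (o o' : Finset Cfsg.GolayPt) (ho : o ∈ Cfsg.octads) (ho' : o' ∈ Cfsg.octads) (hne : o ≠ o') : (Cfsg.blockGraph Cfsg.octads).Connected ∧ ((Cfsg.blockGraph Cfsg.octads).dist ⟨o, ho⟩ ⟨o', ho'⟩ = 1 ↔ (o ∩ o').card = 0) ∧ ((Cfsg.blockGraph Cfsg.octads).dist ⟨o, ho⟩ ⟨o', ho'⟩ = 2 ↔ (o ∩ o').card = 4) ∧ ((Cfsg.blockGraph Cfsg.octads).dist ⟨o, ho⟩ ⟨o', ho'⟩ = 3 ↔ (o ∩ o').card = 2) := by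
  open Finset Pointwise Cfsg.Agent.St Cfsg.Agent.H6 in focus
    have adj : ∀ a b : octads, (blockGraph octads).Adj a b ↔ ((a : Finset GolayPt) ∩ b).card = 0 := by
      intro b c
      rw [blockGraph, SimpleGraph.fromRel_adj, disjoint_comm (a := (c : Finset GolayPt)), or_self, card_eq_zero, ← disjoint_iff_inter_eq_empty, and_iff_right_iff_imp]
      rintro h rfl
      have := b.2.2
      rw [disjoint_self, bot_eq_empty] at h
      rw [h] at this; simp at this
    have tr : ∀ {a b : octads} {m c i j : ℕ}, isO m = true → isO c = true → pc (0x82402f &&& m) = ((a : Finset GolayPt) ∩ b).card → pc (0x82402f &&& c) = i → pc (c &&& m) = j →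
        ∃ x : octads, ((a : Finset GolayPt) ∩ x).card = i ∧ ((x : Finset GolayPt) ∩ b).card = j := by
      intro a b m c i j h1 h2 h3 h4 h5
      rw [← card_fs_pc, fs_and] at h3 h4 h5
      obtain ⟨g, hg⟩ := exists_smul_o0 a.2
      obtain ⟨k, hk, hk'⟩ := (cls_O _ a.2).2 _ (smul_mem_octads g (fs_mem_octads h1)) _ b.2 (by rw [← h3, ← hg, H6.card_inter_smul]; rfl)
      refine ⟨⟨k • g • fs c, smul_mem_octads _ (smul_mem_octads _ (fs_mem_octads h2))⟩, ?_, ?_⟩
      · rw [← h4, ← hk, ← hg, H6.card_inter_smul, H6.card_inter_smul]; rfl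
      · rw [← h5, ← hk', H6.card_inter_smul, H6.card_inter_smul]
    have four : ∀ a b : octads, ((a : Finset GolayPt) ∩ b).card = 4 → ∃ x, (blockGraph octads).Adj a x ∧ (blockGraph octads).Adj x b := by
      intro a b h
      simp only [adj]
      exact tr (m := 0x149f) (c := 0x3da100) (by decide +kernel) (by decide +kernel) (by rw [h]; decide +kernel) (by decide +kernel) (by decide +kernel)
    have two : ∀ a b : octads, ((a : Finset GolayPt) ∩ b).card = 2 → ∃ x, (blockGraph octads).Adj a x ∧ ((x : Finset GolayPt) ∩ b).card = 4 := by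
      intro a b h
      simp only [adj]
      exact tr (m := 0x3da10) (c := 0x99590) (by decide +kernel) (by decide +kernel) (by rw [h]; decide +kernel) (by decide +kernel) (by decide +kernel)
    have two' : ∀ a b x : octads, ((a : Finset GolayPt) ∩ b).card = 2 → (blockGraph octads).Adj a x → ¬ (blockGraph octads).Adj x b := by
      intro a b x h h1 h2
      rw [adj, card_eq_zero, ← disjoint_iff_inter_eq_empty] at h1 h2
      have h3 := compl_union_mem_octads a.2 x.2 h1
      have h4 : ((a : Finset GolayPt) ∪ x)ᶜ ∩ b = (b : Finset GolayPt) \ a := by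
        ext p
        simp only [mem_inter, mem_compl, mem_union, mem_sdiff]
        have : p ∈ (x : Finset GolayPt) → p ∉ (b : Finset GolayPt) := fun h => disjoint_left.1 h2 h
        tauto
      have h5 := card_sdiff_add_card_inter (b : Finset GolayPt) a
      rw [inter_comm, h, b.2.2, ← h4] at h5
      have h6 := octad_eq_of_inter h3 b.2 (by omega)
      rw [h6, inter_self, b.2.2] at h5; omega
    have conn : (blockGraph octads).Connected := by
      have : Nonempty octads := ⟨⟨o, ho⟩⟩
      have r4 : ∀ a b : octads, ((a : Finset GolayPt) ∩ b).card = 4 → (blockGraph octads).Reachable a b := fun a b h => by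
        obtain ⟨x, h1, h2⟩ := four a b h; exact h1.reachable.trans h2.reachable
      refine ⟨fun a b => ?_⟩
      by_cases h : a = b
      · rw [h]
      rcases card_inter_octads a.2 b.2 (fun e => h (Subtype.ext e)) with h1 | h1 | h1
      · exact ((adj a b).2 h1).reachable
      · obtain ⟨x, h2, h3⟩ := two a b h1; exact h2.reachable.trans (r4 x b h3)
      · exact r4 a b h1
    have d1 : ∀ a b : octads, (blockGraph octads).dist a b = 1 ↔ ((a : Finset GolayPt) ∩ b).card = 0 := fun a b => by
      rw [SimpleGraph.dist_eq_one_iff_adj, adj]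
    have le2 : ∀ a b : octads, ((a : Finset GolayPt) ∩ b).card = 4 → (blockGraph octads).dist a b ≤ 2 := fun a b h => by
      obtain ⟨x, h1, h2⟩ := four a b h
      have := conn.dist_triangle (u := a) (v := x) (w := b)
      rwa [SimpleGraph.dist_eq_one_iff_adj.2 h1, SimpleGraph.dist_eq_one_iff_adj.2 h2] at this
    have pos := conn.pos_dist_of_ne (show (⟨o, ho⟩ : octads) ≠ ⟨o', ho'⟩ from fun e => hne (congrArg Subtype.val e))
    have e1 := d1 ⟨o, ho⟩ ⟨o', ho'⟩
    have e2 := le2 ⟨o, ho⟩ ⟨o', ho'⟩
    have e3 : (o ∩ o').card = 2 → (blockGraph octads).dist ⟨o, ho⟩ ⟨o', ho'⟩ ≤ 3 ∧ (blockGraph octads).dist ⟨o, ho⟩ ⟨o', ho'⟩ ≠ 2 := fun h => by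
      obtain ⟨x, h1, h2⟩ := two ⟨o, ho⟩ ⟨o', ho'⟩ h
      have := conn.dist_triangle (u := ⟨o, ho⟩) (v := x) (w := ⟨o', ho'⟩)
      have := le2 x _ h2
      have := SimpleGraph.dist_eq_one_iff_adj.2 h1
      refine ⟨by omega, fun h3 => ?_⟩
      obtain ⟨w, hw⟩ := conn.exists_walk_length_eq_dist ⟨o, ho⟩ ⟨o', ho'⟩
      rw [h3] at hw
      have a1 := w.adj_getVert_succ (i := 0) (by omega)
      have a2 := w.adj_getVert_succ (i := 1) (by omega)
      rw [w.getVert_zero] at a1
      rw [show 1 + 1 = w.length by omega, w.getVert_length] at a2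
      exact two' _ _ _ h a1 a2
    have := card_inter_octads ho ho' hne
    simp only at e1 e2
    refine ⟨conn, e1, ?_, ?_⟩ <;> omega

end Cfsg.Agent.S5609
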