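import Cfsg.Statements.S5610
import Cfsg.Agent.H6.M24d

set_option autoImplicit false
open scoped Pointwise
open Cfsg

namespace Cfsg.Agent.S5610

open Cfsg.Agent
open scoped Pointwise commutatorElement

/-- The stabiliser of an octad in the group of the length-24 code has exactly three orbits on the 3795 trios, of sizes 15, 420 and 3360, and exactly three orbits on the 1771 sextets, of sizes 35, 840 and 896. -/
theorem result (o : Finset Cfsg.GolayPt) (ho : o ∈ Cfsg.octads) : (∃ X₁ ∈ Cfsg.trios, ∃ X₂ ∈ Cfsg.trios, ∃ X₃ ∈ Cfsg.trios, (MulAction.orbit ↥(MulAction.stabilizer Cfsg.M24 o) X₁).ncard = 15 ∧ (MulAction.orbit ↥(MulAction.stabilizer Cfsg.M24 o) X₂).ncard = 420 ∧ (MulAction.orbit ↥(MulAction.stabilizer Cfsg.M24 o) X₃).ncard = 3360 ∧ Cfsg.trios = MulAction.orbit ↥(MulAction.stabilizer Cfsg.M24 o) X₁ ∪ MulAction.orbit ↥(MulAction.stabilizer Cfsg.M24 o) X₂ ∪ MulAction.orbit ↥(MulAction.stabilizer Cfsg.M24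 o) X₃) ∧ (∃ Y₁ ∈ Cfsg.sextets, ∃ Y₂ ∈ Cfsg.sextets, ∃ Y₃ ∈ Cfsg.sextets, (MulAction.orbit ↥(MulAction.stabilizer Cfsg.M24 o) Y₁).ncard = 35 ∧ (MulAction.orbit ↥(MulAction.stabilizer Cfsg.M24 o) Y₂).ncard = 840 ∧ (MulAction.orbit ↥(MulAction.stabilizer Cfsg.M24 o) Y₃).ncard = 896 ∧ Cfsg.sextets = MulAction.orbit ↥(MulAction.stabilizer Cfsg.M24 o) Y₁ ∪ MulAction.orbit ↥(MulAction.stabilizer Cfsg.M24 o) Y₂ ∪ MulAction.orbit ↥(MulAction.stabilizer Cfsg.M24 o) Y₃) := by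
  obtain ⟨g, rfl⟩ := H6.orbit_oct ho
  have h0 := H6.part_O_Tr
  rw [H6.rng_trX] at h0
  have h := H6.OrbPart.smul (fun _ => trios) (fun g _ _ h => H6.smul_mem_trios g h) h0 g
  simp only [List.map] at h
  have k0 := H6.part_O_Sx
  rw [H6.rng_sxX] at k0
  have k := H6.OrbPart.smul (fun _ => sextets) (fun g _ _ h => H6.smul_mem_sextets g h) k0 g
  simp only [List.map] at k
  exact ⟨⟨_, h.mem (a := (g • H6.trX 0, 15)) (by simp), _, h.mem (a := (g • H6.trX 6, 420)) (by simp), _, h.mem (a := (g • H6.trX 1, 3360)) (by simp), h.1 (_, 15) (by simp), h.1 (_, 420) (by simp), h.1 (_, 3360) (by simp), by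
    ext y
    rw [h.2]
    simp [or_assoc]⟩,
   ⟨_, k.mem (a := (g • H6.sxX 0, 35)) (by simp), _, k.mem (a := (g • H6.sxX 3, 840)) (by simp), _, k.mem (a := (g • H6.sxX 2, 896)) (by simp), k.1 (_, 35) (by simp), k.1 (_, 840) (by simp), k.1 (_, 896) (by simp), by
    ext y
    rw [k.2]
    simp [or_assoc]⟩⟩

end Cfsg.Agent.S5610
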