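import Cfsg.Statements.S5611
import Cfsg.Agent.H6.M24d

set_option autoImplicit false
open scoped Pointwise
open Cfsg

namespace Cfsg.Agent.S5611

open Cfsg.Agent
open scoped Pointwise commutatorElement

/-- The stabiliser of a sextet in the group of the length-24 code has exactly three orbits on the 759 octads, of sizes 15, 360 and 384, and exactly four orbits on the 3795 trios, of sizes 15, 180, 720 and 2880. -/
theorem result (S : Finset (Finset Cfsg.GolayPt)) (hS : S ∈ Cfsg.sextets) : (∃ X₁ ∈ Cfsg.octads, ∃ X₂ ∈ Cfsg.octads, ∃ X₃ ∈ Cfsg.octads, (MulAction.orbit ↥(MulAction.stabilizer Cfsg.M24 S) X₁).ncard = 15 ∧ (MulAction.orbit ↥(MulAction.stabilizer Cfsg.M24 S) X₂).ncard = 360 ∧ (MulAction.orbit ↥(MulAction.stabilizer Cfsg.M24 S) X₃).ncard = 384 ∧ Cfsg.octads = MulAction.orbit ↥(MulAction.stabilizer Cfsg.M24 S) X₁ ∪ MulAction.orbit ↥(MulAction.stabilizer Cfsg.M24 S) X₂ ∪ MulAction.orbit ↥(MulAction.stabilizer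 Cfsg.M24 S) X₃) ∧ (∃ Y₁ ∈ Cfsg.trios, ∃ Y₂ ∈ Cfsg.trios, ∃ Y₃ ∈ Cfsg.trios, ∃ Y₄ ∈ Cfsg.trios, (MulAction.orbit ↥(MulAction.stabilizer Cfsg.M24 S) Y₁).ncard = 15 ∧ (MulAction.orbit ↥(MulAction.stabilizer Cfsg.M24 S) Y₂).ncard = 180 ∧ (MulAction.orbit ↥(MulAction.stabilizer Cfsg.M24 S) Y₃).ncard = 720 ∧ (MulAction.orbit ↥(MulAction.stabilizer Cfsg.M24 S) Y₄).ncard = 2880 ∧ Cfsg.trios = MulAction.orbit ↥(MulAction.stabilizer Cfsg.M24 S) Y₁ ∪ MulAction.orbit ↥(MulAction.stabilizer Cfsg.M24 S) Y₂ ∪ MulAction.orbit ↥(MulAction.stabilizer Cfsg.M24 S) Y₃ ∪ MulAction.orbit ↥(MulAction.stabilizer Cfsg.M24 S) Y₄) := by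
  have hS' := hS
  rw [← H6.orbit_sxX] at hS'
  obtain ⟨g, rfl⟩ := hS'
  have h0 := H6.part_Sx_C8
  have h := H6.OrbPart.smul (fun _ => octads) (fun g _ _ h => H6.smul_mem_octads g h) h0 g
  simp only [List.map] at h
  have k0 := H6.part_Sx_Tr
  rw [H6.rng_trX] at k0
  have k := H6.OrbPart.smul (fun _ => trios) (fun g _ _ h => H6.smul_mem_trios g h) k0 g
  simp only [List.map] at k
  exact ⟨⟨_, h.mem (a := (g • H6.cw 23, 15)) (by simp), _, h.mem (a := (g • H6.cw 1, 360)) (by simp), _, h.mem (a := (g • H6.cw 2, 384)) (by simp), h.1 (_, 15) (by simp), h.1 (_, 360) (by simp), h.1 (_, 384) (by simp), by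
    ext y
    rw [h.2]
    simp [or_assoc]⟩,
   ⟨_, k.mem (a := (g • H6.trX 50, 15)) (by simp), _, k.mem (a := (g • H6.trX 0, 180)) (by simp), _, k.mem (a := (g • H6.trX 3, 720)) (by simp), _, k.mem (a := (g • H6.trX 1, 2880)) (by simp), k.1 (_, 15) (by simp), k.1 (_, 180) (by simp), k.1 (_, 720) (by simp), k.1 (_, 2880) (by simp), by
    ext y
    rw [k.2]
    simp [or_assoc]⟩⟩

end Cfsg.Agent.S5611
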