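import Cfsg.Statements.S5612
import Cfsg.Agent.H6.M24d

set_option autoImplicit false
open scoped Pointwise
open Cfsg

namespace Cfsg.Agent.S5612

open Cfsg.Agent
open scoped Pointwise commutatorElement

/-- The stabiliser of a trio in the group of the length-24 code has exactly three orbits on the 759 octads, of sizes 3, 84 and 672, and exactly four orbits on the 1771 sextets, of sizes 7, 84, 336 and 1344. -/
theorem result (T : Finset (Finset Cfsg.GolayPt)) (hT : T ∈ Cfsg.trios) : (∃ X₁ ∈ Cfsg.octads, ∃ X₂ ∈ Cfsg.octads, ∃ X₃ ∈ Cfsg.octads, (MulAction.orbit ↥(MulAction.stabilizer Cfsg.M24 T) X₁).ncard = 3 ∧ (MulAction.orbit ↥(MulAction.stabilizer Cfsg.M24 T) X₂).ncard = 84 ∧ (MulAction.orbit ↥(MulAction.stabilizer Cfsg.M24 T) X₃).ncard = 672 ∧ Cfsg.octads = MulAction.orbit ↥(MulAction.stabilizer Cfsg.M24 T) X₁ ∪ MulAction.orbit ↥(MulAction.stabilizer Cfsg.M24 T) X₂ ∪ MulAction.orbit ↥(MulAction.stabilizer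 Cfsg.M24 T) X₃) ∧ (∃ Y₁ ∈ Cfsg.sextets, ∃ Y₂ ∈ Cfsg.sextets, ∃ Y₃ ∈ Cfsg.sextets, ∃ Y₄ ∈ Cfsg.sextets, (MulAction.orbit ↥(MulAction.stabilizer Cfsg.M24 T) Y₁).ncard = 7 ∧ (MulAction.orbit ↥(MulAction.stabilizer Cfsg.M24 T) Y₂).ncard = 84 ∧ (MulAction.orbit ↥(MulAction.stabilizer Cfsg.M24 T) Y₃).ncard = 336 ∧ (MulAction.orbit ↥(MulAction.stabilizer Cfsg.M24 T) Y₄).ncard = 1344 ∧ Cfsg.sextets = MulAction.orbit ↥(MulAction.stabilizer Cfsg.M24 T) Y₁ ∪ MulAction.orbit ↥(MulAction.stabilizer Cfsg.M24 T) Y₂ ∪ MulAction.orbit ↥(MulAction.stabilizer Cfsg.M24 T) Y₃ ∪ MulAction.orbit ↥(MulAction.stabilizer Cfsg.M24 T) Y₄) := by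
  have hS' := hT
  rw [← H6.orbit_trX] at hS'
  obtain ⟨g, rfl⟩ := hS'
  have h0 := H6.part_Tr_C8
  have h := H6.OrbPart.smul (fun _ => octads) (fun g _ _ h => H6.smul_mem_octads g h) h0 g
  simp only [List.map] at h
  have k0 := H6.part_Tr_Sx
  rw [H6.rng_sxX] at k0
  have k := H6.OrbPart.smul (fun _ => sextets) (fun g _ _ h => H6.smul_mem_sextets g h) k0 g
  simp only [List.map] at k
  exact ⟨⟨_, h.mem (a := (g • H6.cw 47, 3)) (by simp), _, h.mem (a := (g • H6.cw 7, 84)) (by simp), _, h.mem (a := (g • H6.cw 1, 672)) (by simp), h.1 (_, 3) (by simp), h.1 (_, 84) (by simp), h.1 (_, 672) (by simp), by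
    ext y
    rw [h.2]
    simp [or_assoc]⟩,
   ⟨_, k.mem (a := (g • H6.sxX 65, 7)) (by simp), _, k.mem (a := (g • H6.sxX 0, 84)) (by simp), _, k.mem (a := (g • H6.sxX 3, 336)) (by simp), _, k.mem (a := (g • H6.sxX 2, 1344)) (by simp), k.1 (_, 7) (by simp), k.1 (_, 84) (by simp), k.1 (_, 336) (by simp), k.1 (_, 1344) (by simp), by
    ext y
    rw [k.2]
    simp [or_assoc]⟩⟩

end Cfsg.Agent.S5612
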