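import Cfsg.Statements.S5613
import Cfsg.Agent.H6.M24d

set_option autoImplicit false
open scoped Pointwise
open Cfsg

namespace Cfsg.Agent.S5613

open Cfsg.Agent
open scoped Pointwise commutatorElement

/-- In the group of the length-24 code, the joint stabiliser of two octads has order 10752, 1152 or 720 according as the octads meet in 0, 4 or 2 points. -/
theorem result (o o' : Finset Cfsg.GolayPt) (ho : o ∈ Cfsg.octads) (ho' : o' ∈ Cfsg.octads) : ((o ∩ o').card = 0 → Nat.card ↥(MulAction.stabilizer Cfsg.M24 o ⊓ MulAction.stabilizer Cfsg.M24 o') = 10752) ∧ ((o ∩ o').card = 4 → Nat.card ↥(MulAction.stabilizer Cfsg.M24 o ⊓ MulAction.stabilizer Cfsg.M24 o') = 1152) ∧ ((o ∩ o').card = 2 → Nat.card ↥(MulAction.stabilizer Cfsg.M24 o ⊓ MulAction.stabilizer Cfsg.M24 o') = 720) := by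
  have h1 := H6.ncard_orbit_of_classify (G := M24) (fun _ : Finset GolayPt => octads) (fun a y => (a ∩ y).card)
    (fun g _ _ h => H6.smul_mem_octads g h) (fun g a y => H6.card_inter_smul g a y) (H6.cls_O o ho).2 ho'
  have h2 : Nat.card (MulAction.stabilizer M24 o) = 322560 := by
    rw [H6.card_stab_of_mem_orbit (H6.orbit_oct ho), H6.card_O]
  have h3 := (H6.cls_O o ho).1
  refine ⟨fun h => ?_, fun h => ?_, fun h => ?_⟩
  · exact H6.card_inf_stab_of_orbit (n := 30) (by rw [h1, h]; exact h3 (0, 30) (by simp)) (by norm_num) h2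
  · exact H6.card_inf_stab_of_orbit (n := 280) (by rw [h1, h]; exact h3 (4, 280) (by simp)) (by norm_num) h2
  · exact H6.card_inf_stab_of_orbit (n := 448) (by rw [h1, h]; exact h3 (2, 448) (by simp)) (by norm_num) h2

end Cfsg.Agent.S5613
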