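import Cfsg.Statements.S5614
import Cfsg.Agent.GS.St7

set_option autoImplicit false
open scoped Pointwise
open Cfsg

namespace Cfsg.Agent.S5614

/-- In the group of the length-24 code, the joint stabiliser of two octads meeting in exactly two points is isomorphic to the symmetric group of degree 6. -/
theorem result (o o' : Finset Cfsg.GolayPt) (ho : o ∈ Cfsg.octads) (ho' : o' ∈ Cfsg.octads) (h₂ : (o ∩ o').card = 2) : Nonempty (↥(MulAction.stabilizer Cfsg.M24 o ⊓ MulAction.stabilizer Cfsg.M24 o') ≃* Equiv.Perm (Fin 6)) := by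
  open Finset Pointwise Cfsg.Agent.St Cfsg.Agent.H6 in focus
    have h1 : fs 0x3da10 ∈ octads := fs_mem_octads (by decide +kernel)
    have h2 : (o0 ∩ fs 0x3da10).card = 2 := by rw [o0, ← fs_and, card_fs_pc]; decide
    obtain ⟨g, rfl⟩ := exists_smul_o0 ho
    obtain ⟨k, hk, hk'⟩ := (cls_O _ ho).2 _ (smul_mem_octads g h1) _ ho' (by rw [H6.card_inter_smul, h2, h₂])
    have hm : (g • o0, o') ∈ MulAction.orbit M24 (o0, fs 0x3da10) := ⟨k * g, by
      simp only [mul_smul, Prod.smul_mk, hk, hk']⟩
    obtain ⟨e⟩ := equiv_stab_of_mem_orbit hm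
    rw [stab_prod, stab_prod] at e
    have hd : o0 \ fs 0x3da10 = univ.image b1 := by
      rw [o0, ← fs_sdiff]; ext p; rw [mem_fs]; revert p; decide +kernel
    obtain ⟨ψ, -⟩ := equiv_of_induce (G := ↥(MulAction.stabilizer M24 o0 ⊓ MulAction.stabilizer M24 (fs 0x3da10))) (ι := b1) (H := ⊤)
      (by decide) (fun g => (exists_perm_of (by decide) (g := g) fun a => by
          have : g.1 • b1 a ∈ g.1 • (o0 \ fs 0x3da10) := smul_mem_smul_finset (hd ▸ mem_image_of_mem _ (mem_univ a))
          rw [smul_finset_sdiff, show g.1 • o0 = o0 from g.2.1, show g.1 • fs 0x3da10 = fs 0x3da10 from g.2.2, hd] at this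
          obtain ⟨a', -, e⟩ := mem_image.1 this
          exact ⟨a', e.symm⟩).imp fun σ h => ⟨trivial, h⟩)
      (fun g h => by
        obtain ⟨T, hT, h3⟩ := enumK (g := g.1) h
        have h4 := (lall_eq _ _).1 (by decide +kernel : lall (fun T => bor (Nat.beq (tf T 4) 4) (beqb (Nat.beq (pc (Nat.land (imM T 0x3da10) 0x3da10)) 8) false)) TK = true) T hT
        have h5 := h3.smul 0x3da10
        rw [show g.1 • fs 0x3da10 = fs 0x3da10 from g.2.2] at h5
        simp only [bor_eq, beqb_eq, beq_eq] at h4
        rcases h4 with h4 | h4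
        · exact Subtype.ext (eq_of_base (h := 1) (fun i => by rw [one_smul]; exact h i) (by rw [h3.pt (by omega), h4, one_smul]))
        · rw [← card_fs_pc, show fs (Nat.land (imM T 0x3da10) 0x3da10) = _ from fs_and _ _, ← h5, inter_self, h1.2] at h4
          exact absurd h4 (by decide))
      (by
        have h6 := (cls_O o0 o0_mem).1 (2, 448) (by simp)
        have h7 : MulAction.orbit (MulAction.stabilizer M24 o0) (fs 0x3da10) = {y | y ∈ octads ∧ (o0 ∩ y).card = 2} := by
          ext y
          rw [mem_orbit_sub]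
          constructor
          · rintro ⟨k, hk, rfl⟩
            exact ⟨smul_mem_octads k h1, by rw [← show k • o0 = o0 from hk, H6.card_inter_smul, h2]⟩
          · rintro ⟨h8, h9⟩
            exact (cls_O o0 o0_mem).2 _ h1 _ h8 (h2.trans h9.symm)
        rw [card_inf_stab_of_orbit (n := 448) (m := 720) (h7 ▸ h6) (by omega) (card_stab_oct o0_mem), Subgroup.card_top, Nat.card_perm]
        simp [Nat.factorial])
    exact ⟨(e.trans ψ).trans Subgroup.topEquiv⟩

end Cfsg.Agent.S5614
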