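import Cfsg.Statements.S5615
import Cfsg.Agent.GS.St8

set_option autoImplicit false
open scoped Pointwise
open Cfsg

namespace Cfsg.Agent.S5615

/-- An octad of the length-24 code lies in exactly 15 trios; the stabiliser of the octad in the code's group acts doubly transitively on these 15 trios, and the kernel of this action is the pointwise stabiliser of the octad. -/
theorem result (o : Finset Cfsg.GolayPt) (ho : o ∈ Cfsg.octads) : {T : Finset (Finset Cfsg.GolayPt) | T ∈ Cfsg.trios ∧ o ∈ T}.ncard = 15 ∧ (∀ T₁ T₂ T₁' T₂' : Finset (Finset Cfsg.GolayPt), T₁ ∈ Cfsg.trios → T₂ ∈ Cfsg.trios → T₁' ∈ Cfsg.trios → T₂' ∈ Cfsg.trios → o ∈ T₁ → o ∈ T₂ → o ∈ T₁' → o ∈ T₂' → T₁ ≠ T₂ → T₁' ≠ T₂' → ∃ g ∈ Cfsg.M24, g • o = o ∧ g • T₁ = T₁' ∧ g • T₂ = T₂') ∧ ∀ g ∈ Cfsg.M24, g • o = o → ((∀ T ∈ Cfsg.trios, o ∈ T → g • T = T) ↔ ∀ p ∈ o, g p = p) := by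
  open Finset Pointwise Cfsg.Agent.St Cfsg.Agent.H6 in focus
    have mem0 : o0 ∈ trX 0 := by rw [trX_0, mem_ffs]; exact ⟨_, by simp, rfl⟩
    have inv : ∀ (g : M24) (o : Finset GolayPt) (T : Finset (Finset GolayPt)), g • o ∈ g • T ↔ o ∈ T := fun g _ _ => smul_mem_smul_finset_iff g
    have ev : ∀ {L : List ℕ}, (∀ m ∈ L, m < 2 ^ 24) → decide (cw 47 ∈ ffs L) = decide (0x82402f ∈ L) := by
      intro L h
      rw [cw47, decide_eq_decide, mem_ffs]
      exact ⟨fun ⟨m, h1, h2⟩ => fs_inj (h m h1) (by norm_num) h2 ▸ h1, fun h => ⟨_, h, rfl⟩⟩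
    have s33 : trX 33 = ffs [0x258c50, 0x583380, 0x82402f] := parX_eq (by decide +kernel)
    have s434 : trX 434 = ffs [0x160ce, 0x789810, 0x860721] := parX_eq (by decide +kernel)
    have s144 : trX 144 = ffs [0x305aa, 0xcb250, 0xf04805] := parX_eq (by decide +kernel)
    have s6 : trX 6 = ffs [0x149f00, 0x626043, 0x8900bc] := parX_eq (by decide +kernel)
    have s7 : trX 7 = ffs [0x152074, 0x4ac809, 0xa01782] := parX_eq (by decide +kernel)
    have s1 : trX 1 = ffs [0xa4f80, 0x713021, 0x84805e] := parX_eq (by decide +kernel)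
    have nm : ∀ {L : List ℕ}, (∀ m ∈ L, m < 2 ^ 24) → 0x82402f ∉ L → o0 ∉ ffs L := by
      intro L h h' h1
      obtain ⟨m, h1, h2⟩ := mem_ffs.1 h1
      exact h' (fs_inj (h m h1) (by norm_num) h2 ▸ h1)
    have p1 := part_O_Tr
    have p2 := part_OT_Tr
    rw [rng_trX, cw_o0] at p1 p2
    have o1 : ∀ o ∈ octads, ∀ T ∈ trios, o ∈ T → (o, T) ∈ MulAction.orbit M24 (o0, trX 0) := by
      intro o ho T hT h
      obtain ⟨g, rfl⟩ := exists_smul_o0 ho
      obtain ⟨T, rfl⟩ := MulAction.surjective g T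
      have hT' : T ∈ trios := by simpa using smul_mem_trios g⁻¹ hT
      obtain ⟨a, ha, h1⟩ := (p1.2 T).1 hT'
      obtain ⟨k, hk, rfl⟩ := mem_orbit_sub.1 h1
      rw [inv, ← show k • o0 = o0 from hk, inv] at h
      simp only [List.mem_cons, List.not_mem_nil, or_false] at ha
      rcases ha with rfl | rfl | rfl
      · exact ⟨g * k, by simp only [mul_smul, Prod.smul_mk, show k • o0 = o0 from hk]⟩
      · exact absurd (s6 ▸ h) (nm (by decide) (by decide))
      · exact absurd (s1 ▸ h) (nm (by decide) (by decide))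
    have o2 : ∀ o ∈ octads, ∀ T ∈ trios, ∀ T' ∈ trios, o ∈ T → o ∈ T' → T ≠ T' → ((o, T), T') ∈ MulAction.orbit M24 ((o0, trX 0), trX 33) := by
      intro o ho T hT T' hT' h h' hne
      obtain ⟨g, hg⟩ := o1 o ho T hT h
      obtain ⟨rfl, rfl⟩ : g • o0 = o ∧ g • trX 0 = T := ⟨congrArg Prod.fst hg, congrArg Prod.snd hg⟩
      obtain ⟨T', rfl⟩ := MulAction.surjective g T'
      obtain ⟨a, ha, h1⟩ := (p2.2 T').1 (by simpa using smul_mem_trios g⁻¹ hT')
      obtain ⟨k, hk, rfl⟩ := mem_orbit_sub.1 h1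
      rw [inv, ← show k • o0 = o0 from hk.1, inv] at h'
      simp only [List.mem_cons, List.not_mem_nil, or_false] at ha
      rcases ha with rfl | rfl | rfl | rfl | rfl | rfl | rfl
      · exact absurd (by rw [show k • trX 0 = trX 0 from hk.2]) hne
      · exact ⟨g * k, by simp only [mul_smul, Prod.smul_mk, show k • o0 = o0 from hk.1, show k • trX 0 = trX 0 from hk.2]⟩
      · exact absurd (s434 ▸ h') (nm (by decide) (by decide))
      · exact absurd (s144 ▸ h') (nm (by decide) (by decide))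
      · exact absurd (s6 ▸ h') (nm (by decide) (by decide))
      · exact absurd (s7 ▸ h') (nm (by decide) (by decide))
      · exact absurd (s1 ▸ h') (nm (by decide) (by decide))
    have K0 : ∀ g ∈ FixP o0, g • trX 0 = trX 0 := by
      intro g hg
      obtain ⟨T, hT, h⟩ := enumK fun i => hg _ (b1_mem i)
      have h1 := (lall_eq _ _).1 (by decide +kernel : lall (fun T => bor (band (Nat.beq (imM T 0x527c0) 0x527c0) (Nat.beq (imM T 0x789810) 0x789810))
        (band (Nat.beq (imM T 0x527c0) 0x789810) (Nat.beq (imM T 0x789810) 0x527c0))) TK = true) T hT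
      have e : trX 0 = {fs 0x527c0, fs 0x789810, o0} := by
        rw [trX_0]; ext s; simp [mem_ffs, o0, eq_comm]
      simp only [bor_eq, band_eq, beq_eq] at h1
      rw [e, smul_finset_insert, smul_finset_insert, smul_finset_singleton, FixP.smul hg, h.smul, h.smul]
      rcases h1 with h1 | h1
      · rw [h1.1, h1.2]
      · rw [h1.1, h1.2, insert_comm]
    have K1 : ∀ o ∈ octads, ∀ g ∈ FixP o, ∀ T ∈ trios, o ∈ T → g • T = T := by
      intro o ho g hg T hT h
      obtain ⟨k, hk⟩ := o1 o ho T hT h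
      obtain ⟨rfl, rfl⟩ : k • o0 = o ∧ k • trX 0 = T := ⟨congrArg Prod.fst hk, congrArg Prod.snd hk⟩
      have := K0 _ (mem_Fix_smul.1 hg)
      rwa [mul_smul, mul_smul, inv_smul_eq_iff] at this
    have sep : ∀ (h : M24) (L : List ℕ) (F : ℕ), (∀ m ∈ L, h • fs m = fs m) →
        (∀ i < 24, F.testBit i = true → ∀ j < 24, i = j ∨ ∃ m ∈ L, m.testBit i = true ∧ m.testBit j = false) → ∀ x ∈ fs F, h • x = x := by
      intro h L F h1 h2 x hx
      rcases h2 _ (idx_lt x) (mem_fs.1 hx) _ (idx_lt (h • x)) with e | ⟨m, hm, a, b⟩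
      · rw [← pt_idx (h • x), ← e, pt_idx]
      · have : h • x ∈ h • fs m := smul_mem_smul_finset (mem_fs.2 a)
        rw [h1 m hm, mem_fs, b] at this
        exact absurd this (by simp)
    have K2 : ∀ g : M24, g • o0 = o0 → (∀ T ∈ trios, o0 ∈ T → g • T = T) → g ∈ FixP o0 := by
      intro g hg hT
      have h4 : pt 4 ∉ o0 := by rw [o0, pt_mem_fs (by norm_num)]; decide
      have h5 : g • pt 4 ∉ o0 := by rwa [← hg, smul_mem_smul_finset_iff]
      obtain ⟨k, hk, e⟩ := Fix_trans o0_mem h5 h4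
      suffices h : k * g = 1 by rw [eq_inv_of_mul_eq_one_right h]; exact inv_mem hk
      rw [← mul_smul] at e
      have ho : (k * g) • o0 = o0 := by rw [mul_smul, hg, FixP.smul hk]
      have hT' : ∀ T ∈ trios, o0 ∈ T → (k * g) • T = T := fun T a b => by rw [mul_smul, hT T a b, K1 _ o0_mem k hk T a b]
      generalize k * g = h at e ho hT'
      have fx : ∀ c ∈ octads, Disjoint o0 c → h • c = c := by
        intro c hc hd
        have hc' := compl_union_mem_octads o0_mem hc hd
        have d2 : Disjoint o0 (o0 ∪ c)ᶜ := disjoint_compl_right.mono_left subset_union_left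
        have d3 : Disjoint c (o0 ∪ c)ᶜ := disjoint_compl_right.mono_left subset_union_right
        have ne : ∀ {a b : Finset GolayPt}, a ∈ octads → Disjoint a b → a ≠ b := by
          rintro a _ ha hab rfl
          have := ha.2
          rw [disjoint_self.1 hab] at this
          exact absurd this (by decide)
        have ht : ({o0, c, (o0 ∪ c)ᶜ} : Finset (Finset GolayPt)) ∈ trios := by
          refine ⟨card_eq_three.2 ⟨_, _, _, ne o0_mem hd, ne o0_mem d2, ne hc d3, rfl⟩, ?_, ?_⟩
          · simp only [mem_insert, mem_singleton]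
            rintro _ (rfl | rfl | rfl)
            exacts [o0_mem, hc, hc']
          · simp only [mem_insert, mem_singleton]
            rintro _ (rfl | rfl | rfl) _ (rfl | rfl | rfl) hn
            exacts [absurd rfl hn, hd, d2, hd.symm, absurd rfl hn, d3, d2.symm, d3.symm, absurd rfl hn]
        have h1 : h • c ∈ ({o0, c, (o0 ∪ c)ᶜ} : Finset (Finset GolayPt)) := by
          rw [← hT' _ ht (by simp)]; exact smul_mem_smul_finset (by simp)
        simp only [mem_insert, mem_singleton] at h1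
        rcases h1 with h1 | h1 | h1
        · exact absurd (MulAction.injective h (ho.trans h1.symm)) (ne o0_mem hd)
        · exact h1
        · have : pt 4 ∈ c ↔ pt 4 ∈ h • c := by rw [← e, smul_mem_smul_finset_iff, e]
          rw [h1] at this
          simp [h4] at this
      have f1 := sep h [0x527c0, 0x789810, 0x99590, 0x742a40, 0x11b8c0, 0x6c0710, 0x20ab90, 0x5d1440] 0x7dbfd0 (fun m hm => by
        have := (lall_eq _ _).1 (by decide +kernel : lall (fun m => band (isO m) (Nat.beq (Nat.land 0x82402f m) 0))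
          [0x527c0, 0x789810, 0x99590, 0x742a40, 0x11b8c0, 0x6c0710, 0x20ab90, 0x5d1440] = true) m hm
        simp only [band_eq, beq_eq] at this
        refine fx _ (fs_mem_octads this.1) ?_
        rw [disjoint_iff_inter_eq_empty, o0, ← fs_and, ← fs_zero]; exact congrArg fs this.2) (by decide +kernel)
      have f2 := sep h [0x3da1, 0x7b42, 0x11b8c, 0x831d40, 0x68692, 0xc44d4, 0x140659, 0x9c8430, 0x9959, 0x293e0, 0x55c82, 0x918914] 0x82402f (fun m hm => by
        have := (lall_eq _ _).1 (by decide +kernel : lall (fun m => okO m 0x7dbfd0)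
          [0x3da1, 0x7b42, 0x11b8c, 0x831d40, 0x68692, 0xc44d4, 0x140659, 0x9c8430, 0x9959, 0x293e0, 0x55c82, 0x918914] = true) m hm
        rw [okO, band_eq, ble_eq] at this
        refine fix_octad h (fs_mem_octads this.1) f1 ?_
        rw [← fs_and, card_fs_pc]; exact this.2) (by decide +kernel)
      refine Subtype.ext (Equiv.ext fun x => ?_)
      by_cases hx : x ∈ fs 0x82402f
      · exact f2 x hx
      · refine f1 x ?_
        rw [show (0x7dbfd0 : ℕ) = 0x82402f ^^^ 0xffffff by decide, fs_compl]; exact mem_compl.2 hx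
    refine ⟨?_, fun T₁ T₂ T₁' T₂' a1 a2 a3 a4 b1 b2 b3 b4 c1 c2 => ?_, fun g hg hgo => ⟨fun h => ?_, fun h => K1 o ho ⟨g, hg⟩ h⟩⟩
    · obtain ⟨k, rfl⟩ := exists_smul_o0 ho
      have e : {T : Finset (Finset GolayPt) | T ∈ trios ∧ k • o0 ∈ T} = (k • ·) '' MulAction.orbit (MulAction.stabilizer M24 o0) (trX 0) := by
        ext T
        constructor
        · rintro ⟨h1, h2⟩
          obtain ⟨g, hg⟩ := o1 _ ho T h1 h2
          have e1 : g • o0 = k • o0 := congrArg Prod.fst hg
          have e2 : g • trX 0 = T := congrArg Prod.snd hg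
          exact ⟨(k⁻¹ * g) • trX 0, mem_orbit_sub.2 ⟨k⁻¹ * g, by rw [MulAction.mem_stabilizer_iff, mul_smul, e1, inv_smul_smul], rfl⟩,
            by simp only [mul_smul, smul_inv_smul, e2]⟩
        · rintro ⟨_, h1, rfl⟩
          obtain ⟨g, hg, rfl⟩ := mem_orbit_sub.1 h1
          refine ⟨smul_mem_trios k (smul_mem_trios g ((p1.2 _).2 ⟨(trX 0, 15), by simp, MulAction.mem_orbit_self _⟩)), ?_⟩
          rw [inv, ← show g • o0 = o0 from hg, inv]; exact mem0
      rw [e, Set.ncard_image_of_injective _ (MulAction.injective k)]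
      exact p1.1 (trX 0, 15) (by simp)
    · obtain ⟨g, hg⟩ := exists_of_orbit (o2 o ho _ a1 _ a2 b1 b2 c1) (o2 o ho _ a3 _ a4 b3 b4 c2)
      exact ⟨g, g.2, congrArg (·.1.1) hg, congrArg (·.1.2) hg, congrArg (·.2) hg⟩
    · obtain ⟨k, rfl⟩ := exists_smul_o0 ho
      have hgo' : (⟨g, hg⟩ : M24) • k • o0 = k • o0 := hgo
      refine show (⟨g, hg⟩ : M24) ∈ FixP (k • o0) from mem_Fix_smul.2 (K2 _ (by rw [mul_smul, mul_smul, hgo', inv_smul_smul]) fun T a b => ?_)
      have : (⟨g, hg⟩ : M24) • k • T = k • T := h _ (smul_mem_trios k a) ((inv _ _ _).2 b)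
      rw [mul_smul, mul_smul, this, inv_smul_smul]

end Cfsg.Agent.S5615
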