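import Cfsg.Statements.S5616
import Cfsg.Agent.GS.St7

set_option autoImplicit false
open scoped Pointwise
open Cfsg

namespace Cfsg.Agent.S5616

/-- Let Y be a set of 3 of the 24 points. The sextets of the length-24 code whose tetrads meeting Y number 1, 2 or 3 are respectively 21, 630 and 1120 in number, and two sextets with the same number of tetrads meeting Y are conjugate under the setwise stabiliser of Y in the code's group. -/
theorem result (Y : Finset Cfsg.GolayPt) (hY : Y.card = 3) : {S : Finset (Finset Cfsg.GolayPt) | S ∈ Cfsg.sextets ∧ (S.filter fun t => (t ∩ Y).Nonempty).card = 1}.ncard = 21 ∧ {S : Finset (Finset Cfsg.GolayPt) | S ∈ Cfsg.sextets ∧ (S.filter fun t => (t ∩ Y).Nonempty).card = 2}.ncard = 630 ∧ {S : Finset (Finset Cfsg.GolayPt) | S ∈ Cfsg.sextets ∧ (S.filter fun t => (t ∩ Y).Nonempty).card = 3}.ncard = 1120 ∧ ∀ S S' : Finset (Finset Cfsg.GolayPt), S ∈ Cfsg.sextets → S' ∈ Cfsg.sextets → (S.filter fun t => (t ∩ Y).Nonempty).card = (S'.filter fun t => (t ∩ Y).Nonempty).card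 → ∃ g ∈ Cfsg.M24, g • Y = Y ∧ g • S = S' := by
  open Finset Pointwise Cfsg.Agent.St Cfsg.Agent.H6 in focus
    have hφ : ∀ (g : M24) (Y : Finset GolayPt) (S : Finset (Finset GolayPt)), ((g • S).filter fun t => (t ∩ g • Y).Nonempty).card = (S.filter fun t => (t ∩ Y).Nonempty).card := by
      intro g Y S
      rw [← card_smul_finset g (S.filter _)]
      congr 1
      ext t
      obtain ⟨t, rfl⟩ := (MulAction.surjective g) t
      simp only [mem_filter, smul_mem_smul_finset_iff, ← smul_finset_inter, smul_finset_nonempty]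
    have ev : ∀ {L L' : List ℕ}, L'.Nodup → (∀ m ∈ L', m < 2 ^ 24) → (∀ m ∈ L', m ∈ L ∧ pc (m &&& 0x800003) ≠ 0) → (∀ m ∈ L, m ∈ L' ∨ pc (m &&& 0x800003) = 0) →
        ((ffs L).filter fun t => (t ∩ tpX 0).Nonempty).card = L'.length := by
      intro L L' h1 h2 h3 h4
      rw [← card_ffs h1 h2, tpX_0]
      congr 1
      ext t
      simp only [mem_filter, mem_ffs]
      constructor
      · rintro ⟨⟨m, hm, rfl⟩, h⟩
        rw [← card_pos, ← fs_and, card_fs_pc] at h
        exact ⟨m, (h4 m hm).resolve_right (by omega), rfl⟩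
      · rintro ⟨m, hm, rfl⟩
        exact ⟨⟨m, (h3 m hm).1, rfl⟩, by rw [← card_pos, ← fs_and, card_fs_pc]; exact Nat.pos_of_ne_zero (h3 m hm).2⟩
    have h0 := part_Tp_Sx
    rw [rng_sxX] at h0
    have s1 : sxX 1 = ffs [0x24021, 0x48050, 0x83200, 0x210c00, 0x500180, 0x80000e] := parX_eq (by decide +kernel)
    have s6 : sxX 6 = ffs [0x48042, 0x900a0, 0x106400, 0x200301, 0x421800, 0x80001c] := parX_eq (by decide +kernel)
    have := classify (G := M24) (fun _ : Finset GolayPt => sextets) (fun Y S => (S.filter fun t => (t ∩ Y).Nonempty).card)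
      (fun g _ _ h => smul_mem_sextets g h) hφ h0 (vs := [(1, 21), (2, 630), (3, 1120)]) (by
        simp only [List.map]
        rw [sxX_0, s1, s6, ev (L' := [0x800007]) (by decide) (by decide) (by decide +kernel) (by decide +kernel),
          ev (L' := [0x24021, 0x80000e]) (by decide) (by decide) (by decide +kernel) (by decide +kernel),
          ev (L' := [0x48042, 0x200301, 0x80001c]) (by decide) (by decide) (by decide +kernel) (by decide +kernel)]; rfl)
      (by decide) (orbit_tpX hY)
    refine ⟨this.1 (1, 21) (by simp), this.1 (2, 630) (by simp), this.1 (3, 1120) (by simp), fun S S' h1 h2 h3 => ?_⟩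
    obtain ⟨g, hg⟩ := this.2.1 S h1 S' h2 h3
    exact ⟨g, g.2, hg⟩

end Cfsg.Agent.S5616
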