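import Cfsg.Statements.S5617
import Cfsg.Agent.H6.M24d

set_option autoImplicit false
open scoped Pointwise
open Cfsg

namespace Cfsg.Agent.S5617

open Cfsg.Agent
open scoped Pointwise commutatorElement

/-- The setwise stabiliser, in the group of the length-24 code, of a complementary pair of dodecads has exactly three orbits on the 1771 sextets, of sizes 396, 495 and 880. -/
theorem result (d : Finset Cfsg.GolayPt) (hd : d ∈ Cfsg.dodecads) : ∃ X₁ ∈ Cfsg.sextets, ∃ X₂ ∈ Cfsg.sextets, ∃ X₃ ∈ Cfsg.sextets, (MulAction.orbit ↥(MulAction.stabilizer Cfsg.M24 ({d, Finset.univ \ d} : Finset (Finset Cfsg.GolayPt))) X₁).ncard = 396 ∧ (MulAction.orbit ↥(MulAction.stabilizer Cfsg.M24 ({d, Finset.univ \ d} : Finset (Finset Cfsg.GolayPt))) X₂).ncard = 495 ∧ (MulAction.orbit ↥(MulAction.stabilizer Cfsg.M24 ({d, Finset.univ \ d} : Finset (Finset Cfsg.GolayPt))) X₃).ncard = 880 ∧ Cfsg.sextets = MulAction.orbit ↥(MulAction.stabilizer Cfsg.M24 ({d, Finset.univ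 \ d} : Finset (Finset Cfsg.GolayPt))) X₁ ∪ MulAction.orbit ↥(MulAction.stabilizer Cfsg.M24 ({d, Finset.univ \ d} : Finset (Finset Cfsg.GolayPt))) X₂ ∪ MulAction.orbit ↥(MulAction.stabilizer Cfsg.M24 ({d, Finset.univ \ d} : Finset (Finset Cfsg.GolayPt))) X₃ := by
  rw [← Finset.compl_eq_univ_sdiff]
  obtain ⟨g, hg⟩ := H6.orbit_duX hd
  rw [← hg]
  have h0 := H6.part_Du_Sx
  rw [H6.rng_sxX] at h0
  have h := H6.OrbPart.smul (fun _ => sextets) (fun g _ _ h => H6.smul_mem_sextets g h) h0 g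
  simp only [List.map] at h
  exact ⟨_, h.mem (a := (g • H6.sxX 35, 396)) (by simp), _, h.mem (a := (g • H6.sxX 2, 495)) (by simp), _, h.mem (a := (g • H6.sxX 0, 880)) (by simp), h.1 (_, 396) (by simp), h.1 (_, 495) (by simp), h.1 (_, 880) (by simp), by
    ext y
    rw [h.2]
    simp [or_assoc]⟩

end Cfsg.Agent.S5617
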