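import Cfsg.Statements.S5618
import Cfsg.Agent.GS.St7
import Cfsg.Agent.S0384

set_option autoImplicit false
open scoped Pointwise
open Cfsg

namespace Cfsg.Agent.S5618

/-- For a dodecad d of the length-24 code and a hexad C on it (a 6-point intersection of d with an octad): the joint stabiliser of d and C in the code's group is isomorphic to the symmetric group of degree 6, and it acts faithfully both on the six points of C and on the six points of d outside C. -/
theorem result (d : Finset Cfsg.GolayPt) (hd : d ∈ Cfsg.dodecads) (C : Finset Cfsg.GolayPt) (hC : C ∈ Cfsg.hexadsOn d) : Nonempty (↥(MulAction.stabilizer Cfsg.M24 d ⊓ MulAction.stabilizer Cfsg.M24 C) ≃* Equiv.Perm (Fin 6)) ∧ (∀ g ∈ MulAction.stabilizer Cfsg.M24 d ⊓ MulAction.stabilizer Cfsg.M24 C, (∀ p ∈ C, ((g : ↥Cfsg.M24) : Equiv.Perm Cfsg.GolayPt) p = p) → g = 1) ∧ ∀ g ∈ MulAction.stabilizer Cfsg.M24 d ⊓ MulAction.stabilizer Cfsg.M24 C, (∀ p ∈ d \ C, ((g : ↥Cfsg.M24) : Equiv.Perm Cfsg.GolayPt) p = p) → g = 1 := by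
  open Finset Pointwise Cfsg.Agent.St Cfsg.Agent.H6 in focus
    obtain ⟨h6, o, ho, rfl⟩ := hC
    have hs : o ∩ d ⊆ d := inter_subset_right
    refine ⟨?_, fun g hg h => eq_one_of_fix_d hd hg.1 hs (by omega) h, fun g hg h => eq_one_of_fix_d hd hg.1 sdiff_subset (by
      rw [card_sdiff_of_subset hs, hd.2]; omega) h⟩
    let x0 : Fin 6 ≃ ↥(o ∩ d) := ((o ∩ d).equivFinOfCardEq h6).symm
    obtain ⟨ψ, -⟩ := equiv_of_induce' (G := ↥(MulAction.stabilizer M24 d ⊓ MulAction.stabilizer M24 (o ∩ d))) (ι := fun a : ↥(o ∩ d) => (a : GolayPt)) (H := ⊤)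
      Subtype.val_injective (fun g => (induce_perm g.2.2).imp fun σ h => ⟨trivial, h⟩)
      (fun g h => Subtype.ext (eq_one_of_fix_d hd g.2.1 hs (by omega) fun x hx => h ⟨x, hx⟩)) (fun σ _ => by
        have inj : ∀ σ : Equiv.Perm ↥(o ∩ d), Function.Injective fun i : Fin 5 => (σ (x0 i.castSucc) : GolayPt) :=
          fun σ => Subtype.val_injective.comp (σ.injective.comp (x0.injective.comp (Fin.castSucc_injective 5)))
        obtain ⟨g, hg, -⟩ := S0384.result d hd ⟨_, inj 1⟩ ⟨_, inj σ⟩ (fun i => hs (Subtype.prop _)) (fun i => hs (Subtype.prop _))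
        have hg' : ∀ i : Fin 5, g.1 • (x0 i.castSucc : GolayPt) = σ (x0 i.castSucc) := hg
        have h1 : g.1 • o = o := by
          refine octad_eq_of_inter (smul_mem_octads _ ho) ho ?_
          rw [← Fintype.card_fin 5, ← card_univ, ← card_image_of_injective _ (inj σ)]
          refine card_le_card fun p hp => ?_
          obtain ⟨i, -, rfl⟩ := mem_image.1 hp
          exact mem_inter.2 ⟨hg' i ▸ smul_mem_smul_finset (mem_inter.1 (x0 _).2).1, (mem_inter.1 (σ _).2).1⟩
        have h2 : g.1 • (o ∩ d) = o ∩ d := by rw [smul_finset_inter, h1, show g.1 • d = d from g.2]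
        obtain ⟨τ, hτ⟩ := induce_perm h2
        have h3 : ∀ i : Fin 5, τ (x0 i.castSucc) = σ (x0 i.castSucc) := fun i => Subtype.ext ((hτ _).symm.trans (hg' i))
        have h4 : τ = σ := by
          have h5 : ∀ a, a ≠ x0 (Fin.last 5) → τ a = σ a := by
            intro a ha
            obtain ⟨i, rfl⟩ := x0.surjective a
            obtain ⟨j, rfl⟩ := Fin.exists_castSucc_eq.2 (fun e => ha (congrArg x0 e))
            exact h3 j
          ext a
          by_cases ha : a = x0 (Fin.last 5)
          · obtain ⟨b, hb⟩ := σ.surjective (τ a)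
            by_cases hb' : b = x0 (Fin.last 5)
            · rw [← hb, hb', ha]
            · rw [← h5 b hb'] at hb
              exact absurd ((τ.injective hb).trans ha) hb'
          · rw [h5 a ha]
        exact ⟨⟨g.1, g.2, h2⟩, h4 ▸ hτ⟩)
    exact ⟨(ψ.trans Subgroup.topEquiv).trans x0.symm.permCongrHom⟩

end Cfsg.Agent.S5618
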