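import Cfsg.Statements.S5619
import Cfsg.Agent.GS.Mk3

set_option autoImplicit false
open scoped Pointwise
open Cfsg

namespace Cfsg.Agent.S5619

section
open Finset Pointwise Cfsg.Agent.St Cfsg.Agent.H6

theorem aux {H K : Type*} [Group H] [Group K] (e : H ≃* K) (cK : Nat.card K = 72) {N : Subgroup K} (n1 : N.Normal)
    (n2 : Nat.card N = 9) (n3 : ∀ x ∈ N, x ^ 3 = 1) (φ : QuaternionGroup 2 →* K) (hφ : Function.Injective φ) :
    (∀ Q : Sylow 3 H, (Q : Subgroup H).Normal ∧ Nat.card Q = 9 ∧ ∀ x ∈ (Q : Subgroup H), x ^ 3 = 1) ∧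
      ∀ P : Sylow 2 H, Nonempty (P ≃* QuaternionGroup 2) := by
  have cH := (Nat.card_congr e.toEquiv).trans cK
  haveI : Finite H := Nat.finite_of_card_ne_zero (by rw [cH]; norm_num)
  have hψ : Function.Injective (e.symm.toMonoidHom.comp φ) := e.symm.injective.comp hφ
  have c9 : Nat.card (N.comap e.toMonoidHom) = 9 := by
    rw [← n2, Subgroup.comap_equiv_eq_map_symm', Subgroup.card_map_of_injective e.symm.injective]
  have m3 : ∀ x ∈ N.comap e.toMonoidHom, x ^ 3 = 1 := fun x hx => e.injective (by rw [map_pow, map_one]; exact n3 _ hx)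
  have nn := n1.comap e.toMonoidHom
  generalize N.comap e.toMonoidHom = M at *
  haveI := Fact.mk Nat.prime_three
  have f72 : ∀ p, (72 : ℕ).factorization p = (2 ^ 3 : ℕ).factorization p + (3 ^ 2 : ℕ).factorization p := fun p => by
    rw [show 72 = 2 ^ 3 * 3 ^ 2 from rfl, Nat.factorization_mul (by norm_num) (by norm_num)]; rfl
  refine ⟨fun Q => ?_, fun P => ?_⟩
  · let S : Sylow 3 H := Sylow.ofCard M (by
      rw [c9, cH, f72, Nat.prime_two.factorization_pow, Nat.prime_three.factorization_pow]; simp)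
    haveI := Sylow.unique_of_normal S nn
    obtain rfl : Q = S := Subsingleton.elim _ _
    exact ⟨nn, c9, m3⟩
  · let S : Sylow 2 H := Sylow.ofCard (e.symm.toMonoidHom.comp φ).range (by
      rw [← Nat.card_congr (MonoidHom.ofInjective hψ).toEquiv, cH, f72, Nat.prime_two.factorization_pow, Nat.prime_three.factorization_pow, Nat.card_eq_fintype_card, QuaternionGroup.card]; simp)
    exact ⟨(P.equiv S).trans (MonoidHom.ofInjective hψ).symm⟩

end

/-- In the group of the length-24 code, the subgroup fixing a dodecad setwise and three of its points individually (a group of order 72) has a normal Sylow 3-subgroup that is elementary abelian of order 9, and its Sylow 2-subgroups are quaternion of order 8. -/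
theorem result (d : Finset Cfsg.GolayPt) (hd : d ∈ Cfsg.dodecads) (p q r : Cfsg.GolayPt) (hp : p ∈ d) (hq : q ∈ d) (hr : r ∈ d) (hpq : p ≠ q) (hpr : p ≠ r) (hqr : q ≠ r) : (∀ Q : Sylow 3 ↥(MulAction.stabilizer Cfsg.M24 d ⊓ MulAction.stabilizer Cfsg.M24 p ⊓ MulAction.stabilizer Cfsg.M24 q ⊓ MulAction.stabilizer Cfsg.M24 r), (Q : Subgroup ↥(MulAction.stabilizer Cfsg.M24 d ⊓ MulAction.stabilizer Cfsg.M24 p ⊓ MulAction.stabilizer Cfsg.M24 q ⊓ MulAction.stabilizer Cfsg.M24 r)).Normal ∧ Nat.card ↥Q = 9 ∧ ∀ x ∈ (Q : Subgroup ↥(MulAction.stabilizer Cfsg.M24 d ⊓ MulAction.stabilizer Cfsg.M24 p ⊓ MulAction.stabilizer Cfsg.M24 q ⊓ MulAction.stabilizer Cfsg.M24 r)), x ^ 3 = 1) ∧ ∀ P : Sylow 2 ↥(MulAction.stabilizer Cfsg.M24 d ⊓ MulAction.stabilizer Cfsg.M24 p ⊓ MulAction.stabilizer Cfsg.M24 q ⊓ MulAction.stabilizer Cfsg.M24 r), Nonempty (↥P ≃* QuaternionGroup 2) := by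
  open Finset Pointwise Cfsg.Agent.St Cfsg.Agent.H6 in focus
    have e := equiv_stab_of_mem_orbit (orbit_dpqr hd hp hq hr hpq hpr hqr)
    rw [stab_prod, stab_prod, stab_prod, stab_prod, stab_prod, stab_prod] at e
    obtain ⟨e⟩ := e
    obtain ⟨N, n1, n2, n3⟩ := N9
    obtain ⟨f⟩ := isoE
    exact aux e card_D3 n1 n2 n3 ((Subgroup.inclusion inf_le_left).comp f.symm.toMonoidHom) ((Subgroup.inclusion_injective inf_le_left).comp f.symm.injective)

end Cfsg.Agent.S5619
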