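import Cfsg.Statements.S5620
import Cfsg.Agent.GS.Mk2

set_option autoImplicit false
open scoped Pointwise
open Cfsg

namespace Cfsg.Agent.S5620

/-- Inside the stabiliser of the dodecad of squares (a Mathieu group of degree 12), the stabiliser of the residue 0 (a point of the dodecad) and the stabiliser of the extra point (a point outside the dodecad) are isomorphic but not conjugate; conjugation by a suitable element of the code's group that maps the dodecad of squares onto its complement carries the first onto the second. -/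
theorem result : Nonempty (↥(Cfsg.Spor.M12 ⊓ MulAction.stabilizer (Equiv.Perm Cfsg.GolayPt) (none : Cfsg.GolayPt)) ≃* ↥Cfsg.Spor.M11) ∧ (¬ ∃ k ∈ Cfsg.Spor.M12, MulAut.conj k • Cfsg.Spor.M11 = Cfsg.Spor.M12 ⊓ MulAction.stabilizer (Equiv.Perm Cfsg.GolayPt) (none : Cfsg.GolayPt)) ∧ ∃ g ∈ Cfsg.M24, g • Cfsg.Spor.squareDodecad = Finset.univ \ Cfsg.Spor.squareDodecad ∧ MulAut.conj g • Cfsg.Spor.M11 = Cfsg.Spor.M12 ⊓ MulAction.stabilizer (Equiv.Perm Cfsg.GolayPt) (none : Cfsg.GolayPt) := by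
  open Finset Pointwise Cfsg.Agent.St Cfsg.Agent.H6 in focus
    have hd : cw 863 ∈ dodecads := cw_mem_dodecads (by decide +kernel)
    have hd' : (cw 863)ᶜ ∈ dodecads := ⟨compl_mem_csets hd.1, by rw [card_compl, card_golayPt, hd.2]⟩
    have n23 : pt 23 ∉ cw 863 := pt_not_mem_cw (by norm_num) (by decide +kernel)
    have m0 : pt 0 ∈ cw 863 := (pt_mem_cw (by norm_num)).2 (by decide +kernel)
    have mem : ∀ (k : PG) (K : Subgroup PG) (x : PG), x ∈ MulAut.conj k • K ↔ k⁻¹ * x * k ∈ K := fun k K x => by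
      rw [Subgroup.mem_pointwise_smul_iff_inv_smul_mem]; simp
    obtain ⟨g, hg⟩ := orbit_dp hd' (mem_compl.2 n23)
    have g1 : g • cw 863 = (cw 863)ᶜ := congrArg Prod.fst hg
    have g2 : g • pt 0 = pt 23 := congrArg Prod.snd hg
    have e : MulAut.conj (g : PG) • Spor.M11 = Spor.M12 ⊓ MulAction.stabilizer PG (none : GolayPt) := by
      ext x
      rw [mem, Spor.M11, Spor.M12, sq_cw]
      simp only [Subgroup.mem_inf]
      have a : (g : PG)⁻¹ * x * g ∈ M24 ↔ x ∈ M24 := by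
        rw [Subgroup.mul_mem_cancel_right _ g.2, Subgroup.mul_mem_cancel_left _ (inv_mem g.2)]
      have g1' : (g : PG) • cw 863 = (cw 863)ᶜ := g1
      have g2' : (g : PG) • (some 0 : GolayPt) = none := g2
      rw [a]
      simp only [MulAction.mem_stabilizer_iff]
      rw [mul_smul, mul_smul, mul_smul, mul_smul, inv_smul_eq_iff, inv_smul_eq_iff, g1', g2', smul_compl, compl_inj_iff]
    refine ⟨⟨(MulEquiv.subgroupCongr e.symm).trans (Subgroup.equivSMul _ _).symm⟩, ?_, g, g.2, by rw [sq_cw, ← compl_eq_univ_sdiff]; exact g1, e⟩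
    rintro ⟨k, hk, h⟩
    have hk1 : (⟨k, hk.1⟩ : M24) • cw 863 = cw 863 := by have := hk.2; rwa [sq_cw] at this
    have hp : (⟨k, hk.1⟩ : M24) • pt 0 ∈ cw 863 := hk1 ▸ smul_mem_smul_finset m0
    obtain ⟨q, hq, hne⟩ := exists_mem_ne (show 1 < (cw 863).card by rw [hd.2]; norm_num) ((⟨k, hk.1⟩ : M24) • pt 0)
    obtain ⟨x, hx⟩ := exists_of_orbit (orbit_dpo hd hp n23) (orbit_dpo hd hq n23)
    have x1 : x • cw 863 = cw 863 := congrArg (·.1.1) hx
    have x2 : x • (⟨k, hk.1⟩ : M24) • pt 0 = q := congrArg (·.1.2) hx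
    have x3 : x • pt 23 = pt 23 := congrArg (·.2) hx
    have : (x : PG) ∈ MulAut.conj k • Spor.M11 := by
      rw [h]; exact ⟨⟨x.2, by rw [sq_cw]; exact x1⟩, x3⟩
    have h2 : ((⟨k, hk.1⟩ : M24)⁻¹ * x * ⟨k, hk.1⟩) • pt 0 = pt 0 := ((mem _ _ _).1 this).2
    rw [mul_smul, mul_smul, inv_smul_eq_iff, x2] at h2
    exact hne h2

end Cfsg.Agent.S5620
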