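import Cfsg.Statements.S5627
import Cfsg.Agent.GS.St5

set_option autoImplicit false
open Cfsg

namespace Cfsg.Agent.S5627

section
open Finset Pointwise Cfsg.Agent.St Cfsg.Agent.H6

noncomputable def arc (m : ℕ) : Bool := lall (fun l => Nat.ble (pc (Nat.land l m)) 2) L21

theorem arc_iff {m : ℕ} (hm : m < 2 ^ 21) : arc m = true ↔ ∀ l ∈ B21, (l ∩ fN 21 m).card ≤ 2 := by
  simp only [arc, lall_eq, ble_eq, ← card_inter_pc (n := 21) (by omega) _ hm]
  exact ⟨by rintro h _ ⟨l, hl, rfl⟩; exact h l hl, fun h l hl => h _ ⟨l, hl, rfl⟩⟩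

theorem c4 : {S : Finset (Fin 21) | S.card = 4 ∧ ∀ l ∈ B21, (l ∩ S).card ≤ 2}.ncard = 2520 :=
  St.ncard_sub (P := arc) (fun _ hm _ => arc_iff hm) (by decide +kernel)

noncomputable def sec (s : ℕ) : ℕ :=
  lfold (fun acc l => Bool.rec (motive := fun _ => ℕ) acc (Nat.lor acc l) (Nat.ble 2 (pc (Nat.land l s)))) L21 s

theorem uq (S : Finset (Fin 21)) (hS : S.card = 4 ∧ ∀ l ∈ B21, (l ∩ S).card ≤ 2) :
    ∃! H : Finset (Fin 21), (H.card = 6 ∧ ∀ l ∈ B21, (l ∩ H).card ≤ 2) ∧ S ⊆ H := by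
  have hc : allSub 21 0 4 (fun s => bor (beqb (arc s) false) (seq (Nat.lor s (sdm 0x1fffff (sec s))) fun h =>
    band (Nat.beq (pc h) 6) (arc h))) = true := by decide +kernel
  obtain ⟨s, hs, rfl, h3⟩ := allSub_zero hc hS.1
  rw [bor_eq, beqb_eq, (arc_iff hs).2 hS.2, seq_eq, band_eq, beq_eq] at h3
  replace h3 := h3.resolve_left (by simp)
  have hl : Nat.lor s (sdm 0x1fffff (sec s)) < 2 ^ 21 :=
    Nat.or_lt_two_pow hs (lt_of_le_of_lt Nat.and_le_left (by norm_num))
  rw [arc_iff hl, ← card_fN_pc (by omega) hl, show fN 21 (Nat.lor s (sdm 0x1fffff (sec s))) = _ from fN_or _ _] at h3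
  refine ⟨_, ⟨h3, subset_union_left⟩, fun H ⟨h1, h2⟩ => eq_of_subset_of_card_le (fun p hp => ?_) (by omega)⟩
  by_cases h4 : p ∈ fN 21 s
  · exact mem_union_left _ h4
  refine mem_union_right _ ?_
  rw [fN_sdm, mem_sdiff]
  refine ⟨mem_fN.2 ((by decide : ∀ p : Fin 21, Nat.testBit 0x1fffff p = true) p), ?_⟩
  refine lfold_induction _ L21 (fun x => p ∉ fN 21 x) (fun l hl acc h5 => ?_) s h4
  cases h6 : Nat.ble 2 (pc (Nat.land l s))
  · exact h5
  · change p ∉ fN 21 (acc ||| l)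
    rw [fN_or, mem_union, not_or]
    refine ⟨h5, fun h7 => ?_⟩
    rw [ble_eq, ← card_inter_pc (by omega) _ hs] at h6
    have h8 := h1.2 _ ⟨l, hl, rfl⟩
    have h9 := card_le_card (show insert p (fN 21 l ∩ fN 21 s) ⊆ fN 21 l ∩ H from
      insert_subset (mem_inter.2 ⟨h7, hp⟩) (inter_subset_inter Subset.rfl h2))
    rw [card_insert_of_notMem fun e => h4 (mem_inter.1 e).2] at h9
    omega

open Classical in
theorem c6 : {S : Finset (Fin 21) | S.card = 6 ∧ ∀ l ∈ B21, (l ∩ S).card ≤ 2}.ncard = 168 := by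
  have h4 := c4
  rw [ncard_filter] at h4 ⊢
  have : (univ.filter fun H : Finset (Fin 21) => H.card = 6 ∧ ∀ l ∈ B21, (l ∩ H).card ≤ 2).biUnion (powersetCard 4) =
      univ.filter fun H : Finset (Fin 21) => H.card = 4 ∧ ∀ l ∈ B21, (l ∩ H).card ≤ 2 := by
    ext T
    simp only [mem_biUnion, mem_filter, mem_univ, true_and, mem_powersetCard]
    constructor
    · rintro ⟨H, h1, h2, h3⟩
      exact ⟨h3, fun l hl => (card_le_card (inter_subset_inter Subset.rfl h2)).trans (h1.2 l hl)⟩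
    · intro h
      obtain ⟨H, h1, -⟩ := uq T h
      exact ⟨H, h1.1, h1.2, h.1⟩
  rw [← this, card_biUnion, sum_congr rfl (g := fun _ => 15), sum_const, smul_eq_mul] at h4
  · omega
  · intro H hH; rw [card_powersetCard, (mem_filter.1 hH).2.1]; rfl
  · intro H hH H' hH' hne
    rw [Function.onFun, disjoint_left]
    intro T h1 h2
    rw [mem_powersetCard] at h1 h2
    exact hne ((uq T ⟨h1.2, fun l hl => (card_le_card (inter_subset_inter Subset.rfl h1.1)).trans
      ((mem_filter.1 hH).2.2 l hl)⟩).unique ⟨(mem_filter.1 hH).2, h1.1⟩ ⟨(mem_filter.1 hH').2, h2.1⟩)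

end

/-- In a projective plane of order 4 (a Steiner system S(2, 5, 21)), call a set of points independent when no line meets it in more than two points. There are exactly 2520 independent 4-sets and exactly 168 independent 6-sets (hyperovals), and every independent 4-set lies in exactly one hyperoval. -/
theorem result {α : Type*} [Fintype α] [DecidableEq α] (hα : Fintype.card α = 21) (L : Set (Finset α)) (hL : Cfsg.IsSteinerSystem 2 5 L) : {S : Finset α | (S.card = 4 ∧ ∀ l ∈ L, (l ∩ S).card ≤ 2)}.ncard = 2520 ∧ {H : Finset α | (H.card = 6 ∧ ∀ l ∈ L, (l ∩ H).card ≤ 2)}.ncard = 168 ∧ ∀ S : Finset α, (S.card = 4 ∧ ∀ l ∈ L, (l ∩ S).card ≤ 2) → ∃! H : Finset α, (H.card = 6 ∧ ∀ l ∈ L, (l ∩ H).card ≤ 2) ∧ S ⊆ H := by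
  open Finset Pointwise Cfsg.Agent.St Cfsg.Agent.H6 in focus
    obtain ⟨e, he⟩ := model21 hα hL
    have tr : ∀ k (S : Finset α), (S.card = k ∧ ∀ l ∈ L, (l ∩ S).card ≤ 2) ↔ ((S.image e).card = k ∧ ∀ l ∈ B21, (l ∩ S.image e).card ≤ 2) := by
      intro k S
      rw [card_im, ← he]
      refine and_congr_right fun _ => ⟨?_, fun h l hl => ?_⟩
      · rintro h _ ⟨l, hl, rfl⟩
        rw [← image_inter _ _ e.injective, card_im]; exact h l hl
      · have := h _ (image_mem_im.2 hl)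
        rwa [← image_inter _ _ e.injective, card_im] at this
    have cn : ∀ k, {S : Finset α | S.card = k ∧ ∀ l ∈ L, (l ∩ S).card ≤ 2}.ncard = {S : Finset (Fin 21) | S.card = k ∧ ∀ l ∈ B21, (l ∩ S).card ≤ 2}.ncard := by
      intro k
      refine Set.ncard_congr (fun S _ => S.image e) (fun S h => (tr k S).1 h) (fun _ _ _ _ h => image_injective e.injective h) fun S h => ?_
      exact ⟨S.image e.symm, (tr k _).2 (by rwa [image_symm']), image_symm' e S⟩
    refine ⟨(cn 4).trans c4, (cn 6).trans c6, fun S hS => existsUnique_of_exists_of_unique ?_ ?_⟩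
    · obtain ⟨H, ⟨h1, h2⟩, -⟩ := uq _ ((tr 4 S).1 hS)
      refine ⟨H.image e.symm, (tr 6 _).2 (by rwa [image_symm']), ?_⟩
      rw [← image_symm e S]; exact image_subset_image h2
    · rintro H H' ⟨h1, h2⟩ ⟨h1', h2'⟩
      exact image_injective e.injective ((uq _ ((tr 4 S).1 hS)).unique ⟨(tr 6 H).1 h1, image_subset_image h2⟩ ⟨(tr 6 H').1 h1', image_subset_image h2'⟩)

end Cfsg.Agent.S5627
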