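import Cfsg.Statements.S5628
import Cfsg.Agent.GS.St5

set_option autoImplicit false
open Cfsg

namespace Cfsg.Agent.S5628

/-- In a projective plane of order 4 (a Steiner system S(2, 5, 21)), every permutation of the six points of a hyperoval (a 6-set met by no line in more than two points) is the restriction of exactly one automorphism of the plane. In particular the stabiliser of a hyperoval in the automorphism group is isomorphic to the symmetric group of degree 6 acting faithfully on the hyperoval. -/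
theorem result {α : Type*} [Fintype α] [DecidableEq α] (hα : Fintype.card α = 21) (L : Set (Finset α)) (hL : Cfsg.IsSteinerSystem 2 5 L) (H : Finset α) (hH : (H.card = 6 ∧ ∀ l ∈ L, (l ∩ H).card ≤ 2)) (σ : Equiv.Perm ↥H) : ∃! g : Equiv.Perm α, g ∈ Cfsg.setSystemAut L ∧ ∀ p : ↥H, g p = σ p := by
  open Finset Pointwise Cfsg.Agent.St Cfsg.Agent.H6 in focus
    have hS : ∀ {e : α ≃ Fin 21}, im e L = B21 → IsSteinerSystem 2 5 B21 := fun h => h ▸ steiner_im hL _
    let x0 : Fin 6 ≃ H := (H.equivFinOfCardEq hH.1).symm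
    have key : ∀ τ : Equiv.Perm H, ∃ e : α ≃ Fin 21, (∀ i, e (τ (x0 i)) = Fin.castLE (by decide) i) ∧ im e L = B21 := by
      intro τ
      refine model21h hα hL (x := fun i => (τ (x0 i) : α)) (Subtype.val_injective.comp (τ.injective.comp x0.injective)) fun l hl => le_trans (card_le_card ?_) (hH.2 l hl)
      refine inter_subset_inter Subset.rfl ?_
      intro a ha
      obtain ⟨i, -, rfl⟩ := mem_image.1 ha
      exact (τ (x0 i)).2
    obtain ⟨e, h1, h2⟩ := key 1
    obtain ⟨e', h1', h2'⟩ := key σ
    refine existsUnique_of_exists_of_unique ⟨e.trans e'.symm, mem_aut.2 (iso_of_im (h2.trans h2'.symm)), fun p => ?_⟩ ?_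
    · obtain ⟨i, rfl⟩ := x0.surjective p
      rw [Equiv.trans_apply, show (x0 i : α) = (1 : Equiv.Perm H) (x0 i) from rfl, h1, ← h1', Equiv.symm_apply_apply]
    · rintro g g' ⟨hg, h3⟩ ⟨hg', h3'⟩
      have h4 := triv21 (hS h2) _ (autEquiv e h2 ⟨g'⁻¹ * g, mul_mem (inv_mem hg') hg⟩).2 (by
        intro i hi
        obtain ⟨j, rfl⟩ : ∃ j : Fin 6, Fin.castLE (by decide) j = i := by
          rw [mem_fN] at hi; revert i; decide
        rw [← h1]
        change e ((g'⁻¹ * g) (e.symm (e _))) = _
        rw [Equiv.symm_apply_apply, Equiv.Perm.mul_apply, h3, ← h3']; simp)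
      have h5 : autEquiv e h2 ⟨g'⁻¹ * g, mul_mem (inv_mem hg') hg⟩ = 1 := Subtype.ext h4
      rw [map_eq_one_iff _ (autEquiv e h2).injective, Subtype.ext_iff] at h5
      exact (inv_mul_eq_one.1 h5).symm

end Cfsg.Agent.S5628
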