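import Cfsg.Statements.S5632
import Cfsg.Agent.H4.Lin

set_option autoImplicit false
open Cfsg

namespace Cfsg.Agent.S5632

/-- For a finite field F and subspaces 0 < W < U of F^n with dim W + dim U = n, the elements of SL_n(F) stabilising both W and U form a subgroup that is not maximal in SL_n(F): some subgroup lies strictly between it and SL_n(F). -/
theorem result {F : Type*} [Field F] [Fintype F] (n : ℕ) (W U : Submodule F (Fin n → F)) (hW0 : W ≠ ⊥) (hWU : W < U) (hdim : Module.finrank F W + Module.finrank F U = n) : ∃ K : Subgroup (Matrix.GeneralLinearGroup (Fin n) F), Cfsg.Geo.subspaceStabilizer W ⊓ Cfsg.Geo.subspaceStabilizer U ⊓ Cfsg.Geo.specialLinear (Fin n) F < K ∧ K < Cfsg.Geo.specialLinear (Fin n) F := by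
  open Cfsg.Agent.H4 in
  have hW1 : W ≠ ⊤ := fun e => by simp [e] at hWU
  obtain ⟨u, hu, hu'⟩ := SetLike.exists_of_lt hWU
  have hU1 : U ≠ ⊤ := fun e => by
    rw [e] at hdim
    simp at hdim
    exact hW0 hdim
  obtain ⟨v, hv⟩ := CForm.exists_notMem_of_ne_top hU1
  have h1 : u ∉ W ⊔ Submodule.span F {v} := fun h => by
    obtain ⟨y, hy, c, rfl⟩ := mem_sup_span_singleton.1 h
    have hc : c ≠ 0 := by rintro rfl; simp [hy] at hu'
    exact hv ((U.smul_mem_iff hc).1 ((U.add_mem_iff_right (hWU.le hy)).1 hu))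
  obtain ⟨φ, h2, h3⟩ := exists_dual_of_notMem h1 1
  have h4 : φ v = 0 := h2 v (Submodule.mem_sup_right (Submodule.mem_span_singleton_self v))
  refine exists_between_of_glE (K' := SLg F _) (H' := stab W ⊓ stab U ⊓ SLg F _)
    (fun g => mem_specialLinear) (fun g => and_congr Iff.rfl mem_specialLinear) ?_
  refine exists_between_of (M := stab W) (inf_le_inf_right _ inf_le_left)
    ⟨dt φ v, dt_mem_stab_of_ker v fun w hw => h2 w (Submodule.mem_sup_left hw), dt_mem_SLg h4,
      fun h => hv ?_⟩ (exists_SLg_not_stab hW0 hW1)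
  have := (h.1.2 u).1 hu
  rw [dt_apply h4, h3, one_smul] at this
  exact (U.add_mem_iff_right hu).1 this

end Cfsg.Agent.S5632
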