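import Cfsg.Statements.S5633
import Cfsg.Agent.H4.Lin

set_option autoImplicit false
open Cfsg

namespace Cfsg.Agent.S5633

/-- For a finite field F and complementary non-zero subspaces W ⊕ U = F^n with dim W < dim U, the elements of SL_n(F) stabilising both W and U form a subgroup that is not maximal in SL_n(F): some subgroup lies strictly between it and SL_n(F). -/
theorem result {F : Type*} [Field F] [Fintype F] (n : ℕ) (W U : Submodule F (Fin n → F)) (hW0 : W ≠ ⊥) (hWU : W ⊓ U = ⊥) (hWU' : W ⊔ U = ⊤) (hdim : Module.finrank F W < Module.finrank F U) : ∃ K : Subgroup (Matrix.GeneralLinearGroup (Fin n) F), Cfsg.Geo.subspaceStabilizer W ⊓ Cfsg.Geo.subspaceStabilizer U ⊓ Cfsg.Geo.specialLinear (Fin n) F < K ∧ K < Cfsg.Geo.specialLinear (Fin n) F := by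
  open Cfsg.Agent.H4 in
  have hW1 : W ≠ ⊤ := fun e => by
    have := U.finrank_le
    rw [e, finrank_top] at hdim
    omega
  obtain ⟨u, hu, hu'⟩ := exists_notMem_of_finrank_lt hdim
  obtain ⟨v, hv, hv0⟩ := Submodule.exists_mem_ne_zero_of_ne_bot hW0
  obtain ⟨φ, h2, h3⟩ := exists_dual_of_notMem hu' 1
  have h4 : φ v = 0 := h2 v hv
  refine exists_between_of_glE (K' := SLg F _) (H' := stab W ⊓ stab U ⊓ SLg F _)
    (fun g => mem_specialLinear) (fun g => and_congr Iff.rfl mem_specialLinear) ?_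
  refine exists_between_of (M := stab W) (inf_le_inf_right _ inf_le_left)
    ⟨dt φ v, dt_mem_stab_of_ker v h2, dt_mem_SLg h4, fun h => hv0 ?_⟩ (exists_SLg_not_stab hW0 hW1)
  have := (h.1.2 u).1 hu
  rw [dt_apply h4, h3, one_smul] at this
  exact (Submodule.mem_bot F).1 (hWU.le ⟨hv, (U.add_mem_iff_right hu).1 this⟩)

end Cfsg.Agent.S5633
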