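import Cfsg.Statements.S5638
import Cfsg.Agent.H4.As29

set_option autoImplicit false
open Cfsg

namespace Cfsg.Agent.S5638

/-- Over the field with 2 elements, for n = 2 n₂ ≥ 13, the stabiliser in SL_n of a tensor decomposition with factors of dimensions 2 and n₂ (the conjugate by any P of the Kronecker-product subgroup transported along any bijection Fin n ≃ Fin 2 × Fin n₂, intersected with SL_n) is not a maximal subgroup: some subgroup lies strictly between it and SL_n. -/
theorem result {F : Type*} [Field F] [Fintype F] (n : ℕ) (hn : 13 ≤ n) (hq : Fintype.card F = 2) (n₂ : ℕ) (e : Fin n ≃ Fin 2 × Fin n₂) (P : Matrix.GeneralLinearGroup (Fin n) F) : ∃ K : Subgroup (Matrix.GeneralLinearGroup (Fin n) F), Cfsg.Geo.tensorProductSubgroup 2 n₂ e P ⊓ Cfsg.Geo.specialLinear (Fin n) F < K ∧ K < Cfsg.Geo.specialLinear (Fin n) F := by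
  have h1 : n = 2 * n₂ := by simpa using Fintype.card_congr e
  obtain ⟨l, rfl⟩ : ∃ l, n₂ = l + 2 := ⟨n₂ - 2, by omega⟩
  refine H4.As.k4_btw hq (H4.As.big_SL (by omega)) (fun _ => H4.As.exists_of_mem_tensor)
    (p := Matrix.single 0 0 1) (by simp) (fun h => by simpa using congrFun₂ h 0 0)
    (fun h => by simpa using congrFun₂ h 1 1) fun a b => ?_
  change Matrix.GeneralLinearGroup.det _ = 1
  rw [map_commutatorElement]; exact commutatorElement_eq_one_iff_mul_comm.2 (mul_comm _ _)

end Cfsg.Agent.S5638
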