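import Cfsg.Statements.S5642
import Cfsg.Agent.H4.Over

set_option autoImplicit false
open Cfsg

namespace Cfsg.Agent.S5642

/-- For a finite field F and n ≥ 13, let f be a non-degenerate symplectic form on F^n (so n is even). Then the elements of SL_n(F) that are similarities of f (f(gu, gv) = c f(u, v) for a non-zero scalar c depending on g) form a maximal subgroup of SL_n(F). -/
theorem result {F : Type*} [Field F] [Fintype F] (n : ℕ) (hn : 13 ≤ n) (f : (Fin n → F) → (Fin n → F) → F) (hf : Cfsg.Geo.IsSymplecticForm f) : Cfsg.Geo.IsMaximalIn (Cfsg.Geo.specialLinear (Fin n) F) (Cfsg.Geo.similarityGroup f ⊓ Cfsg.Geo.specialLinear (Fin n) F) := by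
  open Cfsg.Agent.H4 in
  let B := CForm.mkAlt f hf.bilinear.add_left hf.bilinear.smul_left (fun x y => hf.skew y x)
    hf.alternating
  have hB : B.Nondeg := fun x hx => by
    by_contra h
    obtain ⟨y, hy⟩ := (hf.nondegenerate x h).2
    exact hy (hx y)
  refine isMaximalIn_of_glE (fun g => mem_specialLinear) (fun g => ?_)
    (hB.isMaximalIn_simB (CForm.symp_loc B) (by simp; omega))
  refine and_congr ?_ mem_specialLinear
  exact ⟨fun ⟨c, hc⟩ => ⟨c, c.ne_zero, hc⟩, fun ⟨c, h0, hc⟩ => ⟨Units.mk0 c h0, hc⟩⟩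

end Cfsg.Agent.S5642
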