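import Cfsg.Statements.S5643
import Cfsg.Agent.H4.Over

set_option autoImplicit false
open Cfsg

namespace Cfsg.Agent.S5643

/-- For a finite field F and n ≥ 13, let σ be a field automorphism of F of order two and f a non-degenerate unitary form on F^n with respect to σ. Then the elements of SL_n(F) that are similarities of f form a maximal subgroup of SL_n(F). -/
theorem result {F : Type*} [Field F] [Fintype F] (n : ℕ) (hn : 13 ≤ n) (σ : F ≃+* F) (f : (Fin n → F) → (Fin n → F) → F) (hf : Cfsg.Geo.IsUnitaryForm σ f) : Cfsg.Geo.IsMaximalIn (Cfsg.Geo.specialLinear (Fin n) F) (Cfsg.Geo.similarityGroup f ⊓ Cfsg.Geo.specialLinear (Fin n) F) := by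
  open Cfsg.Agent.H4 in
  have hσ : (σ : F →+* F) ≠ RingHom.id F := fun e => hf.ne_refl (RingEquiv.ext fun x => congr($e x))
  let B := CForm.mkHerm (σ : F →+* F) hf.involutive hσ f hf.add_left hf.smul_left
    (fun x y => hf.herm y x)
  have hB : B.Nondeg := fun x hx => by
    by_contra h
    obtain ⟨y, hy⟩ := (hf.nondegenerate x h).2
    exact hy (hx y)
  refine isMaximalIn_of_glE (fun g => mem_specialLinear) (fun g => ?_)
    (hB.isMaximalIn_simB (CForm.unit_loc hσ B) (by simp; omega))
  refine and_congr ?_ mem_specialLinear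
  exact ⟨fun ⟨c, hc⟩ => ⟨c, c.ne_zero, hc⟩, fun ⟨c, h0, hc⟩ => ⟨Units.mk0 c h0, hc⟩⟩

end Cfsg.Agent.S5643
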