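import Cfsg.Statements.S5644
import Cfsg.Agent.H4.Over

set_option autoImplicit false
open Cfsg

namespace Cfsg.Agent.S5644

/-- For a finite field F of odd order and n ≥ 13, let Q be a non-degenerate quadratic form on F^n (its polar form is non-degenerate). Then the elements of SL_n(F) that are similarities of Q (Q(gv) = c Q(v) for a non-zero scalar c depending on g) form a maximal subgroup of SL_n(F). -/
theorem result {F : Type*} [Field F] [Fintype F] (n : ℕ) (hn : 13 ≤ n) (hodd : Odd (Fintype.card F)) (Q : (Fin n → F) → F) (hQ : Cfsg.Geo.IsNondegenerateQuadraticForm Q) : Cfsg.Geo.IsMaximalIn (Cfsg.Geo.specialLinear (Fin n) F) (Cfsg.Geo.quadSimilarityGroup Q ⊓ Cfsg.Geo.specialLinear (Fin n) F) := by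
  open Cfsg.Agent.H4 in
  have hB := geoQuad_nondeg hQ
  have h2 := two_ne_zero_of_odd hodd
  refine isMaximalIn_of_glE (fun g => mem_specialLinear) (fun g => ?_)
    (hB.isMaximalIn_simB (CForm.orth_loc _) (by simp; omega))
  refine and_congr ?_ mem_specialLinear
  constructor
  · rintro ⟨c, hc⟩
    refine ⟨c, c.ne_zero, fun x y => ?_⟩
    rw [CForm.orth_B_eq, CForm.orth_B_eq, ← map_add]
    change Q _ - Q _ - Q _ = c * (Q _ - Q _ - Q _)
    simp only [glE_apply, hc]; ring
  · rintro ⟨c, h0, hc⟩
    refine ⟨Units.mk0 c h0, fun v => mul_left_cancel₀ h2 ?_⟩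
    have := hc v v
    rw [CForm.orth_B_self, CForm.orth_B_self] at this
    exact this.trans (mul_left_comm _ _ _)

end Cfsg.Agent.S5644
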