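import Cfsg.Statements.S5645
import Cfsg.Agent.H4.Symp

set_option autoImplicit false
open Cfsg

namespace Cfsg.Agent.S5645

/-- For a finite field F and m ≥ 7, in the symplectic group Sp_2m(F) of the standard alternating form on F^(2m) (as a subgroup of GL_2m(F)), the stabiliser of any non-zero subspace on which the form vanishes identically is a maximal subgroup. -/
theorem result {F : Type*} [Field F] [Fintype F] (m : ℕ) (hm : 7 ≤ m) (W : Submodule F (Fin m ⊕ Fin m → F)) (hW0 : W ≠ ⊥) (hW : Cfsg.Geo.IsTotallySingularFor (Cfsg.sympForm m F) W) : Cfsg.Geo.IsMaximalIn (Cfsg.spGL m F) (Cfsg.Geo.subspaceStabilizer W ⊓ Cfsg.spGL m F) := by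
  open Cfsg.Agent.H4 in
  have := (spF_nondeg (F := F) m).isMaximalIn_E_stab (CForm.symp_thick _)
    (CForm.symp_TS_iff.2 hW) hW0 (CForm.symp_thick _)
  rw [(spF_nondeg m).symp_E_eq] at this
  refine isMaximalIn_of_glE (fun g => mem_spGL) (fun g => ?_) this
  exact and_congr Iff.rfl mem_spGL

end Cfsg.Agent.S5645
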