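import Cfsg.Statements.S5646
import Cfsg.Agent.H4.Over

set_option autoImplicit false
open Cfsg

namespace Cfsg.Agent.S5646

/-- For a finite field F and m ≥ 7, in the symplectic group Sp_2m(F) of the standard alternating form on F^(2m), the stabiliser of any non-zero subspace W on which the form is non-degenerate and with dim W < m is a maximal subgroup. -/
theorem result {F : Type*} [Field F] [Fintype F] (m : ℕ) (hm : 7 ≤ m) (W : Submodule F (Fin m ⊕ Fin m → F)) (hW0 : W ≠ ⊥) (hW : Cfsg.Geo.IsNondegenerateOn (Cfsg.sympForm m F) W) (hdim : Module.finrank F W < m) : Cfsg.Geo.IsMaximalIn (Cfsg.spGL m F) (Cfsg.Geo.subspaceStabilizer W ⊓ Cfsg.spGL m F) := by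
  open Cfsg.Agent.H4 in
  have hf := spF_nondeg (F := F) m
  have hW' : W ⊓ (spF F m).perp W = ⊥ := nondeg_of_geo hW
  have hd := hf.finrank_perp W
  simp only [Module.finrank_pi, Fintype.card_sum, Fintype.card_fin] at hd
  have := hf.isMaximalIn_stab_nondeg (CForm.symp_loc _) (hf.perp_inf_perp_perp hW') (by omega)
    (by omega) (fun e => hW0 (by rw [← hW', e, inf_top_eq]))
    (fun g _ => hf.not_le_perp_map (by simp; omega) g)
    (hf.symp_irr (by rwa [hf.perp_perp]))
  rw [hf.stab_perp_inf _ CForm.E_le_iso, hf.symp_E_eq] at this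
  exact isMaximalIn_stab_of_glE (fun g => mem_spGL) this

end Cfsg.Agent.S5646
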