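import Cfsg.Statements.S5649
import Cfsg.Agent.H4.Over2

set_option autoImplicit false
open Cfsg

namespace Cfsg.Agent.S5649

/-- For a finite field F of odd order and m ≥ 7, let D be a decomposition of F^(2m) into two complementary subspaces of dimension m on each of which the standard alternating form vanishes identically. Then the elements of Sp_2m(F) preserving or interchanging the two subspaces form a maximal subgroup of Sp_2m(F). -/
theorem result {F : Type*} [Field F] [Fintype F] (m : ℕ) (hm : 7 ≤ m) (hodd : Odd (Fintype.card F)) (D : Fin 2 → Submodule F (Fin m ⊕ Fin m → F)) (hD : Cfsg.Geo.IsMDecomposition m D) (hts : ∀ i, Cfsg.Geo.IsTotallySingularFor (Cfsg.sympForm m F) (D i)) : Cfsg.Geo.IsMaximalIn (Cfsg.spGL m F) (Cfsg.Geo.decompositionStabilizer D ⊓ Cfsg.spGL m F) := by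
  open Cfsg.Agent.H4 in
  have h : (spF F m).TSPair (D 0) (D 1) := ⟨spF_nondeg m, CForm.symp_TS_iff.2 (hts 0),
    CForm.symp_TS_iff.2 (hts 1), isCompl_of_geo hD⟩
  obtain ⟨s, hs, h0, h1⟩ := h.symp_exists_swap
  have := h.isMaximalIn (FType.symp_odd (two_ne_zero_of_odd hodd))
    (by rw [hD.finrank_eq]; omega) hs h0 h1
  rw [h.hf.symp_E_eq] at this
  exact isMaximalIn_dstab_of_glE (fun g => mem_spGL) this

end Cfsg.Agent.S5649
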