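import Cfsg.Statements.S5650
import Cfsg.Agent.H4.Sf5

set_option autoImplicit false
open Cfsg

namespace Cfsg.Agent.S5650

/-- For a finite field F, a subfield F₀ with |F| = |F₀| ^ r for a prime r, and m ≥ 7, let P be an invertible matrix and ζ a non-zero scalar such that ζ times the standard alternating form takes values in F₀ on the F₀-span of the columns of P. Then the elements of Sp_2m(F) lying in the subfield group of P (the conjugate by P of the product of GL_2m(F₀) with the scalars) form a maximal subgroup of Sp_2m(F). -/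
theorem result {F : Type*} [Field F] [Fintype F] (m : ℕ) (hm : 7 ≤ m) (F₀ : Subfield F) (r : ℕ) (hr : r.Prime) (hcard : Fintype.card F = Nat.card F₀ ^ r) (P : Matrix.GeneralLinearGroup (Fin m ⊕ Fin m) F) (ζ : F) (hζ : ζ ≠ 0) (hP : Cfsg.Geo.IsFormRationalStructure (Cfsg.sympForm m F) F₀ ζ P) : Cfsg.Geo.IsMaximalIn (Cfsg.spGL m F) (Cfsg.Geo.subfieldSubgroup F₀ P ⊓ Cfsg.spGL m F) := by
  open Cfsg.Agent.H4 in
  exact Sf.isMaximalIn_geo (fun g => by rw [(spF_nondeg m).symp_E_eq]; exact mem_spGL)
    (Sf.symp_max (Sf.pd_of_prime F₀ hr hcard) (Sf.not_surj_of_prime F₀ hr hcard) (by simp; omega)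
      (spF_nondeg m) (inv_ne_zero hζ) fun x y =>
        ⟨⟨_, hP _ _ (fun i => (x i).2) fun i => (y i).2⟩, by rw [inv_inv]; rfl⟩)

end Cfsg.Agent.S5650
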