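import Cfsg.Statements.S5652
import Cfsg.Agent.H4.Over2

set_option autoImplicit false
open Cfsg

namespace Cfsg.Agent.S5652

/-- For a finite field F of characteristic two and m ≥ 7, let Q be a non-degenerate quadratic form on F^(2m) whose polar form is the standard alternating form. Then the elements of Sp_2m(F) that are similarities of Q (they are exactly the isometries of Q) form a maximal subgroup of Sp_2m(F). -/
theorem result {F : Type*} [Field F] [Fintype F] (m : ℕ) (hm : 7 ≤ m) (heven : ¬ Odd (Fintype.card F)) (Q : (Fin m ⊕ Fin m → F) → F) (hQ : Cfsg.Geo.IsNondegenerateQuadraticForm Q) (hpol : ∀ u v, QuadraticMap.polar Q u v = Cfsg.sympForm m F u v) : Cfsg.Geo.IsMaximalIn (Cfsg.spGL m F) (Cfsg.Geo.quadSimilarityGroup Q ⊓ Cfsg.spGL m F) := by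
  open Cfsg.Agent.H4 in
  have hf := geoQuad_nondeg hQ
  have h2 : (2 : F) = 0 := by_contra fun h => heven (odd_of_two_ne_zero h)
  refine isMaximalIn_of_glE (fun g => mem_spGL) (fun g => ?_)
    (hf.orth_isMaximalIn_symp (f' := spF F m) h2 (by simp; omega) fun x y => (hpol x y).symm)
  constructor
  · rintro ⟨⟨c, hc⟩, hg⟩
    have hg' := mem_spGL.1 hg
    obtain ⟨e, -, e', -, -, -, hB⟩ :=
      (hf.big_top (CForm.orth_loc _) (by simp; omega) (by simp; omega)).exists_pair
    have h1 : (geoQuad hQ).B (glE g e) (glE g e') = (geoQuad hQ).B e e' :=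
      (hpol _ _).trans ((hg'.1 e e').trans (hpol _ _).symm)
    have h3 : (geoQuad hQ).B (glE g e) (glE g e') = c * (geoQuad hQ).B e e' := by
      rw [CForm.orth_B_eq, CForm.orth_B_eq, ← map_add]
      change Q _ - Q _ - Q _ = c * (Q _ - Q _ - Q _)
      simp only [glE_apply, hc]; ring
    rw [h1, hB, mul_one] at h3
    exact CForm.orth_mem_iso.2 fun x => (hc x).trans (by rw [← h3, one_mul]; rfl)
  · intro hg
    exact ⟨⟨1, fun v => (hg.2 v).trans (one_mul _).symm⟩, mem_spGL.2 (CForm.symp_mem_iso.2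
      fun x y => (hpol _ _).symm.trans ((hg.1 x y).trans (hpol _ _)))⟩

end Cfsg.Agent.S5652
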