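import Cfsg.Statements.S5654
import Cfsg.Agent.H4.Over

set_option autoImplicit false
open Cfsg

namespace Cfsg.Agent.S5654

/-- Let F be the field with q² elements and n ≥ 13. In SU_n(q) (determinant-one isometries of the standard unitary form on F^n) the stabiliser of a non-zero subspace W on which the form is non-degenerate and with 2 dim W < n is a maximal subgroup. -/
theorem result {F : Type*} [Field F] [Fintype F] (n q : ℕ) (hF : Fintype.card F = q ^ 2) (hn : 13 ≤ n) (W : Submodule F (Fin n → F)) (hW0 : W ≠ ⊥) (hW : Cfsg.Geo.IsNondegenerateOn (Cfsg.hermForm n F q) W) (hdim : 2 * Module.finrank F W < n) : Cfsg.Geo.IsMaximalIn (Cfsg.GU n F q ⊓ Cfsg.Geo.specialLinear (Fin n) F) (Cfsg.Geo.subspaceStabilizer W ⊓ (Cfsg.GU n F q ⊓ Cfsg.Geo.specialLinear (Fin n) F)) := by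
  open Cfsg.Agent.H4 in
  have hf := unF_nondeg hF n
  have hW' : W ⊓ (unF hF n).perp W = ⊥ := nondeg_of_geo hW
  have hd := hf.finrank_perp W
  simp only [Module.finrank_pi, Fintype.card_fin] at hd
  have := hf.isMaximalIn_stab_nondeg (CForm.unit_loc (frobq_ne hF) _) (hf.perp_inf_perp_perp hW')
    (by omega) (by omega) (fun e => hW0 (by rw [← hW', e, inf_top_eq]))
    (fun g _ => hf.not_le_perp_map (by simp; omega) g)
    (hf.unit_irr (frobq_ne hF) (by rwa [hf.perp_perp]))
  rw [hf.stab_perp_inf _ CForm.E_le_iso] at this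
  exact isMaximalIn_stab_of_glE (fun g => mem_GU_SL hF (by omega)) this

end Cfsg.Agent.S5654
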