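import Cfsg.Statements.S5658
import Cfsg.Agent.H4.Sf5

set_option autoImplicit false
open Cfsg

namespace Cfsg.Agent.S5658

/-- Let F be the field with q² elements, n ≥ 13, and F₀ a subfield with |F| = |F₀| ^ r for an odd prime r. Let P be an invertible matrix such that the standard unitary form takes values in F₀ on the F₀-span of the columns of P. Then the elements of SU_n(q) lying in the subfield group of P (the conjugate by P of the product of GL_n(F₀) with the scalars) form a maximal subgroup of SU_n(q). -/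
theorem result {F : Type*} [Field F] [Fintype F] (n q : ℕ) (hF : Fintype.card F = q ^ 2) (hn : 13 ≤ n) (F₀ : Subfield F) (r : ℕ) (hr : r.Prime) (hro : Odd r) (hcard : Fintype.card F = Nat.card F₀ ^ r) (P : Matrix.GeneralLinearGroup (Fin n) F) (hP : Cfsg.Geo.IsFormRationalStructure (Cfsg.hermForm n F q) F₀ 1 P) : Cfsg.Geo.IsMaximalIn (Cfsg.GU n F q ⊓ Cfsg.Geo.specialLinear (Fin n) F) (Cfsg.Geo.subfieldSubgroup F₀ P ⊓ (Cfsg.GU n F q ⊓ Cfsg.Geo.specialLinear (Fin n) F)) := by
  open Cfsg.Agent.H4 in
  have hp := Sf.pd_of_prime F₀ hr hcard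
  let σ₀ : F₀ →+* F₀ := ((frobq hF).comp F₀.subtype).codRestrict F₀ fun x => pow_mem x.2 q
  refine Sf.isMaximalIn_geo (fun g => mem_GU_SL hF (by omega))
    (Sf.unit_max hp (Sf.not_surj_of_prime F₀ hr hcard) (by simp; omega) (frobq_ne hF)
      (unF_nondeg hF n) (σ₀ := σ₀) (fun e => ?_) (fun _ => rfl) fun x y =>
        ⟨⟨_, hP _ _ (fun i => (x i).2) fun i => (y i).2⟩, one_mul _⟩)
  have h1 : ∀ a : F₀, (a : F) ^ q = a := fun a => congrArg Subtype.val (RingHom.congr_fun e a)
  rcases hp ((frobq hF).eqLocus (RingHom.id F)) h1 with h2 | h2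
  · have h3 : Nat.card F₀ = q := by
      rw [← card_fixed_frobq hF]
      exact Nat.card_congr (Equiv.ofBijective (fun a => ⟨a, h1 a⟩)
        ⟨fun a b e => Subtype.ext (Subtype.mk.inj e), fun x =>
          (h2 x x.2).imp fun a e => Subtype.ext e⟩)
    have h4 := Fintype.one_lt_card (α := F)
    rw [h3, hF] at hcard
    have h5 : 2 ≤ q := by
      rw [hF] at h4
      rcases q with _ | _ | q <;> simp at h4 ⊢
    rw [← Nat.pow_right_injective h5 hcard] at hro
    exact absurd hro (by decide)
  · exact frobq_ne hF (RingHom.ext h2)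

end Cfsg.Agent.S5658
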