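import Cfsg.Statements.S5659
import Cfsg.Agent.H4.Sf5

set_option autoImplicit false
open Cfsg

namespace Cfsg.Agent.S5659

/-- Let F be the field with q² elements, q odd, n ≥ 13, and F₀ the subfield with q elements. Let P be an invertible matrix such that the standard unitary form takes values in F₀ on the F₀-span of the columns of P (so it restricts to a non-degenerate symmetric bilinear form there). Then the elements of SU_n(q) lying in the subfield group of P form a maximal subgroup of SU_n(q). -/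
theorem result {F : Type*} [Field F] [Fintype F] (n q : ℕ) (hF : Fintype.card F = q ^ 2) (hn : 13 ≤ n) (hodd : Odd q) (F₀ : Subfield F) (hcard : Fintype.card F = Nat.card F₀ ^ 2) (P : Matrix.GeneralLinearGroup (Fin n) F) (hP : Cfsg.Geo.IsFormRationalStructure (Cfsg.hermForm n F q) F₀ 1 P) : Cfsg.Geo.IsMaximalIn (Cfsg.GU n F q ⊓ Cfsg.Geo.specialLinear (Fin n) F) (Cfsg.Geo.subfieldSubgroup F₀ P ⊓ (Cfsg.GU n F q ⊓ Cfsg.Geo.specialLinear (Fin n) F)) := by
  open Cfsg.Agent.H4 in
  have h2 : (2 : F) ≠ 0 := two_ne_zero_of_odd (by rw [hF]; exact hodd.pow)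
  exact Sf.isMaximalIn_geo (fun g => mem_GU_SL hF (by omega))
    (Sf.unit_orth_max (Sf.pd_of_prime F₀ Nat.prime_two hcard)
      (Sf.not_surj_of_prime F₀ Nat.prime_two hcard) (by simp; omega) (frobq_ne hF) (unF_nondeg hF n)
      (fun e => h2 (by rw [← map_ofNat F₀.subtype 2, e, map_zero])) (Sf.pow_eq_of_sq hF F₀ hcard)
      (Sf.exists_theta F₀ hcard) fun x y =>
        ⟨⟨_, hP _ _ (fun i => (x i).2) fun i => (y i).2⟩, one_mul _⟩)

end Cfsg.Agent.S5659
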