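import Cfsg.Statements.S5667
import Cfsg.Agent.H4.As29

set_option autoImplicit false
open Cfsg

namespace Cfsg.Agent.S5667

/-- Over the field with 3 elements and for m ≥ 7, suppose the standard alternating form on F^(2m) is similar, through P and e, to the tensor product of a non-degenerate symplectic form f₁ on F^(n₁) and a non-degenerate symmetric bilinear form f₂ on F^3. Then the elements of Sp_2m(3) in the stabiliser of this tensor decomposition form a subgroup that is not maximal: some subgroup lies strictly between it and Sp_2m(3). -/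
theorem result {F : Type*} [Field F] [Fintype F] (m : ℕ) (hm : 7 ≤ m) (hq : Fintype.card F = 3) (n₁ : ℕ) (e : (Fin m ⊕ Fin m) ≃ Fin n₁ × Fin 3) (P : Matrix.GeneralLinearGroup (Fin m ⊕ Fin m) F) (f₁ : (Fin n₁ → F) → (Fin n₁ → F) → F) (f₂ : (Fin 3 → F) → (Fin 3 → F) → F) (hf₁ : Cfsg.Geo.IsSymplecticForm f₁) (hf₂ : Cfsg.Geo.IsSymmetricForm f₂) (hT : Cfsg.Geo.IsTensorFormStructure id (Cfsg.sympForm m F) f₁ f₂ e P) : ∃ K : Subgroup (Matrix.GeneralLinearGroup (Fin m ⊕ Fin m) F), Cfsg.Geo.tensorProductSubgroup n₁ 3 e P ⊓ Cfsg.spGL m F < K ∧ K < Cfsg.spGL m F := by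
  have h1 : 2 * m = n₁ * 3 := by simpa [two_mul] using Fintype.card_congr e
  have : Nonempty (Fin m ⊕ Fin m) := ⟨.inl ⟨0, by omega⟩⟩
  rw [hf₁.bilinear.as_eq, hf₂.bilinear.as_eq, H4.As.symp_eq] at hT
  exact H4.As.o3_btw hq (H4.As.big_Sp (by omega) (by omega)) H4.As.Sp_eq.le
    (fun a ha b hb => H4.As.Sp_eq (F := F) (m := m) ▸ mul_mem (mul_mem (mul_mem ha hb) (inv_mem ha)) (inv_mem hb))
    (by omega) (H4.As.tf_of (by omega) (by norm_num) (H4.As.rf_symp hf₁) (H4.As.rf_symm hf₂) hT bot_le bot_le).swap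
    fun _ h => by
      obtain ⟨a, b, rfl⟩ := H4.As.exists_of_mem_tensor h
      exact ⟨b, a, H4.As.trG_swap ..⟩

end Cfsg.Agent.S5667
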