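import Cfsg.Statements.S5671
import Cfsg.Agent.H4.As29

set_option autoImplicit false
open Cfsg

namespace Cfsg.Agent.S5671

/-- Let F be the field with 4 elements (q = 2) and n = 2 n₂ ≥ 13. Suppose the standard unitary form Σ u_i v_i² on F^n is similar, through P and e, to the tensor product of non-degenerate unitary forms f₁ on F^2 and f₂ on F^(n₂). Then the elements of SU_n(2) in the stabiliser of this tensor decomposition form a subgroup that is not maximal: some subgroup lies strictly between it and SU_n(2). -/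
theorem result {F : Type*} [Field F] [Fintype F] (n : ℕ) (hF : Fintype.card F = 4) (hn : 13 ≤ n) (n₂ : ℕ) (e : Fin n ≃ Fin 2 × Fin n₂) (P : Matrix.GeneralLinearGroup (Fin n) F) (f₁ : (Fin 2 → F) → (Fin 2 → F) → F) (f₂ : (Fin n₂ → F) → (Fin n₂ → F) → F) (hf₁ : Cfsg.Geo.IsUnitaryFormPow 2 f₁) (hf₂ : Cfsg.Geo.IsUnitaryFormPow 2 f₂) (hT : Cfsg.Geo.IsTensorFormStructure (fun x : F => x ^ 2) (Cfsg.hermForm n F 2) f₁ f₂ e P) : ∃ K : Subgroup (Matrix.GeneralLinearGroup (Fin n) F), Cfsg.Geo.tensorProductSubgroup 2 n₂ e P ⊓ (Cfsg.GU n F 2 ⊓ Cfsg.Geo.specialLinear (Fin n) F) < K ∧ K < (Cfsg.GU n F 2 ⊓ Cfsg.Geo.specialLinear (Fin n) F) := by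
  have h : Fintype.card F = 2 ^ 2 := hF
  have h1 : n = 2 * n₂ := by simpa using Fintype.card_congr e
  rw [H4.As.upow_eq h hf₁, H4.As.upow_eq h hf₂, H4.As.herm_eq h] at hT
  exact H4.As.u2_btw h (H4.frobq_ne h) (H4.As.big_SU h (by omega) (by omega))
    (inf_le_left.trans (H4.As.GU_eq h).le) (H4.As.comm_mem_SU h) (by omega)
    (H4.As.tf_of le_rfl (by omega) (H4.As.rf_upow h hf₁) (H4.As.rf_upow h hf₂) hT bot_le bot_le)
    fun _ => H4.As.exists_of_mem_tensor

end Cfsg.Agent.S5671
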