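import Cfsg.Statements.S5686
import Cfsg.Agent.H4.Over2

set_option autoImplicit false
open Cfsg

namespace Cfsg.Agent.S5686

/-- Let F be a finite field with q elements, n ≥ 13 even, Q a non-degenerate quadratic form on F^n of plus type (some subspace of dimension n/2 is totally singular), and Ω the commutator subgroup of the isometry group of Q, viewed inside GL_n(F). The elements of Ω stabilising a subspace of dimension n/2 − 1 on which Q vanishes form a subgroup that is not maximal: some subgroup lies strictly between it and Ω. -/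
theorem result {F : Type*} [Field F] [Fintype F] {n : ℕ} (hn : 13 ≤ n) (heven : Even n) (Q : (Fin n → F) → F) (hQ : Cfsg.Geo.IsNondegenerateQuadraticForm Q) (hplus : Cfsg.Geo.IsPlusTypeOn Q ⊤) (W : Submodule F (Fin n → F)) (hW : Cfsg.Geo.IsTotallySingularQuad Q W) (hdim : 2 * (Module.finrank F W + 1) = n) : ∃ K : Subgroup (Matrix.GeneralLinearGroup (Fin n) F), Cfsg.Geo.subspaceStabilizer W ⊓ Cfsg.Geo.omegaGL Q < K ∧ K < Cfsg.Geo.omegaGL Q := by
  open Cfsg.Agent.H4 in
  have hf := geoQuad_nondeg hQ
  have hTS : (geoQuad hQ).TS W := CForm.orth_TS_iff.2 hW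
  obtain ⟨U', -, hU', hd'⟩ := hplus
  simp only [finrank_top, Module.finrank_pi, Fintype.card_fin] at hd'
  obtain ⟨U, hWU, hU, hd⟩ := hf.exists_TS_ge hTS (CForm.orth_TS_iff.2 hU') (by omega)
  have hE := hf.orth_commutator_eq_E' (by simp; omega)
  have h0 : U ≠ ⊥ := fun e => by rw [e] at hd; simp at hd; omega
  refine exists_between_stab_of_glE (fun g => mem_omegaGL_E hf (by simp; omega))
    (exists_between_of (M := stab U) (fun g hg => ⟨?_, hg.2⟩) ?_
      (hf.exists_E_not_stab (hf.thick_top (by simp; omega)) hU h0))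
  · have h1 := hf.even_of_mem_commutator hU (by simp; omega) (hE.ge hg.2)
    have h2 : W ≤ U ⊓ U.map (g : (Fin n → F) →ₗ[F] (Fin n → F)) := le_inf hWU (by
      conv_lhs => rw [← mem_stab_iff_map.1 hg.1]
      exact Submodule.map_mono hWU)
    have h3 := Submodule.finrank_mono h2
    have h4 := Submodule.finrank_mono
      (inf_le_right : U ⊓ U.map (g : (Fin n → F) →ₗ[F] (Fin n → F)) ≤ _)
    have h5 := LinearEquiv.finrank_map_eq g U
    rw [Nat.even_iff] at h1
    have h6 := Submodule.eq_of_le_of_finrank_le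
      (inf_le_right : U ⊓ U.map (g : (Fin n → F) →ₗ[F] (Fin n → F)) ≤ _) (by omega)
    exact CForm.mem_stab_of_map_le (inf_eq_right.1 h6)
  · obtain ⟨u, hu, hu'⟩ := exists_notMem_of_finrank_lt (U := W) (W := U) (by omega)
    obtain ⟨w, hw, hw0⟩ := Submodule.exists_mem_ne_zero_of_ne_bot (p := W)
      (fun e => by rw [e] at hdim; simp at hdim; omega)
    obtain ⟨v, hv, hwv⟩ := hf.exists_perp_B_eq (U := Submodule.span F {u}) (v := w) (fun h => by
      obtain ⟨c, rfl⟩ := Submodule.mem_span_singleton.1 h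
      exact hu' ((W.smul_mem_iff (by rintro rfl; simp at hw0)).1 hw)) 1
    have hok := CForm.orth_eichOk (hU.1 u hu) ((CForm.mem_perp_singleton _).1 hv)
    refine ⟨_, mem_stab_iff_le.2 fun x hx => ?_, hok.mem_E, fun hm => hu' ?_⟩
    · simpa [hok.apply, hU.2 x hx u hu] using add_mem hx (U.smul_mem _ hu)
    · have := (hm.1 w).1 hw
      simp only [hok.apply, hU.2 w (hWU hw) u hu, hwv, one_smul, zero_smul, sub_zero] at this
      exact (W.add_mem_iff_right hw).1 this

end Cfsg.Agent.S5686
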