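import Cfsg.Statements.S5689
import Cfsg.Agent.H4.Scale

set_option autoImplicit false
open Cfsg

namespace Cfsg.Agent.S5689

/-- Let F be a finite field with q elements, n ≥ 13 even, Q a non-degenerate quadratic form on F^n of minus type (no subspace of dimension n/2 is totally singular), and Ω the commutator subgroup of the isometry group of Q, viewed inside GL_n(F). Let W be a non-zero proper subspace on which the polar form of Q is non-degenerate, not of odd dimension n/2. Exclude the case q ≤ 3 in which W, or its orthogonal complement, is a plane containing a line on which Q vanishes. Then the elements of Ω stabilising W form a maximal subgroup of Ω. -/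
theorem result {F : Type*} [Field F] [Fintype F] {n : ℕ} (hn : 13 ≤ n) (heven : Even n) (Q : (Fin n → F) → F) (hQ : Cfsg.Geo.IsNondegenerateQuadraticForm Q) (hminus : ¬ Cfsg.Geo.IsPlusTypeOn Q ⊤) (W : Submodule F (Fin n → F)) (hW0 : W ≠ ⊥) (hW1 : W ≠ ⊤) (hdim : ¬ (2 * Module.finrank F W = n ∧ Odd (Module.finrank F W))) (hW : Cfsg.Geo.IsNondegenerateOn (QuadraticMap.polar Q) W) (hex : ¬ (Fintype.card F ≤ 3 ∧ (∃ U : Submodule F (Fin n → F), Module.finrank F U = 2 ∧ Cfsg.Geo.IsNondegenerateOn (QuadraticMap.polar Q) U ∧ Cfsg.Geo.IsPlusTypeOn Q U ∧ (U = W ∨ (Cfsg.Geo.AreOrthogonalFor (QuadraticMap.polar Q) U W ∧ Module.finrank F U + Module.finrank F W = n))))) : Cfsg.Geo.IsMaximalIn (Cfsg.Geo.omegaGL Q) (Cfsg.Geo.subspaceStabilizer W ⊓ Cfsg.Geo.omegaGL Q) := by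
  open Cfsg.Agent.H4 in
  have hf := geoQuad_nondeg hQ
  have hd := hf.finrank_perp W
  simp only [Module.finrank_pi, Fintype.card_fin] at hd
  have hW' : W ⊓ (geoQuad hQ).perp W = ⊥ := nondeg_of_geo hW
  refine isMaximalIn_stab_of_glE (fun g => mem_omegaGL_E hf (by simp; omega))
    (hf.orth_isMaximalIn_stab (by simp; omega) hW' hW0 hW1 (fun h => ?_) ?_)
  · have h1 := h.finrank_eq
    obtain ⟨U, hU, hU'⟩ := hf.exists_TS_of_isom_perp hW'
      (Nat.not_odd_iff_even.1 fun ho => hdim ⟨by omega, ho⟩) h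
    exact hminus ⟨U, le_top, hU.1, by simp; omega⟩
  rintro U (rfl | rfl) ⟨h1, h2, h3⟩
  · exact hex ⟨h1, U, h2, hW, (CForm.geo_plus_two h2).2 h3, Or.inl rfl⟩
  · exact hex ⟨h1, _, h2, geo_of_nondeg (hf.perp_inf_perp_perp hW'), (CForm.geo_plus_two h2).2 h3,
      Or.inr ⟨fun u hu v hv => hu v hv, by omega⟩⟩

end Cfsg.Agent.S5689
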