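import Cfsg.Statements.S5697
import Cfsg.Agent.H4.Over2

set_option autoImplicit false
open Cfsg

namespace Cfsg.Agent.S5697

/-- Let F be a finite field with q elements, n ≥ 13 even, Q a non-degenerate quadratic form on F^n of plus type (some subspace of dimension n/2 is totally singular), and Ω the commutator subgroup of the isometry group of Q, viewed inside GL_n(F). Suppose n/2 is even and let D be a decomposition of F^n into two complementary subspaces of dimension n/2 on each of which Q vanishes. Then the elements of Ω preserving or interchanging the two subspaces form a maximal subgroup of Ω. -/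
theorem result {F : Type*} [Field F] [Fintype F] {n : ℕ} (hn : 13 ≤ n) (heven : Even n) (Q : (Fin n → F) → F) (hQ : Cfsg.Geo.IsNondegenerateQuadraticForm Q) (hplus : Cfsg.Geo.IsPlusTypeOn Q ⊤) (k : ℕ) (hk : 2 * k = n) (hke : Even k) (D : Fin 2 → Submodule F (Fin n → F)) (hD : Cfsg.Geo.IsMDecomposition k D) (hts : ∀ i, Cfsg.Geo.IsTotallySingularQuad Q (D i)) : Cfsg.Geo.IsMaximalIn (Cfsg.Geo.omegaGL Q) (Cfsg.Geo.decompositionStabilizer D ⊓ Cfsg.Geo.omegaGL Q) := by
  open Cfsg.Agent.H4 in
  have h : (geoQuad hQ).TSPair (D 0) (D 1) := ⟨geoQuad_nondeg hQ, CForm.orth_TS_iff.2 (hts 0),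
    CForm.orth_TS_iff.2 (hts 1), isCompl_of_geo hD⟩
  have hd := hD.finrank_eq 0
  obtain ⟨s, hs, h0, h1⟩ := h.orth_exists_swap (by omega) (by rwa [hd])
  exact isMaximalIn_dstab_of_glE (fun g => mem_omegaGL_E h.hf (by simp; omega))
    (h.isMaximalIn (FType.orth_odd _) (by omega) hs h0 h1)

end Cfsg.Agent.S5697
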