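import Cfsg.Statements.S5698
import Cfsg.Agent.H4.Over2

set_option autoImplicit false
open Cfsg

namespace Cfsg.Agent.S5698

/-- Let F be a finite field with q elements, n ≥ 13 even, Q a non-degenerate quadratic form on F^n of plus type (some subspace of dimension n/2 is totally singular), and Ω the commutator subgroup of the isometry group of Q, viewed inside GL_n(F). Suppose n/2 is odd and let D be a decomposition of F^n into two complementary subspaces of dimension n/2 on each of which Q vanishes. Then the elements of Ω preserving or interchanging the two subspaces form a subgroup that is not maximal: some subgroup lies strictly between it and Ω. -/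
theorem result {F : Type*} [Field F] [Fintype F] {n : ℕ} (hn : 13 ≤ n) (heven : Even n) (Q : (Fin n → F) → F) (hQ : Cfsg.Geo.IsNondegenerateQuadraticForm Q) (hplus : Cfsg.Geo.IsPlusTypeOn Q ⊤) (k : ℕ) (hk : 2 * k = n) (hko : Odd k) (D : Fin 2 → Submodule F (Fin n → F)) (hD : Cfsg.Geo.IsMDecomposition k D) (hts : ∀ i, Cfsg.Geo.IsTotallySingularQuad Q (D i)) : ∃ K : Subgroup (Matrix.GeneralLinearGroup (Fin n) F), Cfsg.Geo.decompositionStabilizer D ⊓ Cfsg.Geo.omegaGL Q < K ∧ K < Cfsg.Geo.omegaGL Q := by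
  open Cfsg.Agent.H4 in
  have h : (geoQuad hQ).TSPair (D 0) (D 1) := ⟨geoQuad_nondeg hQ, CForm.orth_TS_iff.2 (hts 0),
    CForm.orth_TS_iff.2 (hts 1), isCompl_of_geo hD⟩
  have hd := hD.finrank_eq 0
  have hE := h.hf.orth_commutator_eq_E' (by simp; omega)
  have key : ∀ g ∈ dstab D ⊓ (geoQuad hQ).E, g ∈ stab (D 0) ∧ g ∈ stab (D 1) := fun g hg => by
    rcases mem_dstab_two.1 hg.1 with h1 | h1
    · exact ⟨mem_stab_iff_map.2 h1.1, mem_stab_iff_map.2 h1.2⟩
    · have := h.hf.even_of_mem_commutator h.l h.finrank_eq (hE.ge hg.2)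
      rw [h1.1, h.c.inf_eq_bot, hd] at this
      exact absurd (by simpa using this) (Nat.not_even_iff_odd.2 hko)
  have h0 : D 0 ≠ ⊥ := fun e => by rw [e] at hd; simp at hd; omega
  refine exists_between_dstab_of_glE (fun g => mem_omegaGL_E h.hf (by simp; omega))
    (exists_between_of (M := stab (D 0)) (fun g hg => ⟨(key g hg).1, hg.2⟩) ?_
      (h.hf.exists_E_not_stab (h.hf.thick_top (by simp; omega)) h.l h0))
  obtain ⟨u, hu, hu0⟩ := Submodule.exists_mem_ne_zero_of_ne_bot h0
  obtain ⟨v, hv, hv'⟩ := exists_notMem_of_finrank_lt (U := Submodule.span F {u}) (W := D 0)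
    (by have := finrank_span_singleton_le (F := F) u; omega)
  obtain ⟨φ, -, h3, h2⟩ := exists_dual_two (F := F) (U := ⊥) (u := u) (v := v)
    (by simpa using hu0) (by simpa using hv') 1 0
  obtain ⟨z, hz, hz'⟩ := h.exists_rep φ
  have hok : (geoQuad hQ).EichOk u v 0 := ⟨h.l.1 u hu, h.l.2 v hv u hu, by simp [h.l.1 v hv]⟩
  refine ⟨_, CForm.EU_le_stab le_rfl (hok.mem_EU hu hv), hok.mem_E, fun hm => ?_⟩
  have h6 := ((key _ hm).2 z).1 hz
  have h7 : (geoQuad hQ).B z v = 0 := CForm.B_zero_symm _ (by rw [hz' v hv, h2])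
  have h8 : (geoQuad hQ).B z u = 1 := by rw [CForm.orth_symm, hz' u hu, h3]
  simp only [hok.apply, h7, h8, zero_smul, add_zero, one_smul, FType.orth_ε] at h6
  have h9 : v ∈ D 1 := by simpa using sub_mem hz h6
  exact hv' (by simp [h.eq_zero hv h9])

end Cfsg.Agent.S5698
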