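import Cfsg.Statements.S5699
import Cfsg.Agent.H4.Over2

set_option autoImplicit false
open Cfsg

namespace Cfsg.Agent.S5699

/-- Let F be a finite field with q elements, n ≥ 13 even, Q a non-degenerate quadratic form on F^n (of either type), and Ω the commutator subgroup of the isometry group of Q, viewed inside GL_n(F). Let D be a decomposition of F^n into two orthogonal subspaces of odd dimension n/2 on which the polar form is non-degenerate and which are not Q-isometric to each other. Then the elements of Ω permuting (necessarily fixing) the two subspaces form a maximal subgroup of Ω. -/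
theorem result {F : Type*} [Field F] [Fintype F] {n : ℕ} (hn : 13 ≤ n) (heven : Even n) (Q : (Fin n → F) → F) (hQ : Cfsg.Geo.IsNondegenerateQuadraticForm Q) (k : ℕ) (hk : 2 * k = n) (hko : Odd k) (D : Fin 2 → Submodule F (Fin n → F)) (hD : Cfsg.Geo.IsNondegenerateMDecomposition (QuadraticMap.polar Q) k D) (hni : ¬ Cfsg.Geo.AreIsometricFor Q (D 0) (D 1)) : Cfsg.Geo.IsMaximalIn (Cfsg.Geo.omegaGL Q) (Cfsg.Geo.decompositionStabilizer D ⊓ Cfsg.Geo.omegaGL Q) := by
  open Cfsg.Agent.H4 in
  have hf := geoQuad_nondeg hQ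
  have hd := hf.finrank_perp (D 0)
  have hd0 := hD.decomp.finrank_eq 0
  have hd1 := hD.decomp.finrank_eq 1
  simp only [Module.finrank_pi, Fintype.card_fin] at hd
  obtain ⟨π, hπ⟩ := exists_odec_of_geo (f := geoQuad hQ) hD
  have e : D 1 = (geoQuad hQ).perp (D 0) :=
    Submodule.eq_of_le_of_finrank_eq (hπ.le_perp (by decide)) (by omega)
  have hni' : ¬ CForm.Isom ((geoQuad hQ).res (D 0)) ((geoQuad hQ).res (D 1)) :=
    fun ⟨φ, hφ⟩ => hni ⟨φ, hφ.2⟩
  have := hf.orth_isMaximalIn_stab (by simp; omega) (hπ.nd hf 0)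
    (fun e => by rw [e] at hd0; simp at hd0; omega) (fun e => by rw [e] at hd0; simp at hd0; omega)
    (by rwa [← e]) (by rintro U (rfl | rfl) ⟨-, h, -⟩ <;> omega)
  refine isMaximalIn_dstab_of_glE (fun g => mem_omegaGL_E hf (by simp; omega)) ?_
  convert this using 1
  ext g
  refine and_congr_left fun hg => ⟨fun h => ?_, fun h => mem_dstab_of_stab
    (Fin.forall_fin_two.2 ⟨h, e ▸ CForm.stab_perp (CForm.E_le_iso hg) h⟩)⟩
  rcases mem_dstab_two.1 h with h | h
  · exact mem_stab_iff_map.2 h.1
  · have := CForm.isom_res_map (CForm.E_le_iso hg) (D 0)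
    rw [h.1] at this
    exact absurd this hni'

end Cfsg.Agent.S5699
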