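import Cfsg.Statements.S5705
import Cfsg.Agent.H4.As30

set_option autoImplicit false
open Cfsg

namespace Cfsg.Agent.S5705

/-- Let F be the field with 2 elements, n = 2 n₂ ≥ 13 even, Q a non-degenerate quadratic form on F^n of plus type and Ω the commutator subgroup of its isometry group. Suppose that, through P and e, the polar form of Q is similar to the tensor product of non-degenerate symplectic forms f₁ on F^2 and f₂ on F^(n₂), and Q vanishes on the images of all pure tensors. Then the elements of Ω in the stabiliser of this tensor decomposition form a subgroup that is not maximal: some subgroup lies strictly between it and Ω. -/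
theorem result {F : Type*} [Field F] [Fintype F] {n : ℕ} (hn : 13 ≤ n) (heven : Even n) (Q : (Fin n → F) → F) (hQ : Cfsg.Geo.IsNondegenerateQuadraticForm Q) (hplus : Cfsg.Geo.IsPlusTypeOn Q ⊤) (hq : Fintype.card F = 2) (n₂ : ℕ) (h2 : 2 < n₂) (e : (Fin n) ≃ Fin 2 × Fin n₂) (P : Matrix.GeneralLinearGroup (Fin n) F) (f₁ : (Fin 2 → F) → (Fin 2 → F) → F) (f₂ : (Fin n₂ → F) → (Fin n₂ → F) → F) (hf₁ : Cfsg.Geo.IsSymplecticForm f₁) (hf₂ : Cfsg.Geo.IsSymplecticForm f₂) (hT : Cfsg.Geo.IsTensorFormStructure id (QuadraticMap.polar Q) f₁ f₂ e P) (hpure : (∀ (x₁ : Fin 2 → F) (x₂ : Fin n₂ → F), Q (Matrix.mulVec (P : Matrix (Fin n) (Fin n) F) ((fun a : Fin 2 × Fin n₂ => x₁ a.1 * x₂ a.2) ∘ e)) = 0)) : ∃ K : Subgroup (Matrix.GeneralLinearGroup (Fin n) F), Cfsg.Geo.tensorProductSubgroup 2 n₂ e P ⊓ Cfsg.Geo.omegaGL Q < K ∧ K < Cfsg.Geo.omegaGL Q := by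
  have hf := H4.geoQuad_nondeg hQ
  have h4 := H4.As.polar_eq (f := H4.geoQuad hQ) ▸ hT
  have : Nonempty (Fin n₂) := ⟨⟨0, by omega⟩⟩
  rw [hf₁.bilinear.as_eq, hf₂.bilinear.as_eq] at h4
  have h5 := H4.As.tf_of le_rfl h2.le (H4.As.rf_symp hf₁) (H4.As.rf_symp hf₂) h4 bot_le bot_le
  obtain ⟨c, -, h6⟩ := h5.eq
  obtain ⟨p, k1, k2, k3, k4⟩ := h5.rf2.exists_idem (by simp; omega)
  exact H4.As.k4_btw hq (H4.As.big_Om hf (by simp; omega)) (fun _ => H4.As.exists_of_mem_tensor) k1 k3 k4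
    fun a b => H4.As.comm_mem_omega (H4.As.psi_isoQ h6 k1 k2 hpure (H4.As.sm_alt2 hq hf₁ a))
      (H4.As.psi_isoQ h6 k1 k2 hpure (H4.As.sm_alt2 hq hf₁ b))

end Cfsg.Agent.S5705
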