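import Cfsg.Statements.S5710
import Cfsg.Agent.H4.As29

set_option autoImplicit false
open Cfsg

namespace Cfsg.Agent.S5710

/-- Let F be the field with 3 elements, n = 3 n₂ ≥ 13 even, Q a non-degenerate quadratic form on F^n of minus type and Ω the commutator subgroup of its isometry group. Suppose that, through P and e, the polar form of Q is similar to the tensor product of non-degenerate symmetric bilinear forms f₁ on F^3 and f₂ on F^(n₂), n₂ even and at least 4, of minus type. Then the elements of Ω in the stabiliser of this tensor decomposition form a subgroup that is not maximal: some subgroup lies strictly between it and Ω. -/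
theorem result {F : Type*} [Field F] [Fintype F] {n : ℕ} (hn : 13 ≤ n) (heven : Even n) (Q : (Fin n → F) → F) (hQ : Cfsg.Geo.IsNondegenerateQuadraticForm Q) (hminus : ¬ Cfsg.Geo.IsPlusTypeOn Q ⊤) (hq : Fintype.card F = 3) (n₂ : ℕ) (h2 : 4 ≤ n₂) (h2e : Even n₂) (e : (Fin n) ≃ Fin 3 × Fin n₂) (P : Matrix.GeneralLinearGroup (Fin n) F) (f₁ : (Fin 3 → F) → (Fin 3 → F) → F) (f₂ : (Fin n₂ → F) → (Fin n₂ → F) → F) (hf₁ : Cfsg.Geo.IsSymmetricForm f₁) (hf₂ : Cfsg.Geo.IsSymmetricForm f₂) (hf₂m : ¬ Cfsg.Geo.IsPlusTypeOn (fun v : Fin n₂ → F => f₂ v v) ⊤) (hT : Cfsg.Geo.IsTensorFormStructure id (QuadraticMap.polar Q) f₁ f₂ e P) : ∃ K : Subgroup (Matrix.GeneralLinearGroup (Fin n) F), Cfsg.Geo.tensorProductSubgroup 3 n₂ e P ⊓ Cfsg.Geo.omegaGL Q < K ∧ K < Cfsg.Geo.omegaGL Q := by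
  have h3 := H4.As.two_ne_of_three hq
  have hf := H4.geoQuad_nondeg hQ
  have h4 := H4.As.polar_eq (f := H4.geoQuad hQ) ▸ hT
  rw [hf₁.bilinear.as_eq, hf₂.bilinear.as_eq] at h4
  exact H4.As.o3_btw hq (H4.As.big_Om hf (by simp; omega)) (H4.As.omega_le.trans (H4.As.isom_le (f := H4.geoQuad hQ)))
    (fun a ha b hb => H4.As.comm_mem_omega (H4.As.iso_le h3 ha) (H4.As.iso_le h3 hb)) (by omega)
    (H4.As.tf_of (by norm_num) (by omega) (H4.As.rf_symm hf₁) (H4.As.rf_symm hf₂) h4 bot_le bot_le)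
    fun _ => H4.As.exists_of_mem_tensor

end Cfsg.Agent.S5710
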