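import Cfsg.Statements.S5775
import Cfsg.Agent.H4.As25

set_option autoImplicit false
open Cfsg

namespace Cfsg.Agent.S5775

/-- Every maximal subgroup of SL_3(q) is of one of the listed geometric types or lies in the residual class. Let F be a finite field with q elements and H a maximal subgroup of SL_3(F) (viewed inside GL_3(F)). Then H is the intersection with SL_3(F) of one of: the stabiliser of a proper non-zero subspace; for q ≥ 5, the stabiliser of a decomposition of F^3 into three independent lines; for q ≠ 4, the normaliser of a degree-3 subfield of the matrix algebra; a subfield group for a subfield F₀ with |F| = |F₀|^r, r prime; for q = p ≡ 1 mod 3 prime, the normaliser of an absolutely irreducible 3-subgroup R of exponent 3 with centre of order 3, all of whose characteristic abelian subgroups are cyclic, of order 3^(1+2m) for some m ≥ 1, with F the smallest field of characteristic p containing the cube roots of unity (so R is extraspecial of order 27); for q odd, the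 similarity group of a non-degenerate quadratic form; the similarity group of a non-degenerate unitary form — or else H lies in the residual class of the linear case (modulo scalars H is almost simple, with absolutely irreducible perfect socle preimage realisable over no proper subfield and fixing no non-degenerate quadratic, symplectic or unitary form). -/
theorem result {F : Type*} [Field F] [Fintype F] (H : Subgroup (Matrix.GeneralLinearGroup (Fin 3) F)) (hH : Cfsg.Geo.IsMaximalIn (Cfsg.Geo.specialLinear (Fin 3) F) H) :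
    (∃ W : Submodule F (Fin 3 → F), W ≠ ⊥ ∧ W ≠ ⊤ ∧ H = Cfsg.Geo.subspaceStabilizer W ⊓ Cfsg.Geo.specialLinear (Fin 3) F) ∨
    (5 ≤ Fintype.card F ∧ ∃ D : Fin 3 → Submodule F (Fin 3 → F), Cfsg.Geo.IsMDecomposition 1 D ∧ H = Cfsg.Geo.decompositionStabilizer D ⊓ Cfsg.Geo.specialLinear (Fin 3) F) ∨
    (Fintype.card F ≠ 4 ∧ ∃ K : Subalgebra F (Matrix (Fin 3) (Fin 3) F), Cfsg.Geo.IsFieldSubalgebra 3 K ∧ H = Cfsg.Geo.subalgebraNormalizer K ⊓ Cfsg.Geo.specialLinear (Fin 3) F) ∨
    (∃ (F₀ : Subfield F) (r : ℕ) (P : Matrix.GeneralLinearGroup (Fin 3) F), r.Prime ∧ Fintype.card F = Nat.card F₀ ^ r ∧ H = Cfsg.Geo.subfieldSubgroup F₀ P ⊓ Cfsg.Geo.specialLinear (Fin 3) F) ∨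
    (∃ (p : ℕ) (R : Subgroup (Matrix.GeneralLinearGroup (Fin 3) F)), p.Prime ∧ Fintype.card F = p ∧ p % 3 = 1 ∧ Cfsg.Geo.IsLinearSymplecticTypeData 3 R ∧ H = Cfsg.Geo.subgroupNormalizer R ⊓ Cfsg.Geo.specialLinear (Fin 3) F) ∨
    (Odd (Fintype.card F) ∧ ∃ Q : (Fin 3 → F) → F, Cfsg.Geo.IsNondegenerateQuadraticForm Q ∧ H = Cfsg.Geo.quadSimilarityGroup Q ⊓ Cfsg.Geo.specialLinear (Fin 3) F) ∨
    (∃ (σ : F ≃+* F) (f : (Fin 3 → F) → (Fin 3 → F) → F), Cfsg.Geo.IsUnitaryForm σ f ∧ H = Cfsg.Geo.similarityGroup f ⊓ Cfsg.Geo.specialLinear (Fin 3) F) ∨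
    Cfsg.Geo.InLinearResidualClass H := by
  rcases H4.As.slMax (by norm_num) hH with h | ⟨t, m, D, h1, h0, h2, h3, h⟩ | ⟨r, K, h1, h2, h⟩ |
    ⟨k, l, e, P, h1, h2, h3, h4, h⟩ | h | ⟨r, m, R, h1, h2, h3, h⟩ | ⟨m, t, e, P, h1, h2, h3, h⟩ | h | ⟨h1, h⟩ | h | h
  · exact .inl h
  · have : t ≤ 3 := Nat.le_of_dvd (by norm_num) ⟨m, h1.symm⟩
    interval_cases t
    · omega
    · obtain rfl : m = 1 := by omega
      exact .inr <| .inl <| ⟨by omega, D, h⟩
  · obtain rfl := (Nat.prime_dvd_prime_iff_eq h1 Nat.prime_three).1 h2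
    by_cases h3 : Fintype.card F = 4
    · obtain ⟨φ, P, h4, h5⟩ := H4.As.sr34 (by simp) h3 h.1 (H4.As.nrm_iff.2 (h.2.le.trans inf_le_left))
        (H4.As.det_of_SL (h.2.le.trans inf_le_right))
      exact .inr <| .inr <| .inr <| .inl <| ⟨_, _, P, h4, H4.As.card_fx φ, hH.as_eq h5.le
        ((H4.As.big_SL (by norm_num)).not_subfield h4.one_lt (H4.As.card_fx φ))⟩
    exact .inr <| .inr <| .inl <| ⟨h3, K, h⟩
  · nlinarith
  · exact .inr <| .inr <| .inr <| .inl <| h
  · obtain rfl := H4.As.eq_of_pow h1 h2 (s := 3) (by norm_num) (by norm_num)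
    obtain ⟨p, e, h4, -, h5, rfl, h6⟩ := H4.As.c6_odd h3 (by norm_num) (fun a e => e = 1 ∧ a = 1)
      (by intro a e he; interval_cases e <;> revert a <;> decide)
    exact .inr <| .inr <| .inr <| .inr <| .inl <| ⟨p, R, h4, by simpa using h5, h6, h3, h⟩
  · exact absurd (H4.As.pow_cases h1 h2 h3 (by norm_num)).1 (by norm_num)
  · exact .inr <| .inr <| .inr <| .inr <| .inr <| .inl <| h
  · exact absurd h1 (by decide)
  · exact .inr <| .inr <| .inr <| .inr <| .inr <| .inr <| .inl <| h
  · exact .inr <| .inr <| .inr <| .inr <| .inr <| .inr <| .inr <| h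

end Cfsg.Agent.S5775
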