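import Cfsg.Statements.S5781
import Cfsg.Agent.H4.As25

set_option autoImplicit false
open Cfsg

namespace Cfsg.Agent.S5781

/-- Every maximal subgroup of SL_4(q) is of one of the listed geometric types or lies in the residual class. Let F be a finite field with q elements and H a maximal subgroup of SL_4(F) (inside GL_4(F)). Then H is the intersection with SL_4(F) of one of: the stabiliser of a proper non-zero subspace; for q ≥ 7, the stabiliser of a decomposition into four independent lines; for q ≥ 4, the stabiliser of a decomposition into two independent planes; the normaliser of a degree-2 subfield of the matrix algebra; a subfield group for a subfield F₀ with |F| = |F₀|^r, r prime; for q = p ≡ 1 mod 4 prime, the normaliser of an absolutely irreducible 2-subgroup R of exponent 4 with centre of order 4, all of whose characteristic abelian subgroups are cyclic, of order 2^(2+2m) for some m (here |R| = 64), with 4 dividing p − 1; for q odd, the similarity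 group of a non-degenerate quadratic form; the similarity group of a non-degenerate symplectic form; the similarity group of a non-degenerate unitary form — or else H lies in the residual class of the linear case. -/
theorem result {F : Type*} [Field F] [Fintype F] (H : Subgroup (Matrix.GeneralLinearGroup (Fin 4) F)) (hH : Cfsg.Geo.IsMaximalIn (Cfsg.Geo.specialLinear (Fin 4) F) H) :
    (∃ W : Submodule F (Fin 4 → F), W ≠ ⊥ ∧ W ≠ ⊤ ∧ H = Cfsg.Geo.subspaceStabilizer W ⊓ Cfsg.Geo.specialLinear (Fin 4) F) ∨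
    (7 ≤ Fintype.card F ∧ ∃ D : Fin 4 → Submodule F (Fin 4 → F), Cfsg.Geo.IsMDecomposition 1 D ∧ H = Cfsg.Geo.decompositionStabilizer D ⊓ Cfsg.Geo.specialLinear (Fin 4) F) ∨
    (4 ≤ Fintype.card F ∧ ∃ D : Fin 2 → Submodule F (Fin 4 → F), Cfsg.Geo.IsMDecomposition 2 D ∧ H = Cfsg.Geo.decompositionStabilizer D ⊓ Cfsg.Geo.specialLinear (Fin 4) F) ∨
    (∃ K : Subalgebra F (Matrix (Fin 4) (Fin 4) F), Cfsg.Geo.IsFieldSubalgebra 2 K ∧ H = Cfsg.Geo.subalgebraNormalizer K ⊓ Cfsg.Geo.specialLinear (Fin 4) F) ∨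
    (∃ (F₀ : Subfield F) (r : ℕ) (P : Matrix.GeneralLinearGroup (Fin 4) F), r.Prime ∧ Fintype.card F = Nat.card F₀ ^ r ∧ H = Cfsg.Geo.subfieldSubgroup F₀ P ⊓ Cfsg.Geo.specialLinear (Fin 4) F) ∨
    (∃ (p : ℕ) (R : Subgroup (Matrix.GeneralLinearGroup (Fin 4) F)), p.Prime ∧ Fintype.card F = p ∧ p % 4 = 1 ∧ Cfsg.Geo.IsLinearSymplecticTypeData 2 R ∧ H = Cfsg.Geo.subgroupNormalizer R ⊓ Cfsg.Geo.specialLinear (Fin 4) F) ∨
    (Odd (Fintype.card F) ∧ ∃ Q : (Fin 4 → F) → F, Cfsg.Geo.IsNondegenerateQuadraticForm Q ∧ H = Cfsg.Geo.quadSimilarityGroup Q ⊓ Cfsg.Geo.specialLinear (Fin 4) F) ∨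
    (∃ f : (Fin 4 → F) → (Fin 4 → F) → F, Cfsg.Geo.IsSymplecticForm f ∧ H = Cfsg.Geo.similarityGroup f ⊓ Cfsg.Geo.specialLinear (Fin 4) F) ∨
    (∃ (σ : F ≃+* F) (f : (Fin 4 → F) → (Fin 4 → F) → F), Cfsg.Geo.IsUnitaryForm σ f ∧ H = Cfsg.Geo.similarityGroup f ⊓ Cfsg.Geo.specialLinear (Fin 4) F) ∨
    Cfsg.Geo.InLinearResidualClass H := by
  rcases H4.As.slMax (by norm_num) hH with h | ⟨t, m, D, h1, h0, h2, h3, h⟩ | ⟨r, K, h1, h2, h⟩ |
    ⟨k, l, e, P, h1, h2, h3, h4, h⟩ | h | ⟨r, m, R, h1, h2, h3, h⟩ | ⟨m, t, e, P, h1, h2, h3, h⟩ | h | ⟨h1, h⟩ | h | h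
  · exact .inl h
  · have : t ≤ 4 := Nat.le_of_dvd (by norm_num) ⟨m, h1.symm⟩
    interval_cases t
    · obtain rfl : m = 2 := by omega
      by_cases h4 : Fintype.card F = 3
      · obtain ⟨f, h5, h6⟩ := H4.As.sl43 h4 h.1 (h.2.le.trans inf_le_left) (h.2.le.trans inf_le_right)
        exact .inr <| .inr <| .inr <| .inr <| .inr <| .inr <| .inr <| .inl <| ⟨f, h5, hH.as_eq h6
          (H4.As.SL_not_bilin (by norm_num) h5.bilinear h5.nondegenerate)⟩
      exact .inr <| .inr <| .inl <| ⟨by omega, D, h⟩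
    · omega
    · obtain rfl : m = 1 := by omega
      by_cases h4 : Fintype.card F = 5
      · obtain ⟨R, h5, h6, h7⟩ := H4.As.sl45 h4 h.1 (h.2.le.trans inf_le_left) (h.2.le.trans inf_le_right)
        exact .inr <| .inr <| .inr <| .inr <| .inr <| .inl <| ⟨5, R, by norm_num, h4, rfl, h5, hH.as_eq h7
          ((H4.As.big_SL (by norm_num)).not_norm Nat.prime_two h5.symplecticType.pGroup h6 (H4.As.nm_SL R))⟩
      have h5 : Fintype.card F ≠ 6 := fun h5 => absurd (h5 ▸ Fintype.isPrimePow_card_of_field (α := F)) (by decide)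
      exact .inr <| .inl <| ⟨by omega, D, h⟩
  · obtain rfl := H4.As.eq_of_pow (m := 1) h1 (pow_one r).symm Nat.prime_two
      (((Nat.prime_dvd_prime_iff_eq h1 Nat.prime_two).1 (h1.dvd_of_dvd_pow (n := 2) h2)).symm ▸ dvd_rfl)
    exact .inr <| .inr <| .inr <| .inl <| ⟨K, h⟩
  · nlinarith
  · exact .inr <| .inr <| .inr <| .inr <| .inl <| h
  · obtain rfl := H4.As.eq_of_pow h1 h2 (s := 2) (by norm_num) (by norm_num)
    obtain ⟨p, h4, h5, h6⟩ := H4.As.c6_two h3 (by simp)
    exact .inr <| .inr <| .inr <| .inr <| .inr <| .inl <| ⟨p, R, h4, h5, h6, h3, h⟩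
  · exact absurd (H4.As.pow_cases h1 h2 h3 (by norm_num)).1 (by norm_num)
  · exact .inr <| .inr <| .inr <| .inr <| .inr <| .inr <| .inl <| h
  · exact .inr <| .inr <| .inr <| .inr <| .inr <| .inr <| .inr <| .inl <| h
  · exact .inr <| .inr <| .inr <| .inr <| .inr <| .inr <| .inr <| .inr <| .inl <| h
  · exact .inr <| .inr <| .inr <| .inr <| .inr <| .inr <| .inr <| .inr <| .inr <| h

end Cfsg.Agent.S5781
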