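import Cfsg.Statements.S5784
import Cfsg.Agent.H4.As26

set_option autoImplicit false
open Cfsg

namespace Cfsg.Agent.S5784

/-- Every maximal subgroup of SU_4(q) is of one of the listed geometric types or lies in the residual class. Let F be the field with q² elements, f the standard unitary form Σ u_i v_i^q on F^4, and H a maximal subgroup of SU_4(q) (inside GL_4(F)). Then H is the intersection with SU_4(q) of one of: the stabiliser of a non-zero subspace on which f vanishes; the stabiliser of a non-degenerate 1-space; for q ≠ 3, the stabiliser of a decomposition into four mutually orthogonal non-degenerate 1-spaces; for q ≥ 3, of a decomposition into two orthogonal non-degenerate 2-spaces; for q ≥ 4, of a decomposition into two totally isotropic 2-spaces; a subfield group of odd prime index whose F₀-structure carries f; a subfield group of index 2 whose F₀-structure carries ζ f, vanishing on pairs (u,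 u), for some non-zero ζ with ζ + ζ^q = 0; for q odd, a subfield group of index 2 whose F₀-structure carries f; for q = p ≡ 3 mod 4 prime, the normaliser of an absolutely irreducible symplectic-type 2-group of exponent 4, order 64 and centre of order 4 inside the similarity group of f — or else H lies in the residual class of the unitary case. -/
theorem result {F : Type*} [Field F] [Fintype F] (q : ℕ) (hF : Fintype.card F = q ^ 2) (H : Subgroup (Matrix.GeneralLinearGroup (Fin 4) F)) (hH : Cfsg.Geo.IsMaximalIn (Cfsg.GU 4 F q ⊓ Cfsg.Geo.specialLinear (Fin 4) F) H) :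
    (∃ W : Submodule F (Fin 4 → F), W ≠ ⊥ ∧ Cfsg.Geo.IsTotallySingularFor (Cfsg.hermForm 4 F q) W ∧ H = Cfsg.Geo.subspaceStabilizer W ⊓ (Cfsg.GU 4 F q ⊓ Cfsg.Geo.specialLinear (Fin 4) F)) ∨
    (∃ W : Submodule F (Fin 4 → F), W ≠ ⊥ ∧ Cfsg.Geo.IsNondegenerateOn (Cfsg.hermForm 4 F q) W ∧ 2 * Module.finrank F W < 4 ∧ H = Cfsg.Geo.subspaceStabilizer W ⊓ (Cfsg.GU 4 F q ⊓ Cfsg.Geo.specialLinear (Fin 4) F)) ∨
    (q ≠ 3 ∧ ∃ D : Fin 4 → Submodule F (Fin 4 → F), Cfsg.Geo.IsNondegenerateMDecomposition (Cfsg.hermForm 4 F q) 1 D ∧ H = Cfsg.Geo.decompositionStabilizer D ⊓ (Cfsg.GU 4 F q ⊓ Cfsg.Geo.specialLinear (Fin 4) F)) ∨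
    (3 ≤ q ∧ ∃ D : Fin 2 → Submodule F (Fin 4 → F), Cfsg.Geo.IsNondegenerateMDecomposition (Cfsg.hermForm 4 F q) 2 D ∧ H = Cfsg.Geo.decompositionStabilizer D ⊓ (Cfsg.GU 4 F q ⊓ Cfsg.Geo.specialLinear (Fin 4) F)) ∨
    (4 ≤ q ∧ ∃ D : Fin 2 → Submodule F (Fin 4 → F), Cfsg.Geo.IsMDecomposition 2 D ∧ (∀ i, Cfsg.Geo.IsTotallySingularFor (Cfsg.hermForm 4 F q) (D i)) ∧ H = Cfsg.Geo.decompositionStabilizer D ⊓ (Cfsg.GU 4 F q ⊓ Cfsg.Geo.specialLinear (Fin 4) F)) ∨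
    (∃ (F₀ : Subfield F) (r : ℕ) (P : Matrix.GeneralLinearGroup (Fin 4) F), r.Prime ∧ Odd r ∧ Fintype.card F = Nat.card F₀ ^ r ∧ Cfsg.Geo.IsFormRationalStructure (Cfsg.hermForm 4 F q) F₀ 1 P ∧ H = Cfsg.Geo.subfieldSubgroup F₀ P ⊓ (Cfsg.GU 4 F q ⊓ Cfsg.Geo.specialLinear (Fin 4) F)) ∨
    (∃ (F₀ : Subfield F) (P : Matrix.GeneralLinearGroup (Fin 4) F) (ζ : F), Fintype.card F = Nat.card F₀ ^ 2 ∧ ζ ≠ 0 ∧ ζ + ζ ^ q = 0 ∧ Cfsg.Geo.IsFormRationalStructure (Cfsg.hermForm 4 F q) F₀ ζ P ∧ (∀ u : Fin 4 → F, (∀ i, u i ∈ F₀) → (Cfsg.hermForm 4 F q) (Matrix.mulVec (P : Matrix (Fin 4) (Fin 4) F) u) (Matrix.mulVec (P : Matrix (Fin 4) (Fin 4) F) u) = 0) ∧ H = Cfsg.Geo.subfieldSubgroup F₀ P ⊓ (Cfsg.GU 4 F q ⊓ Cfsg.Geo.specialLinear (Fin 4) F)) ∨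
    (Odd q ∧ ∃ (F₀ : Subfield F) (P : Matrix.GeneralLinearGroup (Fin 4) F), Fintype.card F = Nat.card F₀ ^ 2 ∧ Cfsg.Geo.IsFormRationalStructure (Cfsg.hermForm 4 F q) F₀ 1 P ∧ H = Cfsg.Geo.subfieldSubgroup F₀ P ⊓ (Cfsg.GU 4 F q ⊓ Cfsg.Geo.specialLinear (Fin 4) F)) ∨
    (∃ (p : ℕ) (R : Subgroup (Matrix.GeneralLinearGroup (Fin 4) F)), p.Prime ∧ q = p ∧ p % 4 = 3 ∧ Cfsg.Geo.IsSymplecticTypeGroup 2 R ∧ Cfsg.Geo.ActsAbsolutelyIrreducibly (Cfsg.Geo.matrixSet R) ∧ R ≤ Cfsg.Geo.similarityGroup (Cfsg.hermForm 4 F q) ∧ Nat.card R = 64 ∧ Nat.card (Subgroup.center R) = 4 ∧ H = Cfsg.Geo.subgroupNormalizer R ⊓ (Cfsg.GU 4 F q ⊓ Cfsg.Geo.specialLinear (Fin 4) F)) ∨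
    Cfsg.Geo.InUnitaryResidualClass H := by
  have hq2 := H4.two_le_of_card_sq hF
  have hB := H4.As.big_SU hF (n := 4) (by norm_num) (by omega)
  have hG := hH.1.le.trans inf_le_left
  have hJ := hG.trans (H4.As.GU_eq hF).le
  have hS := hH.1.le.trans inf_le_right
  have hf := H4.As.rf_unF (n := 4) hF
  rcases (H4.As.suRed hF (by norm_num) (by omega) hG
    (Φ := fun X => H = X ⊓ (GU 4 F q ⊓ Geo.specialLinear (Fin 4) F)) (fun _ => hH.as_eq)).elim Or.inl fun hI =>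
    (H4.As.suAll hF (by norm_num) (by omega) hG
      (Φ := fun X => H = X ⊓ (GU 4 F q ⊓ Geo.specialLinear (Fin 4) F)) (fun _ => hH.as_eq)).elim
      (fun h => .inl (.inl h)) fun h => h.elim (fun h => .inl (.inr (.inl h))) fun h => h.elim
      (fun h => .inl (.inr (.inr h))) fun h => .inr (And.intro hI h) with (h | h | ⟨t, m, D, h1, h0, h2, h⟩) |
    ⟨hI, ⟨m, D, h1, h⟩ | ⟨r, K, h1, h0, h2, h⟩ | ⟨k, l, e, P, f₁, f₂, h1, h2, h3, h4, h⟩ |
    h | h | ⟨h1, h⟩ | ⟨r, R, p, e, k, h1, h0, h2, h3, h4, h5, h6, h7, h⟩ | ⟨m, t, e, P, f₁, h3, h1, h2, h4, h⟩ | h⟩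
  · exact .inl h
  · exact .inr (.inl h)
  · have : t ≤ 4 := Nat.le_of_dvd (by norm_num) ⟨m, h1.symm⟩
    interval_cases t
    · obtain rfl : m = 2 := by omega
      exact .inr <| .inr <| .inr <| .inl <| ⟨h2 rfl, D, h⟩
    · omega
    · obtain rfl : m = 1 := by omega
      by_cases h3 : q = 3
      · subst h3
        obtain ⟨R, k1, k2, k3, k4, k5, k6⟩ := H4.As.su43 hf (H4.frobq_ne hF) (fun _ => rfl) hF hJ hS
          (H4.As.herm_eq hF ▸ h.1) (h.2.le.trans inf_le_left)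
        have k7 := H4.As.le_sim hf.unit fun g hg => ⟨1, k3 hg⟩
        exact .inr <| .inr <| .inr <| .inr <| .inr <| .inr <| .inr <| .inr <| .inl <| ⟨3, R, by norm_num, rfl, rfl,
          k1, H4.As.absIrr_of_alg k2, H4.As.herm_eq hF ▸ k7, k4, k5, hH.as_eq (H4.As.nm_iff.1 k6)
          (hB.not_norm Nat.prime_two k1.pGroup (H4.As.not_le_of_alg k2 hB.two)
            (H4.As.GU_eq hF ▸ (H4.As.nm_isoG hf.unit k7).inf (H4.As.nm_SL R)))⟩
      exact .inr <| .inr <| .inl <| ⟨h3, D, h⟩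
  · obtain rfl : m = 2 := by omega
    by_cases h3 : q ≤ 3
    · rcases hf.ti_u2 (H4.frobq_ne hF) hJ hI (fun a ha e => by
        have e : a ^ q = a := e
        interval_cases q
        · rw [mul_left_cancel₀ ha ((pow_two a).symm.trans (e.trans (mul_one a).symm)), mul_one]
        · exact mul_left_cancel₀ ha (by linear_combination e)) hS h.1 (H4.As.herm_eq hF ▸ h.2.1)
        (h.2.2.le.trans inf_le_left) with ⟨F₀, P, k1, k2, k3, k4⟩ | ⟨F₀, P, ζ, k1, k2, k3, k4, k5, k6, k7⟩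
      · exact .inr <| .inr <| .inr <| .inr <| .inr <| .inr <| .inr <| .inl <|
          ⟨(Nat.odd_pow_iff two_ne_zero).1 (hF ▸ k1), F₀, P, k2, H4.As.herm_eq hF ▸ k3,
            hH.as_eq k4 (hB.not_subfield one_lt_two k2)⟩
      · exact .inr <| .inr <| .inr <| .inr <| .inr <| .inr <| .inl <| ⟨F₀, P, ζ, k2, k3, k4,
          H4.As.herm_eq hF ▸ k5, H4.As.herm_eq hF ▸ k6, hH.as_eq k7 (hB.not_subfield one_lt_two k2)⟩
    exact .inr <| .inr <| .inr <| .inr <| .inl <| ⟨by omega, D, h⟩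
  · obtain rfl := (Nat.prime_dvd_prime_iff_eq h1 Nat.prime_two).1 (h1.dvd_of_dvd_pow (n := 2) h2)
    exact absurd h0 (by decide)
  · nlinarith
  · exact .inr <| .inr <| .inr <| .inr <| .inr <| .inl <| h
  · exact .inr <| .inr <| .inr <| .inr <| .inr <| .inr <| .inr <| .inl <| h
  · exact .inr <| .inr <| .inr <| .inr <| .inr <| .inr <| .inl <| h
  · obtain rfl := H4.As.eq_of_pow h2.prime h1 (s := 2) (by norm_num) (by norm_num)
    obtain rfl : k = 2 := Nat.pow_right_injective (a := 2) (by norm_num) h1.symm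
    obtain ⟨-, -, h7, h8⟩ := h7.resolve_left fun h => absurd h.1 (by decide)
    obtain ⟨h9, -, k, h10, rfl, h11⟩ := H4.As.c6u hF (h7 ▸ h6) (by norm_num) (fun a e => e = 1 ∧ a = 3)
      (by intro a e he; interval_cases e <;> revert a <;> decide)
    exact .inr <| .inr <| .inr <| .inr <| .inr <| .inr <| .inr <| .inr <| .inl <|
      ⟨p, R, h9, by simpa using h10, h11, h2, h3, h4, h8, h7, h⟩
  · exact absurd (H4.As.pow_cases h1 h2 h3 (by norm_num)).1 (by norm_num)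
  · exact .inr <| .inr <| .inr <| .inr <| .inr <| .inr <| .inr <| .inr <| .inr <| h

end Cfsg.Agent.S5784
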