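import Cfsg.Statements.S5787
import Cfsg.Agent.H4.As28

set_option autoImplicit false
open Cfsg

namespace Cfsg.Agent.S5787

/-- Every maximal subgroup of Sp_4(q), q odd, is of one of the listed geometric types or lies in the residual class. Let F be a finite field of odd order q, f the standard alternating form on F^4 (coordinates Fin 2 ⊕ Fin 2), and H a maximal subgroup of the isometry group Sp_4(F) (inside GL_4(F)). Then H is the intersection with Sp_4(F) of one of: the stabiliser of a non-zero totally isotropic subspace; the stabiliser of a decomposition into two orthogonal non-degenerate 2-spaces; for q ≥ 5, of a decomposition into two totally isotropic 2-spaces; the normaliser of a degree-2 subfield K of the matrix algebra, self-adjoint with f(k v, v) = 0; for q ≥ 5, the normaliser of a degree-2 subfield closed under adjoints but not self-adjoint; a subfield group whose F₀-structure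 carries a non-zero multiple of f, |F| = |F₀|^r with r prime; for q = p prime, the normaliser of an absolutely irreducible symplectic-type 2-group of exponent 4, order 32, centre of order 2 and minus type inside the similarity group of f — or else H lies in the residual class of the symplectic case. -/
theorem result {F : Type*} [Field F] [Fintype F] (hodd : Odd (Fintype.card F)) (H : Subgroup (Matrix.GeneralLinearGroup (Fin 2 ⊕ Fin 2) F)) (hH : Cfsg.Geo.IsMaximalIn (Cfsg.spGL 2 F) H) :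
    (∃ W : Submodule F (Fin 2 ⊕ Fin 2 → F), W ≠ ⊥ ∧ Cfsg.Geo.IsTotallySingularFor (Cfsg.sympForm 2 F) W ∧ H = Cfsg.Geo.subspaceStabilizer W ⊓ Cfsg.spGL 2 F) ∨
    (∃ D : Fin 2 → Submodule F (Fin 2 ⊕ Fin 2 → F), Cfsg.Geo.IsNondegenerateMDecomposition (Cfsg.sympForm 2 F) 2 D ∧ H = Cfsg.Geo.decompositionStabilizer D ⊓ Cfsg.spGL 2 F) ∨
    (5 ≤ Fintype.card F ∧ ∃ D : Fin 2 → Submodule F (Fin 2 ⊕ Fin 2 → F), Cfsg.Geo.IsMDecomposition 2 D ∧ (∀ i, Cfsg.Geo.IsTotallySingularFor (Cfsg.sympForm 2 F) (D i)) ∧ H = Cfsg.Geo.decompositionStabilizer D ⊓ Cfsg.spGL 2 F) ∨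
    (∃ K : Subalgebra F (Matrix (Fin 2 ⊕ Fin 2) (Fin 2 ⊕ Fin 2) F), Cfsg.Geo.IsFieldSubalgebra 2 K ∧ Cfsg.Geo.IsSelfAdjointFor (Cfsg.sympForm 2 F) K ∧ (∀ k ∈ K, ∀ v : (Fin 2 ⊕ Fin 2 → F), (Cfsg.sympForm 2 F) (Matrix.mulVec k v) v = 0) ∧ H = Cfsg.Geo.subalgebraNormalizer K ⊓ Cfsg.spGL 2 F) ∨
    (5 ≤ Fintype.card F ∧ ∃ K : Subalgebra F (Matrix (Fin 2 ⊕ Fin 2) (Fin 2 ⊕ Fin 2) F), Cfsg.Geo.IsFieldSubalgebra 2 K ∧ Cfsg.Geo.IsAdjointClosedFor (Cfsg.sympForm 2 F) K ∧ ¬ Cfsg.Geo.IsSelfAdjointFor (Cfsg.sympForm 2 F) K ∧ H = Cfsg.Geo.subalgebraNormalizer K ⊓ Cfsg.spGL 2 F) ∨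
    (∃ (F₀ : Subfield F) (r : ℕ) (P : Matrix.GeneralLinearGroup (Fin 2 ⊕ Fin 2) F) (ζ : F), r.Prime ∧ Fintype.card F = Nat.card F₀ ^ r ∧ ζ ≠ 0 ∧ Cfsg.Geo.IsFormRationalStructure (Cfsg.sympForm 2 F) F₀ ζ P ∧ H = Cfsg.Geo.subfieldSubgroup F₀ P ⊓ Cfsg.spGL 2 F) ∨
    (∃ (p : ℕ) (R : Subgroup (Matrix.GeneralLinearGroup (Fin 2 ⊕ Fin 2) F)), p.Prime ∧ Fintype.card F = p ∧ Cfsg.Geo.IsSymplecticTypeGroup 2 R ∧ Cfsg.Geo.ActsAbsolutelyIrreducibly (Cfsg.Geo.matrixSet R) ∧ R ≤ Cfsg.Geo.similarityGroup (Cfsg.sympForm 2 F) ∧ Nat.card R = 32 ∧ Nat.card (Subgroup.center R) = 2 ∧ Cfsg.Geo.IsOfMinusType 2 R ∧ H = Cfsg.Geo.subgroupNormalizer R ⊓ Cfsg.spGL 2 F) ∨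
    Cfsg.Geo.InSymplecticResidualClass H := by
  have hB := H4.As.big_Sp (F := F) (m := 2) le_rfl (by rintro ⟨-, h⟩; rw [h] at hodd; exact absurd hodd (by decide))
  have hq : Fintype.card F ≠ 3 → 5 ≤ Fintype.card F := fun h => by
    have := Fintype.one_lt_card (α := F)
    obtain ⟨k, hk⟩ := hodd
    omega
  rcases H4.As.spAll le_rfl (by rintro ⟨-, h⟩; rw [h] at hodd; exact absurd hodd (by decide)) hH.1.le
    (Φ := fun X => H = X ⊓ spGL 2 F) (fun _ => hH.as_eq) with h | ⟨W, ⟨k, h0⟩, h1, -, h2, -⟩ |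
    ⟨t, k, D, h1, h0, h2, h⟩ | ⟨h0, D, h⟩ | ⟨r, K, h1, h2, h⟩ | ⟨h0, K, h⟩ | ⟨h0, k, l, e, P, f₁, f₂, h1, h2, h3, h⟩ |
    h | ⟨h0, h1, R, k, h2, h⟩ | ⟨h0, k, t, e, P, f₁, h1, h2, h3, h4, h⟩ | ⟨h0, h⟩ | h
  · exact .inl h
  · exact absurd (Submodule.finrank_eq_zero.1 (by omega)) h1
  · obtain rfl : t = 2 := le_antisymm (Nat.le_of_dvd (by norm_num) ⟨k, h1.symm⟩) h0
    obtain rfl : k = 1 := by omega
    exact .inr <| .inl ⟨D, h⟩
  · by_cases h3 : Fintype.card F = 3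
    · rcases H4.As.sp43 h3 hH.1.le h.1 h.2.1 (h.2.2.le.trans inf_le_left) with ⟨W, k1, k2, k3, k4⟩ | ⟨D, k1, k2⟩
      · exact .inl ⟨W, k1, k3, hH.as_eq k4 (hB.not_stab k1 k2)⟩
      · exact .inr <| .inl ⟨D, k1, hH.as_eq k2 (hB.not_decomp k1.decomp)⟩
    exact .inr <| .inr <| .inl ⟨hq h3, D, h⟩
  · obtain rfl := (Nat.prime_dvd_prime_iff_eq h1 Nat.prime_two).1 h2
    exact .inr <| .inr <| .inr <| .inl ⟨K, h⟩
  · by_cases h3 : Fintype.card F = 3
    · rw [H4.As.symp_eq, H4.As.rf_spF.adC_iff, H4.As.rf_spF.sa_iff] at h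
      obtain ⟨R, k⟩ := H4.As.sp_c6 (k := 2) le_rfl rfl h3 hH (H4.As.rf_spF.gu23 h3 (by simp)
        (hH.1.le.trans H4.As.Sp_eq.le) (fun g hg => H4.As.det_of_perfect hB.perf (hH.1.le hg)) h.1
        (H4.As.nrm_iff.2 (h.2.2.2.le.trans inf_le_left)) h.2.1 (by simpa using h.2.2.1))
      exact .inr <| .inr <| .inr <| .inr <| .inr <| .inr <| .inl ⟨3, R, by norm_num, h3, k⟩
    exact .inr <| .inr <| .inr <| .inr <| .inl ⟨hq h3, K, h⟩
  · have : l ≤ 2 := Nat.le_of_dvd (by norm_num) (Dvd.intro_left k h1)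
    omega
  · exact .inr <| .inr <| .inr <| .inr <| .inr <| .inl h
  · obtain rfl : 2 = k := Nat.pow_right_injective (a := 2) le_rfl h2
    exact .inr <| .inr <| .inr <| .inr <| .inr <| .inr <| .inl ⟨_, R, h1, rfl, h⟩
  · obtain ⟨h5, rfl, rfl⟩ := H4.As.pow_cases' h3 h1 (by norm_num) (by norm_num)
    omega
  · exact absurd hodd h0
  · exact .inr <| .inr <| .inr <| .inr <| .inr <| .inr <| .inr h

end Cfsg.Agent.S5787
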