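import Cfsg.Statements.S5808
import Cfsg.Agent.H4.As9

set_option autoImplicit false
open Cfsg

namespace Cfsg.Agent.S5808

/-- Every maximal subgroup of SL_7(q) is of one of the listed geometric types or lies in the residual class. Let F be a finite field with q elements (p its characteristic) and H a maximal subgroup of SL_7(F) (inside GL_7(F)). Then H is the intersection with SL_7(F) of one of: the stabiliser of a proper non-zero subspace; for q ≥ 5, the stabiliser of a decomposition into 7 independent 1-spaces; the normaliser of a degree-7 subfield of the matrix algebra; a subfield group for a subfield F₀ with |F| = |F₀|^r, r prime; for q = p prime with p ≡ 1 mod 7, or q = p³ with p ≡ 2 or 4 mod 7, the normaliser of an absolutely irreducible 7-subgroup R of exponent 7 and order 7^(1+2m) with centre of order 7, all of whose characteristic abelian subgroups are cyclic, F being the smallest field of characteristic p containing the seventh roots of unity (here R is extraspecial of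 order 343); for q odd, the similarity group of a non-degenerate quadratic form; the similarity group of a non-degenerate unitary form — or else H lies in the residual class of the linear case (modulo scalars H is almost simple, with absolutely irreducible perfect socle preimage realisable over no proper subfield and fixing no non-degenerate quadratic, symplectic or unitary form). -/
theorem result {F : Type*} [Field F] [Fintype F] (H : Subgroup (Matrix.GeneralLinearGroup (Fin 7) F)) (hH : Cfsg.Geo.IsMaximalIn (Cfsg.Geo.specialLinear (Fin 7) F) H) :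
    (∃ W : Submodule F (Fin 7 → F), W ≠ ⊥ ∧ W ≠ ⊤ ∧ H = Cfsg.Geo.subspaceStabilizer W ⊓ Cfsg.Geo.specialLinear (Fin 7) F) ∨
    (5 ≤ Fintype.card F ∧ ∃ D : Fin 7 → Submodule F (Fin 7 → F), Cfsg.Geo.IsMDecomposition 1 D ∧ H = Cfsg.Geo.decompositionStabilizer D ⊓ Cfsg.Geo.specialLinear (Fin 7) F) ∨
    (∃ K : Subalgebra F (Matrix (Fin 7) (Fin 7) F), Cfsg.Geo.IsFieldSubalgebra 7 K ∧ H = Cfsg.Geo.subalgebraNormalizer K ⊓ Cfsg.Geo.specialLinear (Fin 7) F) ∨
    (∃ (F₀ : Subfield F) (r : ℕ) (P : Matrix.GeneralLinearGroup (Fin 7) F), r.Prime ∧ Fintype.card F = Nat.card F₀ ^ r ∧ H = Cfsg.Geo.subfieldSubgroup F₀ P ⊓ Cfsg.Geo.specialLinear (Fin 7) F) ∨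
    ((∃ p : ℕ, p.Prime ∧ CharP F p ∧ ((Fintype.card F = p ∧ p % 7 = 1) ∨ (Fintype.card F = p ^ 3 ∧ (p % 7 = 2 ∨ p % 7 = 4)))) ∧ ∃ R : Subgroup (Matrix.GeneralLinearGroup (Fin 7) F), Cfsg.Geo.IsLinearSymplecticTypeData 7 R ∧ H = Cfsg.Geo.subgroupNormalizer R ⊓ Cfsg.Geo.specialLinear (Fin 7) F) ∨
    (Odd (Fintype.card F) ∧ ∃ Q : (Fin 7 → F) → F, Cfsg.Geo.IsNondegenerateQuadraticForm Q ∧ H = Cfsg.Geo.quadSimilarityGroup Q ⊓ Cfsg.Geo.specialLinear (Fin 7) F) ∨
    (∃ (σ : F ≃+* F) (f : (Fin 7 → F) → (Fin 7 → F) → F), Cfsg.Geo.IsUnitaryForm σ f ∧ H = Cfsg.Geo.similarityGroup f ⊓ Cfsg.Geo.specialLinear (Fin 7) F) ∨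
    Cfsg.Geo.InLinearResidualClass H := by
  rcases H4.As.slMax (by norm_num) hH with h | ⟨t, m, D, h1, h0, h2, h3, h⟩ | ⟨r, K, h1, h2, h⟩ |
    ⟨k, l, e, P, h1, h2, h3, h4, h⟩ | h | ⟨r, m, R, h1, h2, h3, h⟩ | ⟨m, t, e, P, h1, h2, h3, h⟩ | h | ⟨h1, h⟩ | h | h
  · exact .inl h
  · have : t ≤ 7 := Nat.le_of_dvd (by norm_num) ⟨m, h1.symm⟩
    interval_cases t
    · omega
    · omega
    · omega
    · omega
    · omega
    · obtain rfl : m = 1 := by omega
      exact .inr <| .inl <| ⟨by omega, D, h⟩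
  · have : r ≤ 7 := Nat.le_of_dvd (by norm_num) h2
    have := h1.two_le
    interval_cases r
    · omega
    · omega
    · omega
    · omega
    · omega
    · exact .inr <| .inr <| .inl <| ⟨K, h⟩
  · have : k ≤ 3 := by nlinarith
    interval_cases k
    · omega
    · omega
  · exact .inr <| .inr <| .inr <| .inl <| h
  · obtain rfl := H4.As.eq_of_pow h1 h2 (s := 7) (by norm_num) (by norm_num)
    obtain ⟨p, e, h4, h7, h5, h6⟩ := H4.As.c6_odd h3 (by norm_num)
      (fun a e => (e = 1 ∧ a = 1) ∨ (e = 3 ∧ (a = 2 ∨ a = 4)))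
      (by intro a e he; interval_cases e <;> revert a <;> decide)
    exact .inr <| .inr <| .inr <| .inr <| .inl <| ⟨⟨p, h4, h7, by
      rcases h6 with ⟨rfl, h6⟩ | ⟨rfl, h6⟩
      exacts [.inl ⟨by simpa using h5, h6⟩, .inr ⟨h5, h6⟩]⟩, R, h3, h⟩
  · exact absurd (H4.As.pow_cases h1 h2 h3 (by norm_num)).1 (by norm_num)
  · exact .inr <| .inr <| .inr <| .inr <| .inr <| .inl <| h
  · exact absurd h1 (by decide)
  · exact .inr <| .inr <| .inr <| .inr <| .inr <| .inr <| .inl <| h
  · exact .inr <| .inr <| .inr <| .inr <| .inr <| .inr <| .inr <| h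

end Cfsg.Agent.S5808
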