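import Cfsg.Statements.S5811
import Cfsg.Agent.H4.As16

set_option autoImplicit false
open Cfsg

namespace Cfsg.Agent.S5811

/-- Every maximal subgroup of SU_7(q) is of one of the listed geometric types or lies in the residual class. Let F be the field with q² elements (characteristic p), f the standard unitary form Σ u_i v_i^q on F^7, and H a maximal subgroup of SU_7(q) (inside GL_7(F)). Then H is the intersection with SU_7(q) of one of: the stabiliser of a non-zero totally isotropic subspace; the stabiliser of a non-degenerate 1-, 2- or 3-space; the stabiliser of a decomposition into seven mutually orthogonal non-degenerate 1-spaces; the normaliser of an adjoint-closed degree-7 subfield of the matrix algebra; a subfield group of odd prime index whose F₀-structure carries f; for q odd, a subfield group of index 2 whose F₀-structure carries f; for q = p prime with p ≡ 6 mod 7, or q = p³ with p ≡ 3 or 5 mod 7, the normaliser of an absolutely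 irreducible 7-group R of exponent 7, order 343 and centre of order 7, all of whose characteristic abelian subgroups are cyclic, contained in the similarity group of f — or else H lies in the residual class of the unitary case (modulo scalars H is almost simple, with absolutely irreducible perfect socle preimage realisable over no proper subfield and fixing no non-degenerate quadratic or symplectic form). -/
theorem result {F : Type*} [Field F] [Fintype F] (q : ℕ) (hF : Fintype.card F = q ^ 2) (H : Subgroup (Matrix.GeneralLinearGroup (Fin 7) F)) (hH : Cfsg.Geo.IsMaximalIn (Cfsg.GU 7 F q ⊓ Cfsg.Geo.specialLinear (Fin 7) F) H) :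
    (∃ W : Submodule F (Fin 7 → F), W ≠ ⊥ ∧ Cfsg.Geo.IsTotallySingularFor (Cfsg.hermForm 7 F q) W ∧ H = Cfsg.Geo.subspaceStabilizer W ⊓ (Cfsg.GU 7 F q ⊓ Cfsg.Geo.specialLinear (Fin 7) F)) ∨
    (∃ W : Submodule F (Fin 7 → F), W ≠ ⊥ ∧ Cfsg.Geo.IsNondegenerateOn (Cfsg.hermForm 7 F q) W ∧ 2 * Module.finrank F W < 7 ∧ H = Cfsg.Geo.subspaceStabilizer W ⊓ (Cfsg.GU 7 F q ⊓ Cfsg.Geo.specialLinear (Fin 7) F)) ∨
    (∃ D : Fin 7 → Submodule F (Fin 7 → F), Cfsg.Geo.IsNondegenerateMDecomposition (Cfsg.hermForm 7 F q) 1 D ∧ H = Cfsg.Geo.decompositionStabilizer D ⊓ (Cfsg.GU 7 F q ⊓ Cfsg.Geo.specialLinear (Fin 7) F)) ∨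
    (∃ K : Subalgebra F (Matrix (Fin 7) (Fin 7) F), Cfsg.Geo.IsFieldSubalgebra 7 K ∧ Cfsg.Geo.IsAdjointClosedFor (Cfsg.hermForm 7 F q) K ∧ H = Cfsg.Geo.subalgebraNormalizer K ⊓ (Cfsg.GU 7 F q ⊓ Cfsg.Geo.specialLinear (Fin 7) F)) ∨
    (∃ (F₀ : Subfield F) (r : ℕ) (P : Matrix.GeneralLinearGroup (Fin 7) F), r.Prime ∧ Odd r ∧ Fintype.card F = Nat.card F₀ ^ r ∧ Cfsg.Geo.IsFormRationalStructure (Cfsg.hermForm 7 F q) F₀ 1 P ∧ H = Cfsg.Geo.subfieldSubgroup F₀ P ⊓ (Cfsg.GU 7 F q ⊓ Cfsg.Geo.specialLinear (Fin 7) F)) ∨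
    (Odd q ∧ ∃ (F₀ : Subfield F) (P : Matrix.GeneralLinearGroup (Fin 7) F), Fintype.card F = Nat.card F₀ ^ 2 ∧ Cfsg.Geo.IsFormRationalStructure (Cfsg.hermForm 7 F q) F₀ 1 P ∧ H = Cfsg.Geo.subfieldSubgroup F₀ P ⊓ (Cfsg.GU 7 F q ⊓ Cfsg.Geo.specialLinear (Fin 7) F)) ∨
    (∃ (p : ℕ) (R : Subgroup (Matrix.GeneralLinearGroup (Fin 7) F)), p.Prime ∧ CharP F p ∧ ((q = p ∧ p % 7 = 6) ∨ (q = p ^ 3 ∧ (p % 7 = 3 ∨ p % 7 = 5))) ∧ Cfsg.Geo.IsSymplecticTypeGroup 7 R ∧ Cfsg.Geo.ActsAbsolutelyIrreducibly (Cfsg.Geo.matrixSet R) ∧ R ≤ Cfsg.Geo.similarityGroup (Cfsg.hermForm 7 F q) ∧ Nat.card R = 343 ∧ Nat.card (Subgroup.center R) = 7 ∧ H = Cfsg.Geo.subgroupNormalizer R ⊓ (Cfsg.GU 7 F q ⊓ Cfsg.Geo.specialLinear (Fin 7) F)) ∨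
    Cfsg.Geo.InUnitaryResidualClass H := by
  have hq2 := H4.two_le_of_card_sq hF
  rcases H4.As.suAll hF (by norm_num) (by omega) (hH.1.le.trans inf_le_left)
    (Φ := fun X => H = X ⊓ (GU 7 F q ⊓ Geo.specialLinear (Fin 7) F)) (fun _ => hH.as_eq) with h | h |
    ⟨t, m, D, h1, h0, h2, h⟩ | ⟨m, D, h1, h⟩ | ⟨r, K, h1, h0, h2, h⟩ | ⟨k, l, e, P, f₁, f₂, h1, h2, h3, h4, h⟩ |
    h | h | ⟨h1, h⟩ | ⟨r, R, p, e, k, h1, h0, h2, h3, h4, h5, h6, h7, h⟩ | ⟨m, t, e, P, f₁, h3, h1, h2, h4, h⟩ | h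
  · exact .inl h
  · exact .inr (.inl h)
  · have : t ≤ 7 := Nat.le_of_dvd (by norm_num) ⟨m, h1.symm⟩
    interval_cases t
    · omega
    · omega
    · omega
    · omega
    · omega
    · obtain rfl : m = 1 := by omega
      exact .inr <| .inr <| .inl <| ⟨D, h⟩
  · omega
  · have : r ≤ 7 := Nat.le_of_dvd (by norm_num) h2
    have := h1.two_le
    interval_cases r
    · omega
    · omega
    · omega
    · omega
    · omega
    · exact .inr <| .inr <| .inr <| .inl <| ⟨K, h⟩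
  · have : k ≤ 3 := by nlinarith
    interval_cases k
    · omega
    · omega
  · exact .inr <| .inr <| .inr <| .inr <| .inl <| h
  · exact .inr <| .inr <| .inr <| .inr <| .inr <| .inl <| h
  · exact absurd h1 (by decide)
  · obtain rfl := H4.As.eq_of_pow h2.prime h1 (s := 7) (by norm_num) (by norm_num)
    obtain rfl : k = 1 := Nat.pow_right_injective (a := 7) (by norm_num) h1.symm
    obtain ⟨h11, h7, -, h8⟩ := h7.resolve_right fun h => absurd h.1 (by decide)
    obtain ⟨h9, h12, k, h10, h13⟩ := H4.As.c6u hF (h7 ▸ h6) (by norm_num)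
      (fun a e => (e = 1 ∧ a = 6) ∨ (e = 3 ∧ (a = 3 ∨ a = 5)))
      (by intro a e he; interval_cases e <;> revert a <;> decide)
    exact .inr <| .inr <| .inr <| .inr <| .inr <| .inr <| .inl <| ⟨p, R, h9, h12, by
      rcases h13 with ⟨rfl, h6⟩ | ⟨rfl, h6⟩
      exacts [.inl ⟨by simpa using h10, h6⟩, .inr ⟨h10, h6⟩], h2, h3, h4, h8, h7, h⟩
  · exact absurd (H4.As.pow_cases h1 h2 h3 (by norm_num)).1 (by norm_num)
  · exact .inr <| .inr <| .inr <| .inr <| .inr <| .inr <| .inr <| h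

end Cfsg.Agent.S5811
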