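import Cfsg.Statements.S5814
import Cfsg.Agent.H4.As18

set_option autoImplicit false
open Cfsg

namespace Cfsg.Agent.S5814

/-- Every maximal subgroup of Ω_7(q), q odd, is of one of the listed geometric types or lies in the residual class. Let F be a finite field of odd order q, Q the standard quadratic form x₀² + Σ x_i y_i on F^7 (coordinates Unit ⊕ (Fin 3 ⊕ Fin 3)), Ω the commutator subgroup of its isometry group, and H a maximal subgroup of Ω (inside GL_7(F)). Then H is the intersection with Ω of one of: the stabiliser of a non-zero totally singular subspace; the stabiliser of a non-zero non-degenerate subspace of even dimension (not a plus-type plane when q = 3); for q prime, the stabiliser of a decomposition into seven pairwise orthogonal, pairwise isometric non-degenerate 1-spaces; a subfield group (|F| = |F₀|^r, r prime) whose F₀-structure carries Q — or else H lies in the residual class of the orthogonal case (modulo scalars H is almost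 simple, with absolutely irreducible perfect socle preimage realisable over no proper subfield and fixing no non-degenerate unitary form). -/
theorem result {F : Type*} [Field F] [Fintype F] (hodd : Odd (Fintype.card F)) (H : Subgroup (Matrix.GeneralLinearGroup (Unit ⊕ (Fin 3 ⊕ Fin 3)) F)) (hH : Cfsg.Geo.IsMaximalIn (Cfsg.Geo.omegaGL (Cfsg.quadFormOdd 3 F)) H) :
    (∃ W : Submodule F (Unit ⊕ (Fin 3 ⊕ Fin 3) → F), W ≠ ⊥ ∧ Cfsg.Geo.IsTotallySingularQuad (Cfsg.quadFormOdd 3 F) W ∧ H = Cfsg.Geo.subspaceStabilizer W ⊓ Cfsg.Geo.omegaGL (Cfsg.quadFormOdd 3 F)) ∨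
    (∃ W : Submodule F (Unit ⊕ (Fin 3 ⊕ Fin 3) → F), W ≠ ⊥ ∧ Even (Module.finrank F W) ∧ Cfsg.Geo.IsNondegenerateOn (QuadraticMap.polar (Cfsg.quadFormOdd 3 F)) W ∧ ¬ (Fintype.card F = 3 ∧ Module.finrank F W = 2 ∧ Cfsg.Geo.IsPlusTypeOn (Cfsg.quadFormOdd 3 F) W) ∧ H = Cfsg.Geo.subspaceStabilizer W ⊓ Cfsg.Geo.omegaGL (Cfsg.quadFormOdd 3 F)) ∨
    ((Fintype.card F).Prime ∧ ∃ D : Fin 7 → Submodule F (Unit ⊕ (Fin 3 ⊕ Fin 3) → F), Cfsg.Geo.IsOrthogonalMDecomposition (Cfsg.quadFormOdd 3 F) 1 D ∧ H = Cfsg.Geo.decompositionStabilizer D ⊓ Cfsg.Geo.omegaGL (Cfsg.quadFormOdd 3 F)) ∨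
    (∃ (F₀ : Subfield F) (r : ℕ) (P : Matrix.GeneralLinearGroup (Unit ⊕ (Fin 3 ⊕ Fin 3)) F), r.Prime ∧ Fintype.card F = Nat.card F₀ ^ r ∧ Cfsg.Geo.IsQuadFormRationalStructure (Cfsg.quadFormOdd 3 F) F₀ P ∧ H = Cfsg.Geo.subfieldSubgroup F₀ P ⊓ Cfsg.Geo.omegaGL (Cfsg.quadFormOdd 3 F)) ∨
    Cfsg.Geo.InOrthogonalResidualClass H := by
  have hn : Fintype.card (Unit ⊕ (Fin 3 ⊕ Fin 3)) = 7 := by simp
  rcases H4.As.omAll (f := H4.oddF F 3) (H4.oddF_nondeg (H4.two_ne_zero_of_odd hodd) _) hodd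
    (by rw [hn]; decide) (by omega) (H4.As.det_oddF _) (hH.1.le.trans H4.As.omega_le)
    (Φ := fun X => H = X ⊓ Geo.omegaGL (quadFormOdd 3 F)) (fun _ => hH.as_eq) with h | h |
    ⟨t, k, D, h1, h0, h2, h3, h⟩ | ⟨r, K, h1, h2, h3, h⟩ | ⟨k, l, e, P, f₁, f₂, h1, h2, h3, h⟩ | h |
    ⟨k, t, e, P, f₁, h1, h2, h3, h4, h⟩ | h
  · exact .inl h
  · exact .inr (.inl h)
  · rw [hn] at h1
    have : t ≤ 7 := Nat.le_of_dvd (by norm_num) ⟨k, h1.symm⟩
    interval_cases t
    · omega
    · omega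
    · omega
    · omega
    · omega
    · obtain rfl : k = 1 := by omega
      exact .inr <| .inr <| .inl <| ⟨h2 rfl, D, h⟩
  · rw [hn] at h2 h3
    have : r ≤ 7 := Nat.le_of_dvd (by norm_num) h2
    have := h1.two_le
    interval_cases r
    · omega
    · omega
    · omega
    · omega
    · omega
    · omega
  · rw [hn] at h1
    have := Nat.mul_le_mul h2 (show 4 ≤ l by omega)
    omega
  · exact .inr <| .inr <| .inr <| .inl <| h
  · obtain ⟨h5, rfl, rfl⟩ := H4.As.pow_cases h2 h3 (hn.symm.trans h1) (by norm_num)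
    omega
  · exact .inr <| .inr <| .inr <| .inr <| h

end Cfsg.Agent.S5814
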