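import Cfsg.Statements.S5826
import Cfsg.Agent.H4.As22

set_option autoImplicit false
open Cfsg

namespace Cfsg.Agent.S5826

/-- Every maximal subgroup of Ω_8^-(q) is of one of the listed geometric types or lies in the residual class. Let F be a finite field with q elements, Q a non-degenerate quadratic form on F^8 of minus type (no totally singular 4-space), Ω the commutator subgroup of its isometry group, and H a maximal subgroup of Ω (inside GL_8(F)). Then H is the intersection with Ω of one of: the stabiliser of a non-zero totally singular subspace; for q odd, the stabiliser of a non-degenerate subspace of odd dimension; the stabiliser of a non-degenerate 2-space of minus type; for q ≥ 4, the stabiliser of a non-degenerate 2-space of plus type; the stabiliser of a non-degenerate 4-space; for q even, the stabiliser of the span of a non-singular vector; the normaliser of a degree-2 subfield of the matrix algebra; a subfield group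 of odd prime index whose F₀-structure carries a non-zero multiple of Q — or else H lies in the residual class of the orthogonal case (modulo scalars H is almost simple, with absolutely irreducible perfect socle preimage realisable over no proper subfield and fixing no non-degenerate unitary form). -/
theorem result {F : Type*} [Field F] [Fintype F] (Q : (Fin 8 → F) → F) (hQ : Cfsg.Geo.IsNondegenerateQuadraticForm Q) (hminus : ¬ Cfsg.Geo.IsPlusTypeOn Q ⊤) (H : Subgroup (Matrix.GeneralLinearGroup (Fin 8) F)) (hH : Cfsg.Geo.IsMaximalIn (Cfsg.Geo.omegaGL Q) H) :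
    (∃ W : Submodule F (Fin 8 → F), W ≠ ⊥ ∧ Cfsg.Geo.IsTotallySingularQuad Q W ∧ H = Cfsg.Geo.subspaceStabilizer W ⊓ Cfsg.Geo.omegaGL Q) ∨
    (Odd (Fintype.card F) ∧ ∃ W : Submodule F (Fin 8 → F), W ≠ ⊥ ∧ W ≠ ⊤ ∧ Odd (Module.finrank F W) ∧ Cfsg.Geo.IsNondegenerateOn (QuadraticMap.polar Q) W ∧ H = Cfsg.Geo.subspaceStabilizer W ⊓ Cfsg.Geo.omegaGL Q) ∨
    (∃ W : Submodule F (Fin 8 → F), Module.finrank F W = 2 ∧ Cfsg.Geo.IsNondegenerateOn (QuadraticMap.polar Q) W ∧ ¬ Cfsg.Geo.IsPlusTypeOn Q W ∧ H = Cfsg.Geo.subspaceStabilizer W ⊓ Cfsg.Geo.omegaGL Q) ∨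
    (4 ≤ Fintype.card F ∧ ∃ W : Submodule F (Fin 8 → F), Module.finrank F W = 2 ∧ Cfsg.Geo.IsNondegenerateOn (QuadraticMap.polar Q) W ∧ Cfsg.Geo.IsPlusTypeOn Q W ∧ H = Cfsg.Geo.subspaceStabilizer W ⊓ Cfsg.Geo.omegaGL Q) ∨
    (∃ W : Submodule F (Fin 8 → F), Module.finrank F W = 4 ∧ Cfsg.Geo.IsNondegenerateOn (QuadraticMap.polar Q) W ∧ H = Cfsg.Geo.subspaceStabilizer W ⊓ Cfsg.Geo.omegaGL Q) ∨
    (¬ Odd (Fintype.card F) ∧ ∃ v : (Fin 8 → F), Q v ≠ 0 ∧ H = Cfsg.Geo.subspaceStabilizer (Submodule.span F {v}) ⊓ Cfsg.Geo.omegaGL Q) ∨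
    (∃ K : Subalgebra F (Matrix (Fin 8) (Fin 8) F), Cfsg.Geo.IsFieldSubalgebra 2 K ∧ H = Cfsg.Geo.subalgebraNormalizer K ⊓ Cfsg.Geo.omegaGL Q) ∨
    (∃ (F₀ : Subfield F) (r : ℕ) (P : Matrix.GeneralLinearGroup (Fin 8) F) (ζ : F), r.Prime ∧ Odd r ∧ Fintype.card F = Nat.card F₀ ^ r ∧ ζ ≠ 0 ∧ Cfsg.Geo.IsQuadFormRationalStructure (fun v : Fin 8 → F => ζ * Q v) F₀ P ∧ H = Cfsg.Geo.subfieldSubgroup F₀ P ⊓ Cfsg.Geo.omegaGL Q) ∨
    Cfsg.Geo.InOrthogonalResidualClass H := by
  have hf := H4.geoQuad_nondeg hQ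
  have hm : Fintype.card (Fin 8) = 2 * 4 := by simp
  have hB := H4.As.big_Om hf (by simp)
  have hΦ : ∀ X, H ≤ X → ¬ Geo.omegaGL Q ≤ X → H = X ⊓ Geo.omegaGL Q := fun _ => hH.as_eq
  rcases H4.As.irr_or H with ⟨W, h0, h1, hW⟩ | hI
  · rcases H4.As.omRed hf hm le_rfl hH.1.le hΦ h0 h1 hW with ⟨W, a, b, -, c⟩ | ⟨W, a, b, c, d, e, g, h⟩ | h |
      ⟨D, a, b, -⟩
    · exact .inl ⟨W, a, b, c⟩
    · rcases Nat.even_or_odd (Module.finrank F W) with h2 | h2
      swap
      · exact .inr <| .inl ⟨e h2, W, a, b, h2, d, h⟩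
      have : Module.finrank F W ≠ 0 := mt Submodule.finrank_eq_zero.1 a
      have h3 : Module.finrank F W = 2 := by obtain ⟨s, hs⟩ := h2; omega
      by_cases h4 : Geo.IsPlusTypeOn Q W
      · exact .inr <| .inr <| .inr <| .inl ⟨g h3 h4, W, h3, d, h4, h⟩
      · exact .inr <| .inr <| .inl ⟨W, h3, d, h4, h⟩
    · exact .inr <| .inr <| .inr <| .inr <| .inr <| .inl h
    · exact .inr <| .inr <| .inr <| .inr <| .inl ⟨_, a.decomp.finrank_eq 0,
        H4.As.polar_eq (f := H4.geoQuad hQ) ▸ a.nondegenerate 0, b⟩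
  refine .inr <| .inr <| .inr <| .inr <| .inr <| .inr ?_
  rcases H4.As.eCl hf hm le_rfl hH.1.le hI (by omega) (fun _ => hminus) with ⟨t, k, D, h1, h2, -, -, h3, h4, -⟩ | h |
    ⟨r, K, h1, h2, h3, -⟩ | h | ⟨-, -, e, -⟩ | h | h
  · refine absurd ?_ hminus
    rcases Nat.even_or_odd k with h5 | h5
    · refine (h4 h5 ⟨0, by omega⟩).2 (.inr ?_)
      have : t ≤ 8 := Nat.le_of_dvd (by norm_num) ⟨k, h1.symm⟩
      interval_cases t <;> first | decide | omega
    · refine (h3 h5).2.2 ?_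
      obtain h | h : Fintype.card F % 4 = 1 ∨ Fintype.card F % 4 = 3 := by obtain ⟨s, hs⟩ := (h3 h5).1; omega
      all_goals simp [Nat.pow_mod, h]
  · exact absurd h.1 hminus
  · have h4 : r ∣ 2 ^ 3 := by simpa [h2.finrank_eq] using H4.As.finrank_dvd h2.comm h2.inv
    obtain rfl := (Nat.prime_dvd_prime_iff_eq h1 Nat.prime_two).1 (h1.dvd_of_dvd_pow h4)
    exact .inl ⟨K, h2, hΦ _ h3.le (hB.not_field one_lt_two h2)⟩
  · exact absurd h.1 hminus
  · simpa using Fintype.card_congr e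
  · obtain ⟨F₀, r, P, ζ, a, b, c⟩ := H4.As.SF.fin hf hm le_rfl hH.1.le hI hΦ h
    exact .inr <| .inl ⟨F₀, r, P, ζ, a, b hminus, c⟩
  · exact .inr <| .inr h

end Cfsg.Agent.S5826
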