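import Cfsg.Statements.S5876
import Cfsg.Agent.C3.FP4n

set_option autoImplicit false
open Cfsg

namespace Cfsg.Agent.S5876

/-- Fixed-point spaces in primitive soluble linear groups. Let F be a finite field and G a soluble subgroup of GL_n(F) that acts irreducibly on F^n and primitively (G preserves no decomposition of F^n into two or more independent subspaces of equal dimension). Then every non-identity element g of G has fixed-point space {v : g v = v} of dimension at most 3n/4. -/
theorem result {F : Type*} [Field F] [Fintype F] {n : ℕ} (G : Subgroup (Matrix.GeneralLinearGroup (Fin n) F)) (hsol : IsSolvable G) (hirr : Cfsg.Geo.ActsIrreducibly (Cfsg.Geo.matrixSet G)) (hprim : ∀ (m t : ℕ) (D : Fin t → Submodule F (Fin n → F)), 2 ≤ t → Cfsg.Geo.IsMDecomposition m D → ¬ G ≤ Cfsg.Geo.decompositionStabilizer D) (g : Matrix.GeneralLinearGroup (Fin n) F) (hg : g ∈ G) (hg1 : g ≠ 1) :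
    4 * Module.finrank F (Module.End.eigenspace (Matrix.toLin' (g : Matrix (Fin n) (Fin n) F)) 1) ≤ 3 * n := by
  let ρ : G →* ((Fin n → F) →ₗ[F] (Fin n → F)) :=
    { toFun := fun x => Matrix.toLin' (x.1 : Matrix (Fin n) (Fin n) F)
      map_one' := by simp; rfl
      map_mul' := fun x y => by simp [Matrix.toLin'_mul]; rfl }
  have hρ : Function.Injective ρ := fun x y h =>
    Subtype.ext (Units.ext (Matrix.toLin'.injective h))
  have hs : Group.IsSolvable G := hsol
  have := C3.PS.main ρ hρ (fun U hU => hirr U (by rintro _ ⟨x, hx, rfl⟩; exact hU ⟨x, hx⟩))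
    (fun m t D h2 h0 h3 h4 h5 h6 => hprim m t D h2 ⟨h2, h0, h3, h4, h5⟩ fun x hx => h6 ⟨x, hx⟩)
    (g := ⟨g, hg⟩) (fun h => hg1 (congrArg Subtype.val h))
  rw [Module.finrank_fin_fun] at this
  have e : Module.End.eigenspace (Matrix.toLin' (g : Matrix (Fin n) (Fin n) F)) 1 =
      C3.PS.W ρ (Subgroup.zpowers (⟨g, hg⟩ : G)) := by
    ext v
    rw [Module.End.mem_eigenspace_iff, one_smul, C3.PS.mem_W', Subgroup.zpowers_le]
    rfl
  rwa [e]

end Cfsg.Agent.S5876
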