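import Cfsg.Statements.S5941
import Cfsg.Agent.H4.Dick7

set_option autoImplicit false
open Cfsg

namespace Cfsg.Agent.S5941

/-- Let K and F be finite fields of odd characteristic with #F = (#K)². Then PSL_2(F) has a maximal subgroup isomorphic to PGL_2(K). -/
theorem result {F K : Type*} [Field F] [Fintype F] [Field K] [Fintype K] (q : ℕ) (hK : Fintype.card K = q) (hF : Fintype.card F = q ^ 2) (hq : Odd q) : ∃ H : Subgroup (Matrix.ProjectiveSpecialLinearGroup (Fin 2) F), IsCoatom H ∧ Nonempty (H ≃* Matrix.ProjGenLinGroup (Fin 2) K) := by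
  open Cfsg.Agent.H4 in
  subst hK
  obtain ⟨f⟩ := exists_ringHom_of_card hF
  have h0 := Fintype.one_lt_card (α := K)
  have h1 := subf_covBy le_rfl f Nat.prime_two hF (by have := Nat.odd_iff.1 hq; omega) (Or.inl rfl)
  rw [inf_eq_right.2 ((PK_le_LL_iff_even f hF hq).2 even_two)] at h1
  exact exists_psl_max h1 (pkEquiv f).symm

end Cfsg.Agent.S5941
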