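import Cfsg.Statements.S5943
import Cfsg.Agent.H4.Dick7

set_option autoImplicit false
open Cfsg

namespace Cfsg.Agent.S5943

/-- Let K and F be finite fields of characteristic 2 with #K = q > 2 and #F = q^r for a prime r. Then PSL_2(F) has a maximal subgroup isomorphic to PSL_2(K) (which equals PGL_2(K) in characteristic 2). -/
theorem result {F K : Type*} [Field F] [Fintype F] [Field K] [Fintype K] (q r : ℕ) (hK : Fintype.card K = q) (hF : Fintype.card F = q ^ r) (hq : Even q) (hq2 : q ≠ 2) (hr : r.Prime) : ∃ H : Subgroup (Matrix.ProjectiveSpecialLinearGroup (Fin 2) F), IsCoatom H ∧ Nonempty (H ≃* Matrix.ProjectiveSpecialLinearGroup (Fin 2) K) := by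
  open Cfsg.Agent.H4 in
  subst hK
  obtain ⟨f⟩ := exists_ringHom_of_card hF
  have h0 := Fintype.one_lt_card (α := K)
  have h1 := subf_covBy le_rfl f hr hF (by omega) (Or.inl rfl)
  have h2 : PK f = LK f := by rw [LK, LL_eq_top_of_even hq, PK, MonoidHom.range_eq_map]
  rw [h2, inf_eq_right.2 (LK_le_LL f)] at h1
  exact exists_psl_max h1 (lkEquiv f).symm

end Cfsg.Agent.S5943
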