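import Cfsg.Statements.S5952
import Cfsg.Agent.H4.FormCons

set_option autoImplicit false
open Cfsg

namespace Cfsg.Agent.S5952

/-- Which dimensions of invariant subspaces a semisimple linear map has. Let `V` be a finite-dimensional vector space over a field `F` and `f` an invertible semisimple linear map of `V`. Suppose `V` is the internal direct sum of the fixed space `C_V(f)` (the eigenspace for 1) and subspaces `U_1, …, U_s`, each `f`-invariant of dimension `a ≥ 1` on which `f` acts irreducibly (no `f`-invariant subspaces other than 0 and `U_j`). Let `0 < m < dim V` and `ℓ = m mod a`. Then `f` leaves some `m`-dimensional subspace invariant if and only if `dim C_V(f) ≥ m`, or `a ≤ m` and `dim C_V(f) ≥ ℓ`. -/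
theorem result {F V : Type*} [Field F] [AddCommGroup V] [Module F V]
    [FiniteDimensional F V] (f : V →ₗ[F] V) (hf : Function.Bijective f) (hss : Module.End.IsSemisimple f)
    {s a : ℕ} (ha : 1 ≤ a) (U : Fin s → Submodule F V)
    (hUinv : ∀ j, (U j).map f ≤ U j) (hUdim : ∀ j, Module.finrank F ↥(U j) = a)
    (hUirr : ∀ j, ∀ W : Submodule F V, W ≤ U j → W.map f ≤ W → W = ⊥ ∨ W = U j)
    (hdec : DirectSum.IsInternal (fun o : Option (Fin s) => o.elim (Module.End.eigenspace f 1) U))
    (m : ℕ) (hm : 0 < m) (hmV : m < Module.finrank F V) :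
    (∃ W : Submodule F V, Module.finrank F ↥W = m ∧ W.map f ≤ W) ↔
    (m ≤ Module.finrank F ↥(Module.End.eigenspace f 1) ∨
      (a ≤ m ∧ m % a ≤ Module.finrank F ↥(Module.End.eigenspace f 1))) := by
  open Module Submodule in
  classical
  set C := End.eigenspace f 1
  have hC : ∀ X ≤ C, X.map f ≤ X := fun X h => by
    rintro _ ⟨x, hx, rfl⟩; simpa [End.mem_eigenspace_iff.1 (h hx)] using hx
  have hS : ∀ S : Finset (Fin s), (S.sup U).map f ≤ S.sup U := fun S =>
    map_le_iff_le_comap.2 (Finset.sup_le fun j hj => map_le_iff_le_comap.1 ((hUinv j).trans (Finset.le_sup hj)))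
  have sup : ∀ {X Y : Submodule F V}, X.map f ≤ X → Y.map f ≤ Y → (X ⊔ Y).map f ≤ X ⊔ Y := fun a b => by
    rw [Submodule.map_sup]; exact sup_le_sup a b
  have hd : ∀ X ≤ C, ∀ S : Finset (Fin s), finrank F (X ⊔ S.sup U :) = finrank F X + S.card * a := fun X hX S => by
    induction S using Finset.induction_on with
    | empty => rw [Finset.sup_empty, sup_bot_eq]; simp
    | insert j S hj ih =>
      have := finrank_sup_add_finrank_inf_eq (U j) (X ⊔ S.sup U)
      rw [show U j ⊓ (X ⊔ S.sup U) = ⊥ from ((hdec.submodule_iSupIndep (some j)).mono_right (sup_le (hX.trans (le_iSup₂_of_le none (by simp) le_rfl))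
        (Finset.sup_le fun i hi => le_iSup₂_of_le (some i) (by rintro ⟨rfl⟩; exact hj hi) le_rfl))).eq_bot,
        finrank_bot, hUdim] at this
      rw [Finset.sup_insert, sup_left_comm, Finset.card_insert_of_notMem hj]; linarith
  have top : C ⊔ Finset.univ.sup U = ⊤ := top_unique (hdec.submodule_iSup_eq_top.ge.trans (iSup_le fun o => by
    cases o
    · exact le_sup_left
    · exact le_sup_of_le_right (Finset.le_sup (f := U) (Finset.mem_univ _))))
  refine ⟨fun ⟨W, h1, h2⟩ => ?_, fun h => ?_⟩
  · have : ∀ S : Finset (Fin s), ∃ k, finrank F (W ⊓ (C ⊔ S.sup U) :) = finrank F (W ⊓ C :) + k * a := fun S => by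
      induction S using Finset.induction_on with
      | empty => exact ⟨0, by rw [Finset.sup_empty, sup_bot_eq]; simp⟩
      | insert j S hj ih =>
        obtain ⟨k, hk⟩ := ih
        have e1 := finrank_sup_add_finrank_inf_eq W (C ⊔ S.sup U)
        have e2 := finrank_sup_add_finrank_inf_eq W (C ⊔ (insert j S).sup U)
        have e3 := finrank_sup_add_finrank_inf_eq (U j) (W ⊔ (C ⊔ S.sup U))
        have e4 : W ⊔ (C ⊔ (insert j S).sup U) = U j ⊔ (W ⊔ (C ⊔ S.sup U)) := by rw [Finset.sup_insert]; ac_rfl
        rw [e4, hd _ le_rfl, Finset.card_insert_of_notMem hj] at e2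
        rw [hd _ le_rfl] at e1
        rcases hUirr j (U j ⊓ (W ⊔ (C ⊔ S.sup U))) inf_le_left ((map_inf_le _).trans
          (inf_le_inf (hUinv j) (sup h2 (sup (hC _ le_rfl) (hS S))))) with e | e <;> rw [e] at e3
        · exact ⟨k, by rw [finrank_bot, hUdim] at e3; linarith⟩
        · exact ⟨k + 1, by linarith⟩
    obtain ⟨k, hk⟩ := this Finset.univ
    rw [top, inf_top_eq, h1] at hk
    have := finrank_mono (inf_le_right (a := W) (b := C))
    rcases k with _ | k
    · left; omega
    · exact .inr ⟨by nlinarith, by rw [hk, Nat.add_mul_mod_self_right]; exact (Nat.mod_le _ _).trans this⟩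
  have e := hd _ le_rfl Finset.univ
  rw [top, finrank_top, Finset.card_fin] at e
  obtain ⟨k, c, h1, h2, rfl⟩ : ∃ k c, k ≤ s ∧ c ≤ finrank F C ∧ m = c + k * a := by
    rcases h with h | h
    · exact ⟨0, m, by simp, h, by simp⟩
    by_cases e' : m / a ≤ s
    · exact ⟨m / a, m % a, e', h.2, (Nat.mod_add_div' _ _).symm⟩
    · have := Nat.mul_le_mul_right a (not_le.1 e').le
      have := Nat.div_mul_le_self m a
      exact ⟨s, m - s * a, le_rfl, by omega, by omega⟩
  obtain ⟨X, hX, rfl⟩ := H4.exists_le_finrank_eq C h2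
  obtain ⟨S, -, rfl⟩ := Finset.exists_subset_card_eq (s := (Finset.univ : Finset (Fin s))) (n := k) (by simpa)
  exact ⟨_, hd X hX S, sup (hC X hX) (hS S)⟩

end Cfsg.Agent.S5952
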