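import Cfsg.Statements.S5960
import Cfsg.Agent.H4.Blk1

set_option autoImplicit false
open scoped MatrixGroups
open Cfsg

namespace Cfsg.Agent.S5960

/-- Involutions of PSp_n(q) and imprimitive subgroups. Here `T = PSp_n(q)`, `n = 2d ≥ 4`, `(n, q) ≠ (4, 2)`, realised through the symplectic matrices over the field `F` with `q` elements and the standard alternating form; `n = a·t` with `a` even and `t ≥ 2`, and Ω is the (nonempty) set of orthogonal decompositions of `F^n` into `t` nondegenerate subspaces of dimension `a` (unordered; counted as ordered ones divided by `t!`), whose stabilizers are the imprimitive subgroups of type Sp_a(q) ≀ S_t (maximality is not assumed); an element of `T` of prime order `r` (a symplectic matrix `x` with `x^r` scalar, `x` not scalar) fixes a point of Ω when it permutes the summands of some such decomposition. If the number of such decompositions is even, then every involution of `T` stabilizes one of them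 (the action is 2-elusive). -/
theorem result {F : Type*} [Field F] [Fintype F] {p : ℕ} [Fact p.Prime] [CharP F p] {q : ℕ} (hq : Fintype.card F = q)
    (d : ℕ) (hd : 2 ≤ d) (hT : (d, q) ≠ (2, 2))
    (a t : ℕ) (hat : 2 * d = a * t) (ha : 2 ≤ a) (hae : Even a) (ht : 2 ≤ t) (hΩ : 2 ∣ Nat.card {D : Fin t → Submodule F (Fin d ⊕ Fin d → F) // (Cfsg.Geo.IsMDecomposition a D ∧ (∀ j, ∀ u ∈ D j, u ≠ 0 → ∃ v ∈ D j, Cfsg.sympForm d F u v ≠ 0) ∧
          (∀ j j', j ≠ j' → ∀ u ∈ D j, ∀ v ∈ D j', Cfsg.sympForm d F u v = 0))} / Nat.factorial t)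
    (x : ↥(Matrix.symplecticGroup (Fin d) F))
    (hx1 : ∃ z : F, ((x ^ 2 : ↥(Matrix.symplecticGroup (Fin d) F)) : Matrix (Fin d ⊕ Fin d) (Fin d ⊕ Fin d) F) = z • (1 : Matrix (Fin d ⊕ Fin d) (Fin d ⊕ Fin d) F))
    (hx2 : ∀ z : F, (x : Matrix (Fin d ⊕ Fin d) (Fin d ⊕ Fin d) F) ≠ z • (1 : Matrix (Fin d ⊕ Fin d) (Fin d ⊕ Fin d) F)) :
    ∃ D : Fin t → Submodule F (Fin d ⊕ Fin d → F), (Cfsg.Geo.IsMDecomposition a D ∧ (∀ j, ∀ u ∈ D j, u ≠ 0 → ∃ v ∈ D j, Cfsg.sympForm d F u v ≠ 0) ∧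
          (∀ j j', j ≠ j' → ∀ u ∈ D j, ∀ v ∈ D j', Cfsg.sympForm d F u v = 0)) ∧
        ∃ σ : Equiv.Perm (Fin t), ∀ j, (D j).map (Matrix.toLin' (x : Matrix (Fin d ⊕ Fin d) (Fin d ⊕ Fin d) F)) = D (σ j) := by
  obtain ⟨z, hz⟩ := hx1
  obtain ⟨a, rfl⟩ := hae.two_dvd
  have hf := H4.spF_nondeg (F := F) d
  have h1 : ∀ v, (H4.spEquiv F d x).1 ((H4.spEquiv F d x).1 v) = z • v := fun v => by
    rw [H4.spEquiv_apply, H4.spEquiv_apply, Matrix.mulVec_mulVec, ← sq, ← SubmonoidClass.coe_pow, hz]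
    simp [Matrix.smul_mulVec]
  obtain ⟨S, h2, h3, h4, h8, h5⟩ := hf.exists_planes (H4.spEquiv F d x).2 h1
  obtain ⟨β, h6, σ, h7⟩ := H4.decomp_of_pieces h1 two_pos (a := a) (by omega) ht h2 h3 h4 h5 (by simp [← hat]; omega)
  have h9 : ∀ j j' : Fin t, j ≠ j' → (S.filter (β · = j)).sup id ≤ (H4.spF F d).perp ((S.filter (β · = j')).sup id) :=
    fun j j' h => Finset.sup_le fun P hP => (H4.spF F d).le_perp_comm.1 (Finset.sup_le fun Q hQ => by
      rw [Finset.mem_filter] at hP hQ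
      exact h8 Q hQ.1 P hP.1 fun e => h (Fin.ext (by rw [← hP.2, ← hQ.2, e])))
  refine ⟨_, ⟨h6, fun j u hu h0 => by_contra fun h => h0 (hf u fun y => ?_), fun j j' h u hu => h9 j j' h hu⟩, σ, h7⟩
  push Not at h
  refine (H4.spF F d).mem_perp'.1 ((show ⊤ ≤ (H4.spF F d).perp (Submodule.span F {u}) from h6.iSup_eq_top ▸ iSup_le fun k =>
    (H4.spF F d).le_perp_comm.1 ((Submodule.span_singleton_le_iff_mem _ _).2 ?_)) (Submodule.mem_top (x := y))) u
    (Submodule.mem_span_singleton_self u)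
  by_cases e : j = k
  exacts [e ▸ h, h9 j k e hu]

end Cfsg.Agent.S5960
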