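import Cfsg.Statements.S5967
import Cfsg.Agent.H4.Blk2

set_option autoImplicit false
open scoped MatrixGroups
open Cfsg

namespace Cfsg.Agent.S5967

/-- Involutions of PSL_n(q) and the symplectic-type subgroups. Here `T = PSL_n(F)` for a field `F` with `q` elements, `n ≥ 4` even, `f` is a nondegenerate alternating form on `F^n`, and `H` is the subgroup of matrices of determinant 1 preserving `f` up to a scalar — a maximal subgroup of type Sp_n(q); Ω is the set of `T`-conjugates of `H` (cosets of `H`), so an element of `T` of prime order `r` (a matrix `x` of determinant 1 with `x^r` scalar, `x` not scalar) fixes a point of Ω when some conjugate of `x` by a matrix of determinant 1 preserves `f` up to a scalar. Suppose the index of `H` is even. Then every involution of `T` is conjugate in `T` into `H` if and only if `(q − 1)_2 ≤ (n)_2`. -/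
theorem result {F : Type*} [Field F] [Fintype F] {p : ℕ} [Fact p.Prime] [CharP F p] {q : ℕ} (hq : Fintype.card F = q)
    (n : ℕ) (hn : 4 ≤ n) (he : Even n) (f : (Fin n → F) → (Fin n → F) → F) (hf : Cfsg.Geo.IsSymplecticForm f)
    (hΩ : 2 ∣ ((Cfsg.Geo.similarityGroup f).comap (Matrix.SpecialLinearGroup.toGL : Matrix.SpecialLinearGroup (Fin n) F →* GL (Fin n) F)).index) :
    (∀ x : Matrix.SpecialLinearGroup (Fin n) F,
      (∃ z : F, ((x ^ 2 : Matrix.SpecialLinearGroup (Fin n) F) : Matrix (Fin n) (Fin n) F) = z • (1 : Matrix (Fin n) (Fin n) F)) →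
      (∀ z : F, (x : Matrix (Fin n) (Fin n) F) ≠ z • (1 : Matrix (Fin n) (Fin n) F)) →
      ∃ P : Matrix.SpecialLinearGroup (Fin n) F, P⁻¹ * x * P ∈ ((Cfsg.Geo.similarityGroup f).comap (Matrix.SpecialLinearGroup.toGL : Matrix.SpecialLinearGroup (Fin n) F →* GL (Fin n) F))) ↔
    padicValNat 2 (q - 1) ≤ padicValNat 2 n := by
  subst hq
  have : NeZero n := ⟨by omega⟩
  let f₀ := H4.CForm.mkAlt f hf.bilinear.add_left hf.bilinear.smul_left (fun x y => hf.skew y x) hf.alternating
  have h0 : f₀.Nondeg := fun x hx => by_contra fun h0 => let ⟨y, hy⟩ := (hf.nondegenerate x h0).2; hy (hx y)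
  refine ⟨fun h => by_contra fun h1 => ?_, fun h x ⟨z, hz⟩ _ => ?_⟩
  · have h2 := H4.two_ne_zero_of_padic (not_le.1 h1)
    obtain ⟨c, hc⟩ := (H4.exists_pow_eq_neg_one_iff h2 (NeZero.ne n)).2 (not_le.1 h1)
    have hc0 : c ≠ 0 := by rintro rfl; simp [NeZero.ne n] at hc
    obtain ⟨x, k1, k2, hx⟩ := H4.exists_srefl h2 (by omega) hc
    obtain ⟨P, μ, h3⟩ := h x k1 k2
    replace h3 : ∀ u v, f₀.B ((H4.slE P).1⁻¹ ((H4.slE x).1 ((H4.slE P).1 u)))
        ((H4.slE P).1⁻¹ ((H4.slE x).1 ((H4.slE P).1 v))) = μ * f₀.B u v := fun u v =>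
      (congrArg₂ f (H4.slE_conj P x u) (H4.slE_conj P x v)).symm.trans (h3 u v)
    generalize (H4.slE P).1 = P at h3
    let W := LinearMap.ker (LinearMap.proj (R := F) (φ := fun _ => F) (0 : Fin n) ∘ₗ P.toLinearMap)
    have h4 : ∀ u ∈ W, (H4.slE x).1 (P u) = c • P u := fun u hu => funext fun i => by
      by_cases e : i = 0
      · simp [hx, e, show P u 0 = 0 from hu]
      · simp [hx, e]
    by_cases h5 : (μ : F) = c * c
    · refine (by simp : P⁻¹ (Pi.single 0 1) ≠ 0) (h0 _ fun v => ?_)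
      have h6 := h3 (P⁻¹ (Pi.single 0 1)) (v - P v 0 • P⁻¹ (Pi.single 0 1))
      rw [h4 (_ - _) (by simp [W]), show (H4.slE x).1 (P (P⁻¹ (Pi.single 0 1))) = -c • Pi.single 0 1 by
        ext i; by_cases e : i = 0 <;> simp [hx, e]] at h6
      simp [h5, f₀.symp_B_self, hc0] at h6
      exact (mul_eq_zero.1 (show 2 * (c * c) * f₀.B (P⁻¹ (Pi.single 0 1)) v = 0 by linear_combination -h6)).resolve_left
        (by simp [h2, hc0])
    have h6 := (H4.CForm.symp_TS_iff.2 fun u hu v hv => by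
      have := h3 u v
      rw [h4 u hu, h4 v hv] at this
      simp at this
      exact (mul_eq_zero.1 (show (μ - c * c) * f₀.B u v = 0 by linear_combination -this)).resolve_left
        (sub_ne_zero.2 h5) : f₀.TS W).two_mul_finrank_le h0
    have h7 := LinearMap.finrank_range_add_finrank_ker
      (LinearMap.proj (R := F) (φ := fun _ => F) (0 : Fin n) ∘ₗ P.toLinearMap)
    have h8 := Submodule.finrank_le (LinearMap.range
      (LinearMap.proj (R := F) (φ := fun _ => F) (0 : Fin n) ∘ₗ P.toLinearMap))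
    simp only [Module.finrank_fin_fun, Module.finrank_self, W] at h6 h7 h8
    omega
  obtain ⟨μ, P, hP, h3⟩ := H4.exists_conj_sim' h0 (H4.slE_sq hz) (H4.slE x).2 he fun h2 c hc =>
    ((H4.exists_pow_eq_neg_one_iff h2 (NeZero.ne n)).1 ⟨c, hc⟩).not_ge h
  obtain ⟨P, rfl⟩ : ∃ Q, (H4.slE Q).1 = P := ⟨H4.slE.symm ⟨P, hP⟩, by simp⟩
  refine ⟨P, Units.mk0 μ ?_, fun u v => (congrArg₂ f (H4.slE_conj P x u) (H4.slE_conj P x v)).trans (h3 u v)⟩
  rintro rfl
  exact (by simp : (Pi.single 0 1 : Fin n → F) ≠ 0) (h0 _ fun v => by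
    simpa using h3 (((H4.slE P).1⁻¹ * (H4.slE x).1 * (H4.slE P).1)⁻¹ (Pi.single 0 1))
      (((H4.slE P).1⁻¹ * (H4.slE x).1 * (H4.slE P).1)⁻¹ v))

end Cfsg.Agent.S5967
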