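import Cfsg.Statements.S5983
import Cfsg.Agent.H4.Elu2
import Cfsg.Agent.H4.As19

set_option autoImplicit false
open scoped MatrixGroups
open Cfsg

namespace Cfsg.Agent.S5983

/-- Elements of prime order of PSp_n(q), q even, and the subgroups of orthogonal type. Here `T = Sp_{2d}(F)` for a field `F` of characteristic 2 with `q` elements (`d ≥ 2`, `(d, q) ≠ (2, 2)`), realised as the invertible matrices preserving the standard alternating form; `Q` is a non-degenerate quadratic form on `F^{2d}` whose polar form is that alternating form, and `H` is the subgroup of `T` preserving `Q` up to a scalar (equivalently preserving `Q`) — a subgroup of type O^±_{2d}(q) (maximality is not assumed); `Q` is of plus type when `F^{2d}` contains a `d`-dimensional subspace on which `Q` vanishes, of minus type otherwise. Ω is the set of cosets of `H` in `T`, so an element of `T` of prime order `r` (`x ∈ T` with `x^r` scalar, `x` not scalar) fixes a point of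 Ω exactly when some `T`-conjugate of `x` preserves `Q`. Let `r` be a prime dividing the index of `H`. Then every element of `T` of order `r` fixes a point of Ω if and only if `r = 2` and either `Q` is of plus type or `d` is odd. -/
theorem result {F : Type*} [Field F] [Fintype F] {p : ℕ} [Fact p.Prime] [CharP F p] {q : ℕ} (hq : Fintype.card F = q)
    (hp : p = 2) (d : ℕ) (hd : 2 ≤ d) (hT : (d, q) ≠ (2, 2)) (Q : (Fin d ⊕ Fin d → F) → F) (hQ : Cfsg.Geo.IsNondegenerateQuadraticForm Q)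
    (hQf : ∀ u v, QuadraticMap.polar Q u v = Cfsg.sympForm d F u v)
    (r : ℕ) [Fact r.Prime]
    (hΩ : r ∣ (Cfsg.Geo.quadSimilarityGroup Q).relIndex (Cfsg.spGL d F)) :
    (∀ x ∈ Cfsg.spGL d F, (∃ z : F, ((x ^ r : GL (Fin d ⊕ Fin d) F) : Matrix (Fin d ⊕ Fin d) (Fin d ⊕ Fin d) F) = z • (1 : Matrix (Fin d ⊕ Fin d) (Fin d ⊕ Fin d) F)) →
      (∀ z : F, (x : Matrix (Fin d ⊕ Fin d) (Fin d ⊕ Fin d) F) ≠ z • (1 : Matrix (Fin d ⊕ Fin d) (Fin d ⊕ Fin d) F)) →
      ∃ g ∈ Cfsg.spGL d F, g⁻¹ * x * g ∈ Cfsg.Geo.quadSimilarityGroup Q) ↔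
    (r = 2 ∧ (Cfsg.Geo.IsPlusTypeOn Q ⊤ ∨ Odd d)) := by
  subst hp hq
  have h2 : (2 : F) = 0 := CharTwo.two_eq_zero
  have hf := H4.geoQuad_nondeg hQ
  have h1 : ∀ g, g ∈ spGL d F ↔ H4.glE g ∈ ((H4.geoQuad hQ).toSymp h2).iso := fun g => by
    rw [H4.mem_spGL, H4.CForm.symp_mem_iso, H4.CForm.symp_mem_iso]
    simp only [H4.spF_B, ← hQf]; rfl
  obtain ⟨b, hb⟩ := hf.orth_represents (by simp; omega) 1
  obtain ⟨w, hw⟩ := hf.exists_B_eq (v := b) (by rintro rfl; simp at hb) 1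
  have h3 : ∀ g ∈ spGL d F, g ∈ Geo.quadSimilarityGroup Q ↔ H4.glE g ∈ (H4.geoQuad hQ).iso := fun g hg => by
    refine ⟨fun ⟨c, hc⟩ => H4.CForm.orth_mem_iso.2 fun v => (hc v).trans ?_, fun h => ⟨1, fun v => (h.2 v).trans (one_mul _).symm⟩⟩
    have h4 := ((h1 g).1 hg).1 b w
    replace hc : ∀ v, (H4.geoQuad hQ).Q (H4.glE g v) = c * (H4.geoQuad hQ).Q v := hc
    rw [H4.CForm.toSymp_B, H4.CForm.toSymp_B, H4.CForm.orth_B_eq, ← map_add, hc, hc, hc, ← mul_sub, ← mul_sub,
      ← H4.CForm.orth_B_eq, hw, mul_one] at h4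
    rw [h4, one_mul]; rfl
  rw [show Geo.IsPlusTypeOn Q ⊤ ↔ _ from H4.As.pl_top hf (m := d) (by simp [two_mul]), ← hf.elusive_sp h2 (by simp [two_mul])
    (by omega) (H4.n24_of_card (n := d + d) (by simp at hT; omega) (by simp)) ?_]
  · refine ⟨fun h x hx ⟨z, k1⟩ k2 => ?_, fun h x hx ⟨z, k1⟩ k2 => ?_⟩
    · obtain ⟨x, rfl⟩ := H4.glE.surjective x
      obtain ⟨g, k3, k4⟩ := h x ((h1 x).2 hx) ⟨z, Matrix.toLin'.injective (LinearMap.ext fun v => by
        simpa [← map_pow, -Matrix.toLin'_pow] using k1 v)⟩ fun z k => k2 z fun v => by simp [k, Matrix.smul_mulVec]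
      exact ⟨_, (h1 g).1 k3, by simpa using (h3 _ (mul_mem (mul_mem (inv_mem k3) ((h1 x).2 hx)) k3)).1 k4⟩
    obtain ⟨g, k3, k4⟩ := h _ ((h1 x).1 hx) ⟨z, fun v => by rw [← map_pow, H4.glE_apply, k1]; simp [Matrix.smul_mulVec]⟩
      fun z k => k2 z (Matrix.toLin'.injective (LinearMap.ext fun v => by simpa using k v))
    obtain ⟨g, rfl⟩ := H4.glE.surjective g
    exact ⟨g, (h1 g).2 k3, (h3 _ (mul_mem (mul_mem (inv_mem ((h1 g).2 k3)) hx) ((h1 g).2 k3))).2 (by simpa using k4)⟩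
  convert hΩ using 1
  rw [← Subgroup.inf_relIndex_right (Geo.quadSimilarityGroup Q), ← Subgroup.relIndex_map_map_of_injective
    (f := (H4.glE : _ ≃* _).toMonoidHom) _ _ H4.glE.injective, ← Subgroup.inf_relIndex_right]
  congr 1 <;> ext g <;> obtain ⟨g, rfl⟩ := H4.glE.surjective g
  · simp +contextual [← h1, ← h3, and_congr_left_iff]
  · simp [h1]

end Cfsg.Agent.S5983
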