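import Cfsg.Statements.S5997
import Mathlib
import Cfsg.Agent.H4.Dick9

set_option autoImplicit false
open scoped MatrixGroups
open Cfsg

namespace Cfsg.Agent.S5997

open Cfsg.Agent.H4 Subgroup Matrix
open scoped MatrixGroups

variable {F : Type*} [Field F]

theorem exists_lift {g : GL (Fin 2) F} (h : Matrix.GeneralLinearGroup.det g = 1) :
    ∃ x : SL(2, F), Matrix.SpecialLinearGroup.toGL x = g := by
  have : g ∈ (Matrix.SpecialLinearGroup.toGL : SL(2, F) →* GL (Fin 2) F).range := by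
    rw [range_toGL]; exact h
  exact this

theorem det_of_sq {g h : GL (Fin 2) F} (h1 : g * g = Matrix.SpecialLinearGroup.toGL (-1 : SL(2, F)))
    (h2 : g * h ≠ h * g) : Matrix.GeneralLinearGroup.det g = 1 := by
  have e : (g : Matrix (Fin 2) (Fin 2) F) * g = -1 := by
    have := congrArg (fun u : GL (Fin 2) F => (u : Matrix (Fin 2) (Fin 2) F)) h1
    simpa using this
  have e00 := congrFun (congrFun e 0) 0
  have e01 := congrFun (congrFun e 0) 1
  have e10 := congrFun (congrFun e 1) 0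
  have e11 := congrFun (congrFun e 1) 1
  simp [Matrix.mul_apply, Fin.sum_univ_two] at e00 e01 e10 e11
  apply Units.ext
  rw [Matrix.GeneralLinearGroup.val_det_apply, Matrix.det_fin_two, Units.val_one]
  by_cases ht : g 0 0 + g 1 1 = 0
  · have : g 1 1 = -g 0 0 := by linear_combination ht
    change g 0 0 * g 1 1 - g 0 1 * g 1 0 = 1
    rw [this]; linear_combination -e00
  · exfalso
    have hb : g 0 1 = 0 := (mul_eq_zero.1 (show g 0 1 * (g 0 0 + g 1 1) = 0 by linear_combination e01)).resolve_right ht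
    have hc : g 1 0 = 0 := (mul_eq_zero.1 (show g 1 0 * (g 0 0 + g 1 1) = 0 by linear_combination e10)).resolve_right ht
    have hd : g 0 0 - g 1 1 = 0 := (mul_eq_zero.1 (show (g 0 0 - g 1 1) * (g 0 0 + g 1 1) = 0 by
      linear_combination e00 - e11)).resolve_right ht
    have hd' : g 1 1 = g 0 0 := by linear_combination -hd
    apply h2
    apply Units.ext
    rw [Units.val_mul, Units.val_mul]
    have : (g : Matrix (Fin 2) (Fin 2) F) = g 0 0 • (1 : Matrix (Fin 2) (Fin 2) F) := by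
      ext i j
      fin_cases i <;> fin_cases j <;> simp [hb, hc, hd']
    rw [this]; simp

theorem q8_struct (h2 : (2 : F) ≠ 0) (R : Subgroup (GL (Fin 2) F)) (e : R ≃* QuaternionGroup 2) :
    ∃ x y : SL(2, F), tr x = 0 ∧ tr y = 0 ∧ tr (x * y) = 0 ∧ ∃ K : Subgroup SL(2, F),
      K.map Matrix.SpecialLinearGroup.toGL = R ∧ -1 ∈ K ∧ x ∈ K ∧
      K.map Matrix.SpecialLinearGroup.toPGL =
        V4 (Matrix.SpecialLinearGroup.toPGL x) (Matrix.SpecialLinearGroup.toPGL y) := by
  let φ : QuaternionGroup 2 →* GL (Fin 2) F := R.subtype.comp e.symm.toMonoidHom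
  have hφ : Function.Injective φ := R.subtype_injective.comp e.symm.injective
  have hmem : ∀ q, φ q ∈ R := fun q => (e.symm q).2
  have hsurj : ∀ g ∈ R, ∃ q, φ q = g := fun g hg => ⟨e ⟨g, hg⟩, by simp [φ]⟩
  have inj := Matrix.SpecialLinearGroup.toGL_injective (n := Fin 2) (R := F)
  have hz : φ (.a 2) = Matrix.SpecialLinearGroup.toGL (-1 : SL(2, F)) := by
    have h1 : Matrix.GeneralLinearGroup.det (φ (.a 2)) = 1 := by
      rw [show (QuaternionGroup.a 2 : QuaternionGroup 2) = .a 1 * .xa 0 * (.a 1)⁻¹ * (.xa 0)⁻¹ by decide]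
      simp only [map_mul, map_inv]
      rw [mul_inv_cancel_comm, mul_inv_cancel]
    obtain ⟨z, hz⟩ := exists_lift h1
    rw [← hz]
    congr 1
    have : z ^ 2 = 1 := inj (by
      rw [map_pow, hz, ← map_pow, show (QuaternionGroup.a 2 : QuaternionGroup 2) ^ 2 = 1 by decide, map_one, map_one])
    refine ((sq_eq_one_iff_SL h2).1 this).resolve_left ?_
    rintro rfl
    rw [map_one, ← map_one φ] at hz
    exact absurd (hφ hz) (by decide)
  have hdet : ∀ q, Matrix.GeneralLinearGroup.det (φ q) = 1 := by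
    intro q
    have : q = 1 ∨ q = .a 2 ∨ (q * q = .a 2 ∧ ∃ q', q * q' ≠ q' * q) := by revert q; decide
    rcases this with rfl | rfl | ⟨h1, q', h3⟩
    · simp
    · rw [hz]; simp
    · refine det_of_sq (h := φ q') (by rw [← map_mul, h1, hz]) fun h => h3 (hφ ?_)
      rwa [map_mul, map_mul]
  obtain ⟨x, hx⟩ := exists_lift (hdet (.a 1))
  obtain ⟨y, hy⟩ := exists_lift (hdet (.xa 0))
  have hxR : Matrix.SpecialLinearGroup.toGL x ∈ R := hx ▸ hmem _
  have hyR : Matrix.SpecialLinearGroup.toGL y ∈ R := hy ▸ hmem _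
  refine ⟨x, y, (sq_eq_neg_one_iff h2).1 (inj ?_), (sq_eq_neg_one_iff h2).1 (inj ?_),
    (sq_eq_neg_one_iff h2).1 (inj ?_), R.comap Matrix.SpecialLinearGroup.toGL, ?_, ?_, hxR, ?_⟩
  · rw [map_pow, hx, ← map_pow, ← hz]; congr 1
  · rw [map_pow, hy, ← map_pow, ← hz]; congr 1
  · rw [map_pow, map_mul, hx, hy, ← map_mul, ← map_pow, ← hz]; congr 1
  · refine map_comap_eq_self fun g hg => ?_
    obtain ⟨q, rfl⟩ := hsurj g hg
    exact exists_lift (hdet q)
  · rw [mem_comap, ← hz]; exact hmem _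
  · refine le_antisymm ?_ (V4_le (mem_map_of_mem _ hxR) (mem_map_of_mem _ hyR))
    rintro _ ⟨k, hk, rfl⟩
    obtain ⟨q, hq⟩ := hsurj _ hk
    obtain ⟨i, j, rfl⟩ : ∃ i j : Fin 4, q = .a 1 ^ (i : ℕ) * .xa 0 ^ (j : ℕ) := by clear hq; revert q; decide
    have : k = x ^ (i : ℕ) * y ^ (j : ℕ) := inj (by rw [← hq]; simp only [map_mul, map_pow, hx, hy])
    rw [this, map_mul, map_pow, map_pow]
    exact mul_mem (pow_mem (left_mem_V4 _ _) _) (pow_mem (right_mem_V4 _ _) _)

theorem mem_norm_map {G H : Type*} [Group G] [Group H] {f : G →* H} (hf : Function.Injective f) (K : Subgroup G)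
    (g : G) : f g ∈ normalizer ((K.map f : Subgroup H) : Set H) ↔ g ∈ normalizer (K : Set G) := by
  rw [mem_normalizer_iff, mem_normalizer_iff]
  constructor
  · intro h k
    have := h (f k)
    rwa [← map_inv, ← map_mul, ← map_mul, mem_map_iff_mem hf, mem_map_iff_mem hf] at this
  · intro h k
    constructor
    · rintro ⟨k, hk, rfl⟩
      rw [← map_inv, ← map_mul, ← map_mul]
      exact mem_map_of_mem _ ((h k).1 hk)
    · rintro ⟨k', hk, e⟩
      have : k = f (g⁻¹ * k' * g) := by rw [map_mul, map_mul, e, map_inv]; group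
      rw [this]
      refine mem_map_of_mem _ ((h _).2 ?_)
      simpa [mul_assoc] using hk

theorem toPGL_eq_one_iff_scalar {x : SL(2, F)} : Matrix.SpecialLinearGroup.toPGL x = 1 ↔
    ∃ z : F, (x : Matrix (Fin 2) (Fin 2) F) = z • (1 : Matrix (Fin 2) (Fin 2) F) := by
  rw [toPGL_eq_pm, pm_eq_one]
  constructor
  · rintro ⟨h1, h2, h3⟩
    refine ⟨x 0 0, ?_⟩
    ext i j
    fin_cases i <;> fin_cases j <;> simp [h1, h2, h3]
  · rintro ⟨z, hz⟩
    have h : ∀ i j, x i j = (z • (1 : Matrix (Fin 2) (Fin 2) F)) i j := fun i j => by rw [← hz]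
    simp [h]

/-- Elements of prime order of PSL_2(p) and the normalizer of a quaternion subgroup. Here `T = PSL_2(F)` for the field `F` with `p` elements, `p ≥ 5` prime; `R` is a subgroup of GL_2(F) isomorphic to the quaternion group of order 8 (an absolutely irreducible 2-group of symplectic type), and `H` is the subgroup of matrices of determinant 1 normalizing `R` — a subgroup of type 2^{1+2}.O₂⁻(2), isomorphic modulo scalars to A₄ or S₄ (maximality is not assumed). Ω is the set of cosets of `H` in `T`, so an element of `T` of prime order `r` (a matrix `x` of determinant 1 with `x^r` scalar, `x` not scalar) fixes a point of Ω exactly when some conjugate of `x` by a matrix of determinant 1 normalizes `R`. Let `r` be a prime dividing the index of `H`. Then every element of `T` of order `r` fixes a point of Ω if and only if `r = 2` or `r = 3`. -/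
theorem result {F : Type*} [Field F] [Fintype F] {p : ℕ} [Fact p.Prime] [CharP F p] (hF : Fintype.card F = p) (hp : 5 ≤ p)
    (R : Subgroup (GL (Fin 2) F)) (hR : Nonempty (↥R ≃* QuaternionGroup 2))
    (r : ℕ) [Fact r.Prime]
    (hΩ : r ∣ (Cfsg.Geo.subgroupNormalizer R).relIndex (Cfsg.Geo.specialLinear (Fin 2) F)) :
    (∀ x ∈ Cfsg.Geo.specialLinear (Fin 2) F, (∃ z : F, ((x ^ r : GL (Fin 2) F) : Matrix (Fin 2) (Fin 2) F) = z • (1 : Matrix (Fin 2) (Fin 2) F)) →
      (∀ z : F, (x : Matrix (Fin 2) (Fin 2) F) ≠ z • (1 : Matrix (Fin 2) (Fin 2) F)) →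
      ∃ g ∈ Cfsg.Geo.specialLinear (Fin 2) F, g⁻¹ * x * g ∈ Cfsg.Geo.subgroupNormalizer R) ↔ (r = 2 ∨ r = 3) := by
  have hpp : p.Prime := Fact.out
  have hr : r.Prime := Fact.out
  have h2 : (2 : F) ≠ 0 := two_ne_zero_of_char (p := p) (by omega)
  have h3 : (3 : F) ≠ 0 := fun h => by
    have : p ∣ 3 := (CharP.cast_eq_zero_iff F p 3).1 (by exact_mod_cast h)
    have := Nat.le_of_dvd (by norm_num) this
    omega
  obtain ⟨e⟩ := hR
  obtain ⟨a, b, ha, hb, hab, K, rfl, hneg, haK, hK⟩ := q8_struct h2 R e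
  have kp := kp_of_tr h2 ha hb hab
  have hc := kp.card_normalizer h2 ⟨a, rfl⟩ ⟨b, rfl⟩
  have inj := Matrix.SpecialLinearGroup.toGL_injective (n := Fin 2) (R := F)
  have key : ∀ g : SL(2, F), Matrix.SpecialLinearGroup.toGL g ∈
      Cfsg.Geo.subgroupNormalizer (K.map Matrix.SpecialLinearGroup.toGL) ↔
      Matrix.SpecialLinearGroup.toPGL g ∈ normalizer (V4 (Matrix.SpecialLinearGroup.toPGL a)
        (Matrix.SpecialLinearGroup.toPGL b) : Set PGL(2, F)) := by
    intro g
    rw [Cfsg.Geo.subgroupNormalizer, mem_norm_map inj, normalizer_eq_comap hneg, mem_comap, hK]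
  have memSL : ∀ g : SL(2, F), Matrix.SpecialLinearGroup.toGL g ∈ Cfsg.Geo.specialLinear (Fin 2) F := fun g => by
    rw [Cfsg.Geo.specialLinear, ← range_toGL]; exact ⟨g, rfl⟩
  constructor
  · intro h
    by_contra hne
    rw [not_or] at hne
    have h1 : r ∣ Nat.card SL(2, F) := by
      refine (hΩ.trans (relIndex_dvd_card _ _)).trans (dvd_of_eq ?_)
      rw [Cfsg.Geo.specialLinear, ← range_toGL]
      exact (Nat.card_congr (MonoidHom.ofInjective inj).toEquiv).symm
    obtain ⟨x, hx⟩ := exists_prime_orderOf_dvd_card' r h1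
    have hx1 : Matrix.SpecialLinearGroup.toPGL x ≠ 1 := by
      intro h0
      have : x ^ 2 = 1 := (sq_eq_one_iff_SL h2).2 (toPGL_eq_one_iff.1 h0)
      exact hne.1 ((Nat.prime_dvd_prime_iff_eq hr Nat.prime_two).1 (hx ▸ orderOf_dvd_of_pow_eq_one this))
    have hxr : x ^ r = 1 := hx ▸ pow_orderOf_eq_one x
    obtain ⟨g, hg, hgx⟩ := h _ (memSL x) ⟨1, by rw [← map_pow, hxr]; simp⟩
      fun z hz => hx1 (toPGL_eq_one_iff_scalar.2 ⟨z, hz⟩)
    obtain ⟨g, rfl⟩ := exists_lift hg
    rw [← map_inv, ← map_mul, ← map_mul, key] at hgx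
    have ho : orderOf (Matrix.SpecialLinearGroup.toPGL (g⁻¹ * x * g)) = r := by
      refine orderOf_eq_prime ?_ ?_
      · rw [← map_pow, conj_pow', hxr]; simp
      · rw [map_mul, map_mul, map_inv, Ne, conj_eq_one_iff']; exact hx1
    have hd := Subgroup.orderOf_dvd_natCard _ hgx
    rw [ho, hc, show 24 = 2 ^ 3 * 3 by norm_num] at hd
    rcases (Nat.Prime.dvd_mul hr).1 hd with h | h
    · exact hne.1 ((Nat.prime_dvd_prime_iff_eq hr Nat.prime_two).1 (hr.dvd_of_dvd_pow h))
    · exact hne.2 ((Nat.prime_dvd_prime_iff_eq hr Nat.prime_three).1 h)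
  · intro h x hx hxr hx1
    obtain ⟨x, rfl⟩ := exists_lift hx
    have hx1' : Matrix.SpecialLinearGroup.toPGL x ≠ 1 := fun h0 => by
      obtain ⟨z, hz⟩ := toPGL_eq_one_iff_scalar.1 h0
      exact hx1 z hz
    have hxr' : Matrix.SpecialLinearGroup.toPGL x ^ r = 1 := by
      rw [← map_pow] at hxr ⊢
      exact toPGL_eq_one_iff_scalar.2 hxr
    suffices ∃ y : SL(2, F), tr x ^ 2 ≠ 4 ∧ tr y = tr x ∧ Matrix.SpecialLinearGroup.toPGL y ∈
        normalizer (V4 (Matrix.SpecialLinearGroup.toPGL a) (Matrix.SpecialLinearGroup.toPGL b) : Set PGL(2, F)) by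
      obtain ⟨y, h1, h4, h5⟩ := this
      obtain ⟨c, hc⟩ := isConj_iff.1 (isConj_of_tr h1 h4.symm)
      refine ⟨_, memSL c⁻¹, ?_⟩
      rw [← map_inv, ← map_mul, ← map_mul, key, inv_inv, hc]
      exact h5
    rcases h with rfl | rfl
    · have ht : tr x = 0 := by
        have := (pow_two_eq_one_iff hx1').1 hxr'
        rw [tau_toPGL'] at this
        exact pow_eq_zero_iff (two_ne_zero) |>.1 this
      refine ⟨a, ?_, ha.trans ht.symm, le_normalizer (left_mem_V4 _ _)⟩
      rw [ht]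
      intro h
      exact h2 (pow_eq_zero_iff two_ne_zero |>.1 (by linear_combination -h : (2 : F) ^ 2 = 0))
    · have ht : tr x ^ 2 = 1 := by
        have := (pow_three_eq_one_iff hx1').1 hxr'
        rwa [tau_toPGL'] at this
      obtain ⟨u, hu⟩ := exists_prime_orderOf_dvd_card' 3 (by rw [hc]; norm_num : 3 ∣ Nat.card
        (normalizer (V4 (Matrix.SpecialLinearGroup.toPGL a) (Matrix.SpecialLinearGroup.toPGL b) : Set PGL(2, F))))
      rw [← Subgroup.orderOf_coe] at hu
      have hu3 : (u : PGL(2, F)) ^ 3 = 1 := hu ▸ pow_orderOf_eq_one _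
      have hu1 : (u : PGL(2, F)) ≠ 1 := fun h => by rw [h] at hu; simp at hu
      obtain ⟨y, hy, hyt⟩ := exists_lift_tr (mem_LL_of_odd (by decide) hu3) (t := tr x)
        (((pow_three_eq_one_iff hu1).1 hu3).trans ht.symm)
      refine ⟨y, ?_, hyt, hy ▸ u.2⟩
      rw [ht]
      intro h
      exact h3 (by linear_combination -h)

end Cfsg.Agent.S5997
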